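import Cfsg.Statements.S0087
import Cfsg.Agent.Transfer.Abelian

set_option autoImplicit false
open Cfsg
open scoped IsMulCommutative

namespace Cfsg.Agent.S0087

/-- A Hall subgroup that is central in its normalizer has a normal complement. -/
theorem result {G : Type*} [Group G] [Finite G] (H : Subgroup G) (hHall : Nat.Coprime (Nat.card H) H.index) (h : Subgroup.normalizer (H : Set G) ≤ Subgroup.centralizer (H : Set G)) : ∃ N : Subgroup G, N.Normal ∧ N.IsComplement' H := by
  have hH : IsMulCommutative H := Subgroup.le_centralizer_iff_isMulCommutative.mp (H.le_normalizer.trans h)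
  refine ⟨_, CL.Transfer.pResidual_normal _,
    CL.Transfer.isComplement'_of_fusion_of_nilpotent H inferInstance hHall fun x hx g hg => ?_⟩
  obtain ⟨n, hn, e⟩ := CL.Transfer.fusion_normalizer_of_abelian_hall hH hHall x hx g hg
  exact ⟨1, H.one_mem, by rw [← e, ← h hn x hx]; simp⟩

end Cfsg.Agent.S0087
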