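import Cfsg.Statements.S1757
import Cfsg.Agent.Base

set_option autoImplicit false
open Cfsg

namespace Cfsg.Agent.S1757

/-- Let p be a prime and A, B p-subgroups of the finite group G, each of which meets every conjugate of itself other than itself trivially. Suppose the order of A is at most that of B, A and B intersect trivially, and B normalizes A. Then A and B commute elementwise. -/
theorem result {G : Type*} [Group G] [Finite G] (p : ℕ) [Fact p.Prime] (A B : Subgroup G)
    (hA : IsPGroup p ↥A) (hB : IsPGroup p ↥B)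
    (hAti : ∀ g : G, A.map (MulAut.conj g).toMonoidHom = A ∨ A.map (MulAut.conj g).toMonoidHom ⊓ A = ⊥)
    (hBti : ∀ g : G, B.map (MulAut.conj g).toMonoidHom = B ∨ B.map (MulAut.conj g).toMonoidHom ⊓ B = ⊥)
    (hle : Nat.card ↥A ≤ Nat.card ↥B) (hAB : A ⊓ B = ⊥) (hN : B ≤ Subgroup.normalizer (A : Set G)) : ⁅A, B⁆ = ⊥ := by
  rw [Subgroup.commutator_eq_bot_iff_le_centralizer]
  intro a ha
  by_contra hc
  have key : ∀ b ∈ B, b * a = a * b → b = 1 := by
    intro b hb hba
    by_contra hb1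
    apply hc
    have hBa : B.map (MulAut.conj a).toMonoidHom = B := by
      refine (hBti a).resolve_right fun h => hb1 ?_
      have : b ∈ B.map (MulAut.conj a).toMonoidHom ⊓ B :=
        ⟨⟨b, hb, by simp [← hba]⟩, hb⟩
      rwa [h, Subgroup.mem_bot] at this
    intro y hy
    have h1 : a * y * a⁻¹ ∈ B := hBa ▸ ⟨y, hy, rfl⟩
    have h2 : y * a⁻¹ * y⁻¹ ∈ A := (Subgroup.mem_normalizer_iff.1 (hN hy) _).1 (A.inv_mem ha)
    have h3 : a * y * a⁻¹ * y⁻¹ ∈ A ⊓ B :=
      ⟨by simpa [mul_assoc] using A.mul_mem ha h2, B.mul_mem h1 (B.inv_mem hy)⟩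
    rw [hAB, Subgroup.mem_bot, mul_inv_eq_one, mul_inv_eq_iff_eq_mul] at h3
    exact h3.symm
  have ha1 : a ≠ 1 := by
    rintro rfl
    exact hc (Subgroup.one_mem _)
  let f : B → A := fun b => ⟨b * a * (b : G)⁻¹, (Subgroup.mem_normalizer_iff.1 (hN b.2) _).1 ha⟩
  have hf : Function.Injective f := by
    intro b c h
    have h' : (b : G) * a * (b : G)⁻¹ = c * a * (c : G)⁻¹ := congrArg Subtype.val h
    have := key ((c : G)⁻¹ * b) (B.mul_mem (B.inv_mem c.2) b.2) (by
      calc (c : G)⁻¹ * b * a = (c : G)⁻¹ * (b * a * (b : G)⁻¹) * b := by group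
        _ = a * ((c : G)⁻¹ * b) := by rw [h']; group)
    exact Subtype.ext (inv_mul_eq_one.1 this).symm
  obtain ⟨b, hb⟩ := (hf.bijective_of_nat_card_le hle).2 1
  have hb' : (b : G) * a * (b : G)⁻¹ = 1 := congrArg Subtype.val hb
  exact ha1 (by simpa using hb')

end Cfsg.Agent.S1757
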