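import Cfsg.Statements.S1780
import Cfsg.Agent.Base

set_option autoImplicit false
open Cfsg

namespace Cfsg.Agent.S1780

/-- Let A be a finite abelian 2-group and t an automorphism of A whose order is a power of 2. If every element of A fixed by t² is fixed by t, then t fixes every element of A. -/
theorem result {A : Type*} [CommGroup A] [Finite A]
    (hA : IsPGroup 2 A) (t : MulAut A) (ht : ∃ k : ℕ, orderOf t = 2 ^ k) (hC : ∀ a : A, t (t a) = a → t a = a) :
    ∀ a : A, t a = a := by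
  classical
  obtain ⟨k, hk⟩ := ht
  let φ : A →* A := t.toMonoidHom / MonoidHom.id A
  have hφ : ∀ a, φ a = t a / a := fun a => rfl
  let B : Subgroup A := φ.range ⊓ (powMonoidHom 2 : A →* A).ker
  have hB : ∀ x, x ∈ B ↔ (∃ a, t a / a = x) ∧ x ^ 2 = 1 := fun x => Iff.rfl
  have hBt : ∀ (s : MulAut A), Commute s t → ∀ x ∈ B, s x ∈ B := by
    intro s hs x hx
    obtain ⟨⟨a, rfl⟩, h2⟩ := (hB x).1 hx
    refine (hB _).2 ⟨⟨s a, ?_⟩, by rw [← map_pow, h2, map_one]⟩
    rw [map_div, ← MulAut.mul_apply, ← hs.eq, MulAut.mul_apply]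
  have hinv : ∀ x, t x ∈ B ↔ x ∈ B := fun x =>
    ⟨fun h => by simpa using hBt t⁻¹ (Commute.refl t).inv_left _ h, hBt t (Commute.refl t) x⟩
  by_contra hne
  push Not at hne
  obtain ⟨a, ha⟩ := hne
  have hr : φ.range ≠ ⊥ := fun h => ha (by
    have : φ a ∈ φ.range := ⟨a, rfl⟩
    rwa [h, Subgroup.mem_bot, hφ, div_eq_one] at this)
  have hcard : 2 ∣ Nat.card B := by
    obtain ⟨n, hn⟩ := (hA.to_subgroup φ.range).exists_card_eq
    have h2 : 2 ∣ Nat.card φ.range := by
      rw [hn]
      refine dvd_pow_self 2 fun h0 => hr ?_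
      rw [h0, pow_zero] at hn
      exact Subgroup.card_eq_one.1 hn
    obtain ⟨x, hx⟩ := exists_prime_orderOf_dvd_card' 2 h2
    have hxB : (x : A) ∈ B := ⟨x.2, by
      have := pow_orderOf_eq_one x
      rw [hx] at this
      exact congrArg Subtype.val this⟩
    have := B.orderOf_dvd_natCard hxB
    rwa [Subgroup.orderOf_coe, hx] at this
  have := Fintype.ofFinite B
  let σ : Equiv.Perm B := Equiv.Perm.subtypePerm (MulAut.toPerm A t) hinv
  have hσ : σ ^ 2 ^ k = 1 := by
    have h1 : ∀ (n : ℕ) (x : B), ((σ ^ n) x : A) = (t ^ n) x := by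
      intro n
      induction n with
      | zero => intro x; rfl
      | succ n ih => intro x; rw [pow_succ, pow_succ, Equiv.Perm.mul_apply, ih]; rfl
    ext x
    rw [h1, ← hk, pow_orderOf_eq_one]
    rfl
  obtain ⟨c, hc, hc1⟩ := Equiv.Perm.exists_fixed_point_of_prime' (p := 2)
    (by rwa [← Nat.card_eq_fintype_card]) hσ (a := 1) (Subtype.ext (map_one t))
  have hc' : t c = c := congrArg Subtype.val hc
  obtain ⟨⟨y, hy⟩, h2⟩ := (hB c).1 c.2
  have hty : t y = c * y := by rw [← hy, div_mul_cancel]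
  have := hC y (by rw [hty, map_mul, hc', hty, ← mul_assoc, ← sq, h2, one_mul])
  exact hc1 (Subtype.ext (by rw [← hy, this, div_self']; rfl))

end Cfsg.Agent.S1780
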