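import Cfsg.Statements.S1781
import Cfsg.Agent.S1757
import Cfsg.Agent.S1780
import Cfsg.Agent.Grp.SylowIn

set_option autoImplicit false
open Cfsg
open scoped Pointwise

namespace Cfsg.Agent.S1781

/-- Let A be an abelian 2-subgroup of the finite group G such that every conjugate of A equals A or meets A trivially, and let g ∈ G with g A g⁻¹ ≠ A. Then either the subgroup of those elements of A that normalize g A g⁻¹ is an elementary abelian 2-group, or A and g A g⁻¹ commute elementwise. -/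
theorem result {G : Type*} [Group G] [Finite G] (A : Subgroup G)
    (hA2 : IsPGroup 2 ↥A) (hAa : IsMulCommutative ↥A)
    (hti : ∀ h : G, A.map (MulAut.conj h).toMonoidHom = A ∨ A.map (MulAut.conj h).toMonoidHom ⊓ A = ⊥)
    (g : G) (hg : A.map (MulAut.conj g).toMonoidHom ≠ A) :
    Cfsg.IsElementaryAbelian 2 (A ⊓ Subgroup.normalizer ((A.map (MulAut.conj g).toMonoidHom : Subgroup G) : Set G)) ∨
      ⁅A, A.map (MulAut.conj g).toMonoidHom⁆ = ⊥ := by
  set B := A.map (MulAut.conj g).toMonoidHom with hBdef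
  have hAB : A ⊓ B = ⊥ := by rw [inf_comm]; exact (hti g).resolve_left hg
  have hB2 : IsPGroup 2 B := hA2.map _
  have hBa : IsMulCommutative B := inferInstance
  by_cases hel : ∀ t ∈ A ⊓ Subgroup.normalizer (B : Set G), t ^ 2 = 1
  · left
    refine ⟨⟨⟨fun a b => Subtype.ext ?_⟩⟩, hel⟩
    have := hAa.1.1 ⟨a, a.2.1⟩ ⟨b, b.2.1⟩
    exact congrArg (fun x : A => (x : G)) this
  right
  push Not at hel
  obtain ⟨t, ⟨htA, htN⟩, ht2⟩ := hel
  -- an element centralizing a non-identity element of `A` normalizes `A`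
  have hnorm : ∀ x ∈ A, x ≠ 1 → ∀ b : G, b * x = x * b → A.map (MulAut.conj b).toMonoidHom = A := by
    intro x hx hx1 b hb
    refine (hti b).resolve_right fun h => hx1 ?_
    have : x ∈ A.map (MulAut.conj b).toMonoidHom ⊓ A := ⟨⟨x, hx, by simp [hb]⟩, hx⟩
    rwa [h, Subgroup.mem_bot] at this
  let τ : MulAut B := B.normalizerMonoidHom ⟨t, htN⟩
  have hτ : ∀ b : B, (τ b : G) = t * b * t⁻¹ := fun b => rfl
  have hτo : ∃ k : ℕ, orderOf τ = 2 ^ k := by
    obtain ⟨k, hk⟩ := hA2 ⟨t, htA⟩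
    have hk' : t ^ 2 ^ k = 1 := congrArg Subtype.val hk
    have : τ ^ 2 ^ k = 1 := by
      rw [← map_pow]
      have : (⟨t, htN⟩ : Subgroup.normalizer (B : Set G)) ^ 2 ^ k = 1 := Subtype.ext hk'
      rw [this, map_one]
    obtain ⟨j, -, hj⟩ := (Nat.dvd_prime_pow Nat.prime_two).1 (orderOf_dvd_of_pow_eq_one this)
    exact ⟨j, hj⟩
  have hfix := @Cfsg.Agent.S1780.result B (IsMulCommutative.instCommGroup) inferInstance hB2 τ hτo (by
    intro b hb
    have hb' : t * (t * b * t⁻¹) * t⁻¹ = b := congrArg Subtype.val hb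
    have h1 := hnorm (t ^ 2) (A.pow_mem htA 2) ht2 b (by
      calc (b : G) * t ^ 2 = t * (t * b * t⁻¹) * t⁻¹ * t ^ 2 := by rw [hb']
        _ = t ^ 2 * b := by simp only [sq]; group)
    have h2 : (b : G) * t * (b : G)⁻¹ ∈ A := h1 ▸ ⟨t, htA, rfl⟩
    have h3 : t * b * t⁻¹ * (b : G)⁻¹ ∈ A ⊓ B := by
      refine ⟨?_, B.mul_mem (τ b).2 (B.inv_mem b.2)⟩
      have := A.mul_mem htA (A.inv_mem h2)
      simpa [mul_assoc] using this
    rw [hAB, Subgroup.mem_bot, mul_inv_eq_one] at h3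
    exact Subtype.ext h3)
  have ht1 : t ≠ 1 := by rintro rfl; exact ht2 (one_pow 2)
  have hBN : B ≤ Subgroup.normalizer (A : Set G) := by
    intro b hb
    have h1 : t * b * t⁻¹ = b := congrArg Subtype.val (hfix ⟨b, hb⟩)
    exact (CL.Grp.conj_smul_eq_self_iff b A).1
      (hnorm t htA ht1 b (mul_inv_eq_iff_eq_mul.1 h1).symm)
  refine Cfsg.Agent.S1757.result 2 A B hA2 hB2 hti (fun h => ?_) ?_ hAB hBN
  · have e1 : B.map (MulAut.conj h).toMonoidHom =
        (A.map (MulAut.conj (g⁻¹ * h * g)).toMonoidHom).map (MulAut.conj g).toMonoidHom := by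
      change MulAut.conj h • MulAut.conj g • A = MulAut.conj g • MulAut.conj (g⁻¹ * h * g) • A
      rw [CL.Grp.conj_smul_conj_smul, CL.Grp.conj_smul_conj_smul]
      congr 2
      group
    rcases hti (g⁻¹ * h * g) with h1 | h1
    · left; rw [e1, h1]
    · right
      rw [e1, hBdef, ← Subgroup.map_inf _ _ _ (MulAut.conj g).injective, h1, Subgroup.map_bot]
  · rw [hBdef, Subgroup.card_map_of_injective (MulAut.conj g).injective]

end Cfsg.Agent.S1781
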