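import Cfsg.Statements.S0732
import Cfsg.Agent.Perm.ZassReg
import Cfsg.Agent.Perm.ZassMain
import Cfsg.Agent.Cls.SL2PSL

set_option autoImplicit false
open Cfsg

namespace Cfsg.Agent.S0732

open MulAction CL.Perm in
theorem exists_ker {G Ω : Type*} [Group G] [MulAction G Ω] [Finite G] [Finite Ω] [FaithfulSMul G Ω]
    [IsPretransitive G Ω] {p d : ℕ} (hp : p.Prime) (hΩ : Nat.card Ω = p + 1)
    (hG : Nat.card G = (p + 1) * p * d) (hd : d < p) (a : Ω) :
    ∃ P : Subgroup G, P ≤ stabilizer G a ∧ Nat.card P = p ∧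
      (∀ g : G, g • a = a → ∀ u ∈ P, g * u * g⁻¹ ∈ P) ∧
      (∀ u ∈ P, u ≠ 1 → ∀ c : Ω, u • c = c → c = a) ∧
      ∀ y z : Ω, y ≠ a → z ≠ a → ∃ u ∈ P, u • y = z := by
  have := Fact.mk hp
  have hd0 : d ≠ 0 := by
    rintro rfl
    exact Nat.card_pos.ne' (hG.trans (mul_zero _))
  have hS : Nat.card (stabilizer G a) = p * d := by
    have h1 := (stabilizer G a).index_mul_card
    rw [index_stabilizer_of_transitive, hΩ, hG, mul_assoc] at h1
    exact Nat.eq_of_mul_eq_mul_left (by omega) h1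
  obtain ⟨Q⟩ : Nonempty (Sylow p (stabilizer G a)) := inferInstance
  have hnd : ¬ p ∣ d := Nat.not_dvd_of_pos_of_lt (by omega) hd
  have hQ : Nat.card Q = p := by
    rw [Q.card_eq_multiplicity, hS, Nat.factorization_mul hp.ne_zero hd0]
    simp [hp.factorization, Nat.factorization_eq_zero_of_not_dvd hnd]
  have hi : (Q : Subgroup (stabilizer G a)).index = d := by
    have h1 := (Q : Subgroup (stabilizer G a)).card_mul_index
    rw [hQ, hS] at h1
    exact Nat.eq_of_mul_eq_mul_left hp.pos h1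
  have hn : Nat.card (Sylow p (stabilizer G a)) = 1 := by
    have h1 := card_sylow_modEq_one p (stabilizer G a)
    have h2 := Nat.le_of_dvd (by omega) (hi ▸ Q.card_dvd_index)
    exact Nat.ModEq.eq_of_lt_of_lt h1 (by omega) hp.one_lt
  have : Subsingleton (Sylow p (stabilizer G a)) := (Nat.card_eq_one_iff_unique.1 hn).1
  have hQn := Q.normal_of_subsingleton
  let P := (Q : Subgroup (stabilizer G a)).map (stabilizer G a).subtype
  have hle : P ≤ stabilizer G a := Subgroup.map_subtype_le _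
  have hP : Nat.card P = p := by rw [Subgroup.card_map_of_injective (Subgroup.subtype_injective _), hQ]
  have hfix : ∀ u ∈ P, u ≠ 1 → ∀ c : Ω, u • c = c → c = a := by
    intro u hu hu1 c hc
    have h1 : u ^ p ^ 1 = 1 := by
      rw [pow_one, ← hP]
      exact congrArg Subtype.val (pow_card_eq_one' (x := (⟨u, hu⟩ : P)))
    have h2 := ncard_fixedBy_modEq (Ω := Ω) h1
    have h3 : (fixedBy Ω u).ncard < Nat.card Ω := by
      rw [← Set.ncard_univ]
      refine Set.ncard_lt_ncard (Set.ssubset_univ_iff.2 fun e => hu1 ?_)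
      refine FaithfulSMul.eq_of_smul_eq_smul (α := Ω) fun x => ?_
      rw [one_smul]
      exact (e ▸ Set.mem_univ x : x ∈ fixedBy Ω u)
    by_contra hca
    have h4 : 1 < (fixedBy Ω u).ncard := (Set.one_lt_ncard).2 ⟨c, hc, a, hle hu, hca⟩
    rw [hΩ] at h2 h3
    have h5 := (Nat.modEq_iff_dvd' h3.le).1 h2.symm
    have := Nat.le_of_dvd (by omega) h5
    omega
  refine ⟨P, hle, hP, ?_, hfix, fun y z hy hz => ?_⟩
  · rintro g hg _ ⟨u, hu, rfl⟩
    exact ⟨_, hQn.conj_mem u hu ⟨g, hg⟩, rfl⟩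
  · let f : P → {c : Ω | c ≠ a} := fun u => ⟨(u : G) • y, fun e => hy (by
      rw [← inv_smul_smul (u : G) y, e]; exact hle (P.inv_mem u.2))⟩
    have hf : Function.Injective f := fun u v e => by
      by_contra huv
      refine hy (hfix ((v : G)⁻¹ * u) (P.mul_mem (P.inv_mem v.2) u.2)
        (fun e' => huv (Subtype.ext (inv_mul_eq_one.1 e').symm)) y ?_)
      rw [mul_smul, inv_smul_eq_iff]
      exact congrArg Subtype.val e
    have hb := hf.bijective_of_nat_card_le (by
      rw [hP, Nat.card_coe_set_eq, IsZ.ncard_ne, hΩ]; rfl)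
    obtain ⟨u, hu⟩ := hb.2 ⟨z, hz⟩
    exact ⟨u, u.2, congrArg Subtype.val hu⟩

open MulAction CL.Perm in
theorem isZ_of_card {G Ω : Type*} [Group G] [MulAction G Ω] [Finite G] [Finite Ω] [FaithfulSMul G Ω]
    [IsPretransitive G Ω] {p d : ℕ} (hp : p.Prime) (hΩ : Nat.card Ω = p + 1)
    (hG : Nat.card G = (p + 1) * p * d) (hd : d < p) : IsZ G Ω := by
  have := Fact.mk hp
  refine ⟨fun {a b c e} hab hce => ?_, fun {g a b c} hab hbc hac ha hb hc => ?_,
    three_of_card (by have := hp.two_le; omega)⟩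
  · obtain ⟨g, rfl⟩ := exists_smul_eq G a c
    obtain ⟨P, hle, -, -, -, htr⟩ := exists_ker hp hΩ hG hd (g • a)
    obtain ⟨u, hu, e1⟩ := htr (g • b) e (fun e => hab (smul_left_cancel g e).symm) hce.symm
    exact ⟨u * g, by rw [mul_smul]; exact hle hu, by rw [mul_smul, e1]⟩
  · obtain ⟨P, hle, hP, hn, hfix, htr⟩ := exists_ker hp hΩ hG hd a
    obtain ⟨u, hu, e1⟩ := htr b c hab.symm hac.symm
    have hu1 : (⟨u, hu⟩ : P) ≠ 1 := fun e => hbc (by
      rw [← e1, show u = 1 from congrArg Subtype.val e, one_smul])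
    have hgu : g * u * g⁻¹ = u := by
      by_contra hne
      refine hab.symm (hfix (u⁻¹ * (g * u * g⁻¹)) (P.mul_mem (P.inv_mem hu) (hn g ha u hu))
        (fun e => hne (inv_mul_eq_one.1 e).symm) b ?_)
      rw [mul_smul, mul_smul, mul_smul, inv_smul_eq_iff.2 hb.symm, e1, hc, inv_smul_eq_iff, e1]
    refine FaithfulSMul.eq_of_smul_eq_smul (α := Ω) fun x => ?_
    rw [one_smul]
    by_cases hx : x = a
    · rw [hx, ha]
    obtain ⟨v, hv, rfl⟩ := htr b x hab.symm hx
    obtain ⟨k, hk⟩ := mem_powers_of_prime_card hP hu1 (g' := ⟨v, hv⟩)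
    have hk' : u ^ k = v := congrArg Subtype.val hk
    have hc : Commute g u := mul_inv_eq_iff_eq_mul.1 hgu
    rw [← mul_smul, ← hk', (hc.pow_right k).eq, mul_smul, hb]

/-- A transitive permutation group on `p + 1` points (`p` prime) of order `(p+1) p d` with `d < p` is isomorphic to `PGL(2,p)` with `d = p - 1`, or to `PSL(2,p)` with `2d = p - 1`, or else `p + 1 = 2^q` for a prime `q`, `d = 1` or `d = q`, and the group is permutation-isomorphic to a group of semi-affine maps `x ↦ a φ(x) + b` of the field with `2^q` elements. -/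
theorem result {α : Type*} [Fintype α] [DecidableEq α] {p d : ℕ} (hp : p.Prime) (hα : Fintype.card α = p + 1) (G : Subgroup (Equiv.Perm α)) [MulAction.IsPretransitive G α] (hG : Nat.card G = (p + 1) * p * d) (hd : d < p) : (d = p - 1 ∧ Nonempty (G ≃* Matrix.ProjGenLinGroup (Fin 2) (ZMod p))) ∨ (2 * d = p - 1 ∧ Nonempty (G ≃* Matrix.ProjectiveSpecialLinearGroup (Fin 2) (ZMod p))) ∨ (∃ q : ℕ, q.Prime ∧ p + 1 = 2 ^ q ∧ (d = 1 ∨ d = q) ∧ ∃ e : α ≃ GaloisField 2 q, ∀ g : G, (e.symm.trans (((g : Equiv.Perm α)).trans e)) ∈ Cfsg.semiaffineGroup (GaloisField 2 q)) := by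
  classical
  have := Fact.mk hp
  have hΩ : Nat.card α = p + 1 := by rw [Nat.card_eq_fintype_card, hα]
  have h : CL.Perm.IsZ G α := isZ_of_card hp hΩ hG hd
  obtain ⟨a, b, -, hab, -, -⟩ := h.three
  obtain ⟨F, hle, hFp, -, hfix, -⟩ := exists_ker hp hΩ hG hd a
  have hF := h.isKer_of_card hle (by omega) hfix
  have hcyc : IsCyclic F := isCyclic_of_prime_card hFp
  have hFc : ∀ u ∈ F, ∀ v ∈ F, u * v = v * u := fun u hu v hv =>
    congrArg Subtype.val (hcyc.commGroup.mul_comm ⟨u, hu⟩ ⟨v, hv⟩)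
  have hH : Nat.card (CL.Perm.stab2 G a b) = d := by
    have h1 := h.card_group hab
    rw [hG, hΩ, Nat.add_sub_cancel] at h1
    exact (Nat.eq_of_mul_eq_mul_left (Nat.mul_pos (by omega) hp.pos) h1).symm
  have hd0 : 0 < d := hH ▸ Nat.card_pos
  have hn2 : Nat.card α - 2 = p - 1 := by omega
  by_cases hdp : d = p - 1
  · refine Or.inl ⟨hdp, ?_⟩
    obtain ⟨u, hu⟩ := hcyc.exists_generator
    have hu1 : (u : G) ≠ 1 := fun e => by
      obtain ⟨v, hv, hv1⟩ := hF.exists_ne_one h
      obtain ⟨k, hk⟩ := Subgroup.mem_zpowers_iff.1 (hu ⟨v, hv⟩)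
      have hk' : (u : G) ^ k = v := congrArg Subtype.val hk
      exact hv1 (by rw [← hk', e, one_zpow])
    obtain ⟨K, _, _, hK, ⟨e⟩⟩ := (h.isSharp3_of_card hab (by omega)).pgl2_of_comm hab (by
      intro x hx y hy
      obtain ⟨i, hi⟩ := Subgroup.mem_zpowers_iff.1 (hu ⟨_, hF.conj_mem hx.1 u.2⟩)
      obtain ⟨j, hj⟩ := Subgroup.mem_zpowers_iff.1 (hu ⟨_, hF.conj_mem hy.1 u.2⟩)
      have hi' : (u : G) ^ i = x * u * x⁻¹ := congrArg Subtype.val hi
      have hj' : (u : G) ^ j = y * u * y⁻¹ := congrArg Subtype.val hj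
      have e1 : x * y * u * (x * y)⁻¹ = y * x * u * (y * x)⁻¹ := by
        calc _ = x * (y * u * y⁻¹) * x⁻¹ := by group
          _ = (x * u * x⁻¹) ^ j := by rw [← hj', conj_zpow]
          _ = (y * u * y⁻¹) ^ i := by rw [← hi', ← hj', ← zpow_mul, ← zpow_mul, mul_comm]
          _ = y * (x * u * x⁻¹) * y⁻¹ := by rw [← hi', conj_zpow]
          _ = _ := by group
      by_contra hne
      refine hu1 (hF.eq_one_of_commute h hab.symm u.2 (x := (y * x)⁻¹ * (x * y))
        (Subgroup.mul_mem _ (Subgroup.inv_mem _ (Subgroup.mul_mem _ hy hx)) (Subgroup.mul_mem _ hx hy))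
        (fun e => hne (inv_mul_eq_one.1 e).symm) ?_)
      calc _ = (y * x)⁻¹ * (x * y * u * (x * y)⁻¹) * (x * y) := by group
        _ = _ := by rw [e1]; group)
    obtain ⟨e'⟩ := CL.SL2.nonempty_pgl_equiv_of_card_eq (ι := Fin 2) (K := K) (L := ZMod p)
      (by rw [ZMod.card]; omega)
    exact ⟨e.trans e'⟩
  right
  by_cases hR : ∃ N : Subgroup G, N.Normal ∧ MulAction.IsPretransitive N α ∧
      ∀ c : α, MulAction.stabilizer N c = ⊥
  · right
    obtain ⟨N, _, _, hNr⟩ := hR
    obtain ⟨K, _, _, e, rfl, rfl, h1, h2⟩ := hF.exists_semiaffine h hab hFc N hNr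
    obtain ⟨r, _, n, hr, hn⟩ := FiniteField.card' K
    have hK : Fintype.card K = p + 1 := by rw [← hα]; exact Fintype.card_congr e
    have hn1 : (n : ℕ) ≠ 1 := fun e => by
      rw [e, pow_one, hK] at hn
      have hp2 : p ≠ 2 := by omega
      have h3 := hp.odd_of_ne_two hp2
      have h4 := hr.even_iff.1 (hn ▸ h3.add_one)
      have := hp.two_le
      omega
    obtain ⟨rfl, hq⟩ := Nat.prime_of_pow_sub_one_prime (a := r) hn1 (by
      rw [← hn, hK]; exact hp)
    refine ⟨n, hq, by omega, ?_, ?_⟩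
    · by_cases hb : CL.Perm.stab2 G (e 0) (e 1) = ⊥
      · left; rw [← hH, hb, Subgroup.card_bot]
      · right
        have h3 := h.card_eq_two_pow_of_coord e h1 le_rfl hb
        rw [hΩ, ← hK, hn, hH] at h3
        exact (Nat.pow_right_injective le_rfl h3).symm
    · have := Fintype.ofFinite (GaloisField 2 n)
      let ι : K ≃+* GaloisField 2 n := FiniteField.ringEquivOfCardEq (by
        rw [hn, ← Nat.card_eq_fintype_card, GaloisField.card 2 n hq.ne_zero])
      refine ⟨e.symm.trans ι.toEquiv, fun g => ?_⟩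
      obtain ⟨c, t, φ, hg⟩ := h2 g
      refine ⟨Units.map (ι : K →* GaloisField 2 n) c, ι t, ι.symm.trans (φ.trans ι), fun x => ?_⟩
      show ι (e.symm (g • e (ι.symm x))) = _
      rw [hg, e.symm_apply_apply, map_add, map_mul]
      rfl
  · left
    have hZ : Cfsg.IsZassenhausGroup G α := by
      refine ⟨h.faithful, h.two_trans, fun g a b c h1 h2 h3 => h.fix3 h1 h2 h3, ?_, fun N hN hNt => ?_⟩
      · by_contra hc
        push Not at hc
        have h2 : ∀ (g : G) (x y : α), x ≠ y → g • x = x → g • y = y → g = 1 := fun g x y hxy hx hy => by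
          by_contra hg
          exact hc g hg x y hxy hx hy
        obtain ⟨N, hN1, hN2, hN3⟩ := CL.Perm.exists_regular_of_fix2 a h2
        refine hR ⟨N, hN2, h.isPretransitive_normal hN2 fun e => ?_, fun c => ?_⟩
        · obtain ⟨g, hg, e1⟩ := hN3 b
          rw [e, Subgroup.mem_bot] at hg
          rw [hg, one_smul] at e1
          exact hab e1
        · rw [eq_bot_iff]
          intro g hg
          rcases (hN1 g).1 g.2 with e | e
          · exact Subtype.ext e
          · exact absurd hg (e c)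
      · by_contra hc
        push Not at hc
        exact hR ⟨N, hN, hNt, hc⟩
    have key : 2 * d = p - 1 ∧ ∃ (K : Type) (_ : Field K) (_ : Fintype K),
        Fintype.card K + 1 = Nat.card α ∧ ringChar K ≠ 2 ∧
        Nonempty (G ≃* Matrix.ProjectiveSpecialLinearGroup (Fin 2) K) := by
      rcases Nat.even_or_odd (Nat.card (CL.Perm.stab2 G a b)) with he | ho
      · have h1 := h.card_le_of_even hab he
        have h2 : 2 * Nat.card (CL.Perm.stab2 G a b) ≤ Nat.card α - 2 := by
          obtain ⟨k, hk⟩ := h.card_stab2_dvd hab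
          have := hp.two_le
          obtain rfl | rfl | hk2 : k = 0 ∨ k = 1 ∨ 2 ≤ k := by omega
          · omega
          · omega
          · exact hk ▸ mul_comm 2 _ ▸ Nat.mul_le_mul_left _ hk2
        exact ⟨by omega, h.psl2_of_even hab he h2⟩
      · rcases CL.Perm.feit_general hZ hab hF ho with h1 | ⟨h1, hs⟩ | ⟨-, ⟨u, v, h1⟩, -⟩
        · omega
        · obtain ⟨s, h2, h3⟩ := h.exists_swap hab
          exact ⟨by omega, h.psl2_of_inverts hab h1 h2 h3
            fun y hy => h.inverts_of_simple hab ho h2 h3 hy⟩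
        · exact absurd (Subtype.ext (hFc u u.2 v v.2)) h1
    obtain ⟨h1, K, _, _, hK, -, ⟨e⟩⟩ := key
    obtain ⟨e'⟩ := CL.SLn.nonempty_psl_equiv_of_card_eq (ι := Fin 2) (K := K) (L := ZMod p)
      (by rw [ZMod.card]; omega)
    exact ⟨h1, ⟨e.trans e'⟩⟩

end Cfsg.Agent.S0732
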