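import Cfsg.Statements.S0375
import Cfsg.Agent.Spor.DesignGolay

set_option autoImplicit false
open Cfsg

namespace Cfsg.Agent.S0375

/-- A doubly even self-dual binary code of length 24 with no words of weight 4 is equivalent to the length-24 code built from the squares modulo 23. -/
theorem result (C : Submodule (ZMod 2) (Fin 24 → ZMod 2)) (hdim : Module.finrank (ZMod 2) C = 12) (horth : ∀ v ∈ C, ∀ w ∈ C, ∑ i, v i * w i = 0) (h4 : ∀ w ∈ C, 4 ∣ hammingNorm w) (hno4 : ∀ w ∈ C, hammingNorm w ≠ 4) : ∃ e : Fin 24 ≃ Cfsg.GolayPt, ∀ w : Cfsg.GolayPt → ZMod 2, w ∈ Cfsg.golayCode ↔ (fun i => w (e i)) ∈ C := by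
  have h := CL.Spor.Des.setGolay_of_code (by simp) C hdim (fun w hw hne => by
    have h1 := h4 w hw
    have h2 := hno4 w hw
    have h3 : hammingNorm w ≠ 0 := fun e => hne (hammingNorm_eq_zero.1 e)
    omega)
  obtain ⟨x⟩ := CL.Spor.Des.exists_emb (α := Fin 24) (n := 5) (by simp)
  obtain ⟨y⟩ := CL.Spor.Des.exists_emb (α := GolayPt) (n := 5) (by rw [CL.Spor.card_golayPt]; norm_num)
  obtain ⟨e, he, -⟩ := h.strong_iso CL.Spor.Des.setGolay_GC x y
  refine ⟨e, fun w => ?_⟩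
  rw [CL.Spor.mem_golayCode_iff, ← he, CL.Spor.Des.mem_sysMap]
  have : (support₂ w).image e.symm = support₂ fun i => w (e i) := by
    ext i
    simp only [Finset.mem_image, CL.Spor.Des.mem_supp]
    exact ⟨fun ⟨p, hp, hpi⟩ => by rw [← hpi]; simpa using hp, fun h => ⟨e i, h, by simp⟩⟩
  rw [this, CL.Spor.Des.supp_mem_supports]; rfl

end Cfsg.Agent.S0375
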