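import Cfsg.Statements.S5796
import Cfsg.Agent.Cls.UniEx2
import Cfsg.Agent.S5663

set_option autoImplicit false
open Cfsg

namespace Cfsg.Agent.S5796

/-- Every maximal subgroup of SU_5(q) is of one of the listed geometric types or lies in the residual class. Let F be the field with q² elements (characteristic p), f the standard unitary form Σ u_i v_i^q on F^5, and H a maximal subgroup of SU_5(q) (inside GL_5(F)). Then H is the intersection with SU_5(q) of one of: the stabiliser of a non-zero totally isotropic subspace; the stabiliser of a non-degenerate 1-space or 2-space; the stabiliser of a decomposition into five mutually orthogonal non-degenerate 1-spaces; for q ≥ 3, the normaliser of an adjoint-closed degree-5 subfield of the matrix algebra; a subfield group of odd prime index whose F₀-structure carries f; for q odd, a subfield group of index 2 whose F₀-structure carries f; for q = p ≡ 4 mod 5 or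 q = p² with p ≡ 2, 3 mod 5, the normaliser of an absolutely irreducible 5-group of exponent 5, order 125 and centre of order 5 with all characteristic abelian subgroups cyclic inside the similarity group of f — or else H lies in the residual class of the unitary case. -/
theorem result {F : Type*} [Field F] [Fintype F] (q : ℕ) (hF : Fintype.card F = q ^ 2) (H : Subgroup (Matrix.GeneralLinearGroup (Fin 5) F)) (hH : Cfsg.Geo.IsMaximalIn (Cfsg.GU 5 F q ⊓ Cfsg.Geo.specialLinear (Fin 5) F) H) :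
    (∃ W : Submodule F (Fin 5 → F), W ≠ ⊥ ∧ Cfsg.Geo.IsTotallySingularFor (Cfsg.hermForm 5 F q) W ∧ H = Cfsg.Geo.subspaceStabilizer W ⊓ (Cfsg.GU 5 F q ⊓ Cfsg.Geo.specialLinear (Fin 5) F)) ∨
    (∃ W : Submodule F (Fin 5 → F), W ≠ ⊥ ∧ Cfsg.Geo.IsNondegenerateOn (Cfsg.hermForm 5 F q) W ∧ 2 * Module.finrank F W < 5 ∧ H = Cfsg.Geo.subspaceStabilizer W ⊓ (Cfsg.GU 5 F q ⊓ Cfsg.Geo.specialLinear (Fin 5) F)) ∨
    (∃ D : Fin 5 → Submodule F (Fin 5 → F), Cfsg.Geo.IsNondegenerateMDecomposition (Cfsg.hermForm 5 F q) 1 D ∧ H = Cfsg.Geo.decompositionStabilizer D ⊓ (Cfsg.GU 5 F q ⊓ Cfsg.Geo.specialLinear (Fin 5) F)) ∨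
    (3 ≤ q ∧ ∃ K : Subalgebra F (Matrix (Fin 5) (Fin 5) F), Cfsg.Geo.IsFieldSubalgebra 5 K ∧ Cfsg.Geo.IsAdjointClosedFor (Cfsg.hermForm 5 F q) K ∧ H = Cfsg.Geo.subalgebraNormalizer K ⊓ (Cfsg.GU 5 F q ⊓ Cfsg.Geo.specialLinear (Fin 5) F)) ∨
    (∃ (F₀ : Subfield F) (r : ℕ) (P : Matrix.GeneralLinearGroup (Fin 5) F), r.Prime ∧ Odd r ∧ Fintype.card F = Nat.card F₀ ^ r ∧ Cfsg.Geo.IsFormRationalStructure (Cfsg.hermForm 5 F q) F₀ 1 P ∧ H = Cfsg.Geo.subfieldSubgroup F₀ P ⊓ (Cfsg.GU 5 F q ⊓ Cfsg.Geo.specialLinear (Fin 5) F)) ∨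
    (Odd q ∧ ∃ (F₀ : Subfield F) (P : Matrix.GeneralLinearGroup (Fin 5) F), Fintype.card F = Nat.card F₀ ^ 2 ∧ Cfsg.Geo.IsFormRationalStructure (Cfsg.hermForm 5 F q) F₀ 1 P ∧ H = Cfsg.Geo.subfieldSubgroup F₀ P ⊓ (Cfsg.GU 5 F q ⊓ Cfsg.Geo.specialLinear (Fin 5) F)) ∨
    (∃ (p : ℕ) (R : Subgroup (Matrix.GeneralLinearGroup (Fin 5) F)), p.Prime ∧ CharP F p ∧ ((q = p ∧ p % 5 = 4) ∨ (q = p ^ 2 ∧ (p % 5 = 2 ∨ p % 5 = 3))) ∧ Cfsg.Geo.IsSymplecticTypeGroup 5 R ∧ Cfsg.Geo.ActsAbsolutelyIrreducibly (Cfsg.Geo.matrixSet R) ∧ R ≤ Cfsg.Geo.similarityGroup (Cfsg.hermForm 5 F q) ∧ Nat.card R = 125 ∧ Nat.card (Subgroup.center R) = 5 ∧ H = Cfsg.Geo.subgroupNormalizer R ⊓ (Cfsg.GU 5 F q ⊓ Cfsg.Geo.specialLinear (Fin 5) F)) ∨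
    Cfsg.Geo.InUnitaryResidualClass H := by
  have h2 := CL.Uni.two_le_q hF
  cases CL.Uni.uCase_of hF (by omega) (by omega) hH (Cfsg.Agent.S5663.result 5 q hF (by omega) (by omega) H) with
  | ti W h0 hW e => exact .inl ⟨W, h0, hW, e⟩
  | nondeg W h0 hW hd e => exact .inr (.inl ⟨W, h0, hW, hd, e⟩)
  | dec t k ht htk D hD e =>
    have h9 : t ≤ 5 := Nat.le_of_dvd (by omega) ⟨k, htk⟩
    obtain ⟨rfl, rfl⟩ : t = 5 ∧ k = 1 := by interval_cases t <;> omega
    exact .inr (.inr (.inl ⟨D, hD, e⟩))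
  | pair k hk D hD hts e => omega
  | field r hr hodd hrn K hK hadj e =>
    obtain rfl : r = 5 := (Nat.prime_dvd_prime_iff_eq hr (by norm_num)).1 hrn
    refine .inr (.inr (.inr (.inl ⟨?_, K, hK, hadj, e⟩)))
    by_contra hq
    obtain rfl : q = 2 := by omega
    exact CL.Uni.not_max_field_five_two (CL.Uni.isBar_bar hF) hK (e ▸ hH)
  | tensor n₁ n₂ h1 h12 hn e P f₁ f₂ hf₁ hf₂ hT e' =>
    have h9 : n₁ ≤ 5 := Nat.le_of_dvd (by omega) ⟨n₂, hn⟩
    exfalso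
    interval_cases n₁ <;> omega
  | sub F₀ r P hr hodd hc hP e =>
    exact .inr (.inr (.inr (.inr (.inl ⟨F₀, r, P, hr, hodd, hc, hP, e⟩))))
  | orth hq F₀ P hc hP e =>
    exact .inr (.inr (.inr (.inr (.inr (.inl ⟨hq, F₀, P, hc, hP, e⟩)))))
  | symp hn F₀ P ζ hc hζ hζ' hP halt e => exact absurd hn (by decide)
  | extraOdd r p f k hr hodd hp hch hq hdvd hmin hf hn R hR hirr hsim hU hcard hZ e =>
    obtain ⟨rfl, -⟩ := CL.Uni.prime_pow_eq hr (l := 5) (by norm_num) one_ne_zero hn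
    refine .inr (.inr (.inr (.inr (.inr (.inr (.inl ⟨p, R, hp, hch, ?_, hR, hirr, hsim, hcard, hZ, e⟩))))))
    obtain ⟨rfl, h⟩ | ⟨rfl, h⟩ := CL.Uni.extra_five hp.pos hf hdvd hmin
    · exact .inl ⟨hq.trans (pow_one p), h⟩
    · exact .inr ⟨hq, h⟩
  | extraTwo k hp h4 hn R hR hirr hsim hcard hZ e =>
    exact absurd (CL.Uni.prime_pow_eq Nat.prime_two (l := 5) (by norm_num) one_ne_zero hn).1 (by decide)
  | wreath k t hk ht hqk hn => exact absurd (CL.Uni.nine_le_pow hk ht) (by omega)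
  | residual h => exact .inr (.inr (.inr (.inr (.inr (.inr (.inr h))))))

end Cfsg.Agent.S5796
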