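import Cfsg.Statements.S0779
import Cfsg.Agent.Cls.UniSimple

set_option autoImplicit false
open Cfsg

namespace Cfsg.Agent.S0779

/-- Unitary transvections: let |F| = q², h the standard Hermitian form Σ x_i y_i^q and v ≠ 0 with h(v, v) = 0. The linear map x ↦ x + c h(x, v) v is an isometry of h if and only if c = 0 or c^(q−1) = −1. -/
theorem result {F : Type*} [Field F] [Fintype F] {q : ℕ} (hF : Fintype.card F = q ^ 2) (n : ℕ) (v : Fin n → F) (hv : v ≠ 0) (hv0 : Cfsg.hermForm n F q v v = 0) (c : F) : (∀ x y : Fin n → F, Cfsg.hermForm n F q ((Cfsg.unitaryTransvection n q v c).mulVec x) ((Cfsg.unitaryTransvection n q v c).mulVec y) = Cfsg.hermForm n F q x y) ↔ (c = 0 ∨ c ^ (q - 1) = -1) := by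
  have h := CL.Uni.isBar_bar hF
  have hB := CL.Uni.isHerm_stdB h (Fin n)
  have hq := h.two_le
  simp only [CL.Uni.hermForm_eq h, CL.Uni.unitaryTransvection_mulVec h] at hv0 ⊢
  have h1 : (c = 0 ∨ c ^ (q - 1) = -1) ↔ c + CL.Uni.bar hF c = 0 := by
    obtain ⟨k, rfl⟩ : ∃ k, q = k + 1 := ⟨q - 1, by omega⟩
    rw [h.apply, Nat.add_sub_cancel, show c + c ^ (k + 1) = c * (c ^ k + 1) by ring, mul_eq_zero,
      add_eq_zero_iff_eq_neg]
  rw [h1]
  simp only [map_add, LinearMap.add_apply, LinearMap.map_smulₛₗ, LinearMap.smul_apply, hv0,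
    smul_eq_mul, map_mul, hB.symm, RingHom.id_apply]
  constructor
  · intro h2
    obtain ⟨x, hx⟩ := hB.exists_eq_one hv
    have := h2 x x
    rw [hx, hB.flip_one hx] at this
    linear_combination this
  · intro h2 x y
    linear_combination (CL.Uni.stdB _ _ y v * CL.Uni.stdB _ _ v x) * h2

end Cfsg.Agent.S0779
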