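import Cfsg.Statements.S0780
import Cfsg.Agent.Cls.UniSimple

set_option autoImplicit false
open Cfsg

namespace Cfsg.Agent.S0780

/-- Generation of SU_n(q), n ≥ 3, (n, q) ≠ (3, 2), by unitary transvections: the subgroup generated by the elements whose matrix is x ↦ x + c h(x, v) v with v isotropic is all of SU_n(q). -/
theorem result {F : Type*} [Field F] [Fintype F] {q : ℕ} (hF : Fintype.card F = q ^ 2) (n : ℕ) (hn : 3 ≤ n) (h32 : ¬ (n = 3 ∧ q = 2)) : Subgroup.closure {A : ↥(Cfsg.SU n F q) | ∃ (v : Fin n → F) (c : F), Cfsg.hermForm n F q v v = 0 ∧ ((A : Matrix.SpecialLinearGroup (Fin n) F) : Matrix (Fin n) (Fin n) F) = Cfsg.unitaryTransvection n q v c} = ⊤ := by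
  have h := CL.Uni.isBar_bar hF
  have hB := CL.Uni.isHerm_stdB h (Fin n)
  have h1 := hB.closure_tv_eq_top (by simpa using h32)
  have h2 := congrArg (Subgroup.map (CL.Uni.suEquiv h n).symm.toMonoidHom) h1
  rw [MonoidHom.map_closure, Subgroup.map_top_of_surjective _ (CL.Uni.suEquiv h n).symm.surjective] at h2
  rw [eq_top_iff, ← h2]
  apply Subgroup.closure_mono
  rintro _ ⟨g, ⟨v, c, hv, -, hg⟩, rfl⟩
  refine ⟨v, c, by rw [CL.Uni.hermForm_eq h, hv], (CL.Uni.isTv_suEquiv_iff h _ v c).1 ?_⟩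
  simpa using hg

end Cfsg.Agent.S0780
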