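import Cfsg.Statements.S5548
import Cfsg.Agent.Spor.M24Mod

set_option autoImplicit false
open Cfsg

namespace Cfsg.Agent.S5548

open CL.Spor MulAction
open scoped Pointwise

/-- For the automorphism group of the length-24 binary Golay code of the definitions (the Mathieu group of degree 24) acting on binary words of length 24 by permuting coordinates, the only invariant subspaces of the space of all words are: zero, the span of the all-ones word, the code itself, the even-weight words, and the whole space. (So the permutation module has a unique composition series.) -/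
theorem result (W : Submodule (ZMod 2) (Cfsg.GolayPt → ZMod 2)) (hW : ∀ σ ∈ Cfsg.M24, ∀ w ∈ W, (fun p => w (σ.symm p)) ∈ W) : W = ⊥ ∨ W = Submodule.span (ZMod 2) {fun _ => (1 : ZMod 2)} ∨ W = Cfsg.golayCode ∨ (W : Set (Cfsg.GolayPt → ZMod 2)) = {w | ∑ p, w p = 0} ∨ W = ⊤ := by
  by_cases h : W ≤ golayCode
  · rcases eq_span_one_or hW h with h1 | h1
    · by_cases h2 : (fun _ => (1 : ZMod 2)) ∈ W
      · exact Or.inr (Or.inl (le_antisymm h1 ((Submodule.span_singleton_le_iff_mem _ _).2 h2)))
      · refine Or.inl (eq_bot_iff.2 fun w hw => ?_)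
        obtain ⟨a, rfl⟩ := Submodule.mem_span_singleton.1 (h1 hw)
        rcases zmod2_cases a with rfl | rfl
        · rw [zero_smul]; exact zero_mem _
        · exact absurd (one_smul (ZMod 2) (fun _ : GolayPt => (1 : ZMod 2)) ▸ hw) h2
    · exact Or.inr (Or.inr (Or.inl h1))
  · refine Or.inr (Or.inr (Or.inr (or_iff_not_imp_left.2 fun h1 => eq_top_iff.2 fun x _ => ?_)))
    obtain ⟨w, hw, hw'⟩ : ∃ w ∈ W, ¬ ∑ p, w p = 0 := by
      by_contra hh
      exact h1 (Set.ext fun w => ⟨fun hw => by_contra fun h => hh ⟨w, hw, h⟩, even_mem_of_not_le hW h⟩)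
    rcases zmod2_cases (∑ p, x p) with h2 | h2
    · exact even_mem_of_not_le hW h h2
    · refine (W.add_mem_iff_left hw).1 (even_mem_of_not_le hW h ?_)
      simp only [Pi.add_apply, Finset.sum_add_distrib, h2, (zmod2_cases _).resolve_left hw']
      rfl

end Cfsg.Agent.S5548
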