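import Cfsg.Statements.S5425
import Cfsg.Agent.Spor.M24Iso

set_option autoImplicit false
open Cfsg

namespace Cfsg.Agent.S5425

open CL.Spor MulAction

/-- In the Mathieu group of degree 24 (the automorphism group of the length-24 binary Golay code, acting on the 24 coordinates), let z be an involution whose fixed points form an octad (the support of a code word of weight 8), and let Q be the largest normal 2-subgroup of the centralizer C of z. Then Q is extraspecial of order 2^7 with an elementary abelian subgroup of order 16 (plus type), Q is a large extraspecial 2-subgroup, and C is the split extension of Q by the special linear group of degree 3 over the field with two elements. -/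
theorem result (z : ↥Cfsg.M24) (hz : orderOf z = 2) (hfix : (Finset.univ.filter fun p : Cfsg.GolayPt => (z : Equiv.Perm Cfsg.GolayPt) p = p) ∈ Cfsg.octads) (Q : Subgroup ↥Cfsg.M24) (hQ : Q = (Cfsg.pCore 2 ↥(Subgroup.centralizer ({z} : Set ↥Cfsg.M24))).map (Subgroup.centralizer ({z} : Set ↥Cfsg.M24)).subtype) : Cfsg.IsExtraspecial 2 ↥Q ∧ Nat.card ↥Q = 2 ^ 7 ∧ (∃ E : Subgroup ↥Cfsg.M24, E ≤ Q ∧ Cfsg.IsElementaryAbelian 2 E ∧ Nat.card ↥E = 2 ^ 4) ∧ Cfsg.IsLargeExtraspecial Q ∧ ∃ K : Subgroup ↥Cfsg.M24, K ≤ Subgroup.centralizer ({z} : Set ↥Cfsg.M24) ∧ Q ⊓ K = ⊥ ∧ Q ⊔ K = Subgroup.centralizer ({z} : Set ↥Cfsg.M24) ∧ Nonempty (↥K ≃* Matrix.SpecialLinearGroup (Fin 3) (ZMod 2)) := by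
  obtain ⟨c, hc⟩ := class_2A hz (by rw [show (fixSet z).card = 8 from hfix.2]; norm_num)
  obtain ⟨c, rfl⟩ : ∃ c : M24, z = c * m24 r2A * c⁻¹ := ⟨c⁻¹, by rw [← hc]; group⟩
  let s : Matrix.SpecialLinearGroup (Fin 5) (ZMod 2) :=
    ⟨Matrix.transvection 0 1 1, Matrix.det_transvection_of_ne 0 1 (by decide) 1⟩
  obtain ⟨e, e1, e2⟩ := exists_equiv_c2a s rfl
  obtain ⟨P, hP⟩ := exists_parCoord_sl 3 s rfl
  have hw := rep_m24 (P := w2A) (by decide +kernel)
  have w1 : m24 w2A ∈ Subgroup.centralizer {m24 r2A} :=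
    Subgroup.mem_centralizer_singleton_iff.2 ((hw.commute_iff rep_r2A).2 (by decide +kernel))
  obtain ⟨P', hP'⟩ := parCoord_transfer P ((conjEquiv c _ _ fun _ => mem_centralizer_conj_iff).symm.trans e) (by
    refine (congrArg (fun x => ((e x : Subgroup.centralizer {s}) : Matrix.SpecialLinearGroup (Fin 5) (ZMod 2)))
      (Subtype.ext ?_)).trans (e1 (Subgroup.mem_centralizer_singleton_iff.2 rfl))
    show c⁻¹ * (c * m24 r2A * c⁻¹) * c = m24 r2A
    group)
  obtain ⟨k, hk⟩ := class_2A (hw.orderOf_prime Nat.prime_two (by decide +kernel) (by decide +kernel))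
    (by rw [hw.fixSet_eq, card_ofMask]; decide +kernel)
  have a : (c * k⁻¹ * c⁻¹) * (c * m24 r2A * c⁻¹) * (c * k⁻¹ * c⁻¹)⁻¹ = c * m24 w2A * c⁻¹ := by rw [← hk]; group
  have b : c * m24 w2A * c⁻¹ ∈ Subgroup.centralizer {c * m24 r2A * c⁻¹} :=
    mem_centralizer_conj_iff.2 (by simpa [mul_assoc] using w1)
  obtain ⟨h1, h2, h3, h4, K, h5, h6, h7, ⟨e'⟩⟩ := P'.main (by norm_num) hz (g := c * k⁻¹ * c⁻¹) (by
    rw [a]
    refine P'.mem_Q.2 ⟨b, (hP' ⟨_, b⟩).trans ?_⟩
    rw [hP, MulEquiv.trans_apply, show (conjEquiv c _ _ fun _ => mem_centralizer_conj_iff).symm ⟨_, b⟩ = ⟨m24 w2A, w1⟩ from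
      Subtype.ext (by rw [conjEquiv_symm_apply]; group)]
    ext i j
    exact (congrFun₂ (e2 w1) _ _).trans (by fin_cases i <;> fin_cases j <;> rfl)) (by
    rw [a, Ne, mul_left_inj, mul_right_inj, hw.eq_iff rep_r2A]; decide +kernel) hQ
  obtain ⟨e''⟩ := nonempty_gl_equiv_sl (Fin 3)
  exact ⟨h1, h2, h3, h4, K, h5, h6, h7, ⟨e'.trans e''⟩⟩

end Cfsg.Agent.S5425
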