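import Cfsg.Statements.S5604
import Cfsg.Agent.Spor.M24Class

set_option autoImplicit false
open scoped Pointwise
open Cfsg

namespace Cfsg.Agent.S5604

open CL.Spor MulAction

/-- For a subgroup S of order 7 of the group of the length-24 code (a Sylow 7-subgroup): the normaliser of S has order 126, the centraliser of S has order 42 and is non-abelian, and the whole normaliser leaves some trio invariant. (These are the orders of a Frobenius group of order 21 times a symmetric group of degree 3; the isomorphism type itself is not asserted here.) -/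
theorem result (S : Subgroup ↥Cfsg.M24) (hS : Nat.card S = 7) : Nat.card ↥(Subgroup.normalizer (S : Set ↥Cfsg.M24)) = 126 ∧ Nat.card ↥(Subgroup.centralizer (S : Set ↥Cfsg.M24)) = 42 ∧ (∃ x ∈ Subgroup.centralizer (S : Set ↥Cfsg.M24), ∃ y ∈ Subgroup.centralizer (S : Set ↥Cfsg.M24), x * y ≠ y * x) ∧ ∃ T ∈ Cfsg.trios, ∀ n ∈ Subgroup.normalizer (S : Set ↥Cfsg.M24), ((n : ↥Cfsg.M24) : Equiv.Perm Cfsg.GolayPt) • T = T := by
  have : Fact (Nat.Prime 7) := ⟨by norm_num⟩
  obtain ⟨c, -, rfl⟩ := (sylIn_of_card (k := 1) (m := 34974720) (by norm_num) le_top (by rw [hS]; norm_num)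
    card_top_M24 (by norm_num)).exists_map_conj_eq sylIn_r7
  have e1 := Subgroup.map_equiv_normalizer_eq (Subgroup.zpowers (m24 r7)) (MulAut.conj c)
  have e2 : Subgroup.centralizer ((Subgroup.zpowers (m24 r7)).map (MulAut.conj c).toMonoidHom : Set M24) =
      (Subgroup.centralizer {m24 r7}).map (MulAut.conj c).toMonoidHom := by
    rw [← centralizer_conj, MonoidHom.map_zpowers, Subgroup.zpowers_eq_closure, Subgroup.centralizer_closure]; rfl
  rw [← e1, e2]
  have hg := good_centralizer_all (good_top_of_all (S := [983548720921252936276249910206105632, 918146140902608217252806223073876231]) (by decide +kernel)) rep_r7 (by decide +kernel)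
  obtain ⟨x, hx, rx⟩ := hg 983548720921252936276249910206105632 (by simp)
  obtain ⟨y, hy, ry⟩ := hg 918146140902608217252806223073876231 (by simp)
  refine ⟨by rw [card_map_conj, card_N7], by rw [card_map_conj, card_C7], ⟨_, ⟨x, hx, rfl⟩, _, ⟨y, hy, rfl⟩, ?_⟩,
    c • trio 1927, (smul_mem_trios_iff c).2 (trio_mem (by norm_num) (by decide +kernel)), ?_⟩
  · rw [← map_mul, ← map_mul]
    exact fun h => absurd ((rx.commute_iff ry).1 ((MulAut.conj c).injective h)) (by decide +kernel)
  · rintro _ ⟨n, hn, rfl⟩
    have : Subgroup.normalizer (Subgroup.zpowers (m24 r7) : Set M24) ≤ stabilizer M24 (trio 1927) :=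
      chainN7.eq_gen ▸ gen_le (isFam_trios.good_stab chainN7.1 (by norm_num) (by decide +kernel))
    exact conj_smul_smul c n (this hn)

end Cfsg.Agent.S5604
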