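import Cfsg.Statements.S0014
import Cfsg.Agent.Grp.PGroupFrattini

set_option autoImplicit false
open Cfsg

namespace Cfsg.Agent.S0014

/-- Burnside's basis Theorem: in a finite p-group whose Frattini quotient has order p ^ n, every generating set contains n elements that already generate, and no set with fewer than n elements generates. -/
theorem result {G : Type*} [Group G] [Finite G] (p n : ℕ) [Fact p.Prime]
    (hG : IsPGroup p G) (hn : (frattini G).index = p ^ n) :
    (∀ S : Finset G, Subgroup.closure (S : Set G) = ⊤ → ∃ T : Finset G, T ⊆ S ∧ T.card = n ∧ Subgroup.closure (T : Set G) = ⊤) ∧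
    (∀ T : Finset G, Subgroup.closure (T : Set G) = ⊤ → n ≤ T.card) := by
  refine ⟨fun S hS => ?_, CL.Grp.le_card_of_closure_eq_top hG hn⟩
  obtain ⟨T, h1, h2, h3⟩ := CL.Grp.exists_finset_subset_closure_eq_top hG hn S hS
  exact ⟨T, Finset.coe_subset.1 h1, h2, h3⟩

end Cfsg.Agent.S0014
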