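import Cfsg.Statements.S0018
import Cfsg.Agent.Grp.Fitting

set_option autoImplicit false
open Cfsg

namespace Cfsg.Agent.S0018

/-- A finite solvable group whose Sylow p-subgroups are abelian has p-length one: a Sylow p-subgroup together with the largest normal subgroup of order prime to p generates a normal subgroup. -/
theorem result {G : Type*} [Group G] [Finite G] [Group.IsSolvable G]
    (p : ℕ) [Fact p.Prime] (P : Sylow p G) (hP : IsMulCommutative P) :
    ((P : Subgroup G) ⊔ Cfsg.pPrimeCore p G).Normal := by
  let f := QuotientGroup.mk' (pPrimeCore p G)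
  have hf : Function.Surjective f := QuotientGroup.mk'_surjective _
  have h1 := CL.Grp.centralizer_pCore_le_of_isSolvable (CL.Grp.pPrimeCore_quotient_pPrimeCore p G)
  have h2 : pCore p (G ⧸ pPrimeCore p G) ≤ (P : Subgroup G).map f :=
    CL.Grp.pCore_le_sylow (P.mapSurjective hf)
  have h3 : (P : Subgroup G).map f = pCore p (G ⧸ pPrimeCore p G) :=
    le_antisymm (((Subgroup.le_centralizer _).trans (Subgroup.centralizer_le h2)).trans h1) h2
  have h4 : (P : Subgroup G) ⊔ pPrimeCore p G = (pCore p (G ⧸ pPrimeCore p G)).comap f := by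
    rw [← h3, Subgroup.comap_map_eq, QuotientGroup.ker_mk']
  rw [h4]
  infer_instance

end Cfsg.Agent.S0018
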