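import Cfsg.Statements.S0031
import Cfsg.Agent.Grp.Fpf

set_option autoImplicit false
open Cfsg

namespace Cfsg.Agent.S0031

/-- A fixed-point-free automorphism of a finite group maps some Sylow p-subgroup to itself. -/
theorem result {G : Type*} [Group G] [Finite G] (φ : G ≃* G)
    (hφ : MonoidHom.FixedPointFree (φ : G →* G)) (p : ℕ) [Fact p.Prime] :
    ∃ P : Sylow p G, (P : Subgroup G).map (φ : G →* G) = P := by
  obtain ⟨P, hP⟩ := CL.Grp.fpf_exists_sylow φ hφ p
  exact ⟨P, congrArg (fun Q : Sylow p G => (Q : Subgroup G)) hP⟩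

end Cfsg.Agent.S0031
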