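import Cfsg.Statements.S0032
import Cfsg.Agent.Base

set_option autoImplicit false
open Cfsg

namespace Cfsg.Agent.S0032

/-- If an automorphism of a finite group fixes only the identity and maps a normal subgroup N into itself, then the only cosets of N it fixes are those in N: a fixed coset xN forces x ∈ N. -/
theorem result {G : Type*} [Group G] [Finite G] (φ : G ≃* G)
    (hφ : MonoidHom.FixedPointFree (φ : G →* G)) (N : Subgroup G) [N.Normal] (hN : ∀ n ∈ N, φ n ∈ N)
    (x : G) (hx : (φ x)⁻¹ * x ∈ N) : x ∈ N := by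
  classical
  let f : N → N := fun n => ⟨(φ n)⁻¹ * n, N.mul_mem (N.inv_mem (hN _ n.2)) n.2⟩
  have key : ∀ a b : G, (φ a)⁻¹ * a = (φ b)⁻¹ * b → a = b := by
    intro a b h
    have h1 : φ (a * b⁻¹) = a * b⁻¹ := by
      rw [map_mul, map_inv]
      have : a = φ a * ((φ b)⁻¹ * b) := by rw [← h]; group
      calc φ a * (φ b)⁻¹ = φ a * ((φ b)⁻¹ * b) * b⁻¹ := by group
        _ = a * b⁻¹ := by rw [← this]
    exact mul_inv_eq_one.mp (hφ _ h1)
  have hinj : Function.Injective f := fun a b h => Subtype.ext (key _ _ (congrArg Subtype.val h))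
  obtain ⟨n, hn⟩ := (Finite.injective_iff_surjective.mp hinj) ⟨_, hx⟩
  have := key _ _ (congrArg Subtype.val hn)
  rw [← this]; exact n.2

end Cfsg.Agent.S0032
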