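import Cfsg.Statements.S0050
import Cfsg.Agent.Grp.Hall

set_option autoImplicit false
open Cfsg
open scoped Pointwise

namespace Cfsg.Agent.S0050

/-- Frattini argument for Hall subgroups: if L is a solvable normal subgroup and H a subgroup of L of order coprime to its index in L, then L together with the normaliser of H generates the whole group. -/
theorem result {G : Type*} [Group G] [Finite G] (L : Subgroup G) [L.Normal] (hL : Group.IsSolvable L)
    (H : Subgroup G) (hHL : H ≤ L) (hHall : (Nat.card H).Coprime (H.relIndex L)) :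
    L ⊔ Subgroup.normalizer (H : Set G) = ⊤ := by
  have hH : IsPiHallOf {p | p ∣ Nat.card H} H L :=
    ⟨hHL, fun _ _ hd => hd, fun p hp h1 h2 => hp.one_lt.ne' (Nat.eq_one_of_dvd_coprimes hHall h1 h2)⟩
  rw [eq_top_iff]
  intro g _
  have hg : IsPiHallOf {p | p ∣ Nat.card H} (MulAut.conj g • H) L := by
    refine ⟨?_, ?_, ?_⟩
    · rw [← Subgroup.Normal.conj_smul_eq_self g L]
      exact Subgroup.pointwise_smul_le_pointwise_smul_iff.2 hHL
    · rw [CL.Grp.hall_card_conj]; exact hH.2.1
    · rw [← Subgroup.Normal.conj_smul_eq_self g L, Subgroup.relIndex_pointwise_smul]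
      exact hH.2.2
  obtain ⟨x, hx, hxg⟩ := CL.Grp.piHallOf_conj_of_solvable hg hH
  rw [← mul_smul, ← map_mul] at hxg
  have : x * g ∈ Subgroup.normalizer (H : Set G) := by
    rw [Subgroup.mem_normalizer_iff'']
    intro h
    conv_lhs => rw [← hxg]
    exact CL.Grp.hall_mem_conj
  have h2 : g = x⁻¹ * (x * g) := by group
  rw [h2]
  exact Subgroup.mul_mem _ (Subgroup.mem_sup_left (L.inv_mem hx)) (Subgroup.mem_sup_right this)

end Cfsg.Agent.S0050
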