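import Cfsg.Statements.S0057
import Cfsg.Agent.Grp.Coprime2

set_option autoImplicit false
open Cfsg

namespace Cfsg.Agent.S0057

open CL.Grp

/-- Under coprime action, if the centraliser of A in K has prime index p in K then the commutator subgroup [K, A] has order exactly p. -/
theorem result {G : Type*} [Group G] [Finite G] (A K : Subgroup G) (hAK : A ≤ Subgroup.normalizer (K : Set G))
    (hcop : (Nat.card A).Coprime (Nat.card K)) (hsolv : Group.IsSolvable A ∨ Group.IsSolvable K)
    (p : ℕ) (hp : p.Prime) (hidx : (K ⊓ Subgroup.centralizer (A : Set G)).relIndex K = p) :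
    Nat.card (⁅K, A⁆ : Subgroup G) = p := by
  haveI := Fact.mk hp
  set C := K ⊓ Subgroup.centralizer (A : Set G) with hC
  set N : Subgroup G := ⁅K, A⁆ with hN
  have hNK : N ≤ K := Subgroup.le_normalizer_iff_commutator_le_left.mp hAK
  have hKN : K ≤ Subgroup.normalizer (N : Set G) := Subgroup.normalizer_commutator_ge_left K A
  have hAN : A ≤ Subgroup.normalizer (N : Set G) := Subgroup.normalizer_commutator_ge_right K A
  obtain ⟨P, hP, hAP⟩ := exists_isSylowIn_le_normalizer p hAK hcop hsolv
  have hNP : N ≤ P := by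
    refine (commutator_le_commutator_of_mul_centralizer fun k hk => ?_).trans
      (Subgroup.le_normalizer_iff_commutator_le_left.mp hAP)
    obtain ⟨c, hc, s, hs, e⟩ := hP.exists_mul_eq_of_relIndex_pow (K := C) (n := 1)
      (by rw [hidx, pow_one]) (K.inv_mem hk)
    exact ⟨s⁻¹, P.inv_mem hs, c⁻¹, Subgroup.inv_mem _ hc.2, by rw [← mul_inv_rev, ← e, inv_inv]⟩
  have hNp : IsPGroup p N := hP.isPGroup.to_le hNP
  have hsup : N ⊔ C = K := commutator_sup_centralizer_eq hAK hcop hsolv
  have hidx2 : C.relIndex N = p := by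
    have h1 := card_sup_mul_card_inf (H := C) (K := N) (inf_le_left.trans hKN)
    rw [sup_comm, hsup, ← card_mul_relIndex (inf_le_left : C ≤ K), hidx,
      ← card_inf_mul_relIndex C N, mul_assoc, mul_comm p] at h1
    exact (Nat.eq_of_mul_eq_mul_left Nat.card_pos
      (Nat.eq_of_mul_eq_mul_left Nat.card_pos h1)).symm
  haveI hDn : (C.subgroupOf N).Normal := normal_of_index_eq_pGroup hNp hidx2
  set D := C ⊓ N with hD
  have hND : N ≤ Subgroup.normalizer (D : Set G) := by
    rw [← Subgroup.normal_subgroupOf_iff_le_normalizer inf_le_right, Subgroup.inf_subgroupOf_right]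
    exact hDn
  have hDA : ⁅D, A⁆ = ⊥ :=
    Subgroup.commutator_eq_bot_iff_le_centralizer.mpr (inf_le_left.trans inf_le_right)
  have h3 : ⁅⁅N, A⁆, D⁆ = ⊥ := by
    apply Subgroup.commutator_commutator_eq_bot_of_rotate
    · rw [Subgroup.commutator_comm A, hDA, Subgroup.commutator_bot_left]
    · rw [eq_bot_iff, ← hDA]
      exact Subgroup.commutator_mono (Subgroup.le_normalizer_iff_commutator_le_left.mp hND) le_rfl
  rw [hN, commutator_commutator_eq hAK hcop hsolv, ← hN,
    Subgroup.commutator_eq_bot_iff_le_centralizer] at h3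
  haveI : IsCyclic (N ⧸ C.subgroupOf N) := isCyclic_of_prime_card (p := p) hidx2
  haveI : IsMulCommutative N := ⟨⟨fun a b =>
    commutative_of_cyclic_center_quotient (QuotientGroup.mk' (C.subgroupOf N)) (by
      rw [QuotientGroup.ker_mk']
      intro x hx
      rw [Subgroup.mem_center_iff]
      intro g
      exact Subtype.ext (h3 g.2 x ⟨hx, x.2⟩).symm) a b⟩⟩
  have h4 := inf_centralizer_inf_commutator_eq_bot hAN
    (hcop.coprime_dvd_right (Subgroup.card_dvd_of_le hNK))
  rw [hN, commutator_commutator_eq hAK hcop hsolv, ← hN] at h4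
  have h5 : D = ⊥ := by
    rw [eq_bot_iff, ← h4]
    exact le_inf (le_inf inf_le_right (inf_le_left.trans inf_le_right)) inf_le_right
  rw [← card_inf_mul_relIndex C N, ← hD, h5, Subgroup.card_bot, one_mul, hidx2]

end Cfsg.Agent.S0057
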