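import Cfsg.Statements.S0064
import Cfsg.Agent.Grp.Subnormal

set_option autoImplicit false
open Cfsg

namespace Cfsg.Agent.S0064

/-- A finite group is nilpotent exactly when each of its subgroups is subnormal. -/
theorem result {G : Type*} [Group G] [Finite G] :
    Group.IsNilpotent G ↔ ∀ H : Subgroup G, H.IsSubnormal := by
  refine ⟨fun hG H => CL.Grp.isSubnormal_of_isNilpotent H, fun h => ?_⟩
  have hnc : NormalizerCondition G := by
    intro H hH
    obtain ⟨L, h1, h2, -⟩ := (CL.Grp.subnIn_top_iff.2 (h H)).exists_lt hH.ne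
    exact h1.trans_le h2
  exact ((Group.isNilpotent_of_finite_tfae (G := G)).out 0 1).2 hnc

end Cfsg.Agent.S0064
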