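import Cfsg.Statements.S0067
import Cfsg.Agent.Grp.Zipper

set_option autoImplicit false
open Pointwise
open Cfsg

namespace Cfsg.Agent.S0067

/-- If the join of a subgroup A with each of its conjugates is nilpotent, then A is subnormal in the finite group and contained in the Fitting subgroup. -/
theorem result {G : Type*} [Group G] [Finite G] (A : Subgroup G)
    (h : ∀ g : G, Group.IsNilpotent (A ⊔ MulAut.conj g • A : Subgroup G)) : A.IsSubnormal ∧ A ≤ Cfsg.fittingSubgroup G := by
  have hA := CL.Grp.isSubnormal_of_forall_isNilpotent_sup_conj h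
  refine ⟨hA, ?_⟩
  have hnil : Group.IsNilpotent A := by
    have := h 1
    rwa [map_one, one_smul, sup_idem] at this
  rw [← inf_eq_right, eq_comm]
  refine le_antisymm ?_ inf_le_right
  rw [← Subgroup.relIndex_eq_one, Nat.eq_one_iff_not_exists_prime_dvd]
  intro p hp
  haveI := Fact.mk hp
  obtain ⟨S, hS⟩ := CL.Grp.exists_isSylowIn p A
  refine hS.not_dvd_relIndex_of_le (le_inf ?_ hS.le) inf_le_right
  have h1 : S.IsSubnormal := (CL.Grp.subnIn_of_isNilpotent hnil hS.le).isSubnormal_of hA
  exact (CL.Grp.le_pCore_of_isSubnormal h1 hS.isPGroup).trans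
    (le_sSup ⟨inferInstance, (CL.Grp.pCore_isPGroup p G).isNilpotent⟩)

end Cfsg.Agent.S0067
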