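import Cfsg.Statements.S0068
import Cfsg.Agent.Grp.FrobCompl

set_option autoImplicit false
open Cfsg

namespace Cfsg.Agent.S0068

/-- Frobenius complements of even order: if H complements a nontrivial normal subgroup K, each nonidentity element of H has trivial centraliser in K, and H has even order, then H contains a unique involution s, K is abelian, and s inverts every element of K. -/
theorem result {G : Type*} [Group G] [Finite G] (K H : Subgroup G) [K.Normal]
    (hc : Subgroup.IsComplement' K H) (hK : K ≠ ⊥) (hfpf : ∀ h ∈ H, h ≠ 1 → K ⊓ Subgroup.centralizer {h} = ⊥)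
    (heven : 2 ∣ Nat.card H) :
    (∃ s ∈ H, orderOf s = 2 ∧ (∀ t ∈ H, orderOf t = 2 → t = s) ∧ ∀ k ∈ K, s * k * s⁻¹ = k⁻¹) ∧ IsMulCommutative K := by
  have hpq := CL.Grp.pqCyclic_of_fpf hK Subgroup.le_normalizer_of_normal hfpf
  obtain ⟨s, hs⟩ := exists_prime_orderOf_dvd_card' 2 heven
  have hs' : orderOf (s : G) = 2 := by rw [Subgroup.orderOf_coe, hs]
  have hs1 : (s : G) ≠ 1 := fun e => by rw [e] at hs'; simp at hs'
  have h := CL.Grp.conj_eq_inv_of_fpf_involution (K := K) (s := (s : G))
    (Subgroup.le_normalizer_of_normal (Subgroup.mem_top _))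
    (by rw [← sq, ← hs', pow_orderOf_eq_one]) (hfpf s s.2 hs1)
  refine ⟨⟨s, s.2, hs', fun t ht ht2 => ?_, h.1⟩, h.2⟩
  exact congrArg Subtype.val (hpq.eq_of_orderOf_eq_two (s := ⟨t, ht⟩)
    (by rw [← Subgroup.orderOf_coe, ht2]) hs)

end Cfsg.Agent.S0068
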