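import Cfsg.Statements.S0073
import Cfsg.Agent.Transfer.Abelian
import Cfsg.Agent.Grp.PGroupFrattini

set_option autoImplicit false
open Cfsg

namespace Cfsg.Agent.S0073

/-- For a finite non-abelian simple group, either the cube of the least prime divisor of the order divides the order, or 12 does. -/
theorem result {G : Type*} [Group G] [Finite G] [IsSimpleGroup G] (hG : ∃ x y : G, x * y ≠ y * x) : (Nat.card G).minFac ^ 3 ∣ Nat.card G ∨ 12 ∣ Nat.card G := by
  obtain ⟨x, y, hxy⟩ := hG
  have hcard : Nat.card G ≠ 1 := fun h => by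
    have := (Nat.card_eq_one_iff_unique.mp h).1
    exact hxy (Subsingleton.elim _ _)
  set p := (Nat.card G).minFac with hp
  have hpp : p.Prime := Nat.minFac_prime hcard
  have := Fact.mk hpp
  let P : Sylow p G := default
  obtain ⟨n, hn⟩ := P.2.exists_card_eq
  by_contra hcon
  rw [not_or] at hcon
  have hn2 : n ≤ 2 := by
    by_contra h
    exact hcon.1 ((pow_dvd_pow p (by omega)).trans (hn ▸ Subgroup.card_subgroup_dvd_card _))
  have hP : IsMulCommutative P :=
    CL.Grp.isMulCommutative_of_card_dvd_prime_sq (p := p) (hn ▸ pow_dvd_pow p hn2)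
  obtain ⟨Q, N, hN, hc⟩ := CL.Transfer.hasNormalPComplement_of_forall_not_dvd P hP hn
    fun q hq hne hqG j hj1 hj2 hd => by
      have h1 : p < q := lt_of_le_of_ne (Nat.minFac_le_of_dvd hq.two_le hqG) hne.symm
      have h2 := hpp.two_le
      have h3 : ¬ q ∣ p - 1 := fun h => absurd (Nat.le_of_dvd (by omega) h) (by omega)
      obtain rfl | rfl : j = 1 ∨ j = 2 := by omega
      · exact h3 (by simpa using hd)
      · have h4 : p ^ 2 - 1 = (p + 1) * (p - 1) := by simpa using Nat.sq_sub_sq p 1
        rw [h4] at hd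
        have h5 : q = p + 1 :=
          le_antisymm (Nat.le_of_dvd (by omega) (((Nat.Prime.dvd_mul hq).mp hd).resolve_right h3)) h1
        have h6 : p = 2 := by
          rcases hpp.eq_two_or_odd' with h | h
          · exact h
          · have := hq.eq_two_or_odd'.resolve_left (by omega)
            rw [h5] at this
            exact absurd (h.add_odd odd_one) (Nat.not_even_iff_odd.mpr this)
        have h7 : 4 ∣ Nat.card G := by
          have := Subgroup.card_subgroup_dvd_card (P : Subgroup G)
          rwa [hn, show n = 2 by omega, h6] at this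
        have h8 : 3 ∣ Nat.card G := by rwa [h5, h6] at hqG
        exact hcon.2 (Nat.Coprime.mul_dvd_of_dvd_of_dvd (by norm_num : Nat.Coprime 4 3) h7 h8)
  rcases hN.eq_bot_or_eq_top with rfl | rfl
  · have h1 : (Q : Subgroup G) = ⊤ := Subgroup.isComplement'_bot_left.mp hc
    have h2 : (P : Subgroup G) = ⊤ := by
      rw [← Subgroup.card_eq_iff_eq_top, Nat.card_congr (P.equiv Q).toEquiv, h1, Subgroup.card_top]
    have h3 := hP.1.1 ⟨x, show x ∈ (P : Subgroup G) from h2 ▸ Subgroup.mem_top x⟩
      ⟨y, show y ∈ (P : Subgroup G) from h2 ▸ Subgroup.mem_top y⟩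
    exact hxy (congrArg Subtype.val h3)
  · exact Q.ne_bot_of_dvd_card (Nat.minFac_dvd _) (Subgroup.isComplement'_top_left.mp hc)

end Cfsg.Agent.S0073
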