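import Cfsg.Statements.S0075
import Cfsg.Agent.Transfer.Control

set_option autoImplicit false
open Cfsg

namespace Cfsg.Agent.S0075

/-- For an abelian Sylow p-subgroup T, its intersection with the subgroup generated by the elements of order prime to p is the commutator of T with its normalizer. -/
theorem result {G : Type*} [Group G] [Finite G] {p : ℕ} [Fact p.Prime] (T : Sylow p G) (hT : IsMulCommutative T) : (T : Subgroup G) ⊓ Cfsg.pResidual p G = ⁅(T : Subgroup G), Subgroup.normalizer (T : Set G)⁆ := by
  refine le_antisymm ?_ (le_inf ?_ ?_)
  · rw [inf_comm]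
    exact (CL.Transfer.pResidual_inf_sylow_le_focal T).trans
      (CL.Transfer.focalSubgroup_le_commutator_of_fusion _ _
        (CL.Transfer.fusion_normalizer_of_comm T hT))
  · rw [Subgroup.commutator_le]
    intro x hx n hn
    have h1 : n * x⁻¹ * n⁻¹ ∈ T := (hn x⁻¹).mp (inv_mem hx)
    simpa [commutatorElement_def, mul_assoc] using mul_mem hx h1
  · exact (Subgroup.commutator_mono le_top le_top).trans
      (CL.Transfer.commutator_le_pResidual_of_comm T hT)

end Cfsg.Agent.S0075
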