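import Cfsg.Statements.S0083
import Cfsg.Agent.Transfer.Abelian
import Cfsg.Agent.Grp.PNilp

set_option autoImplicit false
open Cfsg

namespace Cfsg.Agent.S0083

/-- For an abelian Sylow p-subgroup P, a normal p-complement exists exactly when the normalizer of P is an internal direct product of P with some subgroup. -/
theorem result {G : Type*} [Group G] [Finite G] {p : ℕ} [Fact p.Prime] (P : Sylow p G) (hP : IsMulCommutative P) : Cfsg.HasNormalPComplement p G ↔ ∃ Q : Subgroup G, Q ≤ Subgroup.centralizer (P : Set G) ∧ Q ⊓ (P : Subgroup G) = ⊥ ∧ Q ⊔ (P : Subgroup G) = Subgroup.normalizer (P : Set G) := by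
  constructor
  · intro h
    have hc := CL.Grp.HasNormalPComplement.isComplement' h P
    have hN := CL.Transfer.pResidual_normal (G := G) p
    refine ⟨pResidual p G ⊓ Subgroup.normalizer (P : Set G), ?_, ?_, ?_⟩
    · intro x hx
      refine CL.Grp.mem_centralizer_of_mem_normalizer_of_disjoint (A := (P : Subgroup G))
        (K := pResidual p G) (by simp [Subgroup.normalizer_eq_top]) hc.disjoint.symm hx.1 hx.2
    · exact disjoint_iff.mp (hc.disjoint.mono_left inf_le_left)
    · refine le_antisymm (sup_le inf_le_right P.le_normalizer) fun g hg => ?_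
      obtain ⟨⟨k, y⟩, rfl⟩ := hc.2 g
      refine Subgroup.mul_mem_sup ⟨k.2, ?_⟩ y.2
      exact (Subgroup.mul_mem_cancel_right _ (P.le_normalizer y.2)).mp hg
  · rintro ⟨Q, hQ, -, hsup⟩
    exact CL.Transfer.hasNormalPComplement_of_normalizer_le_centralizer P
      (hsup ▸ sup_le hQ P.le_centralizer)

end Cfsg.Agent.S0083
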