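import Cfsg.Statements.S0090
import Cfsg.Agent.Transfer.Abelian

set_option autoImplicit false
open Cfsg

namespace Cfsg.Agent.S0090

/-- An abelian normal Hall subgroup A splits as the internal direct product of G' ∩ A and Z(G) ∩ A, and [A, G] = G' ∩ A. -/
theorem result {G : Type*} [Group G] [Finite G] (A : Subgroup G) [A.Normal] (hc : IsMulCommutative A) (hHall : Nat.Coprime (Nat.card A) A.index) : ⁅A, (⊤ : Subgroup G)⁆ = commutator G ⊓ A ∧ (commutator G ⊓ A) ⊓ (Subgroup.center G ⊓ A) = ⊥ ∧ (commutator G ⊓ A) ⊔ (Subgroup.center G ⊓ A) = A := by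
  have h1 : ⁅A, (⊤ : Subgroup G)⁆ = commutator G ⊓ A := by
    refine le_antisymm (le_inf (Subgroup.commutator_mono le_top le_rfl)
      (Subgroup.commutator_le_left _ _)) ?_
    rw [CL.Transfer.commutator_inf_eq_focal_of_hall A hHall]
    exact CL.Transfer.focalSubgroup_le_commutator_of_fusion A ⊤
      fun x _ g _ => ⟨g, Subgroup.mem_top g, rfl⟩
  refine ⟨h1, ?_, ?_⟩
  · have h := CL.Transfer.inf_commutator_inf_center_le_of_hall A hHall
    rw [Subgroup.commutator_self_eq_bot_iff.mpr hc] at h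
    exact le_bot_iff.mp fun x hx => h ⟨⟨hx.1.2, hx.1.1⟩, hx.2.1⟩
  · have h := CL.Transfer.commutator_sup_inf_centralizer_of_hall (N := ⊤) hc le_top
      (by simp [Subgroup.normalizer_eq_top]) (by rwa [Subgroup.relIndex_top_right])
    rwa [h1, Subgroup.coe_top, Subgroup.centralizer_univ, inf_comm A] at h

end Cfsg.Agent.S0090
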