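import Cfsg.Statements.S0092
import Cfsg.Agent.Grp.HallSystem
import Cfsg.Agent.Grp.Coprime
import Cfsg.Agent.Grp.PNilp
import Cfsg.Agent.Transfer.Abelian
import Cfsg.Agent.S0075

set_option autoImplicit false
open Cfsg
open scoped Pointwise IsMulCommutative

namespace Cfsg.Agent.S0092

/-- If the Sylow p-subgroups of O^p(G) are abelian then G splits over O^p(G). -/
theorem result {G : Type*} [Group G] [Finite G] {p : ℕ} [Fact p.Prime] (h : ∀ Q : Sylow p (Cfsg.pResidual p G), IsMulCommutative Q) : ∃ K : Subgroup G, K.IsComplement' (Cfsg.pResidual p G) := by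
  set K := Cfsg.pResidual p G with hK
  obtain ⟨Q₀⟩ : Nonempty (Sylow p K) := inferInstance
  have hc := h Q₀
  have h1 : (Q₀ : Subgroup K) ≤ commutator K := by
    have := Cfsg.Agent.S0075.result Q₀ hc
    rw [CL.Grp.pResidual_pResidual, inf_top_eq] at this
    rw [this]
    exact Subgroup.commutator_mono le_top le_top
  have h2 := CL.Transfer.commutator_inf_centralizer_normalizer_eq_bot Q₀ hc
  set Q := (Q₀ : Subgroup K).map K.subtype with hQ
  have hQS : CL.Grp.IsSylowIn p Q K := CL.Grp.isSylowIn_map_subtype Q₀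
  have hQM : Q ≤ K ⊓ Subgroup.normalizer (Q : Set G) := le_inf hQS.le Subgroup.le_normalizer
  have hcop : (Nat.card Q).Coprime (Q.relIndex (K ⊓ Subgroup.normalizer (Q : Set G))) := by
    obtain ⟨n, hn⟩ := hQS.isPGroup.exists_card_eq
    rw [hn]
    exact Nat.Coprime.pow_left n ((Nat.Prime.coprime_iff_not_dvd Fact.out).2
      (hQS.of_le hQM inf_le_left).not_dvd)
  obtain ⟨R, hR1, hR2, hR3, hR4⟩ := CL.Grp.exists_complement_in hQM inf_le_right hcop
  rw [← hR4] at hcop
  have h3 : ∀ x ∈ Q, x ∈ Subgroup.centralizer (R : Set G) → x = 1 := by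
    intro x hx hxR
    have h4 : Q ⊔ R ≤ Subgroup.centralizer {x} := sup_le
      (fun y hy => Subgroup.mem_centralizer_singleton_iff.2 (Q.le_centralizer hx y hy))
      (fun y hy => Subgroup.mem_centralizer_singleton_iff.2 (hxR y hy))
    rw [hR2] at h4
    obtain ⟨x, hx, rfl⟩ := hx
    have : x ∈ commutator K ⊓ ((Q₀ : Subgroup K) ⊓
        Subgroup.centralizer (Subgroup.normalizer (Q₀ : Set K) : Set K)) := by
      refine ⟨h1 hx, hx, fun y hy => Subtype.ext ?_⟩
      exact Subgroup.mem_centralizer_singleton_iff.1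
        (h4 ⟨y.2, Subgroup.le_normalizer_map K.subtype ⟨y, hy, rfl⟩⟩)
    rw [h2, Subgroup.mem_bot] at this
    rw [this]
    rfl
  set X := Subgroup.normalizer (R : Set G) ⊓ Subgroup.normalizer (Q : Set G) with hX
  have h5 : K ⊔ X = ⊤ := by
    rw [eq_top_iff]
    intro g _
    obtain ⟨n, hn, hy⟩ := hQS.frattini (H := ⊤) Subgroup.le_normalizer_of_normal (Subgroup.mem_top g)
    have hyQ := (CL.Grp.conj_smul_eq_self_iff _ _).2 hy
    have h6 : Q ⊔ MulAut.conj (n * g) • R = Q ⊔ R := by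
      conv_lhs => rw [← hyQ, ← Subgroup.smul_sup, hR2, Subgroup.smul_inf,
        Subgroup.Normal.conj_smul_eq_self, Subgroup.conj_smul_eq_self_of_mem hy, ← hR2]
    obtain ⟨q, hq, e⟩ := CL.Grp.schurZassenhaus_conj_of_sup_eq
      (le_sup_right.trans ((h6.trans hR2).le.trans inf_le_right))
      (by rwa [CL.Grp.hall_card_conj]) hcop h6 (Or.inl inferInstance)
    rw [← mul_smul, ← map_mul, CL.Grp.conj_smul_eq_self_iff] at e
    have h7 : g = n⁻¹ * (q⁻¹ * (q * (n * g))) := by group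
    rw [h7]
    exact Subgroup.mul_mem _ (Subgroup.mem_sup_left (K.inv_mem hn)) (Subgroup.mul_mem _
      (Subgroup.mem_sup_left (K.inv_mem (hQS.le hq)))
      (Subgroup.mem_sup_right ⟨e, Subgroup.mul_mem _ (Subgroup.le_normalizer hq) hy⟩))
  have h8 : K ⊓ X ≤ R := by
    intro x hx
    have h9 : x ∈ Q ⊔ R := hR2 ▸ ⟨hx.1, hx.2.2⟩
    obtain ⟨q, hq, r, hr, rfl⟩ :=
      (CL.Grp.mem_sup_iff_of_le_normalizer (hR1.trans inf_le_right)).1 h9
    have h10 : q ∈ Subgroup.normalizer (R : Set G) :=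
      (Subgroup.mul_mem_cancel_right _ (Subgroup.le_normalizer hr)).1 hx.2.1
    rw [h3 q hq (CL.Grp.mem_centralizer_of_mem_normalizer_of_disjoint (hR1.trans inf_le_right)
      (disjoint_iff.2 (by rw [inf_comm, hR3])) hq h10), one_mul]
    exact hr
  obtain ⟨S, hS⟩ := CL.Grp.exists_isSylowIn (p := p) X
  refine ⟨S, (CL.Grp.isComplement'_of_normal ?_ ?_).symm⟩
  · rw [eq_bot_iff]
    intro x hx
    refine CL.Grp.eq_one_of_coprime_of_mem hS.isPGroup hx.2 ?_
    refine Nat.Coprime.coprime_dvd_left (Subgroup.orderOf_dvd_natCard _ (h8 ⟨hx.1, hS.le hx.2⟩)) ?_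
    rw [hR4, Nat.coprime_comm, (Fact.out : p.Prime).coprime_iff_not_dvd]
    exact (hQS.of_le hQM inf_le_left).not_dvd
  · rw [eq_top_iff, ← h5]
    refine sup_le le_sup_left fun x hx => ?_
    obtain ⟨k, hk⟩ := CL.Grp.index_pResidual p G
    obtain ⟨j, -, hj⟩ := (Nat.dvd_prime_pow Fact.out).1
      (hk ▸ Subgroup.relIndex_dvd_index_of_normal K X)
    obtain ⟨a, ha, b, hb, rfl⟩ := hS.exists_mul_eq_of_relIndex_pow hj hx
    exact Subgroup.mul_mem_sup ha hb

end Cfsg.Agent.S0092
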