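import Cfsg.Statements.S0097
import Cfsg.Agent.Grp.ExtraBasic

set_option autoImplicit false
open Cfsg

namespace Cfsg.Agent.S0097

/-- For odd p and E extraspecial, the subgroup generated by the elements of order dividing p has exponent dividing p and index at most p. -/
theorem result {E : Type*} [Group E] [Finite E] {p : ℕ} [Fact p.Prime] (hp : p ≠ 2) (h : Cfsg.IsExtraspecial p E) : (Subgroup.closure {x : E | x ^ p = 1}).index ≤ p ∧ ∀ g ∈ Subgroup.closure {x : E | x ^ p = 1}, g ^ p = 1 := by
  have hpp : p.Prime := Fact.out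
  obtain ⟨n, H, -, -, -, hn⟩ := CL.Grp.extra_exists_heis h
  have key : Subgroup.closure {x : E | x ^ p = 1} = H.pre (LinearMap.ker (H.qLin hpp hp)) := by
    conv_rhs => rw [← Subgroup.closure_eq (H.pre _)]
    congr 1
    ext x
    exact H.q_eq_zero_iff.symm
  refine ⟨?_, fun g hg => by rw [key] at hg; exact H.q_eq_zero_iff.mp hg⟩
  have h1 := (H.pre (LinearMap.ker (H.qLin hpp hp))).card_mul_index
  have h2 := (H.qLin hpp hp).finrank_range_add_finrank_ker
  have h3 : Module.finrank (ZMod p) (LinearMap.range (H.qLin hpp hp)) ≤ 1 := by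
    simpa using (LinearMap.range (H.qLin hpp hp)).finrank_le
  rw [Module.finrank_fin_fun] at h2
  rw [H.card_pre_eq_pow, hn] at h1
  rw [key]
  refine Nat.le_of_mul_le_mul_left (h1.le.trans ?_) (pow_pos hpp.pos _)
  rw [← pow_succ]
  exact Nat.pow_le_pow_right hpp.pos (by omega)

end Cfsg.Agent.S0097
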