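import Cfsg.Statements.S0099
import Cfsg.Agent.Grp.ExtraTwo

set_option autoImplicit false
open Cfsg

namespace Cfsg.Agent.S0099

/-- Among three extraspecial 2-groups of equal order, some two are isomorphic. -/
theorem result {E₁ : Type*} {E₂ : Type*} {E₃ : Type*} [Group E₁] [Group E₂] [Group E₃] [Finite E₁] [Finite E₂] [Finite E₃] (h₁ : Cfsg.IsExtraspecial 2 E₁) (h₂ : Cfsg.IsExtraspecial 2 E₂) (h₃ : Cfsg.IsExtraspecial 2 E₃) (h12 : Nat.card E₁ = Nat.card E₂) (h23 : Nat.card E₂ = Nat.card E₃) : Nonempty (E₁ ≃* E₂) ∨ Nonempty (E₂ ≃* E₃) ∨ Nonempty (E₁ ≃* E₃) := by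
  obtain ⟨m, -, hm⟩ := CL.Grp.extra_card h₁
  have hm₂ := h12 ▸ hm
  have hm₃ := h23 ▸ hm₂
  by_cases a : Nat.card {x : E₂ // x ^ 2 = 1} = Nat.card {x : E₁ // x ^ 2 = 1}
  · exact Or.inl (CL.Grp.extra2_nonempty_mulEquiv h₁ h₂ h12.symm a)
  by_cases b : Nat.card {x : E₃ // x ^ 2 = 1} = Nat.card {x : E₂ // x ^ 2 = 1}
  · exact Or.inr (Or.inl (CL.Grp.extra2_nonempty_mulEquiv h₂ h₃ h23.symm b))
  refine Or.inr (Or.inr (CL.Grp.extra2_nonempty_mulEquiv h₁ h₃ (h12.trans h23).symm ?_))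
  rcases CL.Grp.extra2_card_sq_eq_one h₁ hm with c | c <;>
    rcases CL.Grp.extra2_card_sq_eq_one h₂ hm₂ with d | d <;>
      rcases CL.Grp.extra2_card_sq_eq_one h₃ hm₃ with e | e <;> omega

end Cfsg.Agent.S0099
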