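import Cfsg.Statements.S0102
import Cfsg.Agent.Transfer.Control

set_option autoImplicit false
open Cfsg

namespace Cfsg.Agent.S0102

/-- A finite perfect group with cyclic Sylow p-subgroups has no perfect central extension whose kernel has order divisible by p. -/
theorem result {G : Type*} {H : Type*} [Group G] [Group H] [Finite G] [Finite H] (hG : commutator G = ⊤) {p : ℕ} [Fact p.Prime] (hcyc : ∀ P : Sylow p G, IsCyclic P) (σ : H →* G) (hσ : Function.Surjective σ) (hz : σ.ker ≤ Subgroup.center H) (hH : commutator H = ⊤) : ¬ p ∣ Nat.card σ.ker := by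
  intro hd
  obtain ⟨z, hz'⟩ := exists_prime_orderOf_dvd_card' p hd
  have h1 : IsPGroup p (Subgroup.zpowers (z : H)) :=
    IsPGroup.of_card (n := 1) (by rw [Nat.card_zpowers, Subgroup.orderOf_coe, hz', pow_one])
  obtain ⟨P, hP⟩ := h1.exists_le_sylow
  have hc : IsCyclic ((P : Subgroup H).map σ) := hcyc (P.mapSurjective hσ)
  have hker : (σ.subgroupMap P).ker ≤ Subgroup.center P := by
    intro x hx
    rw [Subgroup.mem_center_iff]
    intro y
    exact Subtype.ext (Subgroup.mem_center_iff.mp (hz (congrArg Subtype.val hx)) y)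
  have hP' : IsMulCommutative P := ⟨⟨commutative_of_cyclic_center_quotient _ hker⟩⟩
  have h2 := CL.Transfer.inf_commutator_inf_center_le_of_hall (P : Subgroup H) P.card_coprime_index
    ⟨⟨hP (Subgroup.mem_zpowers _), hH ▸ Subgroup.mem_top _⟩, hz z.2⟩
  rw [Subgroup.commutator_self_eq_bot_iff.mpr hP', Subgroup.mem_bot] at h2
  rw [← Subgroup.orderOf_coe, h2, orderOf_one] at hz'
  exact (Fact.out : p.Prime).one_lt.ne hz'

end Cfsg.Agent.S0102
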