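import Cfsg.Statements.S0104
import Cfsg.Agent.Transfer.Control

set_option autoImplicit false
open Cfsg

namespace Cfsg.Agent.S0104

/-- A subgroup Z of a Sylow p-subgroup P that is normalized by N_G(P) is weakly closed in P exactly when it is normal in every Sylow p-subgroup containing it. -/
theorem result {G : Type*} [Group G] [Finite G] {p : ℕ} [Fact p.Prime] (P : Sylow p G) (Z : Subgroup G) (hZP : Z ≤ (P : Subgroup G)) (hZN : Subgroup.normalizer (P : Set G) ≤ Subgroup.normalizer (Z : Set G)) : Cfsg.IsWeaklyClosed Z P ↔ ∀ R : Sylow p G, Z ≤ (R : Subgroup G) → (R : Subgroup G) ≤ Subgroup.normalizer (Z : Set G) := by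
  have hPN : (P : Subgroup G) ≤ Subgroup.normalizer (Z : Set G) := P.le_normalizer.trans hZN
  constructor
  · intro hW R hR
    obtain ⟨g, rfl⟩ := MulAction.exists_smul_eq G P R
    have h1 : g⁻¹ ∈ Subgroup.normalizer (Z : Set G) := by
      refine (CL.Grp.conj_smul_eq_self_iff _ Z).mp (hW.2 _ ?_)
      rw [← CL.Grp.conj_smul_eq_map, CL.Grp.conj_smul_le_iff]
      intro z hz
      rw [inv_inv]
      exact (CL.Grp.mem_sylow_smul_iff g z P).mp (hR hz)
    intro x hx
    have h2 := hPN ((CL.Grp.mem_sylow_smul_iff g x P).mp hx)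
    rwa [Subgroup.mul_mem_cancel_right _ (inv_mem_iff.mp h1), Subgroup.mul_mem_cancel_left _ h1] at h2
  · intro h
    refine ⟨hZP, fun g hg => ?_⟩
    rw [← CL.Grp.conj_smul_eq_map] at hg ⊢
    have h1 : Z ≤ (g⁻¹ • P : Sylow p G) := by
      intro z hz
      exact (CL.Grp.mem_sylow_smul_iff g⁻¹ z P).mpr
        (by rw [inv_inv]; exact (CL.Grp.conj_smul_le_iff g Z P).mp hg z hz)
    obtain ⟨n, hn, e⟩ := (CL.Grp.isSylowIn_of_le _ (h _ h1)).exists_conj_eq
      (CL.Grp.isSylowIn_of_le P hPN)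
    rw [Sylow.coe_subgroup_smul, CL.Grp.conj_smul_conj_smul, CL.Grp.conj_smul_eq_self_iff] at e
    rw [CL.Grp.conj_smul_eq_self_iff]
    exact inv_mem_iff.mp ((Subgroup.mul_mem_cancel_left _ hn).mp (hZN e))

end Cfsg.Agent.S0104
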