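import Cfsg.Statements.S0107
import Cfsg.Agent.Transfer.Control
import Cfsg.Agent.Grp.PGroupDQS
import Cfsg.Agent.Even.RankOne

set_option autoImplicit false
open Cfsg

namespace Cfsg.Agent.S0107

/-- A finite group with no nontrivial 2-group quotient and dihedral Sylow 2-subgroups of order at least 8 has a single class of involutions. -/
theorem result {G : Type*} [Group G] [Finite G] (T : Sylow 2 G) (n : ℕ) (hn : 2 ≤ n) (hT : Nonempty ((T : Subgroup G) ≃* DihedralGroup (2 ^ n))) (hO : Cfsg.pResidual 2 G = ⊤) (x y : G) (hx : orderOf x = 2) (hy : orderOf y = 2) : ∃ g : G, g * x * g⁻¹ = y := by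
  obtain ⟨e⟩ := hT
  obtain ⟨a, b, hab, -⟩ := CL.Grp.exists_dqsGen_of_dihedral hn e
  have hM : (Subgroup.zpowers (a : G)).relIndex T = 2 := by
    refine Eq.trans ?_ hab.index
    rw [← Subgroup.relIndex_top_right,
      ← Subgroup.relIndex_map_map_of_injective _ _ (T : Subgroup G).subtype_injective,
      MonoidHom.map_zpowers, ← MonoidHom.range_eq_map, Subgroup.range_subtype]
    rfl
  have key : ∀ u : G, orderOf u = 2 → ∃ g : G, g * u * g⁻¹ ∈ Subgroup.zpowers (a : G) := by
    intro u hu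
    by_contra h
    obtain ⟨N, -, hN, -⟩ := CL.Transfer.thompson_transfer (T : Subgroup G) _
      (CL.Transfer.odd_index_sylow_two T) hM u (hu ▸ pow_orderOf_eq_one u) (not_exists.mp h)
    exact CL.Transfer.index_ne_two_of_pResidual_eq_top hO N hN
  obtain ⟨g, hg⟩ := key x hx
  obtain ⟨h, hh⟩ := key y hy
  have hx' : orderOf (g * x * g⁻¹) = 2 := hx ▸ (MulAut.conj g).orderOf_eq x
  have hy' : orderOf (h * y * h⁻¹) = 2 := hy ▸ (MulAut.conj h).orderOf_eq y
  have h1 := CL.Even.uniqueOrderP_of_isCyclic (p := 2) (T := Subgroup.zpowers (a : G)) inferInstance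
    _ hh _ hg hy' (hx' ▸ pow_orderOf_eq_one _)
  have h2 : g * x * g⁻¹ = h * y * h⁻¹ := by
    classical
    rw [mem_zpowers_iff_mem_range_orderOf, hy'] at h1
    obtain ⟨k, hk, e⟩ := Finset.mem_image.mp h1
    have : k < 2 := Finset.mem_range.mp hk
    interval_cases k
    · rw [← e, pow_zero, orderOf_one] at hx'; omega
    · rw [← e, pow_one]
  exact ⟨h⁻¹ * g, by rw [mul_inv_rev, inv_inv, mul_assoc h⁻¹, mul_assoc h⁻¹, ← mul_assoc (g * x), h2]; group⟩

end Cfsg.Agent.S0107
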