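import Cfsg.Statements.S0109
import Cfsg.Agent.Grp.ThompsonNPC

set_option autoImplicit false
open Cfsg

namespace Cfsg.Agent.S0109

/-- The Thompson factorization Theorem for solvable groups states that, with p odd (and abelian Sylow 2-subgroups when p = 3) and no nontrivial normal subgroup of order prime to p, every element of G is a product of an element normalizing J(P) and an element centralizing the elements of order dividing p in the centre of P. -/
theorem result {G : Type*} [Group G] [Finite G] {p : ℕ} [Fact p.Prime] (hp : p ≠ 2) (hs : Group.IsSolvable G) (h3 : p = 3 → ∀ T : Sylow 2 G, IsMulCommutative T) (hF : ∀ N : Subgroup G, N.Normal → Nat.Coprime (Nat.card N) p → N = ⊥) (P : Sylow p G) (g : G) : ∃ a ∈ Subgroup.normalizer (Cfsg.thompsonSubgroupOf p (P : Subgroup G) : Set G), ∃ c ∈ Subgroup.centralizer {x : G | x ∈ (P : Subgroup G) ∧ (∀ y ∈ (P : Subgroup G), x * y = y * x) ∧ x ^ p = 1}, g = a * c := by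
  have hO : pPrimeCore p G = ⊥ := hF _ inferInstance (CL.Grp.pPrimeCore_coprime p G)
  obtain ⟨c, hc, n, hn, e⟩ := CL.Grp.thompson_factorization_of_stable
    (CL.Loc.centralizer_pCore_le_of_isPSolvable (CL.Loc.isPSolvable_of_isSolvable hs) hO)
    (fun V _ hV => CL.Grp.isPStableOn_of_isSolvable hp hs
      (fun h => CL.Grp.abelianTwo_of_sylow (h3 h)) V (CL.Loc.ea_isPGroup hV)) P g⁻¹
  refine ⟨n⁻¹, inv_mem hn, c⁻¹, inv_mem ?_, by rw [← mul_inv_rev, ← e, inv_inv]⟩
  rintro x ⟨h1, h2, h3⟩
  exact hc x (CL.Loc.mem_omegaOne ⟨h1, fun y hy => (h2 y hy).symm⟩ h3)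

end Cfsg.Agent.S0109
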