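import Cfsg.Statements.S0115
import Cfsg.Agent.Grp.PGroupMaxClass

set_option autoImplicit false
open Cfsg

namespace Cfsg.Agent.S0115

/-- A 2-group of order 2^n, n ≥ 3, is of maximal class exactly when its commutator quotient is a Klein four-group. -/
theorem result {X : Type*} [Group X] [Finite X] (n : ℕ) (hn : 3 ≤ n) (hX : Nat.card X = 2 ^ n) : Group.nilpotencyClass X = n - 1 ↔ IsKleinFour (X ⧸ commutator X) := by
  refine ⟨fun hc => ?_, fun h => ?_⟩
  · obtain ⟨a, b, h⟩ := CL.Grp.exists_dqsGen_of_maxClass hX hn hc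
    exact h.isKleinFour_quotient_commutator
  · obtain ⟨a, b, h⟩ := CL.Grp.exists_dqsGen_of_index_commutator_le (n := n - 1) (by omega) X
      (by rw [hX, Nat.sub_add_cancel (by omega)]) h.card_four.le
    exact h.nilpotencyClass_eq

end Cfsg.Agent.S0115
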