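import Cfsg.Statements.S0116
import Cfsg.Agent.Grp.Alperin

set_option autoImplicit false
open Cfsg

namespace Cfsg.Agent.S0116

open CL.Grp in
theorem aux {G : Type*} [Group G] {p : ℕ} (P : Sylow p G) (A : Set G) (g : G)
    (h : AlperinChain P A g) :
    ∃ (n : ℕ) (Q : Fin n → Sylow p G) (x : Fin n → G), (List.ofFn x).prod = g ∧
      (∀ i : Fin n, x i ∈ Subgroup.normalizer (((P : Subgroup G) ⊓ (Q i : Subgroup G) : Subgroup G) : Set G) ∧
        IsTameInter p (P : Subgroup G) (Q i)) ∧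
      ∀ i : Fin n, (fun a => (((List.ofFn x).take i.val).prod)⁻¹ * a * ((List.ofFn x).take i.val).prod) '' A ⊆
        (((P : Subgroup G) ⊓ (Q i : Subgroup G) : Subgroup G) : Set G) := by
  induction h with
  | nil A => exact ⟨0, Fin.elim0, Fin.elim0, by simp, fun i => i.elim0, fun i => i.elim0⟩
  | cons A Q x g ht hx hA _ ih =>
    obtain ⟨n, Qs, xs, h1, h2, h3⟩ := ih
    refine ⟨n + 1, Fin.cons Q Qs, Fin.cons x xs, by simp [List.ofFn_succ, h1], fun i => ?_, fun i => ?_⟩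
    · refine Fin.cases ?_ (fun j => ?_) i
      · exact ⟨hx, ht⟩
      · exact h2 j
    · refine Fin.cases ?_ (fun j => ?_) i
      · simpa using hA
      · have := h3 j
        rw [Set.image_image] at this
        simpa [List.ofFn_succ, mul_assoc] using this

/-- The Alperin fusion Theorem states that conjugation between subsets of a Sylow p-subgroup P factors through normalizers of tame intersections P ∩ Q_i with other Sylow p-subgroups, carrying the subset along step by step. -/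
theorem result {G : Type*} [Group G] [Finite G] {p : ℕ} [Fact p.Prime] (P : Sylow p G) (A : Set G) (g : G) (hA : A ⊆ (P : Set G)) (hAg : (fun a => g⁻¹ * a * g) '' A ⊆ (P : Set G)) : ∃ (n : ℕ) (Q : Fin n → Sylow p G) (x : Fin n → G), (List.ofFn x).prod = g ∧ (∀ i : Fin n, x i ∈ Subgroup.normalizer ((((P : Subgroup G) ⊓ (Q i : Subgroup G)) : Subgroup G) : Set G) ∧ ¬ p ∣ ((P : Subgroup G) ⊓ Subgroup.normalizer ((((P : Subgroup G) ⊓ (Q i : Subgroup G)) : Subgroup G) : Set G)).relIndex (Subgroup.normalizer ((((P : Subgroup G) ⊓ (Q i : Subgroup G)) : Subgroup G) : Set G)) ∧ ¬ p ∣ ((Q i : Subgroup G) ⊓ Subgroup.normalizer ((((P : Subgroup G) ⊓ (Q i : Subgroup G)) : Subgroup G) : Set G)).relIndex (Subgroup.normalizer ((((P : Subgroup G) ⊓ (Q i : Subgroup G)) : Subgroup G) : Set G))) ∧ (∀ h : 0 < n, A ⊆ (((P : Subgroup G) ⊓ (Q ⟨0, h⟩ : Subgroup G) : Subgroup G) : Set G)) ∧ ∀ i : Fin n, ∀ h : i.val + 1 < n, (fun a => (((List.ofFn x).take (i.val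 + 1)).prod)⁻¹ * a * ((List.ofFn x).take (i.val + 1)).prod) '' A ⊆ (((P : Subgroup G) ⊓ (Q ⟨i.val + 1, h⟩ : Subgroup G) : Subgroup G) : Set G) := by
  obtain ⟨n, Q, x, h1, h2, h3⟩ :=
    aux P A g (CL.Grp.alperinChain P A g hA fun a ha => hAg ⟨a, ha, rfl⟩)
  refine ⟨n, Q, x, h1, fun i => ⟨(h2 i).1, (h2 i).2.1.not_dvd, (h2 i).2.2.not_dvd⟩, fun h => ?_,
    fun i h => h3 ⟨i.val + 1, h⟩⟩
  simpa using h3 ⟨0, h⟩

end Cfsg.Agent.S0116
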