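import Cfsg.Statements.S0125
import Cfsg.Agent.Transfer.Control
import Cfsg.Agent.Grp.PNilp
import Cfsg.Agent.Grp.Cores
import Cfsg.Agent.Grp.Coprime

set_option autoImplicit false
open Cfsg

namespace Cfsg.Agent.S0125

/-- The centralizer of a self-centralizing normal subgroup A of a Sylow p-subgroup is the direct product of A with a normal p'-subgroup. -/
theorem result {G : Type*} [Group G] [Finite G] {p : ℕ} [Fact p.Prime] (R : Sylow p G) (A : Subgroup G) (hAR : A ≤ (R : Subgroup G)) (hAn : (R : Subgroup G) ≤ Subgroup.normalizer (A : Set G)) (hC : (R : Subgroup G) ⊓ Subgroup.centralizer (A : Set G) = A) : ∃ H : Subgroup G, H ≤ Subgroup.centralizer (A : Set G) ∧ Nat.Coprime (Nat.card H) p ∧ Subgroup.centralizer (A : Set G) ≤ Subgroup.normalizer (H : Set G) ∧ H ⊓ A = ⊥ ∧ H ⊔ A = Subgroup.centralizer (A : Set G) := by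
  set C := Subgroup.centralizer (A : Set G) with hCdef
  have hAC : A ≤ C := hC.ge.trans inf_le_right
  have h1 : CL.Grp.IsSylowIn p A C := by
    rw [← hC]
    exact (CL.Grp.isSylowIn_of_le R hAn).inf_of_normalized (Subgroup.centralizer_le_normalizer _)
      (CL.Grp.le_normalizer_centralizer' le_rfl)
  have h2 : Cfsg.HasNormalPComplement p C :=
    CL.Grp.hasNormalPComplement_of_sylow_le_center h1.toSylow fun x hx =>
      Subgroup.mem_center_iff.mpr fun y => Subtype.ext (y.2 x hx).symm
  have hc := CL.Grp.HasNormalPComplement.isComplement' h2 h1.toSylow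
  have hN := CL.Transfer.pResidual_normal (G := C) p
  refine ⟨(pResidual p C).map C.subtype, Subgroup.map_subtype_le _, ?_,
    CL.Grp.le_normalizer_map_subtype _, ?_, ?_⟩
  · rw [CL.Grp.card_map_subtype]
    exact CL.Grp.hasNormalPComplement_iff_coprime_pResidual.mp h2
  · rw [← h1.map_toSylow, ← Subgroup.map_inf _ _ _ C.subtype_injective,
      disjoint_iff.mp hc.disjoint, Subgroup.map_bot]
  · conv_lhs => rw [← h1.map_toSylow]
    rw [← Subgroup.map_sup, hc.sup_eq_top, ← MonoidHom.range_eq_map, Subgroup.range_subtype]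

end Cfsg.Agent.S0125
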