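import Cfsg.Statements.S0152
import Cfsg.Agent.Char.Orth2

set_option autoImplicit false
open Cfsg

namespace Cfsg.Agent.S0152

/-- A class function on a finite group is the sum over the irreducible characters χ of its inner product with χ times χ. -/
theorem result {G : Type*} [Group G] [Fintype G] (ψ : G → ℂ) (hψ : Cfsg.IsClassFunction G ψ) : ψ = ∑ᶠ χ : Cfsg.IrrCharacter G, Cfsg.classInner ψ χ • (χ : G → ℂ) := by
  rw [CL.Char.finsum_irr_eq_sum]
  exact hψ.eq_sum_irr

end Cfsg.Agent.S0152
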