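import Cfsg.Statements.S0166
import Cfsg.Agent.Char.SplitField

set_option autoImplicit false
open Cfsg

namespace Cfsg.Agent.S0166

/-- Brauer's splitting field Theorem: a complex representation of a finite group of exponent m is equivalent to a representation by matrices with entries in ℚ adjoined exp(2πi/m). -/
theorem result {G : Type*} [Group G] [Finite G] (n : ℕ) (ρ : Representation ℂ G (Fin n → ℂ)) : ∃ σ : Representation ℂ G (Fin n → ℂ), Nonempty (ρ.Equiv σ) ∧ ∀ g : G, ∀ i j : Fin n, LinearMap.toMatrix' (σ g) i j ∈ Algebra.adjoin ℚ ({Complex.exp (2 * Real.pi * Complex.I / (Monoid.exponent G : ℂ))} : Set ℂ) := by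
  classical
  let _ := Fintype.ofFinite G
  set m := Monoid.exponent G with hm
  have hm0 : m ≠ 0 := Monoid.exponent_ne_zero_of_finite
  have hζ := Complex.isPrimitiveRoot_exp m hm0
  set ζ := Complex.exp (2 * Real.pi * Complex.I / (m : ℂ)) with hζdef
  have : NeZero m := ⟨hm0⟩
  let K : Subfield ℂ := (IntermediateField.adjoin ℚ ({ζ} : Set ℂ)).toSubfield
  have hK : ∀ z : ℂ, z ^ Monoid.exponent G = 1 → z ∈ K := by
    intro z hz
    obtain ⟨i, -, rfl⟩ := hζ.eq_pow_of_pow_eq_one hz
    exact K.pow_mem (IntermediateField.subset_adjoin ℚ ({ζ} : Set ℂ) rfl) i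
  obtain ⟨k, B, hB, hχ⟩ :=
    (CL.Char.isRealizableOver_of_roots hK (CL.Char.isCharacter_character ρ)).exists_matrix
  have hk : k = n := by
    have := hχ 1
    rw [Representation.char_one, map_one, Matrix.trace_one] at this
    simpa using this.symm
  subst hk
  let σ : Representation ℂ G (Fin k → ℂ) := (Matrix.toLinAlgEquiv' (R := ℂ) (n := Fin k)).toMonoidHom.comp B
  have h1 : ∀ g, σ g = Matrix.toLin' (B g) := fun g => rfl
  refine ⟨σ, CL.Char.nonempty_equiv_of_character_eq ρ σ (funext fun g => ?_), fun g i j => ?_⟩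
  · rw [hχ, Representation.character, h1, Matrix.trace_toLin'_eq]
  · rw [h1, LinearMap.toMatrix'_toLin', ← IntermediateField.adjoin_toSubalgebra_of_isAlgebraic]
    · exact hB g i j
    · rintro x rfl
      exact ((hζ.isIntegral (Nat.pos_of_ne_zero hm0)).tower_top (A := ℚ)).isAlgebraic

end Cfsg.Agent.S0166
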