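import Cfsg.Statements.S0172
import Cfsg.Agent.Char.FixedPointFree

set_option autoImplicit false
open Cfsg

namespace Cfsg.Agent.S0172

/-- Class number of a Frobenius group: if G = K H with K normal, K ⊓ H trivial and no non-identity element of H commuting with a non-identity element of K, then |H| * k(G) + 1 = |H| * k(H) + k(K), where k denotes the number of conjugacy classes. -/
theorem result {G : Type*} [Group G] [Finite G] (K H : Subgroup G) [K.Normal] (hKH : K ⊓ H = ⊥) (hKH' : K ⊔ H = ⊤) (hfpf : ∀ h ∈ H, h ≠ 1 → ∀ k ∈ K, h * k = k * h → k = 1) : Nat.card H * Nat.card (ConjClasses G) + 1 = Nat.card H * Nat.card (ConjClasses H) + Nat.card (ConjClasses K) := by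
  classical
  have : Fintype G := Fintype.ofFinite _
  have hG := CL.Char.card_conjClasses_mul_card_eq_sum G
  have hK := CL.Char.card_conjClasses_mul_card_eq_sum K
  have hH := CL.Char.card_conjClasses_mul_card_eq_sum H
  have hc : Subgroup.IsComplement' K H :=
    Subgroup.isComplement'_of_disjoint_and_mul_eq_univ (disjoint_iff.mpr hKH)
      (by rw [← Subgroup.normal_mul, hKH']; rfl)
  have hcard : Nat.card K * Nat.card H = Nat.card G := hc.card_mul_card
  let c : G → ℕ := fun g => Nat.card (Subgroup.centralizer ({g} : Set G))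
  have e : ∑ g : G, c g = ∑ h : H, ∑ k : K, c (k * h) := by
    rw [Finset.sum_comm, ← Fintype.sum_prod_type']
    exact (Fintype.sum_bijective (fun p : K × H => (p.1 : G) * p.2) hc _ _ fun _ => rfl).symm
  have c1 : ∀ (L : Type _) [Group L], Nat.card (Subgroup.centralizer ({1} : Set L)) = Nat.card L := by
    intro L _
    have : Subgroup.centralizer ({1} : Set L) = ⊤ := by
      ext x; simp [Subgroup.mem_centralizer_singleton_iff]
    rw [this, Subgroup.card_top]
  rw [← Finset.add_sum_erase _ _ (Finset.mem_univ (1 : H))] at e hH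
  rw [← Finset.add_sum_erase _ _ (Finset.mem_univ (1 : K))] at e hK
  have e1 : ∑ k ∈ Finset.univ.erase (1 : K), c (k * ((1 : H) : G)) =
      ∑ k ∈ Finset.univ.erase (1 : K), Nat.card (Subgroup.centralizer ({k} : Set K)) := by
    refine Finset.sum_congr rfl fun k hk => ?_
    have hk1 : (k : G) ≠ 1 := fun h => (Finset.mem_erase.mp hk).1 (Subtype.ext h)
    rw [CL.Char.card_centralizer_subgroup K k fun g hg => CL.Char.frob_mem_of_commute hKH' hfpf g k k.2 hk1 hg]
    simp [c]
  have e2 : ∑ h ∈ Finset.univ.erase (1 : H), ∑ k : K, c (k * h) =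
      Nat.card K * ∑ h ∈ Finset.univ.erase (1 : H), Nat.card (Subgroup.centralizer ({h} : Set H)) := by
    rw [Finset.mul_sum]
    refine Finset.sum_congr rfl fun h hh => ?_
    have hh1 : (h : G) ≠ 1 := fun e => (Finset.mem_erase.mp hh).1 (Subtype.ext e)
    rw [CL.Char.card_centralizer_subgroup H h fun g hg =>
      CL.Char.frob_mem_compl_of_commute hKH hKH' hfpf g h h.2 hh1 hg, Nat.card_eq_fintype_card (α := K),
      ← Finset.card_univ, ← smul_eq_mul, ← Finset.sum_const]
    refine Finset.sum_congr rfl fun k _ => ?_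
    obtain ⟨x, -, hx⟩ := CL.Char.exists_conj_eq_mul_of_fpf K h (fun n hn e => hfpf h h.2 hh1 n hn e.symm) k k.2
    rw [← hx]
    exact CL.Char.card_centralizer_conj _ _
  have e3 : c (((1 : K) : G) * ((1 : H) : G)) = Nat.card G := by
    simp only [OneMemClass.coe_one, mul_one, c]; exact c1 G
  rw [e1, e2, e3] at e
  rw [c1] at hK hH
  change _ = ∑ g : G, c g at hG
  rw [e, ← hcard] at hG
  have hpos : 0 < Nat.card K := Nat.card_pos
  apply Nat.eq_of_mul_eq_mul_left hpos
  nlinarith

end Cfsg.Agent.S0172
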