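import Cfsg.Statements.S0180
import Cfsg.Agent.Char.Orth2
import Cfsg.Agent.Char.Galois

set_option autoImplicit false
open Cfsg

namespace Cfsg.Agent.S0180

/-- Every irreducible complex character of a finite group takes only rational values if and only if g is conjugate to g ^ m for every element g and every m coprime to the group order. -/
theorem result {G : Type*} [Group G] [Finite G] : (∀ χ : Cfsg.IrrCharacter G, ∀ g : G, ∃ q : ℚ, (χ : G → ℂ) g = (q : ℂ)) ↔ ∀ m : ℕ, m.Coprime (Nat.card G) → ∀ g : G, IsConj g (g ^ m) := by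
  constructor
  · intro h m hm g
    obtain ⟨σ, hσ⟩ := CL.Char.exists_ringEquiv_map_genChar_eq_pow (G := G) hm
    rw [CL.Char.isConj_iff_forall_irr]
    intro χ
    rw [← hσ χ χ.2.isGeneralizedCharacter]
    obtain ⟨q, hq⟩ := h χ g
    rw [hq, map_ratCast]
  · intro h χ g
    refine CL.Char.exists_rat_of_forall_ringEquiv
      (CL.Char.isChar_isIntegral χ.2.isCharacter g).tower_top fun σ => ?_
    obtain ⟨m, hm, hσ⟩ := CL.Char.exists_map_genChar_eq_pow (G := G) σ.toRingHom
    exact (hσ χ χ.2.isGeneralizedCharacter g).trans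
      (χ.2.isClassFunction.apply_eq_of_isConj (h m hm g)).symm

end Cfsg.Agent.S0180
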