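import Cfsg.Statements.S1526
import Cfsg.Agent.Odd.PF7Frob
import Cfsg.Agent.Grp.ThompsonFpf
import Cfsg.Agent.S1524

set_option autoImplicit false
open Cfsg

namespace Cfsg.Agent.S1526

/-- Let G be a finite group of odd order and (L i, H i), i in a finite index type with at least two elements, pairs of subgroups with H i a nontrivial proper normal subgroup of L i such that every non-identity element of H i has its centraliser within L i contained in H i (L i is a Frobenius group with kernel H i), the orders of the H i pairwise coprime, and the underlying set of each H i a TI-subset of G with normaliser L i. If every non-identity element of G is conjugate to an element of some H i, we reach a contradiction. -/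
theorem result {G : Type*} [Group G] [Finite G] (hodd : Odd (Nat.card G)) {ι : Type*} [Fintype ι] (hι : 2 ≤ Fintype.card ι) (L H : ι → Subgroup G) (hHL : ∀ i, H i < L i) (hH1 : ∀ i, H i ≠ ⊥) (hHn : ∀ i, ∀ x ∈ L i, ∀ h ∈ H i, x * h * x⁻¹ ∈ H i) (hfrob : ∀ i, ∀ h ∈ H i, h ≠ 1 → L i ⊓ Subgroup.centralizer ({h} : Set G) ≤ H i) (hcop : ∀ i j, i ≠ j → Nat.Coprime (Nat.card (H i)) (Nat.card (H j))) (hTI : ∀ i, Cfsg.IsTISubset (H i : Set G) ∧ Subgroup.normalizer (H i : Set G) = L i) (hcover : ∀ g : G, g ≠ 1 → ∃ i, ∃ x : G, x * g * x⁻¹ ∈ H i) : False := by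
  open CL.Odd in
  let _ : Fintype G := Fintype.ofFinite G
  let _ : ∀ i, Fintype (L i) := fun i => Fintype.ofFinite _
  have : Nonempty ι := Fintype.card_pos_iff.1 (by omega)
  have hF : ∀ i, FrobKer (L i) (H i) := fun i =>
    FrobKer.iff.2 ⟨hH1 i, hHL i, ⟨(hHL i).le, le_norm_iff.2 (hHn i)⟩, hfrob i⟩
  have hnil : ∀ i, Group.IsNilpotent (H i) := fun i => by
    obtain ⟨R, hR⟩ := hF i
    exact CL.Grp.isNilpotent_of_fpf_subgroup hR.compl_ne hR.norm hR.reg
  refine no_coherent_frobenius_partition hodd L H hF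
    (fun i => (der_lt_of_solvable (sol_of_nil (hnil i)) (hH1 i)).ne) (fun i => (hTI i).1) (fun i => (hTI i).2)
    hcop (fun i => ?_) hcover
  obtain ⟨R, hR⟩ := hF i
  exact Cfsg.Agent.S1524.result (H i) (L i) R (hodd.of_dvd_nat (L i).card_subgroup_dvd_card) (hHL i).le
    hR.compl_le (hH1 i) hR.compl_ne (hnil i) (hHn i) hR.inf_eq hR.sup_eq
    (fun w hw h1 h hh e => hR.reg.eq_one hw h1 hh e.symm) (hTI i).1 (hTI i).2

end Cfsg.Agent.S1526
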