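import Cfsg.Statements.S0183
import Cfsg.Agent.Char.CN4
import Cfsg.Agent.S1526

set_option autoImplicit false
open Cfsg

namespace Cfsg.Agent.S0183

/-- The CN-Theorem for odd order: a finite group of odd order in which every non-identity element has a nilpotent centralizer (a CN-group) is solvable. -/
theorem result {G : Type*} [Group G] [Finite G] (hodd : Odd (Nat.card G)) (hCN : Cfsg.IsCNGroup G) : Group.IsSolvable G := by
  refine CL.CN.isSolvable_of_forall_minSimple (fun X _ _ hX hXCN => ?_) G hodd hCN
  obtain ⟨ι, _, L, H, h1, h2, h3, h4, h5, h6, h7, h8⟩ := CL.CN.exists_partition hX hXCN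
  exact Cfsg.Agent.S1526.result hX.1 h1 L H h2 h3 h4 h5 h6 h7 h8

end Cfsg.Agent.S0183
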