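import Cfsg.Statements.S0186
import Cfsg.Agent.Char.Faithful

set_option autoImplicit false
open Cfsg

namespace Cfsg.Agent.S0186

/-- Let G be a finite simple group of order n and p a prime dividing n. If G has more than n / p^2 conjugacy classes, then every Sylow p-subgroup of G is abelian. -/
theorem result {G : Type*} [Group G] [Finite G] [IsSimpleGroup G] (p : ℕ) [Fact p.Prime] (hp : p ∣ Nat.card G) (hmany : Nat.card G < p ^ 2 * Nat.card (ConjClasses G)) (P : Sylow p G) (a b : G) (ha : a ∈ P) (hb : b ∈ P) : a * b = b * a := by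
  classical
  by_contra hab
  have hpp : p.Prime := Fact.out
  have hnc : ¬ ∀ x y : (P : Subgroup G), x * y = y * x := fun h =>
    hab (congrArg Subtype.val (h ⟨a, ha⟩ ⟨b, hb⟩))
  have h1 : p ^ 2 ∣ Nat.card G := by
    obtain ⟨k, hk⟩ := IsPGroup.iff_card.mp P.isPGroup'
    refine dvd_trans ?_ (Subgroup.card_subgroup_dvd_card (P : Subgroup G))
    rw [hk]
    refine pow_dvd_pow p ?_
    by_contra hlt
    have hcyc : IsCyclic (P : Subgroup G) := by
      refine isCyclic_of_card_dvd_prime (p := p) ?_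
      rw [hk]
      calc p ^ k ∣ p ^ 1 := pow_dvd_pow p (by omega)
        _ = p := pow_one p
    exact hnc fun x y => mul_comm' x y
  have h2 := CL.Char.sum_charDegree_sq (G := G)
  rw [← Finset.add_sum_erase _ _ (Finset.mem_univ (CL.Char.irrOne G))] at h2
  have h3 : (Finset.univ.erase (CL.Char.irrOne G)).card • p ^ 2 ≤
      ∑ χ ∈ Finset.univ.erase (CL.Char.irrOne G), charDegree (χ : G → ℂ) ^ 2 := by
    refine Finset.card_nsmul_le_sum _ _ _ fun χ hχ => Nat.pow_le_pow_left ?_ 2
    refine CL.Char.prime_le_charDegree_of_faithful χ.2.isCharacter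
      (χ.2.charKer_eq_bot_of_simple fun h => ?_) P.isPGroup' hnc
    exact (Finset.mem_erase.mp hχ).1 (Subtype.ext h)
  have h4 := (CL.Char.irrOne G).2.charDegree_pos
  rw [Finset.card_erase_of_mem (Finset.mem_univ _), Finset.card_univ, ← Nat.card_eq_fintype_card,
    CL.Char.card_irr_eq_card_conjClasses, smul_eq_mul] at h3
  obtain ⟨m, hm⟩ := h1
  rw [hm] at hmany h2
  have h5 : m < Nat.card (ConjClasses G) := lt_of_mul_lt_mul_left hmany (Nat.zero_le _)
  have h6 : m * p ^ 2 ≤ (Nat.card (ConjClasses G) - 1) * p ^ 2 :=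
    Nat.mul_le_mul_right _ (by omega)
  have h7 := Nat.pow_pos (n := 2) h4
  rw [mul_comm] at h6
  omega

end Cfsg.Agent.S0186
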