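import Cfsg.Statements.S0193
import Cfsg.Agent.Char.BrauerPerm

set_option autoImplicit false
open Cfsg

namespace Cfsg.Agent.S0193

/-- Let H be a normal subgroup of a finite group G and θ an irreducible character of H. Then |H| times the inner product of the induced function of θ with itself equals the number of g in G with θ(g h g⁻¹) = θ(h) for all h in H; in particular the induced character is irreducible when only elements of H stabilise θ. -/
theorem result {G : Type*} [Group G] [Fintype G] (H : Subgroup G) [hN : H.Normal] (θ : H → ℂ) (hθ : Cfsg.IsIrrCharacter H θ) : (Nat.card H : ℂ) * Cfsg.classInner (Cfsg.indFun H θ) (Cfsg.indFun H θ) = (Nat.card {g : G // ∀ h : H, θ ⟨g * h * g⁻¹, hN.conj_mem h h.2 g⟩ = θ h} : ℂ) := by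
  classical
  have : Fintype H := Fintype.ofFinite H
  rw [CL.Char.classInner_indFun_indFun_normal, ← mul_assoc,
    mul_inv_cancel₀ (CL.Char.natCard_subgroup_ne_zero H), one_mul]
  have key : ∀ g : G, Cfsg.classInner θ (fun k : H => θ ⟨g * k * g⁻¹, hN.conj_mem k k.2 g⟩)
      = if ∀ h : H, θ ⟨g * h * g⁻¹, hN.conj_mem h h.2 g⟩ = θ h then 1 else 0 := by
    intro g
    have h1 : Cfsg.IsIrrCharacter H (fun k : H => θ ⟨g * k * g⁻¹, hN.conj_mem k k.2 g⟩) :=
      hθ.comp_mulEquiv (MulAut.conjNormal g)
    rw [hθ.classInner_eq_ite h1]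
    congr 1
    exact propext ⟨fun h k => (congrFun h k).symm, fun h => funext fun k => (h k).symm⟩
  simp only [key, Finset.sum_boole, Nat.card_eq_fintype_card, Fintype.card_subtype]

end Cfsg.Agent.S0193
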