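import Cfsg.Statements.S0194
import Cfsg.Agent.Char.BrauerPerm
import Cfsg.Agent.Char.FrobSchurOdd

set_option autoImplicit false
open scoped ComplexConjugate
open Cfsg

namespace Cfsg.Agent.S0194

/-- Let G have odd order, H be a normal subgroup and θ a non-principal irreducible character of H. Then the function induced from θ is orthogonal to its complex conjugate. -/
theorem result {G : Type*} [Group G] [Fintype G] (hodd : Odd (Nat.card G)) (H : Subgroup G) [H.Normal] (θ : H → ℂ) (hθ : Cfsg.IsIrrCharacter H θ) (hθ1 : θ ≠ fun _ => 1) : Cfsg.classInner (fun g => conj (Cfsg.indFun H θ g)) (Cfsg.indFun H θ) = 0 := by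
  by_contra hne
  have hN : H.Normal := inferInstance
  have h1 : (fun g => conj (Cfsg.indFun H θ g)) = Cfsg.indFun H (fun h => conj (θ h)) :=
    funext fun g => (CL.Char.indFun_conjugate θ g).symm
  rw [h1] at hne
  obtain ⟨g, hg⟩ := CL.Char.exists_conj_eq_of_classInner_indFun_ne_zero hθ.conj hθ hne
  have hoddH : Odd (Nat.card H) := Odd.of_dvd_nat hodd H.card_subgroup_dvd_card
  apply CL.Char.conj_ne_self_of_odd hoddH hθ hθ1
  let S : Subgroup G :=
    { carrier := {x | ∀ k : H, θ ⟨x * k * x⁻¹, hN.conj_mem k k.2 x⟩ = θ k}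
      one_mem' := fun k => by simp
      mul_mem' := fun {a b} ha hb k => by
        rw [← hb k, ← ha ⟨b * k * b⁻¹, hN.conj_mem k k.2 b⟩]
        congr 1
        ext
        simp [mul_assoc]
      inv_mem' := fun {a} ha k => by
        rw [← ha]
        congr 1
        ext
        simp [mul_assoc] }
  have h2 : g ^ 2 ∈ S := by
    intro k
    have h3 := hg ⟨g * k * g⁻¹, hN.conj_mem k k.2 g⟩
    rw [← hg k, Complex.conj_conj] at h3
    rw [h3]
    congr 1
    ext
    simp [mul_assoc, pow_two]
  have h3 : g ∈ S := by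
    have : g ∈ Subgroup.zpowers (g ^ 2) :=
      mem_zpowers_pow_iff.mpr
        (Nat.Coprime.coprime_dvd_right (orderOf_dvd_natCard g) (Nat.coprime_two_left.mpr hodd))
    exact Subgroup.zpowers_le.mpr h2 this
  funext k
  rw [hg k]
  exact h3 k

end Cfsg.Agent.S0194
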