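import Cfsg.Statements.S0195
import Cfsg.Agent.Char.FixedPointFree

set_option autoImplicit false
open Cfsg

namespace Cfsg.Agent.S0195

/-- Let A be a subgroup of G that equals the centralizer of each of its non-identity elements. If g lies outside the normalizer of A, then the only element of A conjugated by g into A is the identity (A is a trivial-intersection set). -/
theorem result {G : Type*} [Group G] [Finite G] (A : Subgroup G) (hA : ∀ x ∈ A, x ≠ 1 → Subgroup.centralizer ({x} : Set G) = A) (g : G) (hg : g ∉ Subgroup.normalizer (A : Set G)) (x : G) (hx : x ∈ A) (hgx : g * x * g⁻¹ ∈ A) : x = 1 := by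
  by_contra h1
  apply hg
  have h2 : g * x * g⁻¹ ≠ 1 := by
    intro h; apply h1
    calc x = g⁻¹ * (g * x * g⁻¹) * g := by group
      _ = 1 := by rw [h]; group
  have e1 := hA x hx h1
  have e2 := hA _ hgx h2
  rw [Subgroup.mem_normalizer_iff]
  intro y
  constructor
  · intro hy
    rw [← e1, Subgroup.mem_centralizer_singleton_iff] at hy
    rw [← e2, Subgroup.mem_centralizer_singleton_iff]
    calc g * y * g⁻¹ * (g * x * g⁻¹) = g * (y * x) * g⁻¹ := by group
      _ = g * (x * y) * g⁻¹ := by rw [hy]
      _ = _ := by group
  · intro hy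
    rw [← e2, Subgroup.mem_centralizer_singleton_iff] at hy
    rw [← e1, Subgroup.mem_centralizer_singleton_iff]
    calc y * x = g⁻¹ * (g * y * g⁻¹ * (g * x * g⁻¹)) * g := by group
      _ = g⁻¹ * (g * x * g⁻¹ * (g * y * g⁻¹)) * g := by rw [hy]
      _ = _ := by group

end Cfsg.Agent.S0195
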