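import Cfsg.Statements.S0203
import Cfsg.Agent.Inv.SylowTwo

set_option autoImplicit false
open Cfsg

namespace Cfsg.Agent.S0203

/-- If a Sylow 2-subgroup P of a finite group G is a Klein four-group, then G has three classes of involutions if and only if P has a normal complement in G. -/
theorem result {G : Type*} [Group G] [Finite G] (P : Sylow 2 G) (hP : IsKleinFour (P : Subgroup G)) : Nat.card {C : ConjClasses G // ∃ t : G, orderOf t = 2 ∧ ConjClasses.mk t = C} = 3 ↔ ∃ N : Subgroup G, N.Normal ∧ Subgroup.IsComplement' N (P : Subgroup G) := by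
  constructor
  · intro h3
    rcases CL.Inv.kleinFour_sylow_dichotomy P hP with h | h
    · rw [CL.Inv.kleinFour_sylow_classes_one P hP h] at h3
      exact absurd h3 (by decide)
    · exact ⟨_, CL.Transfer.pResidual_normal _,
        CL.Transfer.isComplement'_of_fusion_of_nilpotent _ P.2.isNilpotent P.card_coprime_index
          (fun x hx g hg => ⟨1, one_mem _, by rw [h x hx g hg]; simp⟩)⟩
  · rintro ⟨N, hN, hc⟩
    apply CL.Inv.kleinFour_sylow_classes_three P hP
    intro x hx g hg
    obtain ⟨y, hy, e⟩ := CL.Transfer.fusion_of_isComplement' hc hx g hg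
    rw [← e, CL.Inv.kleinFour_comm hP hy hx, mul_inv_cancel_right]

end Cfsg.Agent.S0203
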