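import Cfsg.Statements.S0216
import Cfsg.Agent.Inv.Isolated

set_option autoImplicit false
open Cfsg

namespace Cfsg.Agent.S0216

/-- For an involution u in a Sylow 2-subgroup P of a finite group G, the following are equivalent: no G-conjugate of u other than u lies in P; every commutator of u with an element of G has odd order. -/
theorem result {G : Type*} [Group G] [Finite G] (P : Sylow 2 G) (u : G) (hu : orderOf u = 2) (huP : u ∈ P) : (∀ g : G, g * u * g⁻¹ ∈ P → g * u * g⁻¹ = u) ↔ (∀ g : G, Odd (orderOf (u * g * u⁻¹ * g⁻¹))) := by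
  have hu2 := CL.Inv.mul_self_of_orderOf_two hu
  constructor
  · intro h g
    have hiso := CL.Inv.isolated_of_sylow P hu h
    have := CL.Inv.isolated_odd_mul hiso (t := g * u * g⁻¹) (isConj_iff.2 ⟨g, rfl⟩)
    rw [CL.Inv.inv_eq_self_of_mul_self hu2]
    simpa only [mul_assoc] using this
  · intro h g hg
    have h1 := h g
    rw [CL.Inv.inv_eq_self_of_mul_self hu2] at h1
    have h2 : u * g * u * g⁻¹ ∈ (P : Subgroup G) := by
      have := (P : Subgroup G).mul_mem huP hg
      simpa only [mul_assoc] using this
    have h3 := CL.Inv.eq_one_of_odd_of_isPGroup_two P.isPGroup' h2 h1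
    calc g * u * g⁻¹ = (u * u) * (g * u * g⁻¹) := by rw [hu2, one_mul]
      _ = u * (u * g * u * g⁻¹) := by group
      _ = u := by rw [h3, mul_one]

end Cfsg.Agent.S0216
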