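import Cfsg.Statements.S0218
import Cfsg.Agent.Inv.BF3

set_option autoImplicit false
open Cfsg

namespace Cfsg.Agent.S0218

/-- The generalized quaternion group of order 2^(n+3) contains exactly one element of order 2. -/
theorem result (n : ℕ) : Nat.card {x : QuaternionGroup (2 ^ (n + 1)) // orderOf x = 2} = 1 := by
  have : NeZero (2 ^ (n + 1)) := ⟨by positivity⟩
  have hmem : ∀ x : QuaternionGroup (2 ^ (n + 1)), orderOf x = 2 →
      x ∈ Subgroup.zpowers (QuaternionGroup.a 1 : QuaternionGroup (2 ^ (n + 1))) := by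
    rintro (i | i) hx
    · refine ⟨i.val, ?_⟩
      simp only [zpow_natCast]
      rw [QuaternionGroup.a_one_pow, ZMod.natCast_zmod_val]
    · rw [QuaternionGroup.orderOf_xa] at hx
      exact absurd hx (by decide)
  obtain ⟨t, ht⟩ := CL.Inv.exists_invol_of_even (G := QuaternionGroup (2 ^ (n + 1)))
    (by rw [Nat.card_eq_fintype_card, QuaternionGroup.card]; exact ⟨2 * 2 ^ (n + 1), by ring⟩)
  rw [Nat.card_eq_one_iff_unique]
  refine ⟨⟨fun a b => Subtype.ext ?_⟩, ⟨⟨t, ht⟩⟩⟩
  exact CL.Inv.eq_of_invol_of_mem_isCyclic inferInstance (hmem _ a.2) (hmem _ b.2) a.2 b.2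

end Cfsg.Agent.S0218
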