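import Cfsg.Statements.S0220
import Cfsg.Agent.Inv.SylowTwo

set_option autoImplicit false
open Cfsg

namespace Cfsg.Agent.S0220

/-- If x is an involution of a finite group G and a Sylow 2-subgroup of the centralizer of x is cyclic, then G has a subgroup of index 2; in particular G is not simple unless it has order 2. -/
theorem result {G : Type*} [Group G] [Finite G] (x : G) (hx : orderOf x = 2) (S : Sylow 2 ↥(Subgroup.centralizer ({x} : Set G))) (hS : IsCyclic (S : Subgroup ↥(Subgroup.centralizer ({x} : Set G)))) : ∃ H : Subgroup G, H.index = 2 := by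
  have hc : IsCyclic ((S : Subgroup ↥(Subgroup.centralizer ({x} : Set G))).map
      (Subgroup.centralizer ({x} : Set G)).subtype) :=
    isCyclic_of_surjective _ (Subgroup.equivMapOfInjective _ _
      (Subgroup.subtype_injective _)).surjective
  obtain ⟨T, hT⟩ := CL.Grp.isSylowIn_top_iff.1
    (CL.Inv.isSylowIn_top_of_cyclic_in_centralizer hx (CL.Grp.isSylowIn_map_subtype S) hc)
  refine Cfsg.Agent.S0219.result ?_ T (hT ▸ hc)
  rw [even_iff_two_dvd, ← hx]
  exact orderOf_dvd_natCard x

end Cfsg.Agent.S0220
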