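import Cfsg.Statements.S0228
import Cfsg.Agent.Inv.SylowTwo

set_option autoImplicit false
open Cfsg

namespace Cfsg.Agent.S0228

/-- A group of order 12 in which no involution is central is isomorphic to the alternating group on four letters. -/
theorem result {G : Type*} [Group G] [Finite G] (hG : Nat.card G = 12) (hz : ∀ z : G, orderOf z = 2 → z ∉ Subgroup.center G) : Nonempty (G ≃* alternatingGroup (Fin 4)) := by
  classical
  have : Fact (Nat.Prime 3) := ⟨by decide⟩
  obtain ⟨P⟩ : Nonempty (Sylow 3 G) := inferInstance
  have hP : Nat.card P = 3 := by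
    rw [P.card_eq_multiplicity, hG, show 12 = 3 * 4 by rfl, Nat.factorization_mul (by decide) (by decide)]
    simp [Nat.factorization_eq_zero_of_not_dvd (show ¬ 3 ∣ 4 by decide), Nat.Prime.factorization_self Nat.prime_three]
  have hPi : (P : Subgroup G).index = 4 := by
    have := (P : Subgroup G).card_mul_index
    rw [hP, hG] at this
    omega
  by_cases hn : (P : Subgroup G).Normal
  · exfalso
    obtain ⟨T⟩ : Nonempty (Sylow 2 G) := inferInstance
    have hT : Nat.card T = 2 ^ 2 := by
      rw [T.card_eq_multiplicity, hG, show 12 = 2 ^ 2 * 3 by rfl,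
        Nat.factorization_mul (by decide) (by decide), Finsupp.add_apply,
        Nat.Prime.factorization_pow Nat.prime_two,
        Nat.factorization_eq_zero_of_not_dvd (show ¬ 2 ∣ 3 by decide)]
      simp
    have hTi : (T : Subgroup G).index = 3 := by
      have := (T : Subgroup G).card_mul_index
      rw [hT, hG] at this
      omega
    have hTc : IsMulCommutative T := IsPGroup.isMulCommutative_of_card_eq_prime_sq hT
    have hcyc : IsCyclic P := isCyclic_of_prime_card (p := 3) hP
    have h1 := CL.Inv.relIndex_centralizer_dvd_card_mulAut (P : Subgroup G)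
    rw [IsCyclic.card_mulAut, hP, Subgroup.normalizer_eq_top, Subgroup.relIndex_top_right] at h1
    have h2 : (Subgroup.centralizer ((P : Subgroup G) : Set G)).relIndex T ∣ 2 :=
      (Subgroup.relIndex_dvd_index_of_normal _ _).trans h1
    have h3 := CL.Grp.card_eq_relIndex_mul_card
      (inf_le_right : Subgroup.centralizer ((P : Subgroup G) : Set G) ⊓ T ≤ T)
    rw [Subgroup.inf_relIndex_right, hT] at h3
    obtain ⟨z, hz2⟩ := CL.Inv.exists_invol_of_even
      (G := ↥(Subgroup.centralizer ((P : Subgroup G) : Set G) ⊓ (T : Subgroup G))) (by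
        rcases (Nat.dvd_prime Nat.prime_two).1 h2 with h | h
        · rw [h] at h3
          exact ⟨2, by omega⟩
        · rw [h] at h3
          exact ⟨1, by omega⟩)
    refine hz z (by rw [Subgroup.orderOf_coe, hz2]) ?_
    rw [Subgroup.mem_center_iff]
    intro g
    obtain ⟨a, ha, b, hb, rfl⟩ := CL.Grp.exists_mul_eq_of_coprime_index
      (A := (P : Subgroup G)) (B := (T : Subgroup G)) (by rw [hPi, hTi]; decide) g
    have e1 : a * z = z * a := z.2.1 a ha
    have e2 : b * z = z * b :=
      congrArg Subtype.val (hTc.is_comm.comm (⟨b, hb⟩ : (T : Subgroup G)) ⟨z, z.2.2⟩)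
    rw [mul_assoc, e2, ← mul_assoc, e1, mul_assoc]
  · have := Fintype.ofFinite (G ⧸ (P : Subgroup G))
    have hq : Fintype.card (G ⧸ (P : Subgroup G)) = 4 := by
      rw [← Nat.card_eq_fintype_card]; exact hPi
    let e := Fintype.equivFinOfCardEq hq
    let f : G →* Equiv.Perm (Fin 4) :=
      (e.permCongrHom : Equiv.Perm (G ⧸ (P : Subgroup G)) ≃* Equiv.Perm (Fin 4)).toMonoidHom.comp
        (MulAction.toPermHom G (G ⧸ (P : Subgroup G)))
    have hker : (MulAction.toPermHom G (G ⧸ (P : Subgroup G))).ker = ⊥ := by
      rw [← Subgroup.normalCore_eq_ker]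
      have h1 := Subgroup.card_dvd_of_le (P : Subgroup G).normalCore_le
      rw [hP] at h1
      rcases (Nat.dvd_prime Nat.prime_three).1 h1 with h | h
      · exact Subgroup.card_eq_one.1 h
      · exfalso
        apply hn
        rw [← Subgroup.eq_of_le_of_card_ge (P : Subgroup G).normalCore_le (by rw [hP, h])]
        infer_instance
    have hf : Function.Injective f :=
      (e.permCongrHom).injective.comp ((MonoidHom.ker_eq_bot_iff _).1 hker)
    have hr : f.range = alternatingGroup (Fin 4) := by
      apply Equiv.Perm.eq_alternatingGroup_of_index_eq_two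
      have h1 := f.range.card_mul_index
      rw [← Nat.card_congr (MonoidHom.ofInjective hf).toEquiv, hG, Nat.card_eq_fintype_card,
        Fintype.card_perm] at h1
      simp only [Fintype.card_fin, Nat.factorial] at h1
      omega
    exact ⟨(MonoidHom.ofInjective hf).trans (MulEquiv.subgroupCongr hr)⟩

end Cfsg.Agent.S0228
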