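import Cfsg.Statements.S0231
import Cfsg.Agent.Inv.StrongEmb

set_option autoImplicit false
open scoped Pointwise
open Cfsg

namespace Cfsg.Agent.S0231

open CL.Inv.SE in
theorem fix_iff {G : Type*} [Group G] [Finite G] {t : G} (ht : orderOf t = 2) (P : Sylow 2 G) :
    t • P = P ↔ t ∈ (P : Subgroup G) := by
  rw [Sylow.smul_eq_iff_mem_normalizer]
  constructor
  · intro h
    have h1 := (isPGroup_zpowers_of_inv ht).inf_normalizer_sylow P
    have h2 : t ∈ Subgroup.zpowers t ⊓ Subgroup.normalizer (P : Set G) :=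
      ⟨Subgroup.mem_zpowers t, h⟩
    rw [h1] at h2
    exact h2.2
  · intro h
    exact Subgroup.le_normalizer h


/-- Let T be a Sylow 2-subgroup of the finite group G which is not normal and which intersects every other Sylow 2-subgroup trivially. Then G has a single conjugacy class of involutions. -/
theorem result {G : Type*} [Group G] [Finite G] (T : Sylow 2 G) (hnn : ¬ (T : Subgroup G).Normal) (hTI : ∀ g : G, MulAut.conj g • (T : Subgroup G) ≠ T → MulAut.conj g • (T : Subgroup G) ⊓ T = ⊥) (s t : G) (hs : orderOf s = 2) (ht : orderOf t = 2) : IsConj s t := by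
  classical
  open CL.Inv.SE in
  have hU : UniqueFix G (Sylow 2 G) := by
    intro a ha
    obtain ⟨P, hP⟩ := (isPGroup_zpowers_of_inv ha).exists_le_sylow
    refine ⟨P, (fix_iff ha P).2 (hP (Subgroup.mem_zpowers a)), ?_⟩
    intro Q hQ
    have hQ' := (fix_iff ha Q).1 hQ
    have hP' : a ∈ (P : Subgroup G) := hP (Subgroup.mem_zpowers a)
    obtain ⟨g, hg⟩ := MulAction.exists_smul_eq G P T
    by_contra hne
    obtain ⟨k, hk⟩ := MulAction.exists_smul_eq G T (g • Q)
    have h1 : MulAut.conj k • (T : Subgroup G) ≠ T := by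
      intro h
      have : k • T = T := Sylow.ext (by rw [Sylow.coe_subgroup_smul]; exact h)
      rw [this] at hk
      rw [hk] at hg
      exact hne (smul_left_cancel g hg).symm
    have h2 := hTI k h1
    have h3 : g * a * g⁻¹ ∈ MulAut.conj k • (T : Subgroup G) ⊓ T := by
      constructor
      · have : g * a * g⁻¹ ∈ ((k • T : Sylow 2 G) : Subgroup G) := by
          rw [hk, Sylow.coe_subgroup_smul]
          exact Subgroup.smul_mem_pointwise_smul _ (MulAut.conj g) _ hQ'
        rwa [Sylow.coe_subgroup_smul] at this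
      · rw [← hg, Sylow.coe_subgroup_smul]
        exact Subgroup.smul_mem_pointwise_smul _ (MulAut.conj g) _ hP'
    rw [h2, Subgroup.mem_bot] at h3
    exact ne_one_of_inv (inv_conj ha g) h3
  obtain ⟨x, hx⟩ := hU.exists_fix hs
  obtain ⟨y, hy⟩ := hU.exists_fix ht
  have key : ∀ a b : G, orderOf a = 2 → orderOf b = 2 → ∀ x y : Sylow 2 G, a • x = x → b • y = y →
      x ≠ y → IsConj a b := by
    intro a b ha hb x y hx hy hxy
    obtain ⟨k, -, hk, -⟩ := hU.exists_swap ha hb hx hy hxy
    exact isConj_iff.2 ⟨k, hk⟩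
  by_cases hxy : x = y
  · subst hxy
    have hz : ∃ z : Sylow 2 G, z ≠ x := by
      by_contra hc
      push Not at hc
      haveI : Subsingleton (Sylow 2 G) := ⟨fun a b => (hc a).trans (hc b).symm⟩
      exact hnn (Sylow.normal_of_subsingleton T)
    obtain ⟨z, hz⟩ := hz
    obtain ⟨g, hg⟩ := MulAction.exists_smul_eq G x z
    have hu : (g * s * g⁻¹) • z = z := by
      rw [← hg, mul_smul, mul_smul, inv_smul_smul, hx]
    have h1 := key _ _ hs (CL.Inv.SE.inv_conj hs g) x z hx hu hz.symm
    have h2 := key _ _ (CL.Inv.SE.inv_conj hs g) ht z x hu hy hz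
    exact h1.trans h2
  · exact key _ _ hs ht x y hx hy hxy

end Cfsg.Agent.S0231
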