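import Cfsg.Statements.S0263
import Cfsg.Agent.Cls.SLnCard
-- import your own Cfsg.Agent.* helpers here

set_option autoImplicit false
open Cfsg

namespace Cfsg.Agent.S0263

/-- A Sylow p-subgroup of GL_n(q), p the characteristic, has order q^(n(n-1)/2). -/
theorem result {F : Type*} [Field F] [Fintype F] {q : ℕ} (hF : Fintype.card F = q) (p : ℕ) [Fact p.Prime] [CharP F p] (n : ℕ) (P : Sylow p (Matrix.GeneralLinearGroup (Fin n) F)) : Nat.card P = q ^ (n * (n - 1) / 2) := by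
  have hp : p.Prime := Fact.out
  obtain ⟨f, -, hf⟩ := FiniteField.card F p
  rw [Sylow.card_eq_multiplicity, CL.SLn.card_GL', Fintype.card_fin, hF]
  have hq : q = p ^ (f : ℕ) := hF ▸ hf
  have hcop : ¬ p ∣ ∏ i ∈ Finset.range n, (q ^ (i + 1) - 1) := by
    rw [Prime.dvd_finsetProd_iff hp.prime]
    rintro ⟨i, -, hi⟩
    have h1 : p ∣ q ^ (i + 1) := dvd_pow (hq ▸ dvd_pow_self p f.pos.ne') (Nat.succ_ne_zero i)
    have h2 : 1 ≤ q ^ (i + 1) := Nat.one_le_pow _ _ (hq ▸ pow_pos hp.pos _)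
    have h3 : p ∣ 1 := (Nat.dvd_sub_iff_right h2 h1).1 hi
    exact hp.one_lt.ne' (Nat.dvd_one.1 h3)
  have hne : ∏ i ∈ Finset.range n, (q ^ (i + 1) - 1) ≠ 0 := fun h ↦ hcop (h ▸ dvd_zero p)
  rw [Nat.factorization_mul (pow_ne_zero _ (hq ▸ pow_ne_zero _ hp.ne_zero)) hne, Finsupp.add_apply,
    Nat.factorization_eq_zero_of_not_dvd hcop, add_zero, hq, ← pow_mul, hp.factorization_pow,
    Finsupp.single_eq_same]

end Cfsg.Agent.S0263
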