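import Cfsg.Statements.S0266
import Cfsg.Agent.Cls.SL2Proj


set_option autoImplicit false
open scoped MatrixGroups
open Cfsg

namespace Cfsg.Agent.S0266
open CL.SL2

/-- PGL_2(F) is sharply 3-transitive on the projective line: it is 3-transitive and the stabiliser of three distinct points is trivial. -/
theorem result {F : Type*} [Field F] : MulAction.IsMultiplyPretransitive (Matrix.ProjGenLinGroup (Fin 2) F) (Projectivization F (Fin 2 → F)) 3 ∧ ∀ (g : Matrix.ProjGenLinGroup (Fin 2) F) (a b c : Projectivization F (Fin 2 → F)), a ≠ b → a ≠ c → b ≠ c → g • a = a → g • b = b → g • c = c → g = 1 := by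
  refine ⟨?_, fun g a b c hab hac hbc => pgl_eq_one_of_fix_three hab hac hbc⟩
  rw [MulAction.isMultiplyPretransitive_iff]
  intro x y
  obtain ⟨c, c0, c1, c2⟩ := exists_pgl_three (x := x 0) (y := x 1) (z := x 2)
    (x.injective.ne (by decide)) (x.injective.ne (by decide)) (x.injective.ne (by decide))
  obtain ⟨d, d0, d1, d2⟩ := exists_pgl_three (x := y 0) (y := y 1) (z := y 2)
    (y.injective.ne (by decide)) (y.injective.ne (by decide)) (y.injective.ne (by decide))
  refine ⟨d * c⁻¹, ?_⟩
  ext i
  rw [Function.Embedding.smul_apply, mul_smul]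
  fin_cases i
  · simp only [Fin.zero_eta]; rw [← c0, inv_smul_smul, d0]
  · simp only [Fin.mk_one]; rw [← c1, inv_smul_smul, d1]
  · simp only [Fin.reduceFinMk]; rw [← c2, inv_smul_smul, d2]

end Cfsg.Agent.S0266
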