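import Cfsg.Statements.S0267
import Cfsg.Agent.Cls.SL2Proj


set_option autoImplicit false
open Cfsg

namespace Cfsg.Agent.S0267
open CL.SL2 Matrix

/-- SL_2(q) is 3-transitive on the q+1 points of the projective line if and only if q is even. -/
theorem result {F : Type*} [Field F] [Fintype F] : MulAction.IsMultiplyPretransitive (Matrix.SpecialLinearGroup (Fin 2) F) (Projectivization F (Fin 2 → F)) 3 ↔ ringChar F = 2 := by
  rw [MulAction.isMultiplyPretransitive_iff]
  constructor
  · intro h
    by_contra h2
    obtain ⟨a, ha⟩ := FiniteField.exists_nonsquare h2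
    have ha0 : a ≠ 0 := by rintro rfl; exact ha IsSquare.zero
    have inj : ∀ t : F, t ≠ 0 → Function.Injective ![(pinf : P1 F), pt 0, pt t] := by
      intro t ht i j hij
      fin_cases i <;> fin_cases j <;>
        simp_all [pt_ne_pinf, pinf_ne_pt, pt_inj, eq_comm (a := (0 : F))]
    obtain ⟨g, hg⟩ := h ⟨_, inj 1 one_ne_zero⟩ ⟨_, inj a ha0⟩
    have h0 : g • (pinf : P1 F) = pinf := DFunLike.congr_fun hg 0
    have h1 : g • (pt 0 : P1 F) = pt 0 := DFunLike.congr_fun hg 1
    have h3 : g • (pt 1 : P1 F) = pt a := DFunLike.congr_fun hg 2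
    rw [sl_smul_pinf_eq_pinf] at h0
    rw [sl_smul_pt_eq_pt] at h1 h3
    have hd := sl_det g
    apply ha
    refine ⟨g 0 0, ?_⟩
    simp only [mul_zero, zero_add, mul_one, h0] at h1 h3 hd
    rw [h1] at h3
    linear_combination (-g 0 0) * h3 - a * hd
  · intro h2 x y
    have hs : Function.Surjective
        (ProjectiveSpecialLinearGroup.toPGL (n := Fin 2) (R := F)) := by
      apply ProjectiveSpecialLinearGroup.toPGL_surj_of_roots
      intro r
      obtain ⟨s, hs⟩ := FiniteField.isSquare_of_char_two h2 (r : F)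
      have hs0 : s ≠ 0 := by rintro rfl; exact r.ne_zero (by simpa using hs)
      exact ⟨Units.mk0 s hs0, Units.ext (by simp [hs, sq])⟩
    obtain ⟨c, c0, c1, c2⟩ := exists_pgl_three (x := x 0) (y := x 1) (z := x 2)
      (x.injective.ne (by decide)) (x.injective.ne (by decide)) (x.injective.ne (by decide))
    obtain ⟨d, d0, d1, d2⟩ := exists_pgl_three (x := y 0) (y := y 1) (z := y 2)
      (y.injective.ne (by decide)) (y.injective.ne (by decide)) (y.injective.ne (by decide))
    obtain ⟨g, hg⟩ := hs (d * c⁻¹)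
    induction g using QuotientGroup.induction_on with | H g =>
    refine ⟨g, ?_⟩
    ext i
    rw [Function.Embedding.smul_apply, ← psl_mk_smul, psl_smul, hg, mul_smul]
    fin_cases i
    · simp only [Fin.zero_eta]; rw [← c0, inv_smul_smul, d0]
    · simp only [Fin.mk_one]; rw [← c1, inv_smul_smul, d1]
    · simp only [Fin.reduceFinMk]; rw [← c2, inv_smul_smul, d2]

end Cfsg.Agent.S0267
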