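import Cfsg.Statements.S0268
import Cfsg.Agent.Cls.SL2Sylow2


set_option autoImplicit false
open Cfsg

namespace Cfsg.Agent.S0268

/-- For q odd, -1 is the unique involution of SL_2(q). -/
theorem result {F : Type*} [Field F] [Fintype F] (hF : Odd (Fintype.card F)) (g : Matrix.SpecialLinearGroup (Fin 2) F) (h1 : g ≠ 1) (h2 : g * g = 1) : (g : Matrix (Fin 2) (Fin 2) F) = -1 := by
  rcases CL.SL2.sl_eq_of_mul_self (CL.GL2.two_ne_zero_of_odd hF) h2 with h | h
  · exact (h1 h).elim
  · rw [h]; simp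

end Cfsg.Agent.S0268
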