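import Cfsg.Statements.S0269
import Cfsg.Agent.Cls.SpSimple

set_option autoImplicit false
open Cfsg

namespace Cfsg.Agent.S0269


/-- Sp_{2m}(q) is perfect except for Sp_2(2), Sp_2(3) and Sp_4(2): stated as m at least 3, or m = 2 and q at least 3, or q at least 4. -/
theorem result {F : Type*} [Field F] [Fintype F] (m : ℕ) (h : 3 ≤ m ∨ (m = 2 ∧ 3 ≤ Fintype.card F) ∨ 4 ≤ Fintype.card F) : commutator (Matrix.symplecticGroup (Fin m) F) = ⊤ := by
  exact CL.Sp.commutator_symplecticGroup m (by rwa [Nat.card_eq_fintype_card])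

end Cfsg.Agent.S0269
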