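import Cfsg.Statements.S0273
import Cfsg.Agent.Cls.SL2Sylow2


set_option autoImplicit false
open Cfsg

namespace Cfsg.Agent.S0273

/-- In GL_2(q) the centraliser of a non-trivial element of a Sylow p-subgroup (p the characteristic) has order q (q-1): the Sylow subgroup times the scalars. -/
theorem result {F : Type*} [Field F] [Fintype F] {q : ℕ} (hF : Fintype.card F = q) (p : ℕ) [Fact p.Prime] [CharP F p] (P : Sylow p (Matrix.GeneralLinearGroup (Fin 2) F)) (a : Matrix.GeneralLinearGroup (Fin 2) F) (ha : a ∈ P) (ha1 : a ≠ 1) : Nat.card (Subgroup.centralizer ({a} : Set (Matrix.GeneralLinearGroup (Fin 2) F))) = q * (q - 1) := by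
  obtain ⟨k, hk⟩ := P.isPGroup' ⟨a, ha⟩
  have hk' : (a : Matrix (Fin 2) (Fin 2) F) ^ p ^ k = 1 := by
    have := congrArg (fun t : P => ((t : Matrix.GeneralLinearGroup (Fin 2) F) :
      Matrix (Fin 2) (Fin 2) F)) hk
    simpa using this
  obtain ⟨ht, hd⟩ := CL.GL2.trace_det_of_pow_char hk'
  have hs : ¬ CL.GL2.IsScal (a : Matrix (Fin 2) (Fin 2) F) := fun hs =>
    ha1 (Units.ext (hs.eq_one_of_trace_det ht hd))
  rw [CL.GL2.card_cent_GL_of_same hs (a := 1) (by rw [ht]; norm_num) (by rw [hd, one_mul]), hF,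
    mul_comm]

end Cfsg.Agent.S0273
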