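import Cfsg.Statements.S0275
import Cfsg.Agent.Cls.SL2Forms


set_option autoImplicit false
open Cfsg

namespace Cfsg.Agent.S0275

/-- If p is odd and H is a subgroup of SL_2(q), q a power of p, with more than one Sylow p-subgroup, then the Sylow 2-subgroups of H are generalised quaternion. -/
theorem result {F : Type*} [Field F] [Fintype F] (p : ℕ) [Fact p.Prime] [CharP F p] (hp : p ≠ 2) (H : Subgroup (Matrix.SpecialLinearGroup (Fin 2) F)) (hH : 1 < Nat.card (Sylow p H)) (S : Sylow 2 H) : ∃ k : ℕ, 1 ≤ k ∧ Nonempty ((S : Subgroup H) ≃* QuaternionGroup (2 ^ k)) := by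
  have h2 := CL.GL2.two_ne_zero_of_odd (CL.GL2.odd_of_charP (F := F) hp)
  obtain ⟨c, hc⟩ := CL.SL2.exists_slHom_le_of_one_lt p hp H hH
  obtain ⟨ψ, hψ⟩ := CL.SL2.exists_Q8 (F := ZMod p) p
    (CL.GL2.two_ne_zero_of_odd (CL.GL2.odd_of_charP hp))
  let χ : QuaternionGroup 2 →* H := ((CL.SL2.slHom _ c).comp ψ).codRestrict H fun g => hc ⟨_, rfl⟩
  have hχ : Function.Injective χ := fun a b h =>
    hψ (CL.SL2.slHom_injective _ c (congrArg Subtype.val h))
  obtain ⟨k, hk⟩ := (CL.SL2.isCyclic_or_quaternion h2 S.isPGroup' (H.subtype.comp S.1.subtype)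
    (H.subtype_injective.comp S.1.subtype_injective)).resolve_left
    (CL.SL2.not_isCyclic_sylow_of_Q8 χ hχ S)
  exact ⟨k + 1, by omega, hk⟩

end Cfsg.Agent.S0275
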