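import Cfsg.Statements.S0289
import Cfsg.Agent.Cls.OrthCount

set_option autoImplicit false
open Cfsg

namespace Cfsg.Agent.S0289

/-- The hyperbolic quadratic form on F^(2m), m at least 1, has q^(2m-1) + q^m - q^(m-1) zeros (that is, (q^m - 1)(q^(m-1) + 1) non-zero isotropic vectors). -/
theorem result {F : Type*} [Field F] [Fintype F] {q : ℕ} (hF : Fintype.card F = q) (m : ℕ) (hm : 1 ≤ m) : Nat.card {v : Fin m ⊕ Fin m → F // Cfsg.quadFormPlus m F v = 0} = q ^ (2 * m - 1) + q ^ m - q ^ (m - 1) := by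
  subst hF
  rw [CL.Cls.card_zeros_quadFormPlus]
  obtain ⟨k, rfl⟩ : ∃ k, m = k + 1 := ⟨m - 1, by omega⟩
  have hq : 1 ≤ Fintype.card F ^ (k + 1) := Nat.one_le_pow _ _ Fintype.card_pos
  have h2 : Fintype.card F ^ k ≤ Fintype.card F ^ (k + 1) :=
    Nat.pow_le_pow_right Fintype.card_pos (by omega)
  rw [show 2 * (k + 1) - 1 = 2 * k + 1 by omega, Nat.add_sub_cancel, Nat.add_sub_assoc h2]
  zify [hq, h2]
  ring

end Cfsg.Agent.S0289
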