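import Cfsg.Statements.S0295
import Cfsg.Agent.Cls.OrthSimple

set_option autoImplicit false
open Cfsg

namespace Cfsg.Agent.S0295

/-- PΩ_{2m+1}(q) is simple for q odd and m at least 3. -/
theorem result {F : Type*} [Field F] [Fintype F] (hodd : Odd (Fintype.card F)) (m : ℕ) (hm : 3 ≤ m) : IsSimpleGroup (Cfsg.POmega F (Cfsg.quadFormOdd m F)) := by
  exact CL.Cls.isSimpleGroup_POmega (CL.Cls.qfOdd m F)
    (CL.Cls.nondeg_qfOdd (CL.Cls.two_ne_zero_of_odd_card hodd)) (by simp; omega)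

end Cfsg.Agent.S0295
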