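import Cfsg.Statements.S0299
import Cfsg.Agent.Cls.OrthIso4
import Cfsg.Agent.Cls.OrthOmega

set_option autoImplicit false
open Cfsg

namespace Cfsg.Agent.S0299

/-- PΩ^+_4(q) is isomorphic to PSL_2(q) x PSL_2(q) for q at least 3. -/
theorem result {F : Type*} [Field F] [Fintype F] (hF : 3 ≤ Fintype.card F) : Nonempty (Cfsg.POmega F (Cfsg.quadFormPlus 2 F) ≃* Matrix.ProjectiveSpecialLinearGroup (Fin 2) F × Matrix.ProjectiveSpecialLinearGroup (Fin 2) F) := by
  exact CL.Cls.nonempty_POmega4Plus_equiv hF fun h2 =>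
    CL.Cls.index_commutator_OG_odd CL.Cls.nondeg_qfDet h2 (by simp [Module.finrank_matrix])

end Cfsg.Agent.S0299
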