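import Cfsg.Statements.S0305
import Cfsg.Agent.Cls.OrthPlane

set_option autoImplicit false
open Cfsg

namespace Cfsg.Agent.S0305

/-- GO^+_2(q) is dihedral of order 2(q-1). -/
theorem result {F : Type*} [Field F] [Fintype F] {q : ℕ} (hF : Fintype.card F = q) : Nonempty (Cfsg.isometryGroup F (Cfsg.quadFormPlus 1 F) ≃* DihedralGroup (q - 1)) := by
  subst hF
  obtain ⟨d⟩ := CL.Cls.OG_nrmForm_split_dihedral (F := F)
  rw [Nat.card_eq_fintype_card] at d
  let e : (Fin 1 ⊕ Fin 1 → F) ≃ₗ[F] CL.Cls.QAlg F 1 0 :=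
    { toFun := fun v => ⟨v (.inl 0), v (.inr 0) - v (.inl 0)⟩
      invFun := fun z => Sum.elim (fun _ => z.re) (fun _ => z.re + z.im)
      map_add' := fun u v => by ext <;> simp; ring
      map_smul' := fun c v => by ext <;> simp; ring
      left_inv := fun v => by
        ext (i | i) <;> rw [Subsingleton.elim i 0] <;> simp
      right_inv := fun z => by ext <;> simp }
  refine ⟨((CL.Cls.isomEquiv (CL.Cls.qfPlus 1 F)).trans (CL.Cls.OG.congr e fun v => ?_)).trans d⟩
  rw [CL.Cls.nrmForm_apply', CL.Cls.qfPlus_apply, Fin.sum_univ_one]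
  change v (.inl 0) ^ 2 + 1 * v (.inl 0) * (v (.inr 0) - v (.inl 0)) +
    0 * (v (.inr 0) - v (.inl 0)) ^ 2 = _
  ring

end Cfsg.Agent.S0305
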