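import Cfsg.Statements.S0306
import Cfsg.Agent.Cls.OrthPlane

set_option autoImplicit false
open Cfsg

namespace Cfsg.Agent.S0306

/-- GO^-_2(q) is dihedral of order 2(q+1). -/
theorem result {F : Type*} [Field F] [Fintype F] {q : ℕ} (hF : Fintype.card F = q) (a b : F) (hab : ∀ z₁ z₂ : F, z₁ ^ 2 + a * z₁ * z₂ + b * z₂ ^ 2 = 0 → z₁ = 0 ∧ z₂ = 0) : Nonempty (Cfsg.isometryGroup F (Cfsg.quadFormMinus 0 F a b) ≃* DihedralGroup (q + 1)) := by
  subst hF
  obtain ⟨d⟩ := CL.Cls.OG_nrmForm_dihedral hab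
  rw [Nat.card_eq_fintype_card] at d
  let e : ((Fin 0 ⊕ Fin 0) ⊕ Fin 2 → F) ≃ₗ[F] CL.Cls.QAlg F a b :=
    { toFun := fun v => ⟨v (.inr 0), v (.inr 1)⟩
      invFun := fun z => Sum.elim (fun _ => 0) ![z.re, z.im]
      map_add' := fun u v => rfl
      map_smul' := fun c v => rfl
      left_inv := fun v => by
        ext ((i | i) | i)
        · exact i.elim0
        · exact i.elim0
        · fin_cases i <;> rfl
      right_inv := fun z => rfl }
  refine ⟨((CL.Cls.isomEquiv (CL.Cls.qfMinus 0 F a b)).trans (CL.Cls.OG.congr e fun v => ?_)).trans d⟩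
  rw [CL.Cls.nrmForm_apply', CL.Cls.qfMinus_apply, Fin.sum_univ_zero, zero_add]
  rfl

end Cfsg.Agent.S0306
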