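import Cfsg.Statements.S0307
import Cfsg.Agent.Cls.SLnCard
-- import your own Cfsg.Agent.* helpers here

set_option autoImplicit false
open Cfsg

namespace Cfsg.Agent.S0307

/-- PSL_n(q) is normal in PGL_n(q) with cyclic quotient of order gcd(n, q-1): the image of the natural map PSL_n → PGL_n is the kernel of a surjective homomorphism onto the cyclic group of that order. -/
theorem result {F : Type*} [Field F] [Fintype F] {q : ℕ} (hF : Fintype.card F = q) (n : ℕ) (hn : 1 ≤ n) : ∃ g : Matrix.ProjGenLinGroup (Fin n) F →* Multiplicative (ZMod (Nat.gcd n (q - 1))), Function.Surjective g ∧ g.ker = (Matrix.ProjectiveSpecialLinearGroup.toPGL : Matrix.ProjectiveSpecialLinearGroup (Fin n) F →* Matrix.ProjGenLinGroup (Fin n) F).range := by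
  classical
  have hne : Nonempty (Fin n) := ⟨⟨0, hn⟩⟩
  set P : Subgroup Fˣ := (powMonoidHom n : Fˣ →* Fˣ).range with hP
  have hcard : Nat.card (Fˣ ⧸ P) = Nat.gcd n (q - 1) := by
    rw [← Subgroup.index_eq_card, hP, IsCyclic.index_powMonoidHom_range, CL.SLn.card_units, hF,
      Nat.gcd_comm]
  have hcyc : IsCyclic (Fˣ ⧸ P) := isCyclic_of_surjective _ (QuotientGroup.mk'_surjective P)
  have hz : Nat.gcd n (q - 1) ≠ 0 := (Nat.gcd_pos_of_pos_left _ hn).ne'
  have : NeZero (Nat.gcd n (q - 1)) := ⟨hz⟩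
  let e : (Fˣ ⧸ P) ≃* Multiplicative (ZMod (Nat.gcd n (q - 1))) :=
    mulEquivOfCyclicCardEq (by rw [hcard]; simp)
  let d : Matrix.ProjGenLinGroup (Fin n) F →* Fˣ ⧸ P :=
    Matrix.ProjGenLinGroup.lift ((QuotientGroup.mk' P).comp Matrix.GeneralLinearGroup.det) (by
      ext u
      simp only [MonoidHom.comp_apply, Matrix.GeneralLinearGroup.det_scalar, Fintype.card_fin,
        QuotientGroup.mk'_apply, MonoidHom.one_apply, QuotientGroup.eq_one_iff]
      exact ⟨u, rfl⟩)
  refine ⟨e.toMonoidHom.comp d, e.surjective.comp ?_, ?_⟩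
  · intro y
    obtain ⟨y, rfl⟩ := QuotientGroup.mk'_surjective P y
    obtain ⟨g, rfl⟩ := Matrix.GeneralLinearGroup.det_surjective (n := Fin n) y
    exact ⟨Matrix.ProjGenLinGroup.mk g, rfl⟩
  · ext x
    induction x using Matrix.ProjGenLinGroup.induction_on with | mk g =>
    have h1 : (e.toMonoidHom.comp d) (Matrix.ProjGenLinGroup.mk g) = 1 ↔
        Matrix.GeneralLinearGroup.det g ∈ P := by
      rw [MonoidHom.comp_apply, MulEquiv.coe_toMonoidHom, map_eq_one_iff _ e.injective]
      exact QuotientGroup.eq_one_iff _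
    rw [MonoidHom.mem_ker, h1]
    constructor
    · rintro ⟨u, hu⟩
      have hk : g * Matrix.GeneralLinearGroup.scalar (Fin n) u⁻¹ ∈
          (Matrix.GeneralLinearGroup.det : Matrix.GeneralLinearGroup (Fin n) F →* Fˣ).ker := by
        rw [MonoidHom.mem_ker, map_mul, Matrix.GeneralLinearGroup.det_scalar, ← hu]
        simp
      rw [← CL.SLn.range_toGL] at hk
      obtain ⟨s, hs⟩ := hk
      refine ⟨(s : Matrix.ProjectiveSpecialLinearGroup (Fin n) F), ?_⟩
      rw [Matrix.ProjectiveSpecialLinearGroup.toPGL_mk, hs, map_mul,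
        Matrix.ProjGenLinGroup.mk_scalar, mul_one]
    · rintro ⟨s, hs⟩
      obtain ⟨s, rfl⟩ := QuotientGroup.mk_surjective s
      rw [Matrix.ProjectiveSpecialLinearGroup.toPGL_mk, Matrix.ProjGenLinGroup.mk_eq_mk_iff] at hs
      obtain ⟨u, rfl⟩ := hs
      exact ⟨u, by simp⟩

end Cfsg.Agent.S0307
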