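import Cfsg.Statements.S0313
import Cfsg.Agent.Chev.BNParabolic

set_option autoImplicit false
open Cfsg

namespace Cfsg.Agent.S0313

/-- Two standard parabolic subgroups of a group with a (B,N)-pair which are conjugate in `G` coincide. -/
theorem result {G : Type*} [Group G] (P : Cfsg.BNPair G) {J K : Set G}
    (hJ : J ⊆ P.S) (hK : K ⊆ P.S) (g : G)
    (h : (P.parabolic J).map (MulAut.conj g).toMonoidHom = P.parabolic K) :
    P.parabolic J = P.parabolic K := by
  apply le_antisymm
  · refine (CL.Chev.BN.le_of_conj_le (CL.Chev.BN.B_le_parabolic J) (CL.Chev.BN.B_le_parabolic K) (g := g)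
      fun x hx => ?_).2
    rw [← h]
    exact ⟨x, hx, rfl⟩
  · refine (CL.Chev.BN.le_of_conj_le (CL.Chev.BN.B_le_parabolic K) (CL.Chev.BN.B_le_parabolic J) (g := g⁻¹)
      fun x hx => ?_).2
    rw [← h] at hx
    obtain ⟨y, hy, rfl⟩ := hx
    simpa [mul_assoc] using hy

end Cfsg.Agent.S0313
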