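import Cfsg.Statements.S0316
import Cfsg.Agent.Chev.BNParabolic

set_option autoImplicit false
open Cfsg

namespace Cfsg.Agent.S0316

/-- The map `J ↦ P_J` is a lattice isomorphism from the power set of the set of distinguished generators onto the
subgroups containing `B`. -/
theorem result {G : Type*} [Group G] (P : Cfsg.BNPair G) :
    ∃ e : Set P.S ≃o {M : Subgroup G // P.B ≤ M},
      ∀ J : Set P.S, ((e J : {M : Subgroup G // P.B ≤ M}) : Subgroup G) = P.parabolic (Subtype.val '' J) := by
  refine ⟨⟨⟨fun J => ⟨CL.Chev.BN.cellSubgroup P J, CL.Chev.BN.B_le_cellSubgroup J⟩,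
    fun M => {s | (s : G) ∈ M.1}, fun J => ?_, fun M => ?_⟩, ?_⟩, fun J => ?_⟩
  · ext s
    exact CL.Chev.BN.gen_mem_cellSubgroup_iff
  · exact Subtype.ext (CL.Chev.BN.eq_cellSubgroup_of_le M.2).symm
  · intro J K
    exact CL.Chev.BN.cellSubgroup_le_cellSubgroup
  · exact (CL.Chev.BN.parabolic_image J).symm

end Cfsg.Agent.S0316
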