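import Cfsg.Statements.S0321
import Cfsg.Agent.Chev.BNParabolic

set_option autoImplicit false
open Cfsg

namespace Cfsg.Agent.S0321

/-- For `n ∈ N` not in `B`, the union `B ∪ B n B` is (the underlying set of) a subgroup exactly when `n` agrees
modulo `B ⊓ N` with one of the distinguished representatives; thus the distinguished involutions are
determined by `B` and `N`. -/
theorem result {G : Type*} [Group G] (P : Cfsg.BNPair G) {n : G}
    (hn : n ∈ P.N) (hnB : n ∉ P.B) :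
    (∃ H : Subgroup G, (H : Set G) = (P.B : Set G) ∪ DoubleCoset.doubleCoset n (P.B : Set G) P.B) ↔ ∃ s ∈ P.S, s⁻¹ * n ∈ P.B := by
  constructor
  · rintro ⟨H, hH⟩
    have hB : P.B ≤ H := fun b hb => by
      rw [← SetLike.mem_coe, hH]; exact Or.inl hb
    have hnH : n ∈ H := by
      rw [← SetLike.mem_coe, hH]; exact Or.inr (DoubleCoset.mem_doubleCoset_self _ _ _)
    obtain ⟨l, hl, e⟩ := (CL.Chev.BN.invGen P).exists_isRed (CL.Chev.BN.mk P ⟨n, hn⟩)
    rcases l with _ | ⟨s, l⟩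
    · exact absurd (CL.Chev.BN.mk_eq_one_iff.1 e.symm) hnB
    · have hs := CL.Chev.BN.letters_mem_of_mem hB hl (e ▸ CL.Chev.BN.self_mem_cell ⟨n, hn⟩) hnH s (by simp)
      rw [← SetLike.mem_coe, hH] at hs
      rcases hs with hs | hs
      · exact absurd hs (CL.Chev.BN.gen_notMem_B s)
      · rw [← CL.Chev.BN.cell_mk (P := P) ⟨n, hn⟩] at hs
        exact ⟨s, s.2, CL.Chev.BN.mk_eq_iff.1 (CL.Chev.BN.eq_of_mem_cell (CL.Chev.BN.gen_mem_cell s) hs)⟩
  · rintro ⟨s, hs, h⟩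
    refine ⟨CL.Chev.BN.cellSubgroup P {⟨s, hs⟩}, ?_⟩
    ext g
    rw [SetLike.mem_coe, CL.Chev.BN.mem_cellSubgroup_singleton, ← CL.Chev.BN.cell_mk (P := P) ⟨n, hn⟩,
      ← (CL.Chev.BN.mk_eq_iff (n := CL.Chev.BN.genN ⟨s, hs⟩) (n' := ⟨n, hn⟩)).2 h]
    rfl

end Cfsg.Agent.S0321
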