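import Cfsg.Statements.S0323
import Cfsg.Agent.Chev.BNRankOne

set_option autoImplicit false
open scoped Pointwise
open Cfsg

namespace Cfsg.Agent.S0323

/-- A doubly transitive action on a set with at least three points yields a (B,N)-pair of rank one:
`B` is the stabiliser of a point `x`, `N` the setwise stabiliser of a pair `{x, y}`. -/
theorem result {G Ω : Type*} [Group G] [MulAction G Ω]
    (h2 : MulAction.IsMultiplyPretransitive G Ω 2) {x y z : Ω} (hxy : x ≠ y) (hyz : y ≠ z) (hxz : x ≠ z) :
    ∃ P : Cfsg.BNPair G, P.B = MulAction.stabilizer G x ∧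
      P.N = MulAction.stabilizer G ({x, y} : Set Ω) ∧ P.rank = 1 := by
  obtain ⟨s, hsx, hsy⟩ := MulAction.is_two_pretransitive_iff.1 h2 hxy hxy.symm
  refine ⟨CL.Chev.BN.ofTwoTransitive h2 hxy hyz hxz s hsx hsy, rfl, rfl, ?_⟩
  change Nat.card ({s} : Set G) = 1
  simp

end Cfsg.Agent.S0323
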