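import Cfsg.Statements.S0326
import Cfsg.Agent.Base

set_option autoImplicit false
open Cfsg

namespace Cfsg.Agent.S0326

/-- The Suzuki–Tits ovoid over a finite field with `q` elements has `q² + 1` points. -/
theorem result {F : Type*} [Field F] [Fintype F] (m : ℕ) :
    Nat.card (Cfsg.suzukiOvoid F m) = Fintype.card F ^ 2 + 1 := by
  let v : Option (F × F) → (Fin 4 → F) := fun p => p.elim ![1, 0, 0, 0]
    fun p => ![p.1 * p.2 + p.1 ^ (2 ^ (m + 1) + 2) + p.2 ^ (2 ^ (m + 1)), p.2, p.1, 1]
  have hv : ∀ p, v p ≠ 0 := by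
    rintro (_ | p) h
    · simpa [v] using congrFun h 0
    · simpa [v] using congrFun h 3
  have e : Option (F × F) ≃ Cfsg.suzukiOvoid F m := Equiv.ofBijective
    (fun p => ⟨Projectivization.mk F (v p) (hv p), v p, hv p, rfl, by
      rcases p with _ | ⟨x, y⟩
      · exact Or.inl rfl
      · exact Or.inr ⟨x, y, rfl⟩⟩) ⟨by
      intro p q h
      obtain ⟨a, ha⟩ := (Projectivization.mk_eq_mk_iff' F _ _ _ _).1 (congrArg Subtype.val h)
      have h0 := congrFun ha 0
      have h1 := congrFun ha 1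
      have h2 := congrFun ha 2
      have h3 := congrFun ha 3
      rcases p with _ | ⟨x, y⟩ <;> rcases q with _ | ⟨x', y'⟩
      · rfl
      · simp [v] at h0 h3
        simp [h3] at h0
      · simp [v] at h3
      · simp [v] at h1 h2 h3
        simp [h3] at h1 h2
        rw [h1, h2], by
      rintro ⟨_, w, hw, rfl, rfl | ⟨x, y, rfl⟩⟩
      · exact ⟨none, rfl⟩
      · exact ⟨some (x, y), rfl⟩⟩
  rw [← Nat.card_congr e, Finite.card_option, Nat.card_prod, Nat.card_eq_fintype_card, sq]

end Cfsg.Agent.S0326
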