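import Cfsg.Statements.S0327
import Cfsg.Agent.Chev.SzCard

set_option autoImplicit false
open Cfsg

namespace Cfsg.Agent.S0327

/-- The Suzuki group (`m ≥ 1`) is a Zassenhaus group on the `q² + 1` points of the Suzuki–Tits ovoid. -/
theorem result {F : Type*} [Field F] [Fintype F] {m : ℕ} (hm : 1 ≤ m)
    (hF : Fintype.card F = 2 ^ (2 * m + 1)) :
    Cfsg.IsZassenhausGroup (Cfsg.Sz F m) (Cfsg.suzukiOvoid F m) := by
  have M := CL.Chev.Sz.modelSz hm hF
  let e := CL.Chev.Sz.ovoidEquiv hm hF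
  have he : ∀ (g : Cfsg.Sz F m) p q, g • e p = e q ↔ g • p = q := fun g p q => by
    rw [← CL.Chev.Sz.ovoidEquiv_smul, e.apply_eq_iff_eq]
  refine ⟨⟨fun {g h} H => ?_⟩, ?_, ?_, ?_, ?_⟩
  · refine eq_of_smul_eq_smul (α := (CL.Chev.Sz.modelSz hm hF).Pt) fun p => ?_
    rw [← he, H, he]
  · rw [MulAction.is_two_pretransitive_iff]
    intro a b c d hab hcd
    obtain ⟨a, rfl⟩ := e.surjective a
    obtain ⟨b, rfl⟩ := e.surjective b
    obtain ⟨c, rfl⟩ := e.surjective c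
    obtain ⟨d, rfl⟩ := e.surjective d
    simp only [he]
    exact MulAction.is_two_pretransitive_iff.1 (CL.Chev.Sz.modelSz hm hF).two_pretransitive
      (fun h => hab (by rw [h])) (fun h => hcd (by rw [h]))
  · intro g a b c hab hbc hac ha hb hc
    obtain ⟨a, rfl⟩ := e.surjective a
    obtain ⟨b, rfl⟩ := e.surjective b
    obtain ⟨c, rfl⟩ := e.surjective c
    rw [he] at ha hb hc
    exact (CL.Chev.Sz.modelSz hm hF).eq_one_of_fix_three (fun h => hab (by rw [h])) (fun h => hbc (by rw [h]))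
      (fun h => hac (by rw [h])) ha hb hc
  · obtain ⟨c, hc⟩ := (CL.Chev.Sz.modelSz hm hF).toTits.exists_unit_ne_one
    refine ⟨(CL.Chev.Sz.modelSz hm hF).D c, fun h => hc ((CL.Chev.Sz.modelSz hm hF).D_eq_one.1 h),
      e (CL.Chev.Sz.modelSz hm hF).inf, e ((CL.Chev.Sz.modelSz hm hF).pt 0 0), by simp, ?_, ?_⟩
    · rw [he]; simp
    · rw [he]; simp
  · intro N hN hT
    have hne : N ≠ ⊥ := by
      rintro rfl
      obtain ⟨⟨g, hg⟩, h⟩ := hT.exists_smul_eq (e (CL.Chev.Sz.modelSz hm hF).inf)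
        (e ((CL.Chev.Sz.modelSz hm hF).pt 0 0))
      obtain rfl := Subgroup.mem_bot.1 hg
      have h' : (1 : Cfsg.Sz F m) • e (CL.Chev.Sz.modelSz hm hF).inf = e ((CL.Chev.Sz.modelSz hm hF).pt 0 0) := h
      simp at h'
    obtain ⟨n, hn, h1, hB⟩ := (CL.Chev.Sz.modelSz hm hF).exists_mem_B_of_normal hne
    refine ⟨e (CL.Chev.Sz.modelSz hm hF).inf, Subgroup.ne_bot_iff_exists_ne_one.2 ⟨⟨⟨n, hn⟩, ?_⟩, ?_⟩⟩
    · exact (he n _ _).2 hB
    · intro h
      exact h1 (congrArg (fun x => (x.1.1 : Cfsg.Sz F m)) h)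

end Cfsg.Agent.S0327
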