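import Cfsg.Statements.S0335
import Cfsg.Agent.Chev.SzPart

set_option autoImplicit false
open Cfsg

namespace Cfsg.Agent.S0335

/-- The Suzuki–Tits point set is an ovoid: any three distinct points of it are projectively independent
(no line of projective 3-space meets it in more than two points). -/
theorem result {F : Type*} [Field F] [Fintype F] {m : ℕ} (hm : 1 ≤ m)
    (hF : Fintype.card F = 2 ^ (2 * m + 1)) (p : Fin 3 ↪ Cfsg.suzukiOvoid F m) :
    Projectivization.Independent (fun i => (p i : Projectivization F (Fin 4 → F))) := by
  let e := CL.Chev.Sz.ovoidEquiv hm hF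
  have hne : ∀ i j, i ≠ j → e.symm (p i) ≠ e.symm (p j) := fun i j h h' => h (p.injective (e.symm.injective h'))
  have h := (CL.Chev.Sz.modelSz hm hF).linearIndependent_vec (hne 0 1 (by decide)) (hne 1 2 (by decide))
    (hne 0 2 (by decide))
  have := Projectivization.Independent.mk _ h.ne_zero h
  convert this using 2 with i
  rw [← e.apply_symm_apply (p i), CL.Chev.Sz.ovoidEquiv_coe]
  fin_cases i <;> rfl

end Cfsg.Agent.S0335
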