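import Cfsg.Statements.S0341
import Cfsg.Agent.Perm.ZassReg

set_option autoImplicit false
open Cfsg

namespace Cfsg.Agent.S0341

/-- If a finite group acts faithfully and doubly transitively, no non-identity element fixes three points, some
non-identity element fixes two points, and some normal subgroup acts regularly, then the number of points
is `2^p` with `p` prime. -/
theorem result {G Ω : Type*} [Group G]
    [MulAction G Ω] [Fintype Ω] [FaithfulSMul G Ω] (h2 : MulAction.IsMultiplyPretransitive G Ω 2)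
    (h3 : ∀ g : G, ∀ a b c : Ω, a ≠ b → b ≠ c → a ≠ c → g • a = a → g • b = b → g • c = c → g = 1)
    (hfix : ∃ g : G, g ≠ 1 ∧ ∃ a b : Ω, a ≠ b ∧ g • a = a ∧ g • b = b)
    (N : Subgroup G) [N.Normal] (hNt : MulAction.IsPretransitive N Ω)
    (hNr : ∀ a : Ω, MulAction.stabilizer N a = ⊥) :
    ∃ p : ℕ, p.Prime ∧ Fintype.card Ω = 2 ^ p := by
  obtain ⟨g, hg, a, b, hab, ha, hb⟩ := hfix
  have h : CL.Perm.IsZ G Ω := by
    refine ⟨fun h h' => MulAction.is_two_pretransitive_iff.mp h2 h h',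
      fun h1 h2 h3' => h3 _ _ _ _ h1 h2 h3', ?_⟩
    by_contra hc
    apply hg
    refine FaithfulSMul.eq_of_smul_eq_smul (α := Ω) fun c => ?_
    rw [one_smul]
    by_cases h1 : c = a
    · rw [h1, ha]
    by_cases h2 : c = b
    · rw [h2, hb]
    exact absurd ⟨a, b, c, hab, Ne.symm h2, Ne.symm h1⟩ hc
  have := h.finite
  have hH : Nat.card (CL.Perm.stab2 G a b) ≠ 1 := fun e =>
    hg (Subgroup.mem_bot.1 (Subgroup.card_eq_one.1 e ▸ (⟨ha, hb⟩ : g ∈ CL.Perm.stab2 G a b)))
  obtain ⟨p, hp, hd⟩ := Nat.exists_prime_and_dvd hH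
  have := Fact.mk hp
  obtain ⟨x, hx⟩ := exists_prime_orderOf_dvd_card' p hd
  have hx' : orderOf (x : G) = p := by rw [Subgroup.orderOf_coe, hx]
  refine ⟨p, hp, ?_⟩
  rw [← Nat.card_eq_fintype_card, h.card_eq_two_pow_of_regular hab N hNr
    (A := Subgroup.zpowers (x : G)) (Subgroup.zpowers_le.2 x.2) (fun e => hp.ne_one (by
      rw [← hx', Subgroup.zpowers_eq_bot.1 e, orderOf_one])), Nat.card_zpowers, hx']

end Cfsg.Agent.S0341
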