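import Cfsg.Statements.S0346
import Cfsg.Agent.Perm.ZassMain

set_option autoImplicit false
open Cfsg

namespace Cfsg.Agent.S0346

/-- The number of points of a finite simple Zassenhaus group is `p^k + 1` for some prime power `p^k` (the regular normal
subgroup of a point stabiliser is a `p`-group). -/
theorem result {G Ω : Type*} [Group G] [Finite G] [MulAction G Ω] [Fintype Ω]
    (hZ : Cfsg.IsZassenhausGroup G Ω) [IsSimpleGroup G] :
    IsPrimePow (Fintype.card Ω - 1) := by
  have h := CL.Perm.isZ_of_zassenhaus hZ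
  obtain ⟨a, b, -, hab, -⟩ := h.three
  obtain ⟨F, hF, -⟩ := h.exists_isKer a
  rw [← Nat.card_eq_fintype_card]
  have h3 := h.three_le_card
  have key : ∀ p f : ℕ, p.Prime → Nat.card Ω - 1 = p ^ f → IsPrimePow (Nat.card Ω - 1) := by
    intro p f hp e
    refine ⟨p, f, hp.prime, Nat.pos_of_ne_zero ?_, e.symm⟩
    rintro rfl
    rw [pow_zero] at e
    omega
  have large : Nat.card Ω - 2 ≤ 2 * Nat.card (CL.Perm.stab2 G a b) → IsPrimePow (Nat.card Ω - 1) := by
    intro hd
    obtain ⟨p, f, hp, -, e⟩ := hF.exists_prime_of_large h hab.symm hd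
    exact key p f hp (by omega)
  rcases Nat.even_or_odd (Nat.card (CL.Perm.stab2 G a b)) with he | ho
  · exact large (h.card_le_of_even hab he)
  · rcases CL.Perm.feit_general hZ hab hF ho with h1 | ⟨h1, -⟩ | ⟨h1, -⟩
    · exact large (by omega)
    · exact large h1.le
    · obtain ⟨n, hn⟩ := h1.exists_card_eq
      exact key 2 n Nat.prime_two (by rw [← hF.card h, hn])

end Cfsg.Agent.S0346
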