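import Cfsg.Statements.S0347
import Cfsg.Agent.Perm.ZassMain

set_option autoImplicit false
open Cfsg

namespace Cfsg.Agent.S0347

/-- If in a finite simple Zassenhaus group the stabiliser of a point `x` has a normal `2`-subgroup `U` which is
non-abelian and acts regularly on the points other than `x`, then the group is simple of Suzuki order (order-level
predicate `IsSuzuki`). -/
theorem result {G Ω : Type*} [Group G] [Finite G] [MulAction G Ω] [Finite Ω]
    (hZ : Cfsg.IsZassenhausGroup G Ω) [IsSimpleGroup G]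
    (x : Ω) (U : Subgroup G) (hUle : U ≤ MulAction.stabilizer G x) (hUn : (U.subgroupOf (MulAction.stabilizer G x)).Normal)
    (hU2 : IsPGroup 2 U) (hUna : ∃ u v : U, u * v ≠ v * u)
    (hreg : ∀ y z : Ω, y ≠ x → z ≠ x → ∃! u : U, (u : G) • y = z) :
    Cfsg.IsSuzuki G := by
  have h := CL.Perm.isZ_of_zassenhaus hZ
  obtain ⟨b, hb⟩ := h.exists_ne x
  obtain ⟨K, _, _, m, -, hm, -, e1, e2, -⟩ := (h.isKer_of_reg hUle hreg).suzuki h hb.symm
    (CL.Perm.IsZ.stab2_ne_bot_of_zassenhaus hZ hb.symm) hU2 hUna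
  exact ⟨inferInstance, m, hm, by
    rw [h.card_group hb.symm, e1, e2, Nat.add_sub_cancel, mul_comm (_ + 1)]⟩

end Cfsg.Agent.S0347
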