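import Cfsg.Statements.S0358
import Cfsg.Agent.Spor.GolayCode

set_option autoImplicit false
open Cfsg

namespace Cfsg.Agent.S0358

open CL.Spor

/-- The length-24 code built from the squares modulo 23 has dimension 12 over the field with two elements. -/
theorem result : Module.finrank (ZMod 2) Cfsg.golayCode = 12 := by
  have h1 : Nat.card golayCode = 4096 := by
    rw [← GC_ncard, GC, supports, Set.ncard_image_of_injective _ support₂_injective]
    rfl
  have h2 := Module.natCard_eq_pow_finrank (K := ZMod 2) (V := golayCode)
  rw [h1, Nat.card_zmod, show (4096 : ℕ) = 2 ^ 12 from rfl] at h2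
  exact (Nat.pow_right_injective (le_refl 2) h2).symm

end Cfsg.Agent.S0358
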