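import Cfsg.Statements.S0371
import Cfsg.Agent.Spor.GolayCode

set_option autoImplicit false
open Cfsg

namespace Cfsg.Agent.S0371

open CL.Spor

/-- Multiplication by a nonzero square residue modulo 23, fixing the extra point, lies in the group of the length-24 code. -/
theorem result (u : (ZMod 23)ˣ) (hu : IsSquare u) : Equiv.optionCongr (Units.mulLeft u) ∈ Cfsg.M24 := by
  obtain ⟨r, rfl⟩ := hu
  have h : Represents (fun k => if k = 23 then 23 else ((r : ZMod 23).val * (r : ZMod 23).val * k) % 23)
      (Equiv.optionCongr (Units.mulLeft (r * r))) := by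
    have key : ∀ a x : ZMod 23, (a * a * x).val =
        if x.val = 23 then 23 else (a.val * a.val * x.val) % 23 := by decide +kernel
    rintro (_ | x)
    · rfl
    · exact key r x
  rw [h.mem_M24_iff]
  have key : ∀ a : ZMod 23, a ≠ 0 →
      isM24 (fun k => if k = 23 then 23 else (a.val * a.val * k) % 23) = true := by decide +kernel
  haveI : Fact (Nat.Prime 23) := ⟨by norm_num⟩
  exact key _ r.ne_zero

end Cfsg.Agent.S0371
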