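import Cfsg.Statements.S0374
import Cfsg.Agent.Spor.M24Order

set_option autoImplicit false
open Cfsg

namespace Cfsg.Agent.S0374

open CL.Spor MulAction

/-- The group of the length-24 code is generated by x ↦ x+1, x ↦ -1/x and the cube-twist permutation. -/
theorem result : Subgroup.closure {Equiv.optionCongr (Equiv.addRight (1 : ZMod 23)), Cfsg.projInv, Cfsg.cubeTwist} = Cfsg.M24 := by
  have h := congrArg (Subgroup.map M24.subtype) top_eq_gen_abc
  rw [← MonoidHom.range_eq_map, Subgroup.range_subtype, gen, MonoidHom.map_closure] at h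
  rw [h]
  congr 1
  rw [← coe_m24_pA, ← coe_m24_pB, ← coe_m24_pC]
  ext σ
  constructor
  · rintro (rfl | rfl | rfl) <;> exact ⟨_, ⟨_, by simp, rfl⟩, rfl⟩
  · rintro ⟨_, ⟨P, hP, rfl⟩, rfl⟩
    simp only [Set.mem_ofPred_eq, List.mem_cons, List.not_mem_nil, or_false] at hP
    rcases hP with rfl | rfl | rfl <;> simp

end Cfsg.Agent.S0374
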