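import Cfsg.Statements.S0380
import Cfsg.Agent.Spor.M24More
import Cfsg.Agent.Cls.SLnCard

set_option autoImplicit false
open Cfsg

namespace Cfsg.Agent.S0380

open CL.Spor MulAction

abbrev F4 : Type := QuadraticAlgebra (ZMod 2) 1 1
instance : Fact (∀ r : ZMod 2, r ^ 2 ≠ 1 + 1 * r) := ⟨by decide⟩
instance : Fintype F4 := Fintype.ofEquiv _ (QuadraticAlgebra.equivProd _ _).symm
def cd (z : F4) : ℕ := z.re.val + 2 * z.im.val
def idx (y : Fin 3 → F4) : ℕ := pf 549586869021183897075850296456369006274301749326895832021916107255781296572303230258654993322135 (cd (y 0) + 4 * cd (y 1) + 16 * cd (y 2))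

/-- A three-point stabiliser in the group of the length-24 code is isomorphic to PSL(3, F) for the field F with 4 elements. -/
theorem result (p q r : Cfsg.GolayPt) (hpq : p ≠ q) (hpr : p ≠ r) (hqr : q ≠ r) (F : Type) [Field F] [Fintype F] (hF : Fintype.card F = 4) : Nonempty (↥(MulAction.stabilizer Cfsg.M24 p ⊓ MulAction.stabilizer Cfsg.M24 q ⊓ MulAction.stabilizer Cfsg.M24 r) ≃* Matrix.ProjectiveSpecialLinearGroup (Fin 3) F) := by
  obtain ⟨g, rfl, rfl, rfl⟩ := M24_trans3 (p := gPt 23) (q := gPt 0) (r := gPt 1) (by decide) (by decide) (by decide)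
    hpq hpr hqr
  have e0 : (fixS triad0 : Subgroup M24) = stabilizer M24 (gPt 23) ⊓ stabilizer M24 (gPt 0) ⊓ stabilizer M24 (gPt 1) := by
    rw [← fixS_triple, show triad0 = {gPt 23, gPt 0, gPt 1} by decide +kernel]
  have hc : Fintype.card F4 = 4 := by decide +kernel
  obtain ⟨e1⟩ := CL.SLn.nonempty_psl_equiv_of_card_eq (ι := Fin 3) (hc.trans hF.symm)
  obtain ⟨θ, h1, -⟩ := exists_hom_pts idx (by decide +kernel) _
    (psl_ker_iff idx (by decide +kernel) (by decide +kernel) (by decide +kernel)) m21G_good m21G_eq (by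
      intro P hP
      simp only [m21G, List.mem_cons, List.not_mem_nil, or_false] at hP
      rcases hP with rfl | rfl
      · exact ⟨⟨!![⟨1, 0⟩, ⟨1, 0⟩, ⟨1, 0⟩; ⟨0, 0⟩, ⟨0, 1⟩, ⟨1, 1⟩; ⟨1, 0⟩, ⟨1, 0⟩, ⟨0, 1⟩], by decide +kernel⟩, by decide +kernel⟩
      · exact ⟨⟨!![⟨1, 0⟩, ⟨0, 1⟩, ⟨1, 1⟩; ⟨1, 1⟩, ⟨0, 1⟩, ⟨0, 0⟩; ⟨1, 1⟩, ⟨1, 0⟩, ⟨0, 0⟩], by decide +kernel⟩, by decide +kernel⟩)
  have h2 := nonempty_equiv_of_injective θ (fun x hx => Subtype.ext (M24_base7 fun p hp => by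
    have : ∀ k < 24, k = 0 ∨ k = 1 ∨ ∃ y, idx y = k := by decide +kernel
    rw [← gPt_gIdx p]
    rcases this _ (gIdx_lt p) with h | h | ⟨y, h⟩
    · rw [h]; exact (e0.le x.2).1.2
    · rw [h]; exact (e0.le x.2).2
    · rw [← h]; exact (h1 x).1 hx y)) (by
    have := CL.SLn.card_PSL_mul (ι := Fin 3) (F := F4)
    rw [CL.SLn.card_SL_three, hc, Fintype.card_fin] at this
    rw [card_fixS_three triad0_card]
    refine Nat.le_of_mul_le_mul_left (this.trans (by norm_num)).le (by norm_num))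
  exact ⟨(conjEquiv g _ _ fun x => by simp only [e0, Subgroup.mem_inf, mem_stabilizer_smul_iff]).symm.trans
    ((MulEquiv.ofBijective θ h2).trans e1)⟩

end Cfsg.Agent.S0380
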