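import Cfsg.Statements.S0381
import Cfsg.Agent.Spor.M24Octad

set_option autoImplicit false
open Cfsg

namespace Cfsg.Agent.S0381

open CL.Spor MulAction

/-- The pointwise stabiliser of an octad in the group of the length-24 code has order 16 and every element of it squares to the identity. -/
theorem result (o : Finset Cfsg.GolayPt) (ho : o ∈ Cfsg.octads) : Nat.card ↥(Cfsg.M24 ⊓ fixingSubgroup (Equiv.Perm Cfsg.GolayPt) (o : Set Cfsg.GolayPt)) = 16 ∧ ∀ g ∈ Cfsg.M24 ⊓ fixingSubgroup (Equiv.Perm Cfsg.GolayPt) (o : Set Cfsg.GolayPt), g * g = 1 := by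
  refine ⟨(card_M24_inf _).trans (card_fixS_octad ho), fun g hg => ?_⟩
  exact congrArg Subtype.val (fixS_octad_sq ho (x := ⟨g, hg.1⟩) hg.2)

end Cfsg.Agent.S0381
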