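import Cfsg.Statements.S0384
import Cfsg.Agent.Spor.M24Simple

set_option autoImplicit false
open scoped Pointwise
open Cfsg

namespace Cfsg.Agent.S0384

open CL.Spor MulAction

/-- A dodecad stabiliser is sharply 5-transitive on the dodecad. -/
theorem result (d : Finset Cfsg.GolayPt) (hd : d ∈ Cfsg.dodecads) (x y : Fin 5 ↪ Cfsg.GolayPt) (hx : ∀ i, x i ∈ d) (hy : ∀ i, y i ∈ d) : ∃! g : MulAction.stabilizer Cfsg.M24 d, ∀ i, ((g : Cfsg.M24) : Equiv.Perm Cfsg.GolayPt) (x i) = y i := by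
  obtain ⟨τ, hτ⟩ := Equiv.Perm.exists_extending_pair (f := x) (g := y) x.injective y.injective
  have hs : (Finset.univ.map x).card = 5 := by simp
  have hsd : Finset.univ.map x ⊆ d := by
    intro p hp
    obtain ⟨i, -, rfl⟩ := Finset.mem_map.1 hp
    exact hx i
  obtain ⟨g, e1, e2⟩ := dodecad_exists_eq_on5 hd hd hs hsd τ (by
    intro p hp
    obtain ⟨q, hq, rfl⟩ := Finset.mem_smul_finset.1 hp
    obtain ⟨i, -, rfl⟩ := Finset.mem_map.1 hq
    exact (show τ (x i) ∈ d by rw [hτ i]; exact hy i))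
  have e3 : ∀ i, (g : Equiv.Perm GolayPt) (x i) = y i := fun i =>
    (e2 _ (Finset.mem_map_of_mem _ (Finset.mem_univ i))).trans (hτ i)
  refine ⟨⟨g, e1⟩, e3, ?_⟩
  rintro ⟨k, hk⟩ h
  have : g⁻¹ * k ∈ stabilizer M24 d ⊓ (fixS (Finset.univ.map x) : Subgroup M24) := by
    refine ⟨(stabilizer M24 d).mul_mem ((stabilizer M24 d).inv_mem e1) hk, mem_fixS.2 fun p hp => ?_⟩
    obtain ⟨i, -, rfl⟩ := Finset.mem_map.1 hp
    rw [mul_smul, inv_smul_eq_iff]
    exact (h i).trans (e3 i).symm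
  rw [dodecad_fix_five_eq_bot hd hsd hs, Subgroup.mem_bot, inv_mul_eq_one] at this
  exact Subtype.ext this.symm

end Cfsg.Agent.S0384
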