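import Cfsg.Statements.S0385
import Cfsg.Agent.Spor.GolayOctad

set_option autoImplicit false
open Cfsg

namespace Cfsg.Agent.S0385

open CL.Spor

/-- The 6-point intersections of octads with a fixed dodecad form a Steiner system S(5, 6, 12) on the dodecad. -/
theorem result (d : Finset Cfsg.GolayPt) (hd : d ∈ Cfsg.dodecads) : Cfsg.IsSteinerSystem 5 6 {h : Finset {p : Cfsg.GolayPt // p ∈ d} | ∃ o ∈ Cfsg.octads, (o ∩ d).card = 6 ∧ h = Finset.subtype (fun p => p ∈ d) o} := by
  constructor
  · rintro h ⟨o, ho, h6, rfl⟩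
    rw [Finset.card_subtype, ← h6]
    congr 1
  · intro s hs
    have hs' : (s.map (Function.Embedding.subtype _)).card = 5 := by rw [Finset.card_map, hs]
    obtain ⟨o, ho, h⟩ := exists_octad_superset hs'
    have hsub : s.map (Function.Embedding.subtype _) ⊆ o ∩ d := by
      intro p hp
      refine Finset.mem_inter.2 ⟨h hp, ?_⟩
      obtain ⟨q, -, rfl⟩ := Finset.mem_map.1 hp
      exact q.2
    have h5 := Finset.card_le_card hsub
    have h6 : (o ∩ d).card = 6 := by have := octad_dodecad_inter ho hd; omega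
    refine ⟨Finset.subtype (fun p => p ∈ d) o, ⟨⟨o, ho, h6, rfl⟩, ?_⟩, ?_⟩
    · intro q hq
      exact Finset.mem_subtype.2 (h (Finset.mem_map_of_mem _ hq))
    · rintro _ ⟨⟨o', ho', -, rfl⟩, h'⟩
      congr 1
      refine octad_unique hs'.ge ho' ho ?_ h
      intro p hp
      obtain ⟨q, hq, rfl⟩ := Finset.mem_map.1 hp
      exact Finset.mem_subtype.1 (h' hq)

end Cfsg.Agent.S0385
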