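import Cfsg.Statements.S0389
import Cfsg.Agent.Spor.M24Simple

set_option autoImplicit false
open scoped Pointwise
open Cfsg

namespace Cfsg.Agent.S0389

open CL.Spor MulAction

/-- The stabiliser of a dodecad and a point on it is 3-transitive on the complementary dodecad. -/
theorem result (d : Finset Cfsg.GolayPt) (hd : d ∈ Cfsg.dodecads) (p : Cfsg.GolayPt) (hp : p ∈ d) (x y : Fin 3 ↪ Cfsg.GolayPt) (hx : ∀ i, x i ∉ d) (hy : ∀ i, y i ∉ d) : ∃ g ∈ MulAction.stabilizer Cfsg.M24 d ⊓ MulAction.stabilizer Cfsg.M24 p, ∀ i, (g : Equiv.Perm Cfsg.GolayPt) (x i) = y i := by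
  have hc := dodecad_compl hd
  have hx' : ∀ i, x i ∈ dᶜ := fun i => Finset.mem_compl.2 (hx i)
  have hy' : ∀ i, y i ∈ dᶜ := fun i => Finset.mem_compl.2 (hy i)
  have ne : ∀ (z : Fin 3 ↪ GolayPt) (i j : Fin 3), i ≠ j → z i ≠ z j := fun z i j h => z.injective.ne h
  obtain ⟨g, hg, e0, e1⟩ := dodecad_twoTransOn hc (Finset.empty_subset _) (by simp) (x 0) (by simpa using hx 0)
    (x 1) (by simpa using hx 1) (y 0) (by simpa using hy 0) (y 1) (by simpa using hy 1)
    (ne x _ _ (by decide)) (ne y _ _ (by decide))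
  obtain ⟨k, hk, e2⟩ := dodecad_fix_smul hc (F := {y 0, y 1}) (by simp [Finset.insert_subset_iff, hy])
    (Finset.card_le_two.trans (by norm_num)) (a := g • x 2) (b := y 2)
    ((smul_mem_iff_of_smul_eq hg.1 _).2 (hx' 2)) (hy' 2)
    (by rw [← e0, ← e1]; simp) (by simp)
  have hkg : k * g ∈ stabilizer M24 dᶜ := mul_mem hk.1 hg.1
  obtain ⟨l, hl, e3⟩ := dodecad_fix_three_trans_compl hc (F := {y 0, y 1, y 2})
    (by simp [Finset.insert_subset_iff, hy])
    (Finset.card_eq_three.2 ⟨_, _, _, ne y _ _ (by decide), ne y _ _ (by decide), ne y _ _ (by decide), rfl⟩)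
    (x := (k * g) • p) (y := p) (by rw [smul_mem_iff_of_smul_eq hkg]; simpa using hp) (by simpa using hp)
  refine ⟨l * (k * g), ⟨stabilizer_compl d ▸ mul_mem hl.1 hkg, mem_stabilizer_iff.2 (by rw [mul_smul, e3])⟩, ?_⟩
  intro i
  show (l * (k * g)) • x i = y i
  have f0 := mem_fixS.1 hk.2 (y 0) (by simp)
  have f1 := mem_fixS.1 hk.2 (y 1) (by simp)
  have hl' := mem_fixS.1 hl.2
  rw [mul_smul, mul_smul]
  fin_cases i
  · exact (show l • k • g • x 0 = y 0 by rw [e0, f0, hl' _ (by simp)])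
  · exact (show l • k • g • x 1 = y 1 by rw [e1, f1, hl' _ (by simp)])
  · exact (show l • k • g • x 2 = y 2 by rw [e2, hl' _ (by simp)])

end Cfsg.Agent.S0389
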