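import Cfsg.Statements.S0412
import Cfsg.Agent.Spor.DesignWitt

set_option autoImplicit false
open Cfsg

namespace Cfsg.Agent.S0412

/-- Aut of an S(5, 8, 24) is simple of order 244823040 and 5-transitive on points. -/
theorem result {α : Type*} [Fintype α] [DecidableEq α] (hα : Fintype.card α = 24) {B : Set (Finset α)} (hB : Cfsg.IsSteinerSystem 5 8 B) : Cfsg.IsM24 (Cfsg.setSystemAut B) ∧ MulAction.IsMultiplyPretransitive (Cfsg.setSystemAut B) α 5 := by
  exact ⟨CL.Spor.Des.isM24_aut hα hB,
    CL.Spor.Des.multiplyPretransitive_of_strong (CL.Spor.Des.strong_iso24 hα hα hB hB)⟩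

end Cfsg.Agent.S0412
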