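import Cfsg.Statements.S0423
import Cfsg.Agent.Spor.J2Main

set_option autoImplicit false
open Cfsg

namespace Cfsg.Agent.S0423

/-- Existence of a simple group of order 604800. -/
theorem result : ∃ G : Subgroup (Equiv.Perm (Fin 100)), Cfsg.IsJ2 G := by
  have := CL.J2.simple_J2
  obtain ⟨P, e, -⟩ := CL.Mx.exists_perm_rep (CL.J2.mJ.gen CL.J2.uS) CL.J2.index_U fun h => by
    have := CL.J2.index_U
    rw [h, Subgroup.index_top] at this
    omega
  exact ⟨P, e.symm.isSimpleGroup, (Nat.card_congr e.toEquiv).symm.trans CL.J2.card_J2⟩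

end Cfsg.Agent.S0423
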