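import Cfsg.Statements.S0440
import Cfsg.Agent.Spor.TTClassic

set_option autoImplicit false
open Cfsg

namespace Cfsg.Agent.S0440

/-- In the symplectic group in dimension 2n ≥ 2 over the field with two elements, the elements g for which g - 1 has rank one (the symplectic transvections) form a conjugacy class of 3-transpositions generating the group. -/
theorem result (n : ℕ) (hn : 1 ≤ n) : Cfsg.IsThreeTranspositionClass {g : Matrix.symplecticGroup (Fin n) (ZMod 2) | ((g : Matrix (Fin n ⊕ Fin n) (Fin n ⊕ Fin n) (ZMod 2)) - 1).rank = 1} := by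
  haveI : Nontrivial (Fin n ⊕ Fin n → ZMod 2) := by
    haveI : Nonempty (Fin n ⊕ Fin n) := ⟨.inl ⟨0, hn⟩⟩
    infer_instance
  have := CL.TTC.isClass_sp (CL.Sp.stdForm_isAlt (Fin n) (ZMod 2)) (CL.Sp.stdForm_nondegenerate _ _)
    CL.TTC.zmod_two_eq_one (CL.Sp.spLin (Fin n) (ZMod 2)) CL.Sp.spLin_injective CL.Sp.spLin_range
  convert this using 3 with g
  rw [CL.TTC.rank_sub_one _ _ (CL.Sp.spLin_apply g)]

end Cfsg.Agent.S0440
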