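import Cfsg.Statements.S0442
import Cfsg.Agent.Inv.Dihedral

set_option autoImplicit false
open Cfsg

namespace Cfsg.Agent.S0442

/-- A standard trick for producing elements of an involution centraliser: for an involution a and an element g, let b be the conjugate g⁻¹ * a * g. If a * b has odd order 2m + 1 then g * (a * b) ^ m commutes with a; if a * b has even order 2m then (a * b) ^ m and (a * (g * a * g⁻¹)) ^ m commute with a. -/
theorem result {G : Type*} [Group G] (a g : G) (ha : orderOf a = 2) : (∀ m : ℕ, orderOf (a * (g⁻¹ * a * g)) = 2 * m + 1 → Commute (g * (a * (g⁻¹ * a * g)) ^ m) a) ∧ (∀ m : ℕ, orderOf (a * (g⁻¹ * a * g)) = 2 * m → Commute ((a * (g⁻¹ * a * g)) ^ m) a ∧ Commute ((a * (g * a * g⁻¹)) ^ m) a) := by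
  have ha2 := CL.Inv.mul_self_of_orderOf_two ha
  have hb2 : (g⁻¹ * a * g) * (g⁻¹ * a * g) = 1 := by
    have := CL.Inv.conj_mul_self ha2 g⁻¹
    rwa [inv_inv] at this
  have hc2 := CL.Inv.conj_mul_self ha2 g
  have key : ∀ (b : G) (m : ℕ), b * b = 1 → (a * b) ^ (2 * m) = 1 → Commute ((a * b) ^ m) a := by
    intro b m hb h
    refine CL.Inv.commute_of_inverts_of_mul_self (CL.Inv.conj_pow_of_inverts (CL.Inv.left_inverts_mul ha2 hb) _) ?_
    rw [← pow_add, ← two_mul, h]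
  refine ⟨fun m hm => ?_, fun m hm => ⟨key _ m hb2 (hm ▸ pow_orderOf_eq_one _), key _ m hc2 ?_⟩⟩
  · set b := g⁻¹ * a * g with hb
    have h1 : (a * b) ^ (2 * m + 1) = 1 := hm ▸ pow_orderOf_eq_one _
    have h2 := CL.Inv.conj_pow_of_inverts (CL.Inv.left_inverts_mul ha2 hb2) m
    have hai : a⁻¹ = a := CL.Inv.inv_eq_self_of_mul_self ha2
    rw [hai] at h2
    have h3 : a * g = g * b := by rw [hb]; group
    clear_value b
    show g * (a * b) ^ m * a = a * (g * (a * b) ^ m)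
    have h4 : (a * b) ^ m * a = a * ((a * b) ^ m)⁻¹ := by
      rw [← h2, ← mul_assoc, ← mul_assoc, ha2, one_mul]
    have h5 : ((a * b) ^ m)⁻¹ = (a * b) * (a * b) ^ m := by
      rw [inv_eq_iff_mul_eq_one, ← pow_succ', ← pow_add, ← h1]; congr 1; ring
    rw [← mul_assoc a g, h3, mul_assoc g, h4, h5, ← mul_assoc a (a * b), ← mul_assoc a a b, ha2, one_mul, mul_assoc]
  · have h1 : (a * (g⁻¹ * a * g)) ^ (2 * m) = 1 := hm ▸ pow_orderOf_eq_one _
    have h2 : a * (g * a * g⁻¹) = (g * (a * (g⁻¹ * a * g)) * g⁻¹)⁻¹ := by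
      rw [eq_inv_iff_mul_eq_one]
      calc a * (g * a * g⁻¹) * (g * (a * (g⁻¹ * a * g)) * g⁻¹) = a * (g * (a * a) * g⁻¹) * a := by group
        _ = 1 := by rw [ha2]; simp [ha2]
    rw [h2, inv_pow, conj_pow, h1]; simp

end Cfsg.Agent.S0442
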