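import Cfsg.Statements.S0443
import Cfsg.Agent.Base

set_option autoImplicit false
open Cfsg

namespace Cfsg.Agent.S0443

/-- Two definitions of a 2-central involution agree: an element t of order 2 of a finite group lies in the centre of some Sylow 2-subgroup if and only if its centraliser contains some Sylow 2-subgroup. -/
theorem result {G : Type*} [Group G] [Finite G] (t : G) (ht : orderOf t = 2) : Cfsg.IsTwoCentralInvolution t ↔ ∃ P : Sylow 2 G, (P : Subgroup G) ≤ Subgroup.centralizer ({t} : Set G) := by
  constructor
  · rintro ⟨-, P, -, hP⟩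
    exact ⟨P, fun x hx => Subgroup.mem_centralizer_singleton_iff.2 (hP x hx)⟩
  · rintro ⟨P, hP⟩
    refine ⟨ht, P, ?_, fun x hx => Subgroup.mem_centralizer_singleton_iff.1 (hP hx)⟩
    have h1 : IsPGroup 2 (Subgroup.zpowers t) := by
      apply IsPGroup.of_card (n := 1)
      rw [Nat.card_zpowers, ht]; norm_num
    have h2 : Subgroup.zpowers t ≤ Subgroup.normalizer ((P : Subgroup G) : Set G) := by
      rw [Subgroup.zpowers_le]
      refine Subgroup.centralizer_le_normalizer _ ?_
      intro x hx
      exact Subgroup.mem_centralizer_singleton_iff.1 (hP hx)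
    have h3 := IsPGroup.to_sup_of_normal_right' h1 P.isPGroup' h2
    have h4 := P.is_maximal' h3 le_sup_right
    have : t ∈ (P : Subgroup G) := by
      rw [← h4]; exact Subgroup.mem_sup_left (Subgroup.mem_zpowers t)
    exact this

end Cfsg.Agent.S0443
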