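import Cfsg.Statements.S0444
import Cfsg.Agent.Spor.TT1
import Cfsg.Agent.Inv.Dihedral

set_option autoImplicit false
open Cfsg

namespace Cfsg.Agent.S0444

/-- Two members of a set of 3-transpositions which do not commute generate a subgroup isomorphic to the symmetric group on three letters. -/
theorem result {G : Type*} [Group G] {E : Set G} (hE : Cfsg.IsThreeTranspositionSet E) {d e : G} (hd : d ∈ E) (he : e ∈ E) (h : ¬ Commute d e) : Nonempty (Subgroup.closure ({d, e} : Set G) ≃* Equiv.Perm (Fin 3)) := by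
  have hd2 := CL.TT.mul_self hE hd
  have he2 := CL.TT.mul_self hE he
  obtain ⟨f, -⟩ := CL.Inv.exists_dihedral_mulEquiv hd2 (CL.Inv.left_inverts_mul hd2 he2)
    (CL.Inv.not_mem_zpowers_mul hd2 he2 (CL.TT.ne_one hE hd) (CL.TT.ne_one hE he))
  rw [CL.TT.orderOf_mul_of_not_commute hE hd he h, ← CL.Inv.closure_pair_eq_closure_mul hd2] at f
  obtain ⟨φ, hr, hs⟩ := CL.Inv.exists_dihedral_hom (G := Equiv.Perm (Fin 3)) (x := Equiv.swap 0 1)
    (r := Equiv.swap 0 1 * Equiv.swap 1 2) (n := 3) (by decide) (by decide) (by decide)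
  have hinj : Function.Injective φ := by
    rw [injective_iff_map_eq_one]
    rintro (i | i) hi
    · have : ∀ i : ZMod 3, i = ((0 : ℤ) : ZMod 3) ∨ i = ((1 : ℤ) : ZMod 3) ∨ i = ((2 : ℤ) : ZMod 3) := by decide
      rcases this i with rfl | rfl | rfl
      · rfl
      · rw [hr] at hi; exact absurd hi (by decide)
      · rw [hr] at hi; exact absurd hi (by decide)
    · have : ∀ i : ZMod 3, i = ((0 : ℤ) : ZMod 3) ∨ i = ((1 : ℤ) : ZMod 3) ∨ i = ((2 : ℤ) : ZMod 3) := by decide
      rcases this i with rfl | rfl | rfl <;> rw [hs] at hi <;> exact absurd hi (by decide)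
  have hbij : Function.Bijective φ := by
    rw [Nat.bijective_iff_injective_and_card]
    refine ⟨hinj, ?_⟩
    rw [DihedralGroup.nat_card, Nat.card_perm]; simp [Nat.factorial]
  exact ⟨f.symm.trans (MulEquiv.ofBijective φ hbij)⟩

end Cfsg.Agent.S0444
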