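import Cfsg.Statements.S0458
import Cfsg.Agent.Spor.J3Main

set_option autoImplicit false
open Cfsg

namespace Cfsg.Agent.S0458

/-- Janko's third group exists as a transitive permutation group of degree 6156 with point stabiliser of order 8160: a simple group of order 50232960. -/
theorem result : ∃ H : Subgroup (Equiv.Perm (Fin 6156)), Cfsg.IsJ3 H ∧ MulAction.IsPretransitive H (Fin 6156) ∧ Nat.card (MulAction.stabilizer H (0 : Fin 6156)) = 8160 := by
  obtain ⟨F, _, _, hF, ω, hω⟩ := CL.Mx.exists_F4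
  let D : CL.Mx.F4 F := ⟨ω, hω, by rw [Nat.card_eq_fintype_card, hF]⟩
  have h1 := CL.Mx.J3.faith9 D
  have h2 := CL.Mx.J3.a_top D CL.Mx.J3.σ9
  have hs := CL.Mx.J3.simple_quot h1 h2
  have hc := CL.Mx.J3.card_quot h1 h2
  have : Finite _ := Nat.finite_of_card_ne_zero (hc.trans_ne (by norm_num))
  obtain ⟨H, hH⟩ := CL.Mx.J3.exists_8160 h1 h2
  have hi : H.index = 6156 := by
    have := H.card_mul_index
    rw [hH, hc] at this
    omega
  obtain ⟨P, e, h3, h4⟩ := CL.Mx.exists_perm_rep H hi (by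
    rintro rfl
    simp at hi)
  refine ⟨P, ⟨e.symm.isSimpleGroup, by rw [← Nat.card_congr e.toEquiv, hc]⟩, h3, ?_⟩
  rw [h4, Subgroup.card_map_of_injective e.injective, hH]

end Cfsg.Agent.S0458
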