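import Cfsg.Statements.S0459
import Cfsg.Agent.Spor.RuMain

set_option autoImplicit false
open Cfsg

namespace Cfsg.Agent.S0459

theorem aux {G : Type} [Group G] (hc : Nat.card G = 145926144000) (hs : IsSimpleGroup G) {K T : Subgroup G}
    (hT : T ≤ K) (hi : K.index = 4060) (hK : Nat.card K = 35942400) (h : Cfsg.IsTits T) :
    ∃ H : Subgroup (Equiv.Perm (Fin 4060)), Cfsg.IsRu H ∧ MulAction.IsPretransitive H (Fin 4060) ∧
      Nat.card (MulAction.stabilizer H (0 : Fin 4060)) = 35942400 ∧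
      ∃ T : Subgroup (MulAction.stabilizer H (0 : Fin 4060)), Cfsg.IsTits T := by
  have : Finite G := Nat.finite_of_card_ne_zero (by rw [hc]; norm_num)
  obtain ⟨P, e, h1, h2⟩ := CL.Mx.exists_perm_rep K hi fun h => by rw [h, Subgroup.index_top] at hi; norm_num at hi
  have f := (e.subgroupMap T).trans (Subgroup.subgroupOfEquivOfLe
    (h2 ▸ Subgroup.map_mono hT : _ ≤ MulAction.stabilizer P (0 : Fin 4060))).symm
  have := h.1
  refine ⟨P, ⟨e.symm.isSimpleGroup, (Nat.card_congr e.toEquiv).symm.trans hc⟩, h1, ?_, _, f.symm.isSimpleGroup,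
    (Nat.card_congr f.toEquiv).symm.trans h.2⟩
  rw [h2, Subgroup.card_map_of_injective e.injective, hK]

/-- The Rudvalis group exists as a transitive permutation group of degree 4060: simple of order 145926144000, with point stabiliser of order 35942400 containing a simple subgroup of order 17971200 (the order of the Tits group). -/
theorem result : ∃ H : Subgroup (Equiv.Perm (Fin 4060)), Cfsg.IsRu H ∧ MulAction.IsPretransitive H (Fin 4060) ∧ Nat.card (MulAction.stabilizer H (0 : Fin 4060)) = 35942400 ∧ ∃ T : Subgroup (MulAction.stabilizer H (0 : Fin 4060)), Cfsg.IsTits T := by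
  exact aux (CL.Ru.card_eq CL.Ru.ρM_faith CL.Ru.ρM_top CL.Ru.ρM_gen)
    (CL.Ru.simple CL.Ru.ρM_faith CL.Ru.ρM_top CL.Ru.ρM_gen) (CL.Ru.b_in CL.Ru.ρM_top).gen_le
    (CL.Ru.index_K CL.Ru.ρM_faith CL.Ru.ρM_top CL.Ru.ρM_gen) (CL.Ru.acard1 CL.Ru.ρM_faith CL.Ru.ρM_top)
    ⟨CL.Ru.simple_T CL.Ru.ρM_faith CL.Ru.ρM_top CL.Ru.ρM_gen, CL.Ru.card_T CL.Ru.ρM_faith CL.Ru.ρM_top CL.Ru.ρM_gen⟩

end Cfsg.Agent.S0459
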