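import Cfsg.Statements.S0460
import Cfsg.Agent.Spor.ONSub

set_option autoImplicit false
open Cfsg

namespace Cfsg.Agent.S0460

/-- The O'Nan group exists as a transitive permutation group of degree 122760: simple of order 460815505920, point stabiliser of order 3753792, and containing simple subgroups of orders 175560 and 7920. -/
theorem result : ∃ H : Subgroup (Equiv.Perm (Fin 122760)), Cfsg.IsON H ∧ MulAction.IsPretransitive H (Fin 122760) ∧ Nat.card (MulAction.stabilizer H (0 : Fin 122760)) = 3753792 ∧ (∃ K : Subgroup H, Cfsg.IsJ1 K) ∧ (∃ K : Subgroup H, Cfsg.IsM11 K) := by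
  obtain ⟨e, he⟩ := CL.PP.range_toPermHom (G := Cfsg.Spor.ON) (X := Fin 122760)
  have := CL.ONP.simple
  have ht : MulAction.IsPretransitive (MulAction.toPermHom Cfsg.Spor.ON (Fin 122760)).range (Fin 122760) :=
    ⟨fun x y => by
      obtain ⟨g, hg⟩ := MulAction.exists_smul_eq Cfsg.Spor.ON x y
      exact ⟨e g, (he g x).trans hg⟩⟩
  have hc := (Nat.card_congr e.toEquiv).symm.trans CL.ONP.card
  have sub : ∀ n, (∃ K : Subgroup Cfsg.Spor.ON, IsSimpleGroup K ∧ Nat.card K = n) →
      ∃ K : Subgroup (MulAction.toPermHom Cfsg.Spor.ON (Fin 122760)).range, IsSimpleGroup K ∧ Nat.card K = n := by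
    rintro n ⟨K, h1, h2⟩
    exact ⟨K.map e.toMonoidHom, (e.subgroupMap K).symm.isSimpleGroup,
      (Nat.card_congr (e.subgroupMap K).toEquiv).symm.trans h2⟩
  refine ⟨_, ⟨e.symm.isSimpleGroup, hc⟩, ht, ?_, sub _ CL.ONP.exists_J1, sub _ CL.ONP.exists_M11⟩
  have h := (MulAction.stabilizer (MulAction.toPermHom Cfsg.Spor.ON (Fin 122760)).range (0 : Fin 122760)).card_mul_index
  rw [MulAction.index_stabilizer_of_transitive, hc, Nat.card_eq_fintype_card (α := Fin 122760), Fintype.card_fin] at h
  exact Nat.eq_of_mul_eq_mul_right (by norm_num : 0 < 122760) (h.trans (by norm_num))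

end Cfsg.Agent.S0460
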