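import Cfsg.Statements.S0461
import Cfsg.Agent.Spor.J4DMain

set_option autoImplicit false
open Cfsg

namespace Cfsg.Agent.S0461

/-- Janko's fourth group exists as a group of 112 × 112 matrices over the field with two elements: GL(112, 2) has a simple subgroup of order 86775571046077562880. -/
theorem result : ∃ H : Subgroup (GL (Fin 112) (ZMod 2)), Cfsg.IsJ4 H := by
  have tr : ∀ {G Γ : Type} [Group G] [Group Γ] {f : G →* Γ}, Function.Injective f → IsJ4 G → ∃ H : Subgroup Γ, IsJ4 H :=
    fun hf h => have := h.1
      ⟨_, (MonoidHom.ofInjective hf).symm.isSimpleGroup,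
        (Nat.card_congr (MonoidHom.ofInjective hf).toEquiv).symm.trans h.2⟩
  exact tr CL.J4M.rho_inj ⟨CL.J4M.simple, CL.J4M.card⟩

end Cfsg.Agent.S0461
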