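import Cfsg.Statements.S0462
import Cfsg.Agent.Spor.HeL
import Cfsg.Agent.Spor.PGPres4
-- import your own Cfsg.Agent.* helpers here

set_option autoImplicit false
open Cfsg

namespace Cfsg.Agent.S0462

/-- The Held group exists as a transitive permutation group of degree 2058: simple of order 4030387200, with point stabiliser containing, with index 2, a copy of the 4-dimensional symplectic group over the field with four elements. -/
theorem result : ∃ H : Subgroup (Equiv.Perm (Fin 2058)), Cfsg.IsHe H ∧ MulAction.IsPretransitive H (Fin 2058) ∧ ∃ (F : Type) (_ : Field F) (_ : Fintype F), Fintype.card F = 4 ∧ ∃ N : Subgroup (MulAction.stabilizer H (0 : Fin 2058)), N.index = 2 ∧ Nonempty (N ≃* Matrix.symplecticGroup (Fin 2) F) := by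
  obtain ⟨e, he⟩ := CL.PP.range_toPermHom (G := Cfsg.Spor.He) (X := Fin 2058)
  have := CL.HeP.simple
  have ht : MulAction.IsPretransitive (MulAction.toPermHom Cfsg.Spor.He (Fin 2058)).range (Fin 2058) :=
    ⟨fun x y => by
      obtain ⟨g, hg⟩ := MulAction.exists_smul_eq Cfsg.Spor.He x y
      exact ⟨e g, (he g x).trans hg⟩⟩
  obtain ⟨F, _, _, hF⟩ := CL.PG.exists_field 2 2 (by norm_num)
  obtain ⟨N, -, h2, ⟨a⟩⟩ := CL.HeL.exists_sp (F := F) hF
  have hs : CL.HeP.H.map e.toMonoidHom =
      MulAction.stabilizer (MulAction.toPermHom Cfsg.Spor.He (Fin 2058)).range (0 : Fin 2058) := by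
    rw [CL.HeP.stab]
    ext g
    obtain ⟨g, rfl⟩ := e.surjective g
    rw [Subgroup.mem_map_equiv, e.symm_apply_apply, MulAction.mem_stabilizer_iff, MulAction.mem_stabilizer_iff, he]
    rfl
  let b := (e.subgroupMap CL.HeP.H).trans (MulEquiv.subgroupCongr hs)
  refine ⟨_, ⟨e.symm.isSimpleGroup, (Nat.card_congr e.toEquiv).symm.trans CL.HeP.card⟩, ht, F, _, _, hF,
    N.map b.toMonoidHom, ?_, ⟨(b.subgroupMap N).symm.trans a⟩⟩
  rw [← h2]
  exact Subgroup.index_map_equiv _ b


end Cfsg.Agent.S0462
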