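import Cfsg.Statements.S0463
import Cfsg.Agent.Spor.HNMain
import Cfsg.Agent.Spor.HNRepA
import Cfsg.Agent.Spor.MxSimple

set_option autoImplicit false
open Cfsg

namespace Cfsg.Agent.S0463

/-- The Harada–Norton group exists as a transitive permutation group of degree 1140000: simple of order 273030912000000 with point stabiliser isomorphic to the alternating group of degree 12. -/
theorem result : ∃ H : Subgroup (Equiv.Perm (Fin 1140000)), Cfsg.IsHN H ∧ MulAction.IsPretransitive H (Fin 1140000) ∧ Nonempty (MulAction.stabilizer H (0 : Fin 1140000) ≃* alternatingGroup (Fin 12)) := by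
  have := CL.HNM.simple
  obtain ⟨K, ⟨f⟩⟩ := CL.HNRep.exists_A12 CL.HNM.rho_inj
  have hK : K.index = 1140000 := by
    have h := K.card_mul_index
    have h2 := two_mul_nat_card_alternatingGroup (α := Fin 12)
    rw [Nat.card_perm, Nat.card_eq_fintype_card (α := Fin 12), Fintype.card_fin, ← Nat.card_congr f.toEquiv] at h2
    rw [CL.HNM.card, show Nat.card K = 239500800 by simp only [Nat.factorial] at h2; omega] at h
    omega
  obtain ⟨P, e, h1, h2⟩ := CL.Mx.exists_perm_rep K hK fun h => by
    rw [h, Subgroup.index_top] at hK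
    omega
  exact ⟨P, ⟨e.symm.isSimpleGroup, (Nat.card_congr e.symm.toEquiv).trans CL.HNM.card⟩, h1,
    ⟨h2 ▸ (e.subgroupMap K).symm.trans f⟩⟩

end Cfsg.Agent.S0463
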