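import Cfsg.Statements.S0468
import Cfsg.Agent.Spor.MjFin
-- import your own Cfsg.Agent.* helpers here

set_option autoImplicit false
open Cfsg

namespace Cfsg.Agent.S0468

/-- The Monster as a 6-transposition group: there is a simple group of its order with a conjugacy class of 97239461142009186000 involutions, the product of any two of which has order at most 6, and the centraliser of each of which is a non-split double cover of a simple group of order 4154781481226426191177580544000000. -/
theorem result : ∃ (G : Type) (_ : Group G) (_ : Finite G), Cfsg.IsM G ∧ ∃ D : Set G, (∃ d ∈ D, D = conjugatesOf d) ∧ Nat.card D = 97239461142009186000 ∧ (∀ d ∈ D, orderOf d = 2) ∧ (∀ d ∈ D, ∀ e ∈ D, orderOf (d * e) ≤ 6) ∧ ∀ d ∈ D, ∃ (K : Type) (_ : Group K), Cfsg.IsB K ∧ Cfsg.IsNonsplitDoubleCover (Subgroup.centralizer ({d} : Set G)) K := by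
  exact CL.Mj.s0468

end Cfsg.Agent.S0468
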