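import Cfsg.Statements.S0471
import Cfsg.Agent.Spor.Ty22

set_option autoImplicit false
open Cfsg

namespace Cfsg.Agent.S0471

/-- The Fischer group of order 64561751654400 exists as a 3-transposition group: a simple group of that order generated by a conjugacy class of 3510 3-transpositions, the centraliser of each being a non-split double cover of PSU(6, 2). -/
theorem result : ∃ (G : Type) (_ : Group G) (_ : Finite G), Cfsg.IsFi22 G ∧ ∃ D : Set G, Cfsg.IsThreeTranspositionClass D ∧ Nat.card D = 3510 ∧ ∀ d ∈ D, ∃ (F : Type) (_ : Field F) (_ : Fintype F), Fintype.card F = 4 ∧ Cfsg.IsNonsplitDoubleCover (Subgroup.centralizer ({d} : Set G)) (Cfsg.PSU 6 F 2) := by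
  obtain ⟨F, _, _, hF⟩ := CL.PG.exists_field 2 2 (by norm_num)
  refine ⟨Cfsg.Spor.Fi22, inferInstance, inferInstance, ⟨CL.Fi22P.simple, CL.Fi22P.card⟩, _, CL.Ty.class22,
    CL.Ty.card22, fun d hd => ⟨F, inferInstance, inferInstance, hF, ?_⟩⟩
  obtain ⟨g, hg⟩ := CL.PP.centralizer_conj_equiv hd
  rw [hg, CL.Ty.cent22]
  exact CL.PP.nonsplit_congr ((MulAut.conj g).subgroupMap _) (CL.Ty.cover22 hF).2.1

end Cfsg.Agent.S0471
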