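import Cfsg.Statements.S0477
import Cfsg.Agent.Spor.LyCent

set_option autoImplicit false
open Cfsg

namespace Cfsg.Agent.S0477

/-- In some simple group of the Lyons group's order there is an element of order 3 whose centraliser has centre of order 3 with quotient by the centre simple of order 898128000 (a triple cover of a group of McLaughlin's order). -/
theorem result : ∃ (G : Type) (_ : Group G) (_ : Finite G), Cfsg.IsLy G ∧ ∃ x : G, orderOf x = 3 ∧ Nat.card (Subgroup.center (Subgroup.centralizer ({x} : Set G))) = 3 ∧ Cfsg.IsMcL ((Subgroup.centralizer ({x} : Set G)) ⧸ Subgroup.center (Subgroup.centralizer ({x} : Set G))) := by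
  refine ⟨Spor.Ly, inferInstance, inferInstance, ⟨CL.LyM.simple, CL.LyM.card⟩, CL.PG.letG CL.LyRep.lM 18,
    orderOf_eq_prime (CL.LyRep.x_cube CL.LyC.relM) CL.LyRep.x_ne, ?_⟩
  rw [← CL.LyC.cent_x]
  obtain ⟨_, τ, a, b⟩ := CL.LyRep.cover_McL CL.LyC.relM CL.LyRep.x_ne
  have h := CL.Spor.Leech.isMcL_McL
  have hc := CL.LySub.center_eq_ker a (CL.LySub.perfect_of_card (by rw [h.2]; norm_num)).2
  have e := (QuotientGroup.quotientMulEquivOfEq hc).trans (QuotientGroup.quotientKerEquivOfSurjective τ a.1)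
  exact ⟨hc ▸ (CL.LyRep.card_of_cover a b CL.LyRep.x_ne (CL.LyRep.x_cube CL.LyC.relM)).1, e.isSimpleGroup,
    (Nat.card_congr e.toEquiv).trans h.2⟩

end Cfsg.Agent.S0477
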