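import Cfsg.Statements.S0478
import Cfsg.Agent.Spor.J3Main

set_option autoImplicit false
open Cfsg

namespace Cfsg.Agent.S0478

open CL.Mx CL.Mx.J3 Matrix

theorem a_block : allL (F4.blockOk 9) aS0 = true := by decide +kernel

theorem det_eq {F : Type} [Field F] (D : F4 F) (b : ℕ) (hb : b ∈ aS0) :
    (D.dec4 (Equiv.refl (Fin 9)) b).det = 1 := by
  have h2 := a_top D (Equiv.refl (Fin 9))
  have hN : ∀ g ∈ _, ∀ x ∈ (GeneralLinearGroup.det (n := Fin 9) (R := F)).ker, g * x * g⁻¹ ∈ _ :=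
    fun g (_ : g ∈ (D.act4 (Equiv.refl (Fin 9)) (Units.coeHom _) Units.val_injective).model.gen aS0) x hx =>
      (MonoidHom.normal_ker _).conj_mem x hx g
  have hx : (D.act4 (Equiv.refl (Fin 9)) (Units.coeHom _) Units.val_injective).model.val xc ∈
      (GeneralLinearGroup.det (n := Fin 9) (R := F)).ker := by
    rw [MonoidHom.mem_ker, ← orderOf_eq_one_iff]
    have h3 := orderOf_map_dvd (GeneralLinearGroup.det (n := Fin 9) (R := F))
      ((D.act4 (Equiv.refl (Fin 9)) (Units.coeHom _) Units.val_injective).model.val xc)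
    have h4 := orderOf_dvd_natCard (GeneralLinearGroup.det
      ((D.act4 (Equiv.refl (Fin 9)) (Units.coeHom _) Units.val_injective).model.val xc))
    rw [x_order h2] at h3
    rw [Nat.card_units, D.card] at h4
    exact Nat.eq_one_of_dvd_coprimes (by norm_num) h3 h4
  have := (Model.slp_sound hN (Model.AllIn.cons (x_in h2) (Model.allIn_nil _))
    (Model.AllIn.cons ⟨(x_in h2).1, hx⟩ (Model.allIn_nil _)) h2.gen slpN).2 b hb
  rw [← D.φ_val _ _ _ this.1]
  have h5 := congrArg Units.val (MonoidHom.mem_ker.mp this.2)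
  rwa [GeneralLinearGroup.val_det_apply, Units.val_one] at h5

theorem unitary {F : Type} [Field F] (D : F4 F) (b : ℕ) (hb : b ∈ aS0) (u v : Fin 9 → F) :
    hermForm 9 F 2 (D.dec4 (Equiv.refl (Fin 9)) b *ᵥ u) (D.dec4 (Equiv.refl (Fin 9)) b *ᵥ v) =
      hermForm 9 F 2 u v := by
  have h2 := a_top D (Equiv.refl (Fin 9))
  have h0 := allEq2_sound a_unit
  obtain ⟨k, hk, e⟩ := List.getElem_of_mem hb
  have hc := h0.get hk (h0.length_eq ▸ hk)
  rw [show aS0.get ⟨k, hk⟩ = b from e] at hc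
  generalize aInv.get _ = c at hc
  simp only [band_iff, Nat.beq_eq, allL_iff, rangeL_eq, List.mem_range] at hc
  obtain ⟨c1, c2⟩ := (D.act4 (Equiv.refl (Fin 9)) (Units.coeHom _) Units.val_injective).model.ok_inv
    (h2 b hb).1 hc.1
  have h3 : D.dec4 (Equiv.refl (Fin 9)) c * D.dec4 (Equiv.refl (Fin 9)) b = 1 := by
    rw [← D.φ_val _ _ _ c1, ← D.φ_val _ _ _ (h2 b hb).1, c2, ← map_mul, inv_mul_cancel, map_one]
  have h4 : ∀ i j, D.dec4 (Equiv.refl (Fin 9)) c i j = D.dec4 (Equiv.refl (Fin 9)) b j i ^ 2 := by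
    intro i j
    show D.enc (F4.ent4 9 c i j) = D.enc (F4.ent4 9 b j i) ^ 2
    rw [hc.2 i i.2 j j.2]
    have : F4.ent4 9 b j i < 4 := by
      show (_ &&& 1) + 2 * (_ &&& 1) < 4
      rw [Nat.and_one_is_mod, Nat.and_one_is_mod]; omega
    generalize F4.ent4 9 b j i = t at this
    interval_cases t
    · simp
    · simp
    · exact D.enc3.trans (by rw [D.enc2])
    · refine D.enc2.trans ?_
      rw [D.enc3, ← pow_mul, show 2 * 2 = 3 + 1 from rfl, pow_succ, D.cube, one_mul]
  have : CharP F 2 := (CharP.charP_iff_prime_eq_zero Nat.prime_two).mpr (by exact_mod_cast D.two_eq)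
  have h5 : ∀ i, (D.dec4 (Equiv.refl (Fin 9)) b *ᵥ v) i ^ 2 =
      ((fun j => v j ^ 2) ᵥ* D.dec4 (Equiv.refl (Fin 9)) c) i := by
    intro i
    simp only [mulVec, vecMul, dotProduct, sum_pow_char, mul_pow, h4, mul_comm]
  have h6 : ∀ a b : Fin 9 → F, hermForm 9 F 2 a b = (fun j => b j ^ 2) ⬝ᵥ a := fun a b => by
    simp only [hermForm, dotProduct, mul_comm]
  rw [h6, h6, funext h5, ← dotProduct_mulVec, mulVec_mulVec, h3, one_mulVec]

/-- A triple cover of Janko's third group inside a unitary group: for a field F with four elements, the special unitary group of dimension 9 (with respect to the form with q = 2) has a subgroup whose centre has order 3 and whose quotient by its centre is simple of order 50232960. -/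
theorem result : ∃ (F : Type) (_ : Field F) (_ : Fintype F), Fintype.card F = 4 ∧ ∃ H : Subgroup (Cfsg.SU 9 F 2), Nat.card (Subgroup.center H) = 3 ∧ Cfsg.IsJ3 (H ⧸ Subgroup.center H) := by
  obtain ⟨F, _, _, hF, ω, hω⟩ := exists_F4
  let D : F4 F := ⟨ω, hω, by rw [Nat.card_eq_fintype_card, hF]⟩
  refine ⟨F, inferInstance, inferInstance, hF, ?_⟩
  have hφ : Function.Injective ((slToMat 9 F).comp (SU 9 F 2).subtype) := fun a b h =>
    Subtype.ext (Subtype.ext h)
  have h1 := D.faith4 (Equiv.refl (Fin 9)) _ hφ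
  have h2 : (D.act4 (Equiv.refl (Fin 9)) _ hφ).model.AllIn ⊤ aS0 := by
    intro b hb
    refine Act2.Rep.in (g := ⟨⟨D.dec4 (Equiv.refl _) b, det_eq D b hb⟩, unitary D b hb⟩) ?_ trivial
    refine D.rep4 _ _ _ ?_ rfl
    exact (allL_iff _ _).mp a_block b hb
  exact ⟨_, card_center h1 h2, simple_quot h1 h2, card_quot h1 h2⟩

end Cfsg.Agent.S0478
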