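import Cfsg.Statements.S0479
import Cfsg.Agent.Spor.ONRep45
import Cfsg.Agent.Spor.ONModel
import Cfsg.Agent.Spor.PGPres4

set_option autoImplicit false
open Cfsg

namespace Cfsg.Agent.S0479

/-- A triple cover of the O'Nan group as 45 × 45 matrices over the field with seven elements: SL(45, 7) has a subgroup whose centre has order 3 and whose quotient by its centre is simple of order 460815505920. -/
theorem result : ∃ H : Subgroup (Matrix.SpecialLinearGroup (Fin 45) (ZMod 7)), Nat.card (Subgroup.center H) = 3 ∧ Cfsg.IsON (H ⧸ Subgroup.center H) := by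
  have hs := CL.ONP.simple
  have hc := CL.PP.center_eq_bot_of_card (G := Cfsg.Spor.ON) (by rw [CL.ONP.card]; norm_num)
  obtain ⟨H, h1, ⟨e⟩⟩ := CL.ONR.exists_SL_cover hc ((hs.eq_bot_or_eq_top_of_normal _ inferInstance).resolve_left fun h => by
      have := Subgroup.commutator_eq_bot_iff_le_centralizer.1 h
      rw [Subgroup.coe_top, Subgroup.centralizer_univ, hc] at this
      exact top_ne_bot (le_bot_iff.1 this))
    CL.ONR.hom ((MonoidHom.ker_eq_bot_iff _).1 ((hs.eq_bot_or_eq_top_of_normal _ inferInstance).resolve_right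
      fun e => CL.ONR.hom_g (MonoidHom.mem_ker.1 (e ▸ Subgroup.mem_top _))))
  haveI : Fact (Nat.Prime 7) := ⟨by norm_num⟩
  refine ⟨H, h1.trans ?_, e.symm.isSimpleGroup_congr.1 hs, (Nat.card_congr e.toEquiv).trans CL.ONP.card⟩
  rw [CL.SLn.card_center_SL, Fintype.card_fin, ZMod.card]
  rfl

end Cfsg.Agent.S0479
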