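import Cfsg.Statements.S0480
import Cfsg.Agent.Spor.TT20
import Cfsg.Agent.Spor.TTFin

set_option autoImplicit false
open Cfsg

namespace Cfsg.Agent.S0480

/-- The simple 3-transposition groups: if a finite non-abelian simple group G is generated by a conjugacy class of 3-transpositions, then G is isomorphic to a symplectic group Sp(2n, 2), or to a projective special unitary group PSU(n, 2) (defined over the field with four elements), or to the projective commutator subgroup of an orthogonal group in odd dimension over the field with three elements, or G has order 64561751654400, or G has order 4089470473293004800. -/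
theorem result {G : Type*} [Group G] [Finite G] [IsSimpleGroup G] (hna : ∃ x y : G, x * y ≠ y * x) {D : Set G} (hD : Cfsg.IsThreeTranspositionClass D) : (∃ n : ℕ, Nonempty (G ≃* Matrix.symplecticGroup (Fin n) (ZMod 2))) ∨ (∃ (F : Type) (_ : Field F) (_ : Fintype F) (n : ℕ), Fintype.card F = 4 ∧ Nonempty (G ≃* Cfsg.PSU n F 2)) ∨ (∃ m : ℕ, Nonempty (G ≃* Cfsg.POmega (ZMod 3) (Cfsg.quadFormOdd m (ZMod 3)))) ∨ Cfsg.IsFi22 G ∨ Cfsg.IsFi23 G := by
  exact CL.TT.s0480_of (fun _ h => h.typ) hna hD

end Cfsg.Agent.S0480
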