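import Cfsg.Statements.S0481
import Cfsg.Agent.Grp.SylowIn
import Cfsg.Agent.Inv.Dihedral

set_option autoImplicit false
open Cfsg

namespace Cfsg.Agent.S0481

/-- Large extraspecial subgroups: let z be an involution of a finite group G whose centraliser C contains a normal 2-subgroup Q with centre of order 2 and all squares central, such that every element of G centralising Q lies in Q. Then C contains a Sylow 2-subgroup of G, and any involution of G whose centraliser contains a Sylow 2-subgroup of G is conjugate to z. -/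
theorem result {G : Type*} [Group G] [Finite G] (z : G) (hz : orderOf z = 2) (Q : Subgroup G) (hQC : Q ≤ Subgroup.centralizer ({z} : Set G)) (hQn : ∀ g ∈ Subgroup.centralizer ({z} : Set G), ∀ q ∈ Q, g * q * g⁻¹ ∈ Q) (hQ2 : IsPGroup 2 Q) (hZ : Nat.card (Subgroup.center Q) = 2) (hsq : ∀ x : Q, x ^ 2 ∈ Subgroup.center Q) (hlarge : Subgroup.centralizer (Q : Set G) ≤ Q) : (∃ P : Sylow 2 G, (P : Subgroup G) ≤ Subgroup.centralizer ({z} : Set G)) ∧ ∀ u : G, orderOf u = 2 → (∃ P : Sylow 2 G, (P : Subgroup G) ≤ Subgroup.centralizer ({u} : Set G)) → IsConj z u := by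
  haveI : Fact (Nat.Prime 2) := ⟨Nat.prime_two⟩
  -- the centre of `Q` consists of `1` and `z`
  have hz1 : z ≠ 1 := CL.Inv.ne_one_of_orderOf_two hz
  have hzc : z ∈ Subgroup.centralizer (Q : Set G) := fun q hq =>
    Subgroup.mem_centralizer_singleton_iff.1 (hQC hq)
  have hcen : ∀ u ∈ Subgroup.centralizer (Q : Set G), u ≠ 1 → u = z := by
    intro u hu hu1
    let u' : Subgroup.center Q := ⟨⟨u, hlarge hu⟩, Subgroup.mem_center_iff.2 fun q => Subtype.ext (hu q q.2)⟩
    let z' : Subgroup.center Q := ⟨⟨z, hlarge hzc⟩, Subgroup.mem_center_iff.2 fun q => Subtype.ext (hzc q q.2)⟩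
    obtain ⟨y, -, hy⟩ := (Nat.card_eq_two_iff' (1 : Subgroup.center Q)).1 hZ
    have h1 : u' = y := hy u' fun h => hu1 (congrArg (fun t : Subgroup.center Q => ((t : Q) : G)) h)
    have h2 : z' = y := hy z' fun h => hz1 (congrArg (fun t : Subgroup.center Q => ((t : Q) : G)) h)
    exact congrArg (fun t : Subgroup.center Q => ((t : Q) : G)) (h1.trans h2.symm)
  set C := Subgroup.centralizer ({z} : Set G) with hC
  obtain ⟨T, hT, hQT⟩ := CL.Grp.exists_isSylowIn_ge hQ2 hQC
  obtain ⟨S, hTS⟩ := hT.isPGroup.exists_le_sylow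
  have hTS' : T = S := by
    by_contra hne
    have hlt := CL.Grp.lt_inf_normalizer_of_isPGroup S.isPGroup' (lt_of_le_of_ne hTS hne)
    have hle : (S : Subgroup G) ⊓ Subgroup.normalizer (T : Set G) ≤ C := by
      rintro n ⟨-, hn⟩
      have hn' : n ∈ Subgroup.normalizer (T : Set G) := hn
      have : n * z * n⁻¹ = z := by
        apply hcen
        · intro q hq
          have hq' : n⁻¹ * q * n ∈ T := by
            have := (Subgroup.mem_normalizer_iff''.1 hn' q).1 (hQT hq)
            exact this
          have h3 := Subgroup.mem_centralizer_singleton_iff.1 (hT.le hq')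
          calc q * (n * z * n⁻¹) = n * (n⁻¹ * q * n * z) * n⁻¹ := by group
            _ = n * (z * (n⁻¹ * q * n)) * n⁻¹ := by rw [h3]
            _ = _ := by group
        · intro h; apply hz1
          calc z = n⁻¹ * (n * z * n⁻¹) * n := by group
            _ = 1 := by rw [h]; group
      rw [hC, Subgroup.mem_centralizer_singleton_iff]
      calc n * z = n * z * n⁻¹ * n := by group
        _ = z * n := by rw [this]
    have := hT.eq_of_le (S.isPGroup'.to_le inf_le_left) hlt.le hle
    exact hlt.ne this.symm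
  refine ⟨⟨S, hTS' ▸ hT.le⟩, ?_⟩
  rintro u hu ⟨P, hP⟩
  obtain ⟨g, hg⟩ := MulAction.exists_smul_eq G P S
  have : g * u * g⁻¹ = z := by
    apply hcen
    · intro q hq
      have hq1 : q ∈ g • P := by rw [hg]; exact hTS (hQT hq)
      have hq2 : g⁻¹ * q * g ∈ P := (CL.Grp.mem_sylow_smul_iff g q P).1 hq1
      have h3 := Subgroup.mem_centralizer_singleton_iff.1 (hP hq2)
      calc q * (g * u * g⁻¹) = g * (g⁻¹ * q * g * u) * g⁻¹ := by group
        _ = g * (u * (g⁻¹ * q * g)) * g⁻¹ := by rw [h3]
        _ = _ := by group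
    · intro h; apply CL.Inv.ne_one_of_orderOf_two hu
      calc u = g⁻¹ * (g * u * g⁻¹) * g := by group
        _ = 1 := by rw [h]; group
  exact (isConj_iff.2 ⟨g, this⟩).symm

end Cfsg.Agent.S0481
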