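import Cfsg.Statements.S0499
import Cfsg.Agent.Grp.PNilpFrob
import Cfsg.Agent.Grp.Primitive

set_option autoImplicit false
open Cfsg

namespace Cfsg.Agent.S0499

open CL.Grp


/-- A non-abelian finite simple group of even order has order divisible by 12, 16 or 56. -/
theorem result {G : Type*} [Group G] [Finite G] [IsSimpleGroup G]
    (hG : ¬ IsMulCommutative G) (h2 : Even (Nat.card G)) :
    12 ∣ Nat.card G ∨ 16 ∣ Nat.card G ∨ 56 ∣ Nat.card G := by
  classical
  haveI : Fact (Nat.Prime 2) := ⟨Nat.prime_two⟩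
  have hnpc : ¬ Cfsg.HasNormalPComplement 2 G := by
    rw [hasNormalPComplement_iff_not_dvd_pResidual, not_not]
    rcases (pResidual_normal 2 G).eq_bot_or_eq_top with h | h
    · exfalso
      have hp := pResidual_eq_bot_iff.1 h
      haveI := hp.isNilpotent
      have : Group.IsSolvable G := inferInstance
      exact hG ⟨⟨IsSimpleGroup.comm_iff_isSolvable.2 this⟩⟩
    · rw [h, Subgroup.card_top]; exact h2.two_dvd
  obtain ⟨P⟩ : Nonempty (Sylow 2 G) := inferInstance
  obtain ⟨Q, hQP, q, k, g, hq, hq2, hg, hgN, hgC⟩ := exists_primePow_not_mem_centralizer P hnpc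
  haveI : Fact q.Prime := ⟨hq⟩
  have hZ : IsPGroup q (Subgroup.zpowers g) := IsPGroup.of_card (by rw [Nat.card_zpowers, hg])
  have hmod := card_modEq_card_inf_centralizer hZ (K := Q) (by
    rw [Subgroup.zpowers_le]; exact hgN)
  have hQ : IsPGroup 2 Q := P.2.to_le hQP
  obtain ⟨a, ha⟩ := IsPGroup.iff_card.1 hQ
  set C : Subgroup G := Q ⊓ Subgroup.centralizer ((Subgroup.zpowers g : Subgroup G) : Set G) with hC
  obtain ⟨b, hb⟩ := IsPGroup.iff_card.1 (hQ.to_le (inf_le_left : C ≤ Q))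
  have hlt : C < Q := by
    refine lt_of_le_of_ne inf_le_left fun h => hgC ?_
    rw [Subgroup.mem_centralizer_iff]
    intro x hx
    have : x ∈ C := h ▸ hx
    exact ((Subgroup.mem_centralizer_iff.1 this.2) g (Subgroup.mem_zpowers g)).symm
  have hba : b < a := by
    have h1 : Nat.card C < Nat.card Q := by
      refine lt_of_le_of_ne (Subgroup.card_le_of_le hlt.le) fun h => hlt.ne ?_
      exact Subgroup.eq_of_le_of_card_ge hlt.le h.ge
    rw [ha, hb] at h1
    exact (Nat.pow_lt_pow_iff_right (by norm_num)).1 h1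
  have hqG : q ∣ Nat.card G := by
    have hk : k ≠ 0 := by
      rintro rfl
      rw [pow_zero, orderOf_eq_one_iff] at hg
      exact hgC (hg ▸ one_mem _)
    exact (dvd_pow_self q hk).trans (hg ▸ orderOf_dvd_natCard g)
  have haG : 2 ^ a ∣ Nat.card G := ha ▸ Q.card_subgroup_dvd_card
  rw [ha, hb] at hmod
  obtain ⟨d, rfl⟩ := Nat.exists_eq_add_of_lt hba
  have hqd : q ∣ 2 ^ (d + 1) - 1 := by
    have h1 : q ∣ 2 ^ (b + d + 1) - 2 ^ b :=
      (Nat.modEq_iff_dvd' (Nat.pow_le_pow_right (by norm_num) (by omega))).1 hmod.symm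
    have h2 : 2 ^ (b + d + 1) - 2 ^ b = 2 ^ b * (2 ^ (d + 1) - 1) := by
      rw [Nat.mul_sub, mul_one, ← pow_add, add_assoc]
    rw [h2] at h1
    exact (Nat.Coprime.dvd_mul_left
      (Nat.Coprime.pow_right _ ((Nat.coprime_primes hq Nat.prime_two).2 hq2))).1 h1
  by_cases h4 : 4 ≤ b + d + 1
  · right; left
    exact (pow_dvd_pow 2 h4).trans haG
  have hd : d = 0 ∨ d = 1 ∨ d = 2 := by omega
  rcases hd with rfl | rfl | rfl
  · exact absurd (Nat.dvd_one.1 hqd) hq.ne_one
  · left
    have : q = 3 := (Nat.prime_dvd_prime_iff_eq hq Nat.prime_three).1 hqd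
    subst this
    have h4' : 2 ^ 2 ∣ Nat.card G := (pow_dvd_pow 2 (by omega)).trans haG
    exact Nat.Coprime.mul_dvd_of_dvd_of_dvd (by norm_num : Nat.Coprime 3 4) hqG h4'
  · right; right
    have : q = 7 := (Nat.prime_dvd_prime_iff_eq hq (by norm_num)).1 hqd
    subst this
    have h8 : 2 ^ 3 ∣ Nat.card G := (pow_dvd_pow 2 (by omega)).trans haG
    exact Nat.Coprime.mul_dvd_of_dvd_of_dvd (by norm_num : Nat.Coprime 7 8) hqG h8

end Cfsg.Agent.S0499
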