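import Cfsg.Statements.S0502
import Cfsg.Agent.Loc.EAChain
import Cfsg.Agent.Loc.FourU

set_option autoImplicit false
open Cfsg

namespace Cfsg.Agent.S0502

/-- If a finite 2-group has a normal elementary abelian subgroup of order at least 8, then any two of its Klein
four-subgroups are joined by a chain of Klein four-subgroups with consecutive members commuting elementwise. -/
theorem result {P : Type*} [Group P] [Finite P] (hP : IsPGroup 2 P)
    (E : Subgroup P) [E.Normal] (hE : IsMulCommutative E) (hE2 : ∀ e ∈ E, e ^ 2 = 1) (hE8 : 8 ≤ Nat.card E) :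
    Cfsg.IsFourConnected P := by
  have key : ∀ U : Subgroup P, IsKleinFour U → IsElementaryAbelian 2 U := fun U hU =>
    CL.Loc.ea_iff.2 ⟨fun a ha b hb => CL.Loc.fourU_comm hU ha hb, fun a ha => by
      rw [sq, CL.Loc.fourU_mul_self hU ha]⟩
  have key' : ∀ U : Subgroup P, IsElementaryAbelian 2 U → Nat.card U = 2 ^ 2 → IsKleinFour U :=
    fun U hU h => by
      have : Nontrivial U := Finite.one_lt_card_iff_nontrivial.1 (by omega)
      exact ⟨h, (Monoid.exponent_eq_prime_iff Nat.prime_two).2 fun g hg =>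
        orderOf_eq_prime (Subtype.ext (hU.2 g g.2)) hg⟩
  refine fun U V hU hV => CL.Loc.rtg_mono (CL.Loc.nAdj_connected (p := 2) (n := 2) (E := E) ⟨hE, hE2⟩
    (fun k hk => lt_of_lt_of_le ?_ hE8) (key U hU) hU.card_four (key V hV) hV.card_four) fun A B h =>
      ⟨key' A h.1 h.2.1, key' B h.2.2.1 h.2.2.2.1, h.2.2.2.2⟩
  interval_cases k <;> norm_num

end Cfsg.Agent.S0502
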