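import Cfsg.Statements.S0505
import Cfsg.Agent.Even.ParChar

set_option autoImplicit false
open Cfsg

namespace Cfsg.Agent.S0505

open Subgroup CL.Even CL.Grp

/-- Let G be a finite group of even order in which the centralizer of every involution is solvable and has trivial
core (no nontrivial normal subgroup of odd order). Then G is of characteristic 2 type. -/
theorem result {G : Type*} [Group G] [Finite G]
    (h2 : Even (Nat.card G))
    (hs : ∀ t : G, orderOf t = 2 → Group.IsSolvable (Subgroup.centralizer ({t} : Set G)))
    (hc : ∀ t : G, orderOf t = 2 → Cfsg.oddCore (Subgroup.centralizer ({t} : Set G)) = ⊥) :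
    Cfsg.IsCharacteristicTwoType G := by
  refine ⟨h2, fun T hT hne => isCharP_iff.1 (isCharP_norm_of_forall_cent (fun z hz => ?_) hT hne)⟩
  have := hs z hz
  exact isCharP_iff_fstar.2 (CL.Loc.fstar_eq_pCore_iff'.2 ⟨CL.Loc.layer_eq_bot_of_isSolvable, hc z hz⟩)

end Cfsg.Agent.S0505
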