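import Cfsg.Statements.S0508
import Cfsg.Agent.Inv.BSWPSL

set_option autoImplicit false
open Cfsg
open CL.Inv.BSW

namespace Cfsg.Agent.S0508

/-- Let G be a finite simple group with a dihedral Sylow 2-subgroup S (of order at least 4), t an involution in the
centre of S, C the centralizer of t and O the core of C (its largest normal subgroup of odd order). Suppose that: if O
is nontrivial then the centralizer of O in S is cyclic of index 2 in S; every element of S not centralizing O inverts
every element of O; and the normalizer of every nontrivial subgroup of O lies in C. Then G is isomorphic to a projective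
special linear group of dimension 2 over a field of odd order. -/
theorem result {G : Type*} [Group G] [Finite G] [IsSimpleGroup G] (S : Sylow 2 G) (n : ℕ)
    (hn : 2 ≤ n) (hS : Nonempty ((S : Subgroup G) ≃* DihedralGroup n)) (t : G) (ht : orderOf t = 2)
    (htS : t ∈ (S : Subgroup G))
    (htZ : ∀ s ∈ (S : Subgroup G), s * t = t * s) (O : Subgroup G)
    (hO : O = (Cfsg.oddCore (Subgroup.centralizer ({t} : Set G))).map (Subgroup.centralizer ({t} : Set G)).subtype)
    (ha : O ≠ ⊥ → IsCyclic ((S : Subgroup G) ⊓ Subgroup.centralizer (O : Set G) : Subgroup G) ∧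
      ((S : Subgroup G) ⊓ Subgroup.centralizer (O : Set G)).relIndex (S : Subgroup G) = 2)
    (hb : ∀ s ∈ (S : Subgroup G), s ∉ Subgroup.centralizer (O : Set G) → ∀ y ∈ O, s * y * s⁻¹ = y⁻¹)
    (hc : ∀ Y : Subgroup G, Y ≤ O → Y ≠ ⊥ → Subgroup.normalizer (Y : Set G) ≤ Subgroup.centralizer ({t} : Set G)) :
    ∃ (F : Type) (_ : Field F) (_ : Fintype F), Odd (Fintype.card F) ∧ Nonempty (G ≃* Matrix.ProjectiveSpecialLinearGroup (Fin 2) F) := by
  obtain ⟨e⟩ := hS
  have hG : Nat.card G ≠ 2 := by
    have : NeZero n := ⟨by omega⟩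
    have h1 := Nat.le_of_dvd Nat.card_pos (Subgroup.card_subgroup_dvd_card (S : Subgroup G))
    rw [Nat.card_congr e.toEquiv, DihedralGroup.nat_card] at h1
    omega
  obtain ⟨r, -, s, -, -, h⟩ := exists_hyp_of_dihedral (index_ne_two_of_simple hG) S hn e ht htS htZ hO ha hb
    fun y hy hy1 g hg => mem_cent.mp (hc (Subgroup.zpowers y) (Subgroup.zpowers_le.mpr hy)
      (by simpa using hy1) (Subgroup.mem_normalizer_fintype (by
        rintro _ ⟨j, rfl⟩
        exact ⟨j, by rw [← conj_zpow, hg, mul_inv_cancel_right]⟩)))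
  obtain ⟨F, _, _, ho, -, e'⟩ := h.psl
  exact ⟨F, inferInstance, inferInstance, ho, e'⟩

end Cfsg.Agent.S0508
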