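import Cfsg.Statements.S0519
import Cfsg.Agent.Grp.PGroupCyc

set_option autoImplicit false
open Cfsg

namespace Cfsg.Agent.S0519

/-- Let P be a finite p-group in which every abelian normal subgroup is cyclic, but which has a non-cyclic abelian
subgroup. Then p = 2 and P is generalized quaternion, dihedral of order at least 16, or quasi-dihedral. -/
theorem result {P : Type*} [Group P] [Finite P] (p : ℕ) [Fact p.Prime]
    (hP : IsPGroup p P) (hn : ∀ A : Subgroup P, A.Normal → IsMulCommutative A → IsCyclic A)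
    (hm : ∃ B : Subgroup P, IsMulCommutative B ∧ ¬ IsCyclic B) :
    p = 2 ∧ ((∃ n : ℕ, Nonempty (P ≃* QuaternionGroup n)) ∨ (∃ n : ℕ, 8 ≤ n ∧ Nonempty (P ≃* DihedralGroup n)) ∨
      Cfsg.IsQuasiDihedral P) := by
  rcases CL.Grp.isCyclic_or_dqsGen_of_normal_abelian_cyclic hP hn with h | ⟨h2, n, a, b, hb, h3⟩
  · obtain ⟨B, -, hB⟩ := hm
    exact absurd (inferInstance : IsCyclic B) hB
  · refine ⟨h2, ?_⟩
    rcases hb.rel with ⟨h4, h5⟩ | ⟨h4, h5⟩ | ⟨h6, h4, h5⟩
    · exact Or.inr (Or.inl ⟨2 ^ n, (by norm_num : 8 = 2 ^ 3) ▸ Nat.pow_le_pow_right two_pos (h3 h4),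
        hb.nonempty_dihedral h4 h5⟩)
    · exact Or.inl ⟨_, hb.nonempty_quaternion h4 h5⟩
    · exact Or.inr (Or.inr (hb.isQuasiDihedral h6 h4 h5))

end Cfsg.Agent.S0519
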