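import Cfsg.Statements.S0520
import Cfsg.Agent.Loc.KConn
import Cfsg.Agent.Inv.SylowTwo

set_option autoImplicit false
open Cfsg

namespace Cfsg.Agent.S0520

open CL.Loc CL.Grp
open scoped Pointwise

theorem ea_of_four {G : Type*} [Group G] {U : Subgroup G} (h : IsKleinFour U) : IsElementaryAbelian 2 U :=
  ⟨h.isMulCommutative, fun a ha => by
    rw [pow_two]; exact congrArg Subtype.val (IsKleinFour.mul_self (⟨a, ha⟩ : U))⟩

theorem kConn_of_four {G : Type*} [Group G] {U V : Subgroup G} (h : Relation.ReflTransGen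
    (fun A B : Subgroup G => IsKleinFour A ∧ IsKleinFour B ∧ ∀ a ∈ A, ∀ b ∈ B, a * b = b * a) U V) :
    KConn 2 2 U V := by
  induction h with
  | refl => exact .refl
  | tail _ h ih =>
    exact .tail ih ⟨ea_of_four h.1, h.1.card_four.ge, ea_of_four h.2.1, h.2.1.card_four.ge, h.2.2⟩

theorem four_of_kConn {G : Type*} [Group G] [Finite G] {U B : Subgroup G} (hU : IsKleinFour U)
    (h : KConn 2 2 U B) : ∀ V ≤ B, IsKleinFour V → Relation.ReflTransGen
    (fun A B : Subgroup G => IsKleinFour A ∧ IsKleinFour B ∧ ∀ a ∈ A, ∀ b ∈ B, a * b = b * a) U V := by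
  induction h with
  | refl =>
    intro V hV h4
    rw [Subgroup.eq_of_le_of_card_ge hV (by rw [hU.card_four, h4.card_four])]
  | tail _ h ih =>
    intro V hV h4
    obtain ⟨W, hW, hW1, hW2⟩ := exists_ea_le_card_eq h.1 h.2.1
    have hW4 := CL.Inv.isKleinFour_of_ea hW1 hW2
    exact (ih W hW hW4).tail ⟨hW4, h4, fun a ha b hb => h.2.2.2.2 a (hW ha) b (hV hb)⟩

/-- Let G be a finite group of 2-rank at least 2 and S a Sylow 2-subgroup whose commuting graph of Klein four-subgroups is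
connected. Then the commuting graph of Klein four-subgroups of G is disconnected if and only if the 2-generated core — the
subgroup generated by the normalizers N_G(Q) of the subgroups Q of S that contain a Klein four-group — is a proper
subgroup of G. -/
theorem result {G : Type*} [Group G] [Finite G] (h2 : ¬ Cfsg.PRankLE 2 1 G)
    (S : Sylow 2 G) (hS : Cfsg.IsFourConnected (S : Subgroup G)) :
    ¬ Cfsg.IsFourConnected G ↔
      (⨆ Q : {Q : Subgroup G // Q ≤ (S : Subgroup G) ∧ ¬ Cfsg.PRankLE 2 1 Q},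
          Subgroup.normalizer ((Q : Subgroup G) : Set G)) ≠ ⊤ := by
  set Γ := ⨆ Q : {Q : Subgroup G // Q ≤ (S : Subgroup G) ∧ ¬ Cfsg.PRankLE 2 1 Q},
    Subgroup.normalizer ((Q : Subgroup G) : Set G) with hΓ
  have hr : ∀ {Q U : Subgroup G}, U ≤ Q → IsKleinFour U → ¬ PRankLE 2 1 Q := fun hU h4 =>
    not_pRankLE_subgroup_iff.2 ⟨_, hU, ea_of_four h4, h4.card_four.ge⟩
  have h4 : ∀ {U : Subgroup G} (g : G), IsKleinFour U → IsKleinFour (MulAut.conj g • U : Subgroup G) :=
    fun g hU => CL.Inv.isKleinFour_of_ea (ea_conj_smul (ea_of_four hU) g) (by rw [card_conj_smul, hU.card_four])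
  obtain ⟨U, hUS, hU⟩ : ∃ U : Subgroup G, U ≤ S ∧ IsKleinFour U := by
    obtain ⟨A, hA, hA'⟩ := not_pRankLE_iff.1 h2
    obtain ⟨B, -, hB, hB'⟩ := exists_ea_le_card_eq hA hA'
    obtain ⟨g, hg⟩ := exists_conj_le_sylow S (ea_isPGroup hB)
    exact ⟨_, hg, h4 g (CL.Inv.isKleinFour_of_ea hB hB')⟩
  refine not_congr ⟨fun hc => ?_, fun ht => ?_⟩
  · have hS' : (S : Subgroup G) ≤ Γ := Subgroup.le_normalizer.trans (le_iSup_of_le ⟨S, le_rfl, hr hUS hU⟩ le_rfl)
    have hN : ∀ {Q V : Subgroup G}, IsPGroup 2 Q → Q ≤ Γ → V ≤ Q → IsKleinFour V →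
        Subgroup.normalizer (Q : Set G) ≤ Γ := fun {Q V} hQ hQΓ hV hV4 n hn => by
      obtain ⟨g, hg, h1⟩ := (isSylowIn_of_le S hS').exists_conj_le hQ hQΓ
      have h3 : MulAut.conj g • Subgroup.normalizer (Q : Set G) ≤ Γ := by
        rw [← normalizer_conj_smul]
        exact le_iSup_of_le ⟨_, h1, hr (Subgroup.pointwise_smul_le_pointwise_smul_iff.2 hV) (h4 g hV4)⟩ le_rfl
      have h5 := h3 (Subgroup.smul_mem_pointwise_smul n (MulAut.conj g) _ hn)
      rwa [MulAut.smul_def, MulAut.conj_apply, mul_mem_cancel_right (inv_mem hg), mul_mem_cancel_left hg] at h5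
    have hall : ∀ V : Subgroup G, IsKleinFour V → V ≤ Γ := by
      intro V hV
      have h1 := hc U V hU hV
      clear hV
      induction h1 with
      | refl => exact hUS.trans hS'
      | tail _ h ih =>
        exact fun b hb => hN (ea_isPGroup (ea_of_four h.1)) ih le_rfl h.1
          (Subgroup.centralizer_le_normalizer _ fun a ha => h.2.2 a ha b hb)
    have hK : Subgroup.normalClosure (U : Set G) ≤ Γ := by
      refine (Subgroup.closure_le _).2 fun x hx => ?_
      obtain ⟨u, hu, h1⟩ := Group.mem_conjugatesOfSet_iff.1 hx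
      obtain ⟨g, rfl⟩ := isConj_iff.1 h1
      exact hall _ (h4 g hU) (Subgroup.smul_mem_pointwise_smul u (MulAut.conj g) _ hu)
    obtain ⟨P, hP⟩ := (IsPGroup.comap_subtype (K := Subgroup.normalClosure (U : Set G))
      (ea_isPGroup (ea_of_four hU))).exists_le_sylow
    refine top_unique (P.normalizer_sup_eq_top.ge.trans (sup_le (hN (P.isPGroup'.map _)
      ((Subgroup.map_subtype_le _).trans hK) (fun u hu => ?_) hU) hK))
    exact ⟨⟨u, Subgroup.le_normalClosure hu⟩, hP hu, rfl⟩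
  · have h1 : ∀ V : Subgroup G, V ≤ S → IsKleinFour V → KConn 2 2 U V := fun V hV hV4 => by
      have h5 : ∀ {W : Subgroup G}, W ≤ S → IsKleinFour W → IsKleinFour (W.subgroupOf S) := fun hW hW4 =>
        CL.Inv.isKleinFour_of_ea (ea_subgroupOf (ea_of_four hW4) _)
          (by rw [Nat.card_congr (Subgroup.subgroupOfEquivOfLe hW).toEquiv, hW4.card_four])
      have h3 := (kConn_of_four (hS _ _ (h5 hUS hU) (h5 hV hV4))).map (S : Subgroup G).subtype_injective
      rwa [Subgroup.map_subgroupOf_eq_of_le hUS, Subgroup.map_subgroupOf_eq_of_le hV] at h3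
    have h3 : Γ ≤ kConnStab 2 2 U := iSup_le fun Q g hg => by
      obtain ⟨A, hAQ, hA, hA'⟩ := not_pRankLE_subgroup_iff.1 Q.2.2
      obtain ⟨B, hBA, hB, hB'⟩ := exists_ea_le_card_eq hA hA'
      have hB4 := CL.Inv.isKleinFour_of_ea hB hB'
      refine mem_kConnStab_of_conn (h1 B ((hBA.trans hAQ).trans Q.2.1) hB4) (h1 _ ?_ (h4 g hB4))
      exact ((Subgroup.pointwise_smul_le_pointwise_smul_iff.2 (hBA.trans hAQ)).trans
        ((conj_smul_eq_self_iff g _).2 hg).le).trans Q.2.1
    have h5 : ∀ V : Subgroup G, IsKleinFour V → KConn 2 2 U V := fun V hV => by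
      obtain ⟨g, hg⟩ := exists_conj_le_sylow S (ea_isPGroup (ea_of_four hV))
      have h6 := (h1 _ hg (h4 g hV)).conj_smul g⁻¹
      rw [conj_smul_conj_smul, inv_mul_cancel, map_one, one_smul] at h6
      exact Relation.ReflTransGen.trans (h3 (ht.ge (Subgroup.mem_top g⁻¹))) h6
    exact fun A B hA hB => four_of_kConn hA (Relation.ReflTransGen.trans (h5 A hA).symm' (h5 B hB)) B le_rfl hB

end Cfsg.Agent.S0520
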