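import Cfsg.Statements.S0521
import Cfsg.Agent.Odd.BGAStable
import Cfsg.Agent.Odd.BG1b
import Cfsg.Agent.Odd.RelRank
import Cfsg.Agent.Loc.PConstr

set_option autoImplicit false
open Cfsg

namespace Cfsg.Agent.S0521

open CL.Odd CL.Grp
open scoped Pointwise commutatorElement

theorem quad {G : Type*} [Group G] [Finite G] {p : ℕ} (hp : p.Prime) {S V : Subgroup G} (hS : IsPGroup p S)
    (hV : V ⊴ S) (hea : IsElementaryAbelian p V) (hc : IsCyclic ↥⁅S, S⁆) : ⁅⁅V, S⁆, S⁆ = ⊥ := by
  have := Fact.mk hp
  have h1 : ⁅V, S⁆ ≤ V := comm_le_left hV.2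
  by_cases h0 : ⁅V, S⁆ = ⊥
  · rw [h0, Subgroup.commutator_bot_left]
  have lt := comm_lt_of_nil hS.isNilpotent (h1.trans hV.1) (right_le_norm_comm V S) h0
  obtain ⟨m, hm⟩ := exists_isPElem hp (CL.Loc.ea_mono hea h1) h1
  obtain ⟨l, hl⟩ := exists_isPElem hp (CL.Loc.ea_mono hea (lt.le.trans h1)) lt.le
  have h2 := (hm.cyclic_iff hp).mp (cyclic_of_le hc (Subgroup.commutator_mono hV.1 le_rfl))
  have h3 := card_lt_card_of_lt lt
  rw [hm.card, hl.card, Nat.pow_lt_pow_iff_right hp.one_lt] at h3
  have h4 := hl.card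
  rwa [show l = 0 by omega, pow_zero, Subgroup.card_eq_one] at h4

theorem aux {G : Type*} [Group G] [Finite G] [Group.IsSolvable G] (hG : Odd (Nat.card G)) {p : ℕ} [hp : Fact p.Prime]
    (h0 : pPrimeCore p G = ⊥) (S : Sylow p G) (hc : IsCyclic ↥⁅(S : Subgroup G), (S : Subgroup G)⁆) :
    (S : Subgroup G) = pCore p G := by
  set P := pCore p G
  have hP : IsPGroup p P := pCore_isPGroup p G
  have hC : C[P] ≤ P := centralizer_le_pCore_of_inf_le P h0 inf_le_left
  have : (frattiniOf P).Normal := by
    rw [← Subgroup.normalizer_eq_top_iff, eq_top_iff]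
    exact le_trans (by rw [Subgroup.normalizer_eq_top]) (norm_le_norm_frattiniOf P)
  set f := QuotientGroup.mk' (frattiniOf P)
  have hf : Function.Surjective f := QuotientGroup.mk'_surjective _
  have hk : f.ker = frattiniOf P := QuotientGroup.ker_mk' _
  have : (P.map f).Normal := Subgroup.Normal.map inferInstance f hf
  have hea : IsElementaryAbelian p (P.map f) := by
    rw [CL.Loc.ea_iff]
    refine ⟨abelian_iff_comm.mp (abelian_iff_der.mpr ?_), ?_⟩
    · rw [← Subgroup.map_commutator, Subgroup.map_eq_bot_iff, hk]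
      exact der_le_Phi hp.out hP
    · rintro _ ⟨x, hx, rfl⟩
      rw [← map_pow, ← MonoidHom.mem_ker, hk]
      exact pow_mem_Phi hp.out hP hx
  have hq := quad hp.out (S.isPGroup'.map f) (V := P.map f)
    ⟨Subgroup.map_mono (pCore_le_sylow S), by rw [Subgroup.normalizer_eq_top]; exact le_top⟩ hea
    (by rw [← Subgroup.map_commutator]; exact cyclic_map hc f)
  have h1 := odd_quadratic_normalClosure (hG.of_dvd_nat (Subgroup.card_quotient_dvd_card _)) (P.map f) (hP.map f)
    ((S : Subgroup G).map f) fun a ha x hx => by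
      rw [← Subgroup.mem_bot, ← hq]
      exact Subgroup.commutator_mem_commutator (Subgroup.commutator_mem_commutator hx ha) ha
  have h2 : IsPGroup p ((Subgroup.normalClosure ((S : Subgroup G) : Set G)).map (MonoidHom.id G)) := by
    refine isPGroup_map_of_coprime_mem_ker _ fun g hg hgp => ?_
    have h3 : f g ∈ C[P.map f] := h1 _ (by
      rw [Subgroup.coe_map, ← Subgroup.map_normalClosure _ _ hf]; exact Subgroup.mem_map_of_mem f hg)
      (hgp.coprime_dvd_left (orderOf_map_dvd f g))
    have h4 : (Nat.card (Subgroup.zpowers g)).Coprime p := by rwa [Nat.card_zpowers]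
    have h5 : Subgroup.zpowers g ≤ C[P] := by
      refine coprime_cent_Phi (by rw [Subgroup.normalizer_eq_top]; exact le_top)
        (coprime_card_of_isPGroup hP h4).symm ?_
      rw [← hk, ← Subgroup.map_eq_bot_iff, Subgroup.map_commutator, comm_eq_bot_iff', MonoidHom.map_zpowers,
        Subgroup.zpowers_le]
      exact h3
    have h6 := CL.Loc.inf_eq_bot_of_isPGroup_of_coprime hP h4
    rw [inf_eq_right.mpr (h5.trans hC), Subgroup.zpowers_eq_bot] at h6
    exact h6
  rw [Subgroup.map_id] at h2
  exact le_antisymm (Subgroup.le_normalClosure.trans (le_pCore h2)) (pCore_le_sylow S)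


/-- Let X be a finite solvable group of odd order, p a prime and S a Sylow p-subgroup of X whose commutator subgroup is
cyclic. Then the product of the largest normal subgroup of X of order prime to p with S is a normal subgroup of X. -/
theorem result {X : Type*} [Group X] [Finite X] [Group.IsSolvable X]
    (hX : Odd (Nat.card X)) (p : ℕ) [Fact p.Prime] (S : Sylow p X) (hS : IsCyclic (commutator (S : Subgroup X))) :
    (Cfsg.pPrimeCore p X ⊔ (S : Subgroup X)).Normal := by
  set f := QuotientGroup.mk' (pPrimeCore p X)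
  have hf : Function.Surjective f := QuotientGroup.mk'_surjective _
  have h1 : IsCyclic ↥⁅(S : Subgroup X), (S : Subgroup X)⁆ := by
    rw [← map_subtype_commutator']; exact cyclic_map hS _
  have h := aux (hX.of_dvd_nat (Subgroup.card_quotient_dvd_card _)) (pPrimeCore_quotient_pPrimeCore p X)
    (S.mapSurjective hf) (by
      rw [Sylow.coe_mapSurjective, ← Subgroup.map_commutator]; exact cyclic_map h1 f)
  rw [Sylow.coe_mapSurjective] at h
  rw [sup_comm, ← QuotientGroup.ker_mk' (pPrimeCore p X), ← Subgroup.comap_map_eq, h]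
  infer_instance

end Cfsg.Agent.S0521
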