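import Cfsg.Statements.S0522
import Cfsg.Agent.Odd.Transit

set_option autoImplicit false
open Cfsg

namespace Cfsg.Agent.S0522

/-- Transitivity Theorem (odd-order setting). Let X be a finite group of odd order in which the normalizer of every
nontrivial p-subgroup is solvable, P a Sylow p-subgroup, and B an abelian subgroup of P, normalized by P, with
C_P(B) = B and containing an elementary abelian subgroup of order p^3. Then for every prime q ≠ p, any two q-subgroups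
that are maximal among the q-subgroups normalized by B are conjugate by an element of the centralizer of B. -/
theorem result {X : Type*} [Group X] [Finite X] (hX : Odd (Nat.card X)) (p : ℕ)
    [Fact p.Prime] (hloc : ∀ T : Subgroup X, IsPGroup p T → T ≠ ⊥ → Group.IsSolvable (Subgroup.normalizer (T : Set X)))
    (P : Sylow p X) (B : Subgroup X) (hBP : B ≤ (P : Subgroup X))
    (hBn : ∀ x ∈ (P : Subgroup X), ∀ b ∈ B, x * b * x⁻¹ ∈ B) (hBa : IsMulCommutative B)
    (hBc : (P : Subgroup X) ⊓ Subgroup.centralizer (B : Set X) = B)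
    (hB3 : ∃ E : Subgroup X, E ≤ B ∧ (∀ e ∈ E, e ^ p = 1) ∧ p ^ 3 ≤ Nat.card E)
    (q : ℕ) [Fact q.Prime] (hqp : q ≠ p) (Q₁ Q₂ : Subgroup X)
    (h₁ : IsPGroup q Q₁ ∧ B ≤ Subgroup.normalizer (Q₁ : Set X) ∧
      ∀ R : Subgroup X, IsPGroup q R → B ≤ Subgroup.normalizer (R : Set X) → Q₁ ≤ R → R = Q₁)
    (h₂ : IsPGroup q Q₂ ∧ B ≤ Subgroup.normalizer (Q₂ : Set X) ∧
      ∀ R : Subgroup X, IsPGroup q R → B ≤ Subgroup.normalizer (R : Set X) → Q₂ ≤ R → R = Q₂) :
    ∃ c ∈ Subgroup.centralizer (B : Set X), Q₂ = Q₁.map (MulAut.conj c).toMonoidHom := by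
  have hn : (P : Subgroup X) ≤ Subgroup.normalizer (B : Set X) := fun x hx =>
    CL.Odd.mem_norm_of_cj_le ((CL.Grp.conj_smul_le_iff x B B).mpr (hBn x hx))
  have hp2 : p ≠ 2 := by
    rintro rfl
    obtain ⟨E, -, hE, h8⟩ := hB3
    have hE1 : E = ⊥ := by
      rw [eq_bot_iff]
      intro e he
      have h1 := orderOf_dvd_of_pow_eq_one (hE e he)
      have h2 : Odd (orderOf e) := hX.of_dvd_nat (orderOf_dvd_natCard e)
      exact orderOf_eq_one_iff.mp (Nat.Coprime.eq_one_of_dvd (Nat.coprime_two_right.mpr h2) h1)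
    rw [hE1, Subgroup.card_bot] at h8
    omega
  have h3 : 2 < CL.Odd.prank p B := by
    obtain ⟨E, hEB, hE, h8⟩ := hB3
    have hea : Cfsg.IsElementaryAbelian p E := 
      CL.Loc.ea_iff.mpr ⟨CL.Odd.abelian_iff_comm.mp (CL.Odd.abelian_of_le hBa hEB), hE⟩
    obtain ⟨m, hm⟩ := CL.Odd.exists_isPElem Fact.out hea hEB
    rw [hm.card, Nat.pow_le_pow_iff_right (Fact.out : p.Prime).one_lt] at h8
    exact lt_of_lt_of_le h8 (hm.le_prank Fact.out)
  have hm : ∀ Q : Subgroup X, (IsPGroup q Q ∧ B ≤ Subgroup.normalizer (Q : Set X) ∧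
      ∀ R : Subgroup X, IsPGroup q R → B ≤ Subgroup.normalizer (R : Set X) → Q ≤ R → R = Q) →
      Q ∈ Cfsg.maxInvSubgroups ⊤ B {q} := fun Q h =>
    ⟨⟨le_top, CL.Grp.isPiSubgroup_singleton_iff.mpr h.1, h.2.1⟩, fun R hR hle =>
      h.2.2 R (CL.Grp.isPiSubgroup_singleton_iff.mp hR.2.1) hR.2.2 hle⟩
  obtain ⟨k, hk, e⟩ := CL.Odd.Tr.transitivity (Or.inl hp2)
    (fun T hT h => CL.Loc.isPConstrained_of_isSolvable (hloc T hT h)) (P.isPGroup'.to_le hBP) hBa h3
    (CL.Odd.Tr.full_of_scn P hn hBc) Fact.out hqp (Nat.card X) Q₁ (hm _ h₁) Q₂ (hm _ h₂) (by omega)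
  exact ⟨k, CL.Grp.piCoreOf_le _ _ hk, e⟩

end Cfsg.Agent.S0522
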