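import Cfsg.Statements.S0529
import Cfsg.Agent.Grp.Supersolv3

set_option autoImplicit false
open Cfsg

namespace Cfsg.Agent.S0529

open CL.Grp

/-- A finite supersolvable group has a chain of normal subgroups, from the trivial subgroup to the whole group, in which every step has prime index and the primes occurring are non-increasing as one goes up the chain. -/
theorem result {G : Type*} [Group G] [Finite G] (hG : Cfsg.IsSupersolvable G) : ∃ (n : ℕ) (H : Fin (n + 1) → Subgroup G), H 0 = ⊥ ∧ H (Fin.last n) = ⊤ ∧ (∀ i, (H i).Normal) ∧ (∀ i : Fin n, H i.castSucc ≤ H i.succ ∧ ((H i.castSucc).relIndex (H i.succ)).Prime) ∧ ∀ i j : Fin n, i ≤ j → (H j.castSucc).relIndex (H j.succ) ≤ (H i.castSucc).relIndex (H i.succ) := by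
  induction hn : Nat.card G using Nat.strong_induction_on generalizing G with
  | _ m ih =>
  rcases subsingleton_or_nontrivial G with hX | hX
  · exact ⟨0, fun _ => ⊥, rfl, Subsingleton.elim _ _, fun _ => inferInstance, fun i => i.elim0,
      fun i => i.elim0⟩
  obtain ⟨N, hN, hq, hmax⟩ := CL.Grp.IsSupersolvable.exists_normal_card_max_prime hG
  have hNb : N ≠ ⊥ := fun e => hq.one_lt.ne' (by rw [e, Subgroup.card_bot])
  obtain ⟨n, H, h0, hl, hnorm, hstep, hmono⟩ := ih _ (hn ▸ card_quotient_lt hNb)
    (CL.Grp.IsSupersolvable.quotient hG N) rfl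
  have hsurj := QuotientGroup.mk'_surjective N
  have hrel : ∀ A B : Subgroup (G ⧸ N), (A.comap (QuotientGroup.mk' N)).relIndex
      (B.comap (QuotientGroup.mk' N)) = A.relIndex B := fun A B => by
    rw [Subgroup.relIndex_comap, Subgroup.map_comap_eq_self_of_surjective hsurj]
  have h0' : (H 0).comap (QuotientGroup.mk' N) = N := by
    rw [h0, MonoidHom.comap_bot, QuotientGroup.ker_mk']
  let K : Fin (n + 2) → Subgroup G := Fin.cons ⊥ fun i => (H i).comap (QuotientGroup.mk' N)
  have hK0 : (K (Fin.castSucc 0)).relIndex (K (Fin.succ 0)) = Nat.card N := by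
    change (⊥ : Subgroup G).relIndex ((H 0).comap (QuotientGroup.mk' N)) = _
    rw [h0', Subgroup.relIndex_bot_left]
  have hKs : ∀ j : Fin n, (K (Fin.castSucc j.succ)).relIndex (K (Fin.succ j.succ)) =
      (H j.castSucc).relIndex (H j.succ) := fun j => hrel _ _
  refine ⟨n + 1, K, rfl, ?_, fun i => Fin.cases (inferInstanceAs (⊥ : Subgroup G).Normal)
    (fun j => (hnorm j).comap _) i, fun i => ?_, fun i j hij => ?_⟩
  · change (H (Fin.last n)).comap _ = ⊤
    rw [hl, Subgroup.comap_top]
  · refine Fin.cases ⟨bot_le, hK0 ▸ hq⟩ (fun j => ⟨Subgroup.comap_mono (hstep j).1, ?_⟩) i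
    rw [hKs]
    exact (hstep j).2
  · revert hij
    refine Fin.cases ?_ (fun j => ?_) j
    · intro hij
      rw [Fin.le_zero_iff.1 hij]
    · refine Fin.cases ?_ (fun i => ?_) i
      · intro _
        rw [hK0, hKs]
        refine hmax _ (hstep j).2 (((Subgroup.relIndex_dvd_card _ _).trans
          (Subgroup.card_subgroup_dvd_card _)).trans (Subgroup.card_quotient_dvd_card N))
      · intro hij
        rw [hKs, hKs]
        exact hmono i j (Fin.succ_le_succ_iff.1 hij)

end Cfsg.Agent.S0529
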