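import Cfsg.Statements.S0534
import Cfsg.Agent.Grp.HallSystem

set_option autoImplicit false
open Cfsg

namespace Cfsg.Agent.S0534

theorem abelian_clt (N : ℕ) : ∀ (A : Type*) [CommGroup A] [Finite A], Nat.card A = N →
    ∀ d : ℕ, d ∣ Nat.card A → ∃ B : Subgroup A, Nat.card B = d := by
  induction N using Nat.strong_induction_on with
  | _ n ih =>
  intro A _ _ hn d hd
  by_cases h1 : d = 1
  · exact ⟨⊥, by simp [h1]⟩
  obtain ⟨p, hp, e, rfl⟩ := Nat.exists_prime_and_dvd h1
  have := Fact.mk hp
  obtain ⟨x, hx⟩ := exists_prime_orderOf_dvd_card' p ((dvd_mul_right p e).trans hd)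
  have hc : Nat.card (Subgroup.zpowers x) = p := by rw [Nat.card_zpowers, hx]
  have hb : Subgroup.zpowers x ≠ ⊥ := by
    rw [← Subgroup.one_lt_card_iff_ne_bot, hc]
    exact hp.one_lt
  obtain ⟨B, hB⟩ := ih _ (hn ▸ CL.Grp.card_quotient_lt hb) (A ⧸ Subgroup.zpowers x) rfl e (by
    rw [Subgroup.card_eq_card_quotient_mul_card_subgroup (Subgroup.zpowers x), hc,
      mul_comm p e] at hd
    exact Nat.dvd_of_mul_dvd_mul_right hp.pos hd)
  exact ⟨B.comap (QuotientGroup.mk' _), by rw [CL.Grp.hall_card_comap_mk', hc, hB]⟩

/-- Let G be a finite solvable group and A a finite abelian group such that every prime dividing the order of A divides the order of G and, for each prime p dividing the order of G, the exponent of p in the order of A is one less than its exponent in the order of G. Then G × A has a subgroup of every order dividing its order. -/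
theorem result {G A : Type*} [Group G] [CommGroup A] [Finite G] [Finite A] [Group.IsSolvable G] (hA : ∀ p : ℕ, p.Prime → p ∣ Nat.card A → p ∣ Nat.card G) (hexp : ∀ p : ℕ, p.Prime → p ∣ Nat.card G → (Nat.card A).factorization p + 1 = (Nat.card G).factorization p) : Cfsg.HasSubgroupOfEveryOrder (G × A) := by
  intro d hd
  rw [Nat.card_prod] at hd
  have hG0 : Nat.card G ≠ 0 := Nat.card_pos.ne'
  have hA0 : Nat.card A ≠ 0 := Nat.card_pos.ne'
  have hd0 : d ≠ 0 := by
    rintro rfl
    exact mul_ne_zero hG0 hA0 (Nat.eq_zero_of_zero_dvd hd)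
  obtain ⟨H, hH⟩ := CL.Grp.exists_piHall_of_solvable
    {p | (Nat.card G).factorization p ≤ d.factorization p} G
  have hH0 : Nat.card H ≠ 0 := Nat.card_pos.ne'
  have h1 : ∀ p : ℕ, p.Prime → (Nat.card G).factorization p ≤ d.factorization p →
      (Nat.card H).factorization p = (Nat.card G).factorization p := by
    intro p hp h
    rw [← H.card_mul_index, Nat.factorization_mul hH0 Subgroup.index_ne_zero_of_finite,
      Finsupp.add_apply, Nat.factorization_eq_zero_of_not_dvd (hH.2 p hp h), add_zero]
  have h2 : ∀ p : ℕ, p.Prime → ¬ (Nat.card G).factorization p ≤ d.factorization p →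
      (Nat.card H).factorization p = 0 := fun p hp h =>
    Nat.factorization_eq_zero_of_not_dvd fun hd => h (hH.1 p hp hd)
  obtain ⟨e, rfl⟩ : Nat.card H ∣ d := by
    rw [← Nat.factorization_prime_le_iff_dvd hH0 hd0]
    intro p hp
    by_cases h : (Nat.card G).factorization p ≤ d.factorization p
    · rwa [h1 p hp h]
    · rw [h2 p hp h]; exact Nat.zero_le _
  have he0 : e ≠ 0 := right_ne_zero_of_mul hd0
  have h3 : e ∣ Nat.card A := by
    rw [← Nat.factorization_prime_le_iff_dvd he0 hA0]
    intro p hp
    have h4 := (Nat.factorization_prime_le_iff_dvd hd0 (mul_ne_zero hG0 hA0)).2 hd p hp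
    have h5 : (Nat.card H * e).factorization p = (Nat.card H).factorization p + e.factorization p := by
      rw [Nat.factorization_mul hH0 he0, Finsupp.add_apply]
    rw [Nat.factorization_mul hG0 hA0, Finsupp.add_apply] at h4
    by_cases h : (Nat.card G).factorization p ≤ (Nat.card H * e).factorization p
    · have := h1 p hp h
      omega
    · have h6 := h2 p hp h
      have h7 := hexp p hp (Nat.dvd_of_factorization_pos (by omega))
      omega
  obtain ⟨B, hB⟩ := abelian_clt _ A rfl e h3
  exact ⟨H.prod B, by rw [Nat.card_congr (Subgroup.prodEquiv H B).toEquiv, Nat.card_prod, hB]⟩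

end Cfsg.Agent.S0534
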