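import Cfsg.Statements.S0536
import Cfsg.Agent.Grp.Schmidt

set_option autoImplicit false
open Cfsg

namespace Cfsg.Agent.S0536

/-- Structure of minimal non-nilpotent groups: if a finite group is not nilpotent but all its proper subgroups are, then there are distinct primes p and q, a cyclic Sylow p-subgroup P and a normal Sylow q-subgroup Q with G generated by P and Q. -/
theorem result {G : Type*} [Group G] [Finite G] (hG : Cfsg.IsMinimalNonNilpotent G) : ∃ p q : ℕ, p.Prime ∧ q.Prime ∧ p ≠ q ∧ ∃ (P : Sylow p G) (Q : Sylow q G), IsCyclic P ∧ (Q : Subgroup G).Normal ∧ (P : Subgroup G) ⊔ Q = ⊤ := by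
  obtain ⟨q, hq, Q, p, k, g, hp, hpq, hg, hn, htop, -⟩ :=
    CL.Grp.IsMinimalNonNilpotent.exists_structure hG
  have := Fact.mk hp
  have hA : IsPGroup p (Subgroup.zpowers g) := IsPGroup.of_card (by rw [Nat.card_zpowers, hg])
  have hi : ¬ p ∣ (Subgroup.zpowers g).index := fun hd => by
    obtain ⟨l, hl⟩ := IsPGroup.iff_card.1 Q.2
    have := hd.trans (CL.Grp.index_dvd_card_of_sup_eq_top' htop)
    rw [hl] at this
    exact hpq ((Nat.prime_dvd_prime_iff_eq hp hq.out).1 (hp.dvd_of_dvd_pow this))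
  exact ⟨p, q, hp, hq.out, hpq, hA.toSylow hi, Q,
    inferInstanceAs (IsCyclic (Subgroup.zpowers g)), hn, by rw [sup_comm]; exact htop⟩

end Cfsg.Agent.S0536
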