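import Cfsg.Statements.S0537
import Cfsg.Agent.Grp.Schmidt2
import Cfsg.Agent.S0056

set_option autoImplicit false
open Cfsg

namespace Cfsg.Agent.S0537

open CL.Grp
open scoped commutatorElement

/-- A finite non-abelian group in which every proper subgroup is abelian is either of prime-power order, or is generated by a cyclic Sylow p-subgroup and a normal Sylow q-subgroup that is elementary abelian, for distinct primes p and q. -/
theorem result {G : Type*} [Group G] [Finite G] (hna : ¬ IsMulCommutative G) (h : ∀ H : Subgroup G, H ≠ ⊤ → IsMulCommutative H) : (∃ p : ℕ, p.Prime ∧ IsPGroup p G) ∨ ∃ p q : ℕ, p.Prime ∧ q.Prime ∧ p ≠ q ∧ ∃ (P : Sylow p G) (Q : Sylow q G), IsCyclic P ∧ (Q : Subgroup G).Normal ∧ Cfsg.IsElementaryAbelian q (Q : Subgroup G) ∧ (P : Subgroup G) ⊔ Q = ⊤ := by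
  by_cases hnil : Group.IsNilpotent G
  · left
    by_contra hcon
    refine hna (isMulCommutative_of_isNilpotent_of_sylow fun p hp P => h P fun hP => ?_)
    exact hcon ⟨p, hp.out, P.2.of_equiv ((MulEquiv.subgroupCongr hP).trans Subgroup.topEquiv)⟩
  right
  have hG : IsMinimalNonNilpotent G := ⟨hnil, fun H hH => isNilpotent_of_isMulCommutative (h H hH)⟩
  obtain ⟨q, hq, Q, p, k, g, hp, hpq, hg, hn, htop, hgC⟩ :=
    CL.Grp.IsMinimalNonNilpotent.exists_structure hG
  have := Fact.mk hp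
  have hA : IsPGroup p (Subgroup.zpowers g) := IsPGroup.of_card (by rw [Nat.card_zpowers, hg])
  obtain ⟨l, hl⟩ := IsPGroup.iff_card.1 Q.2
  have hi : ¬ p ∣ (Subgroup.zpowers g).index := fun hd => by
    have := hd.trans (CL.Grp.index_dvd_card_of_sup_eq_top' htop)
    rw [hl] at this
    exact hpq ((Nat.prime_dvd_prime_iff_eq hp hq.out).1 (hp.dvd_of_dvd_pow this))
  have hco : (orderOf g).Coprime q := hg ▸ ((Nat.coprime_primes hp hq.out).2 hpq).pow_left k
  have hQne : (Q : Subgroup G) ≠ ⊤ := fun e => by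
    have := (Q.2.of_equiv ((MulEquiv.subgroupCongr e).trans Subgroup.topEquiv)).isNilpotent
    exact hnil this
  have hQa := h Q hQne
  have hcomm : ∀ x ∈ Q, ∀ y ∈ Q, Commute x y := fun x hx y hy =>
    congrArg Subtype.val (hQa.1.1 ⟨x, hx⟩ ⟨y, hy⟩)
  refine ⟨p, q, hp, hq.out, hpq, hA.toSylow hi, Q,
    inferInstanceAs (IsCyclic (Subgroup.zpowers g)), hn, ⟨hQa, ?_⟩, by rw [sup_comm]; exact htop⟩
  let Ω : Subgroup G :=
    { carrier := {x | x ∈ Q ∧ x ^ q = 1}
      mul_mem' := fun {a b} ha hb => ⟨mul_mem ha.1 hb.1, by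
        rw [(hcomm a ha.1 b hb.1).mul_pow, ha.2, hb.2, one_mul]⟩
      one_mem' := ⟨one_mem _, one_pow _⟩
      inv_mem' := fun {a} ha => ⟨inv_mem ha.1, by rw [inv_pow, ha.2, inv_one]⟩ }
  have hΩn : Ω.Normal := ⟨fun x hx y => ⟨hn.conj_mem x hx.1 y, by rw [conj_pow, hx.2]; simp⟩⟩
  by_contra hcon
  have hlt : Ω < Q := lt_of_le_of_ne (fun x hx => hx.1) fun e => hcon fun a ha => (e.ge ha).2
  have h1 := CL.Grp.IsMinimalNonNilpotent.mem_centralizer_of_lt hG Q.2 hlt hco
  refine hgC (Cfsg.Agent.S0056.result (Subgroup.zpowers g) Q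
    (by rw [Subgroup.normalizer_eq_top]; exact le_top)
    (by rw [Nat.card_zpowers, hl]; exact hco.pow_right l) (fun v hv hvp a ha => ?_)
    (Subgroup.mem_zpowers g))
  have h2 : orderOf v = q := by
    have := Subgroup.orderOf_dvd_natCard _ hv
    rw [hl] at this
    exact (Nat.prime_dvd_prime_iff_eq hvp hq.out).1 (hvp.dvd_of_dvd_pow this)
  exact (Subgroup.zpowers_le.2 h1 ha v ⟨hv, h2 ▸ pow_orderOf_eq_one v⟩).symm

end Cfsg.Agent.S0537
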