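import Cfsg.Statements.S0542
import Cfsg.Agent.Grp.Zipper

set_option autoImplicit false
open Cfsg

namespace Cfsg.Agent.S0542

/-- A Sylow p-subgroup of a finite group meets every subnormal subgroup H in a Sylow p-subgroup of H. -/
theorem result {G : Type*} [Group G] [Finite G] (p : ℕ) [Fact p.Prime] (H : Subgroup G) (hH : H.IsSubnormal) (S : Sylow p G) : ∃ Q : Sylow p H, (Q : Subgroup H) = (S : Subgroup G).subgroupOf H := by
  refine ⟨(CL.Grp.isSylowIn_inf_of_isSubnormal S hH).toSylow, ?_⟩
  rw [CL.Grp.IsSylowIn.coe_toSylow, Subgroup.inf_subgroupOf_right]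

end Cfsg.Agent.S0542
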