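import Cfsg.Statements.S0550
import Cfsg.Agent.Grp.Primitive

set_option autoImplicit false
open Cfsg

namespace Cfsg.Agent.S0550

open CL.Grp in
theorem aux {G : Type*} [Group G] {U A B : Subgroup G} (hU : IsCoatom U) (hcore : U.normalCore = ⊥)
    (hA : IsMinNormal A) (hB : IsMinNormal B) (hAB : A ≠ B) :
    Subgroup.centralizer (B : Set G) = A ∧ Subgroup.IsComplement' A U ∧
      Nonempty (B ≃* ↥((A ⊔ B) ⊓ U)) := by
  have := hA.normal
  have := hB.normal
  have hsA := sup_eq_top_of_normalCore_eq_bot hU hcore hA.ne_bot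
  have hsB := sup_eq_top_of_normalCore_eq_bot hU hcore hB.ne_bot
  have h1 := centralizer_inf_eq_bot_of_normalCore_eq_bot hcore hsB
  have h2 : A = Subgroup.centralizer (B : Set G) := eq_of_sup_eq_top_of_inf_eq_bot
    (Subgroup.commutator_eq_bot_iff_le_centralizer.mp (hA.commutator_eq_bot_of_ne hB hAB)) hsA h1
  rw [← h2] at h1
  refine ⟨h2.symm, isComplement'_of_normal h1 hsA,
    nonempty_equiv_of_sup_eq (N := A) (hA.inf_eq_bot_of_ne hB hAB) ?_ ?_⟩
  · rw [inf_comm (A ⊔ B), ← inf_assoc, h1, bot_inf_eq]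
  · rw [inf_comm (A ⊔ B), ← dedekind_right Subgroup.le_normalizer_of_normal le_sup_left, hsA,
      top_inf_eq]

/-- Let U be a maximal subgroup with trivial normal core in a finite group G, and A ≠ B two minimal normal subgroups. Then A is the centralizer of B and B that of A, U complements each of them, A and B are non-abelian, and A, B and (A ⊔ B) ∩ U are pairwise isomorphic. -/
theorem result {G : Type*} [Group G] [Finite G] (U : Subgroup G) (hU : IsCoatom U) (hcore : U.normalCore = ⊥) (A B : Subgroup G) [A.Normal] [B.Normal] (hA : A ≠ ⊥) (hB : B ≠ ⊥) (hAmin : ∀ K : Subgroup G, K.Normal → K ≤ A → K = ⊥ ∨ K = A) (hBmin : ∀ K : Subgroup G, K.Normal → K ≤ B → K = ⊥ ∨ K = B) (hAB : A ≠ B) : Subgroup.centralizer (B : Set G) = A ∧ Subgroup.centralizer (A : Set G) = B ∧ Subgroup.IsComplement' A U ∧ Subgroup.IsComplement' B U ∧ ¬ IsMulCommutative A ∧ Nonempty (A ≃* B) ∧ Nonempty (A ≃* ↥((A ⊔ B) ⊓ U)) := by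
  have hA' : CL.Grp.IsMinNormal A := ⟨‹_›, hA, hAmin⟩
  have hB' : CL.Grp.IsMinNormal B := ⟨‹_›, hB, hBmin⟩
  obtain ⟨h1, h2, ⟨e1⟩⟩ := aux hU hcore hA' hB' hAB
  obtain ⟨h3, h4, ⟨e2⟩⟩ := aux hU hcore hB' hA' hAB.symm
  rw [sup_comm] at e2
  refine ⟨h1, h3, h2, h4, fun hc => hA ?_, ⟨e2.trans e1.symm⟩, ⟨e2⟩⟩
  have h5 : A ≤ B := h3 ▸ A.le_centralizer
  rw [← hA'.inf_eq_bot_of_ne hB' hAB, inf_eq_left.mpr h5]

end Cfsg.Agent.S0550
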