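import Cfsg.Statements.S0552
import Cfsg.Agent.Grp.Fitting

set_option autoImplicit false
open Cfsg

namespace Cfsg.Agent.S0552

/-- Let σ be an automorphism of a finite solvable group G fixing every element of the Fitting subgroup. If σ is not the identity then the order of σ and the order of G have a common prime factor. -/
theorem result {G : Type*} [Group G] [Finite G] [Group.IsSolvable G] (σ : G ≃* G) (hσ : ∀ x ∈ Cfsg.fittingSubgroup G, σ x = x) (hne : σ ≠ MulEquiv.refl G) : ¬ (orderOf σ).Coprime (Nat.card G) := by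
  intro hc
  apply hne
  have key : ∀ g : G, g⁻¹ * σ g ∈ fittingSubgroup G := by
    intro g
    refine CL.Grp.centralizer_fittingSubgroup_le G fun x hx => ?_
    have h1 := hσ _ ((inferInstance : (fittingSubgroup G).Normal).conj_mem x hx g)
    rw [map_mul, map_mul, map_inv, hσ x hx] at h1
    calc x * (g⁻¹ * σ g) = g⁻¹ * (g * x * g⁻¹) * σ g := by group
      _ = g⁻¹ * (σ g * x * (σ g)⁻¹) * σ g := by rw [h1]
      _ = g⁻¹ * σ g * x := by group
  have hpow : ∀ (n : ℕ) (g : G), (σ ^ n : MulAut G) g = g * (g⁻¹ * σ g) ^ n := by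
    intro n g
    induction n with
    | zero => simp
    | succ n ih =>
      rw [pow_succ', MulAut.mul_apply, ih, map_mul, hσ _ (pow_mem (key g) n), pow_succ',
        ← mul_assoc, mul_inv_cancel_left]
  have h1 : (σ : MulAut G) ^ Nat.card G = 1 := by
    ext g
    rw [hpow, pow_card_eq_one', mul_one, MulAut.one_apply]
  exact orderOf_eq_one_iff.mp (Nat.eq_one_of_dvd_coprimes hc dvd_rfl (orderOf_dvd_of_pow_eq_one h1))

end Cfsg.Agent.S0552
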