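import Cfsg.Statements.S0553
import Cfsg.Agent.Grp.Frattini

set_option autoImplicit false
open Cfsg

namespace Cfsg.Agent.S0553

/-- Let G be a nontrivial finite solvable group in which every maximal subgroup has order coprime to its index. Then for some prime p dividing the order of G the Sylow p-subgroups of G are normal. -/
theorem result {G : Type*} [Group G] [Finite G] [Group.IsSolvable G] [Nontrivial G] (h : ∀ M : Subgroup G, IsCoatom M → (Nat.card M).Coprime M.index) : ∃ p : ℕ, p.Prime ∧ p ∣ Nat.card G ∧ ∀ P : Sylow p G, (P : Subgroup G).Normal := by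
  obtain ⟨p, hp, hle⟩ : ∃ (p : ℕ) (_ : Fact p.Prime), ¬ pCore p G ≤ frattini G := by
    by_contra! h1
    exact (CL.Grp.frattini_lt_fittingSubgroup G).not_ge
      (CL.Grp.fittingSubgroup_le_of_forall_pCore_le h1)
  obtain ⟨M, hM, hn⟩ := CL.Grp.exists_isCoatom_not_le hle
  have hs := CL.Grp.sup_eq_top_of_isCoatom hM hn
  have hP := CL.Grp.pCore_isPGroup p G
  have h1 : (pCore p G).index = (pCore p G).relIndex M := by
    rw [← Subgroup.relIndex_sup_left, hs, Subgroup.relIndex_top_right]
  have h2 : M.index = M.relIndex (pCore p G) := by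
    have e1 := CL.Grp.card_inf_mul_relIndex (pCore p G) M
    have e2 := CL.Grp.card_inf_mul_relIndex M (pCore p G)
    have e3 := (pCore p G).card_mul_index
    have e4 := M.card_mul_index
    rw [← e4, ← e1, ← e2, ← h1, inf_comm M, mul_right_comm] at e3
    exact (Nat.eq_of_mul_eq_mul_left (Nat.mul_pos Nat.card_pos
      (Nat.pos_of_ne_zero Subgroup.index_ne_zero_of_finite)) e3).symm
  obtain ⟨k, hk⟩ := hP.index (M.subgroupOf (pCore p G))
  have h3 : p ∣ M.index := by
    rw [h2, Subgroup.relIndex, hk]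
    refine dvd_pow_self p fun h0 => hn ?_
    rw [h0, pow_zero] at hk
    exact Subgroup.relIndex_eq_one.mp hk
  have h4 : ¬ p ∣ (pCore p G).index := fun hd => hp.out.ne_one
    (Nat.eq_one_of_dvd_coprimes (h M hM) ((h1 ▸ hd).trans (Subgroup.relIndex_dvd_card _ _)) h3)
  refine ⟨p, hp.out, h3.trans M.index_dvd_card, fun P => ?_⟩
  rw [(hP.toSylow h4).is_maximal' P.isPGroup' (CL.Grp.pCore_le_sylow P)]
  exact pCore_normal p G

end Cfsg.Agent.S0553
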