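import Cfsg.Statements.S0554
import Cfsg.Agent.Grp.HallSystem

set_option autoImplicit false
open Cfsg

namespace Cfsg.Agent.S0554

theorem aux (N : ℕ) : ∀ (G : Type*) [Group G] [Finite G] [Group.IsSolvable G], Nat.card G = N →
    ∀ (t : ℕ) (p : Fin t → ℕ) (_ : ∀ i, (p i).Prime)
      (_ : ∀ q : ℕ, q.Prime → q ∣ Nat.card G → ∃ i, p i = q) (S : (i : Fin t) → Sylow (p i) G),
      ∀ g : G, ∃ s : (i : Fin t) → G, (∀ i, s i ∈ (S i : Subgroup G)) ∧ g = (List.ofFn s).prod := by
  induction N using Nat.strong_induction_on with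
  | _ n ih =>
  intro G _ _ _ hn t p hp hall S g
  rcases subsingleton_or_nontrivial G with hG | hG
  · exact ⟨fun _ => 1, fun i => Subgroup.one_mem _, Subsingleton.elim _ _⟩
  obtain ⟨q, N, hq, hNn, hNb, -, hNq⟩ := CL.Grp.hall_exists_abelian_normal_pgroup (G := G)
  have := Fact.mk hq
  have hf : ∀ i, Fact (p i).Prime := fun i => ⟨hp i⟩
  have hs := QuotientGroup.mk'_surjective N
  obtain ⟨s, h1, h2⟩ := ih _ (hn ▸ CL.Grp.card_quotient_lt hNb) (G ⧸ N) rfl t p hp
    (fun r hr hd => hall r hr (hd.trans N.card_quotient_dvd_card))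
    (fun i => (S i).mapSurjective hs) (QuotientGroup.mk' N g)
  choose u hu hus using h1
  obtain ⟨i, rfl⟩ := hall q hq (by
    obtain ⟨k, hk, e⟩ := hNq.nontrivial_iff_card.1 ((Subgroup.nontrivial_iff_ne_bot N).2 hNb)
    exact (e ▸ dvd_pow_self q hk.ne').trans N.card_subgroup_dvd_card)
  have hN : N ≤ S i := hNq.le_sylow_of_normal (S i)
  have h3 : g * ((List.ofFn u).prod)⁻¹ ∈ N := by
    rw [← QuotientGroup.eq_one_iff]
    change QuotientGroup.mk' N _ = 1
    rw [map_mul, map_inv, h2, map_list_prod, List.map_ofFn, mul_inv_eq_one]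
    congr 2
    exact (funext hus).symm
  set a := ((List.ofFn u).take i).prod with ha
  refine ⟨Function.update u i (a⁻¹ * (g * ((List.ofFn u).prod)⁻¹) * a * u i), fun j => ?_, ?_⟩
  · by_cases hj : j = i
    · subst hj
      rw [Function.update_self]
      exact Subgroup.mul_mem _ (hN (by simpa using hNn.conj_mem _ h3 a⁻¹)) (hu j)
    · rw [Function.update_of_ne hj]
      exact hu j
  · have h4 : ∀ x, List.ofFn (Function.update u i x) = (List.ofFn u).set i x := by
      intro x
      apply List.ext_getElem
      · simp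
      · intro j h1 h2
        simp only [List.getElem_ofFn, List.getElem_set, Function.update_apply, Fin.ext_iff]
        simp [eq_comm]
    have h5 := List.prod_set (List.ofFn u) i (u i)
    rw [← h4, Function.update_eq_self] at h5
    rw [h4, List.prod_set, ← ha]
    rw [← ha] at h5
    simp only [List.length_ofFn, Fin.is_lt, if_true] at h5 ⊢
    generalize ((List.ofFn u).drop (i + 1)).prod = b at h5 ⊢
    rw [h5]
    group

/-- Let G be a finite solvable group and let S assign to each of t distinct primes, including every prime divisor of the order of G, a Sylow subgroup of G. Then every element of G is a product s_0 s_1 ⋯ s_(t-1) with s_i in S i, the factors taken in the given order. -/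
theorem result {G : Type*} [Group G] [Finite G] [Group.IsSolvable G] (t : ℕ) (p : Fin t → ℕ) (hp : ∀ i, (p i).Prime) (hinj : Function.Injective p) (hall : ∀ q : ℕ, q.Prime → q ∣ Nat.card G → ∃ i, p i = q) (S : (i : Fin t) → Sylow (p i) G) : ∀ g : G, ∃ s : (i : Fin t) → G, (∀ i, s i ∈ (S i : Subgroup G)) ∧ g = (List.ofFn s).prod := by
  exact aux _ G rfl t p hp hall S

end Cfsg.Agent.S0554
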