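import Cfsg.Statements.S0555
import Cfsg.Agent.Grp.Supersolv

set_option autoImplicit false
open Cfsg

namespace Cfsg.Agent.S0555

open CL.Grp
open scoped commutatorElement

/-- Let i ≥ 1. If in the derived series of a group the quotient of the i-th term by the (i+1)-st and the quotient of the (i+1)-st by the (i+2)-nd are both cyclic, then the (i+1)-st and (i+2)-nd terms coincide. -/
theorem result {G : Type*} [Group G] (i : ℕ) (hi : 1 ≤ i) (h₁ : IsCyclic (↥(derivedSeries G i) ⧸ (derivedSeries G (i + 1)).subgroupOf (derivedSeries G i))) (h₂ : IsCyclic (↥(derivedSeries G (i + 1)) ⧸ (derivedSeries G (i + 2)).subgroupOf (derivedSeries G (i + 1)))) : derivedSeries G (i + 1) = derivedSeries G (i + 2) := by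
  obtain ⟨j, rfl⟩ : ∃ j, i = j + 1 := ⟨i - 1, by omega⟩
  refine le_antisymm ?_ (derivedSeries_antitone G (by omega))
  set K := derivedSeries G (j + 1 + 2)
  have := derivedSeries_normal G (j + 1 + 2)
  have := derivedSeries_normal G (j + 1 + 1)
  let π := QuotientGroup.mk' K
  let B := (derivedSeries G (j + 1 + 1)).map π
  have : B.Normal := Subgroup.Normal.map inferInstance _ (QuotientGroup.mk'_surjective K)
  have : IsCyclic B := isCyclic_of_surjective _ (quotientSubgroupOfEquivMap _ K).surjective
  have h1 : ∀ x ∈ derivedSeries G (j + 1), ∀ u ∈ derivedSeries G (j + 1 + 1),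
      Commute (π u) (π x) := by
    intro x hx u hu
    refine commutator_le_centralizer_of_isCyclic B ?_ _ (Subgroup.mem_map_of_mem π hu)
    have h2 : (derivedSeries G (j + 1)).map π ≤ commutator _ := by
      rw [derivedSeries_succ, Subgroup.map_commutator]
      exact Subgroup.commutator_mono le_top le_top
    exact h2 (Subgroup.mem_map_of_mem π hx)
  obtain ⟨g, hg⟩ := h₁.exists_zpow_surjective
  obtain ⟨g, rfl⟩ := QuotientGroup.mk_surjective g
  have h3 : ∀ x ∈ derivedSeries G (j + 1), ∃ k : ℤ, ∃ u ∈ derivedSeries G (j + 1 + 1),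
      x = (g : G) ^ k * u := by
    intro x hx
    obtain ⟨k, hk⟩ := hg (QuotientGroup.mk ⟨x, hx⟩)
    simp only at hk
    rw [← QuotientGroup.mk_zpow, QuotientGroup.eq] at hk
    exact ⟨k, ((g : G) ^ k)⁻¹ * x, hk, by simp⟩
  rw [derivedSeries_succ G (j + 1), Subgroup.commutator_le]
  intro x hx y hy
  rw [← QuotientGroup.eq_one_iff, ← QuotientGroup.mk'_apply, map_commutatorElement,
    commutatorElement_eq_one_iff_commute]
  obtain ⟨k, u, hu, e⟩ := h3 x hx
  obtain ⟨l, v, hv, e'⟩ := h3 y hy
  have h4 := h1 y hy u hu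
  rw [e, map_mul]
  refine Commute.mul_left ?_ h4
  rw [e', map_mul]
  refine Commute.mul_right ?_ (h1 _ (zpow_mem g.2 k) v hv).symm
  exact ((Commute.refl (g : G)).zpow_zpow k l).map _

end Cfsg.Agent.S0555
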