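import Cfsg.Statements.S0556
import Cfsg.Agent.Grp.Supersolv
import Cfsg.Agent.Grp.Coprime
import Cfsg.Agent.Grp.FrobKernel

set_option autoImplicit false
open Cfsg

namespace Cfsg.Agent.S0556

open CL.Grp
open scoped commutatorElement Pointwise

theorem aux {Q : Type*} [Group Q] [Finite Q] {A : Subgroup Q} (hA : IsCoatom A) [IsMulCommutative A]
    (hm : IsMalnormal A) : derivedSeries Q 2 = ⊥ := by
  set K := frobKernelSubgroup hm
  have hc := isComplement'_frobKernelSubgroup hm
  have hK := frobKernelSubgroup_ne_bot hm hA.1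
  have key : ∀ S : Subgroup Q, S ≤ K → A ≤ Subgroup.normalizer (S : Set Q) → S ≠ ⊥ → S = K := by
    intro S hS hAS hb
    have h1 : S ⊔ A = ⊤ := hA.2 _ (lt_of_le_of_ne le_sup_right fun e => hb (eq_bot_iff.2
      (le_trans (le_inf hS (e ▸ le_sup_left)) (disjoint_iff.1 hc.disjoint).le)))
    have h2 := dedekind_right hAS hS
    rw [h1, top_inf_eq, disjoint_iff.1 hc.disjoint.symm, sup_bot_eq] at h2
    exact h2.symm
  obtain ⟨q, hq, hd⟩ := Nat.exists_prime_and_dvd (mt Subgroup.card_eq_one.1 hK)
  have := Fact.mk hq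
  have hAs : Group.IsSolvable A := Group.isSolvable_of_comm (fun a b => mul_comm' a b)
  obtain ⟨S, hS, hAS⟩ := exists_isSylowIn_le_normalizer (A := A) (K := K) q
    Subgroup.le_normalizer_of_normal
    (by rw [card_frobKernelSubgroup]; exact hm.coprime_card_index) (Or.inl hAs)
  have hSK := key S hS.le hAS fun e => hS.not_dvd (by rwa [e, Subgroup.relIndex_bot_left])
  have hnil : Group.IsNilpotent K := (hSK ▸ hS.isPGroup : IsPGroup q K).isNilpotent
  have h1 : ⁅K, K⁆ = ⊥ := by
    by_contra hne
    exact hK (eq_bot_of_le_commutator_of_isNilpotent le_rfl (key _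
      (Subgroup.commutator_le_left _ _) Subgroup.le_normalizer_of_normal hne).ge)
  have h2 : commutator Q ≤ K := by
    have : IsMulCommutative (Q ⧸ K) := ⟨⟨fun a b => hc.symm.QuotientMulEquiv.injective (by
      rw [map_mul, map_mul, mul_comm'])⟩⟩
    exact Subgroup.Normal.quotient_commutative_iff_commutator_le.1 this
  rw [eq_bot_iff, ← h1, derivedSeries_succ, derivedSeries_one]
  exact Subgroup.commutator_mono h2 h2

/-- If a finite group has a maximal subgroup that is abelian, then the third term of its derived series is trivial (so the group is solvable of derived length at most three). -/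
theorem result {G : Type*} [Group G] [Finite G] (A : Subgroup G) (hA : IsCoatom A) [IsMulCommutative A] : derivedSeries G 3 = ⊥ := by
  have hcomm : ∀ a ∈ A, ∀ b ∈ A, a * b = b * a := fun a ha b hb =>
    congrArg Subtype.val (mul_comm' (⟨a, ha⟩ : A) ⟨b, hb⟩)
  by_cases hn : A.Normal
  · obtain ⟨g, -, hg⟩ := SetLike.exists_of_lt hA.1.lt_top
    have h1 := commutator_le_of_sup_zpowers (N := A) (g := g) (hA.2 _ (lt_of_le_of_ne le_sup_left
      fun e => hg (e ▸ Subgroup.mem_sup_right (Subgroup.mem_zpowers g))))
    have h2 : derivedSeries G 2 = ⊥ := by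
      rw [eq_bot_iff, derivedSeries_succ, derivedSeries_one]
      refine (Subgroup.commutator_mono h1 h1).trans ?_
      rw [le_bot_iff, Subgroup.commutator_eq_bot_iff_le_centralizer]
      exact A.le_centralizer
    rw [derivedSeries_succ, h2, Subgroup.commutator_bot_left]
  have hN : Subgroup.normalizer (A : Set G) = A := by
    by_contra hne
    exact hn (Subgroup.normalizer_eq_top_iff.1
      (hA.2 _ (lt_of_le_of_ne Subgroup.le_normalizer (Ne.symm hne))))
  have hZ : Subgroup.center G ≤ A := hN ▸ Subgroup.center_le_normalizer _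
  let π := QuotientGroup.mk' (Subgroup.center G)
  have hcm : (A.map π).comap π = A := by rw [QuotientGroup.comap_map_mk', sup_eq_right.2 hZ]
  have hm : IsMalnormal (A.map π) := by
    rintro _ ⟨a, ha, rfl⟩ h1 g hg
    obtain ⟨g, rfl⟩ := QuotientGroup.mk'_surjective _ g
    have h2 : g * a * g⁻¹ ∈ A := by
      rw [← hcm, Subgroup.mem_comap, map_mul, map_mul, map_inv]
      exact hg
    have h3 : Subgroup.centralizer {a} = A := by
      by_contra hne
      have h4 := hA.2 _ (lt_of_le_of_ne (show A ≤ Subgroup.centralizer {a} from fun b hb =>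
        Subgroup.mem_centralizer_singleton_iff.2 (hcomm b hb a ha)) (Ne.symm hne))
      exact h1 ((QuotientGroup.eq_one_iff a).2 (Subgroup.mem_center_iff.2 fun x =>
        Subgroup.mem_centralizer_singleton_iff.1 (h4.ge (Subgroup.mem_top x))))
    refine Subgroup.mem_map_of_mem π ?_
    rw [← hN, ← inv_mem_iff, ← conj_smul_eq_self_iff]
    refine Subgroup.eq_of_le_of_card_ge ((conj_smul_le_iff _ _ _).2 fun x hx => ?_)
      (card_conj_smul _ _).ge
    rw [← h3, Subgroup.mem_centralizer_singleton_iff]
    have h5 := hcomm x hx _ h2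
    calc g⁻¹ * x * g⁻¹⁻¹ * a = g⁻¹ * (x * (g * a * g⁻¹)) * g := by group
      _ = _ := by rw [h5]; group
  have h6 := aux (isCoatom_map_mk' hA hZ) hm
  rw [← map_derivedSeries_eq (QuotientGroup.mk'_surjective _), Subgroup.map_eq_bot_iff,
    QuotientGroup.ker_mk'] at h6
  rw [derivedSeries_succ, Subgroup.commutator_eq_bot_iff_le_centralizer]
  exact h6.trans (Subgroup.center_le_centralizer _)

end Cfsg.Agent.S0556
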