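import Cfsg.Statements.S0557
import Cfsg.Agent.Transfer.Control

set_option autoImplicit false
open Cfsg

namespace Cfsg.Agent.S0557

/-- Let H be a subgroup of a finite group G with order coprime to its index. If iterating the focal-subgroup construction starting from H reaches the trivial subgroup after finitely many steps, then H has a normal complement in G. -/
theorem result {G : Type*} [Group G] [Finite G] (H : Subgroup G) (hHall : (Nat.card H).Coprime H.index) (n : ℕ) (hfoc : (fun K : Subgroup G => Subgroup.focalSubgroup K)^[n] H = ⊥) : ∃ N : Subgroup G, N.Normal ∧ Subgroup.IsComplement' N H := by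
  refine ⟨_, CL.Transfer.pResidual_normal _,
    CL.Transfer.isComplement'_of_hyperfocal H hHall fun S hS hSf => ?_⟩
  have mono : ∀ A B : Subgroup G, A ≤ B → A.focalSubgroup ≤ B.focalSubgroup := by
    intro A B hAB
    rw [CL.Transfer.focalSubgroup_le_iff]
    exact fun x hx g hg => CL.Transfer.inv_mul_conj_mem_focalSubgroup B (hAB hx) (hAB hg)
  have key : ∀ i, S ≤ (fun K : Subgroup G => Subgroup.focalSubgroup K)^[i] H := by
    intro i
    induction i with
    | zero => exact hS
    | succ i ih =>
      rw [Function.iterate_succ_apply']
      exact hSf.trans (mono _ _ ih)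
  exact le_bot_iff.mp (hfoc ▸ key n)

end Cfsg.Agent.S0557
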