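import Cfsg.Statements.S0558
import Cfsg.Agent.Transfer.Abelian
import Cfsg.Agent.Grp.PNilp

set_option autoImplicit false
open Cfsg
open scoped Pointwise

namespace Cfsg.Agent.S0558

/-- Let H be a subgroup of a finite group G that is not a Sylow subgroup of G for any prime, and suppose that for every prime p dividing the order of H and every Sylow p-subgroup P of H the normalizer of P in G is exactly H. Then some normal subgroup of G is a complement to H. -/
theorem result {G : Type*} [Group G] [Finite G] (H : Subgroup G) (hnot : ∀ p : ℕ, p.Prime → ∀ P : Sylow p G, (P : Subgroup G) ≠ H) (hnorm : ∀ p : ℕ, p.Prime → p ∣ Nat.card H → ∀ P : Sylow p H, Subgroup.normalizer (((P : Subgroup H).map H.subtype : Subgroup G) : Set G) = H) : ∃ N : Subgroup G, N.Normal ∧ Subgroup.IsComplement' N H := by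
  have hN : ∀ p : ℕ, ∀ _ : Fact p.Prime, p ∣ Nat.card H → ∀ P : Subgroup G, CL.Grp.IsSylowIn p P H →
      Subgroup.normalizer (P : Set G) = H := fun p hp hd P hP => by
    have := hnorm p hp.out hd hP.toSylow
    rwa [hP.map_toSylow] at this
  -- a Sylow subgroup of `H` is a Sylow subgroup of `G`
  have hS : ∀ p : ℕ, ∀ _ : Fact p.Prime, p ∣ Nat.card H → ∀ P : Subgroup G, CL.Grp.IsSylowIn p P H →
      CL.Grp.IsSylowIn p P ⊤ := fun p hp hd P hP => by
    refine CL.Grp.isSylowIn_of_maximal le_top hP.isPGroup fun U hU hPU _ => ?_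
    by_contra hne
    have h1 := CL.Grp.lt_inf_normalizer_of_isPGroup hU (lt_of_le_of_ne hPU (Ne.symm hne))
    rw [hN p hp hd P hP] at h1
    exact h1.ne' (hP.eq_of_le hU.to_inf_left h1.le inf_le_right)
  have hHall : (Nat.card H).Coprime H.index := by
    refine Nat.coprime_of_dvd fun p hp hd hi => ?_
    have := Fact.mk hp
    obtain ⟨P, hP⟩ := CL.Grp.exists_isSylowIn p H
    exact (hS p this hd P hP).not_dvd_relIndex_of_le hP.le le_top (by simpa using hi)
  have hnil : Group.IsNilpotent H := by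
    refine (Group.isNilpotent_of_finite_tfae.out 3 0).mp ?_
    intro p hp P
    by_cases hd : p ∣ Nat.card H
    · have := hnorm p hp.out hd P
      rw [← Subgroup.normalizer_eq_top_iff, eq_top_iff]
      intro x _
      have hx : (x : G) ∈ Subgroup.normalizer
          (((P : Subgroup H).map H.subtype : Subgroup G) : Set G) := this.symm ▸ x.2
      intro y
      refine Iff.trans ?_ ((hx y).trans ?_)
      · exact (Subgroup.mem_map_iff_mem H.subtype_injective).symm
      · exact Subgroup.mem_map_iff_mem (x := x * y * x⁻¹) H.subtype_injective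
    · have : (P : Subgroup H) = ⊥ := Subgroup.card_eq_one.mp (P.2.card_eq_or_dvd.resolve_right
        fun h => hd (h.trans (Subgroup.card_subgroup_dvd_card _)))
      rw [this]; infer_instance
  refine ⟨_, CL.Transfer.pResidual_normal _,
    CL.Transfer.isComplement'_pResidual_of_inf_eq_bot H hHall ?_⟩
  by_contra hne
  obtain ⟨p, hp, hd⟩ := Nat.exists_prime_and_dvd (mt Subgroup.card_eq_one.mp hne)
  have := Fact.mk hp
  have hdH : p ∣ Nat.card H := hd.trans (Subgroup.card_dvd_of_le inf_le_left)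
  obtain ⟨z, hz⟩ := exists_prime_orderOf_dvd_card' p hd
  have h1 : IsPGroup p (Subgroup.zpowers (z : G)) :=
    IsPGroup.of_card (n := 1) (by rw [Nat.card_zpowers, Subgroup.orderOf_coe, hz, pow_one])
  obtain ⟨P0, hP0, hzP⟩ := CL.Grp.exists_isSylowIn_ge h1 (Subgroup.zpowers_le.mpr z.2.1)
  obtain ⟨P, rfl⟩ := CL.Grp.isSylowIn_top_iff.mp (hS p this hdH P0 hP0)
  -- another prime
  have h2 : (P : Subgroup G).relIndex H ≠ 1 := fun h =>
    hnot p hp P (le_antisymm hP0.le (Subgroup.relIndex_eq_one.mp h))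
  obtain ⟨q, hq, hqd⟩ := Nat.exists_prime_and_dvd h2
  have := Fact.mk hq
  have hqp : q ≠ p := by
    rintro rfl
    exact hP0.not_dvd hqd
  have hqH : q ∣ Nat.card H := hqd.trans (Subgroup.relIndex_dvd_card _ _)
  obtain ⟨Q, hQ⟩ := CL.Grp.exists_isSylowIn q H
  have hQC : ∀ x ∈ P, Q ≤ Subgroup.centralizer {x} := by
    intro x hx y hy
    rw [Subgroup.mem_centralizer_singleton_iff, eq_comm]
    obtain ⟨a, ha⟩ := IsPGroup.iff_orderOf.mp P.2 ⟨x, hx⟩
    obtain ⟨b, hb⟩ := IsPGroup.iff_orderOf.mp hQ.isPGroup ⟨y, hy⟩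
    have := CL.Grp.commute_of_coprime_orderOf_of_isNilpotent (G := H)
      (x := ⟨x, hP0.le hx⟩) (y := ⟨y, hQ.le hy⟩) (by
        rw [Subgroup.orderOf_mk] at ha hb ⊢
        rw [Subgroup.orderOf_mk, ha, hb]
        exact Nat.coprime_pow_primes a b hp hq hqp.symm)
    exact congrArg Subtype.val this
  have hpc := CL.Transfer.hasNormalPComplement_of_fusion_of_le P H hP0.le (fun x hx g hg => by
    have hQ' := hS q this hqH Q hQ
    have h3 : MulAut.conj g • Q ≤ Subgroup.centralizer {g * x * g⁻¹} := by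
      rw [CL.Grp.conj_smul_le_iff]
      rintro y hy _ rfl
      have := hQC x hx hy x rfl
      calc g * x * g⁻¹ * (g * y * g⁻¹) = g * (x * y) * g⁻¹ := by group
        _ = g * (y * x) * g⁻¹ := by rw [this]
        _ = _ := by group
    obtain ⟨c, hc1, e⟩ := ((hQ'.conj_smul_of_mem (Subgroup.mem_top g)).of_le h3 le_top).exists_conj_eq
      (hQ'.of_le (hQC _ hg) le_top)
    rw [CL.Grp.conj_smul_conj_smul, CL.Grp.conj_smul_eq_self_iff, hN q this hqH Q hQ] at e
    refine ⟨c * g, e, ?_⟩
    have := hc1 _ rfl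
    calc c * g * x * (c * g)⁻¹ = (c * (g * x * g⁻¹)) * c⁻¹ := by group
      _ = (g * x * g⁻¹ * c) * c⁻¹ := by rw [this]
      _ = _ := by group) CL.Grp.hasNormalPComplement_of_isNilpotent
  have h4 : pResidual (Nat.card H) G ≤ pResidual p G :=
    Subgroup.closure_mono fun g hg => Nat.Coprime.coprime_dvd_right hdH hg
  have h5 := Subgroup.disjoint_def.mp (CL.Grp.HasNormalPComplement.isComplement' hpc P).disjoint
    (h4 z.2.2) (hzP (Subgroup.mem_zpowers _))
  rw [← Subgroup.orderOf_coe, h5, orderOf_one] at hz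
  exact hp.one_lt.ne hz

end Cfsg.Agent.S0558
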