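import Cfsg.Statements.S0561
import Cfsg.Agent.Grp.Factor

set_option autoImplicit false
open Pointwise
open Cfsg

namespace Cfsg.Agent.S0561

/-- Let the finite solvable group G be the product HK of subgroups, and let A be normal in H and B normal in K, where A and B are Hall subgroups of G (order coprime to index). Then for all x, y the product set of xAx⁻¹ and yBy⁻¹ is a subgroup of G. -/
theorem result {G : Type*} [Group G] [Finite G] [Group.IsSolvable G] (H K A B : Subgroup G) (hHK : ∀ g : G, ∃ h ∈ H, ∃ k ∈ K, g = h * k) (hA : A ≤ H) (hAn : (A.subgroupOf H).Normal) (hB : B ≤ K) (hBn : (B.subgroupOf K).Normal) (hAh : (Nat.card A).Coprime A.index) (hBh : (Nat.card B).Coprime B.index) (x y : G) : ∃ S : Subgroup G, (S : Set G) = ((MulAut.conj x • A : Subgroup G) : Set G) * ((MulAut.conj y • B : Subgroup G) : Set G) := by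
  have h := CL.Grp.isFact_top_iff.2 hHK
  have hAn' := (Subgroup.normal_subgroupOf_iff_le_normalizer hA).1 hAn
  have hBn' := (Subgroup.normal_subgroupOf_iff_le_normalizer hB).1 hBn
  have hπ := h.isPiSubgroup_sup (π := {p | p ∣ Nat.card A ∨ p ∣ Nat.card B}) inferInstance hA hAn' hB hBn'
    (fun p _ hd => Or.inl hd) (fun p _ hd => Or.inr hd)
  have hf : CL.Grp.IsFact (A ⊔ B) A B := by
    refine CL.Grp.isFact_of_coprime_relIndex le_sup_left le_sup_right
      (Nat.coprime_of_dvd fun p hp h1 h2 => ?_)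
    rcases hπ p hp (h1.trans (Subgroup.relIndex_dvd_card _ _)) with h3 | h3
    · exact hp.one_lt.ne' (Nat.eq_one_of_dvd_coprimes hAh h3
        (h1.trans (Subgroup.relIndex_dvd_index_of_le le_sup_left)))
    · exact hp.one_lt.ne' (Nat.eq_one_of_dvd_coprimes hBh h3
        (h2.trans (Subgroup.relIndex_dvd_index_of_le le_sup_right)))
  obtain ⟨g, -, a, ha, b, hb, e1, e2⟩ := h.exists_conj_eq (Subgroup.mem_top x) (Subgroup.mem_top y)
  have := hf.smul g
  refine ⟨MulAut.conj g • (A ⊔ B), ?_⟩
  rw [CL.Grp.isFact_iff_coe.1 this]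
  congr 2
  · rw [e1, ← CL.Grp.conj_smul_conj_smul, CL.Grp.conj_smul_eq_of_mem_normalizer (hAn' ha)]
  · rw [e2, ← CL.Grp.conj_smul_conj_smul, CL.Grp.conj_smul_eq_of_mem_normalizer (hBn' hb)]

end Cfsg.Agent.S0561
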