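import Cfsg.Statements.S0563
import Cfsg.Agent.Grp.KegelWielandt
import Cfsg.Agent.S0561

set_option autoImplicit false
open Pointwise
open Cfsg

namespace Cfsg.Agent.S0563

theorem hall_aux {G : Type*} [Group G] [Finite G] {A B : Subgroup G}
    (hcop : (Nat.card A).Coprime (Nat.card B)) (h : CL.Grp.IsFact ⊤ A B) {p : ℕ} [hp : Fact p.Prime]
    {P : Subgroup G} (hP : CL.Grp.IsSylowIn p P A) : (Nat.card P).Coprime P.index := by
  refine Nat.coprime_of_dvd fun r hr h1 h2 => ?_
  obtain ⟨k, hk⟩ := hP.isPGroup.exists_card_eq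
  have hrp : r = p := (Nat.prime_dvd_prime_iff_eq hr hp.out).1 (hr.dvd_of_dvd_pow (hk ▸ h1))
  subst hrp
  have h3 := hP.of_not_dvd_relIndex (le_top) fun hd => hr.one_lt.ne' (Nat.eq_one_of_dvd_coprimes hcop
    (h1.trans (Subgroup.card_dvd_of_le hP.le)) (hd.trans h.symm.relIndex_dvd_card))
  exact h3.not_dvd (by rwa [Subgroup.relIndex_top_right])


/-- If a finite group G is the product AB of two nilpotent subgroups of coprime orders, then G is solvable, and for every Sylow p-subgroup P of A and Sylow q-subgroup Q of B the product set PQ is a subgroup. -/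
theorem result {G : Type*} [Group G] [Finite G] (A B : Subgroup G) (hA : Group.IsNilpotent A) (hB : Group.IsNilpotent B) (hcop : (Nat.card A).Coprime (Nat.card B)) (hAB : ∀ g : G, ∃ a ∈ A, ∃ b ∈ B, g = a * b) : Group.IsSolvable G ∧ ∀ (p q : ℕ) [Fact p.Prime] [Fact q.Prime] (P : Sylow p A) (Q : Sylow q B), ∃ S : Subgroup G, (S : Set G) = (((P : Subgroup A).map A.subtype : Subgroup G) : Set G) * (((Q : Subgroup B).map B.subtype : Subgroup G) : Set G) := by
  have h := CL.Grp.isFact_top_iff.2 hAB
  have hs := CL.Grp.isSolvable_of_isFact_top G A B hA hB h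
  refine ⟨hs, fun p q _ _ P Q => ?_⟩
  have hP := CL.Grp.isSylowIn_map_subtype P
  have hQ := CL.Grp.isSylowIn_map_subtype Q
  have := Cfsg.Agent.S0561.result A B _ _ hAB hP.le
    (Subgroup.normal_subgroupOf_of_le_normalizer (CL.Grp.le_normalizer_map_subtype _)) hQ.le
    (Subgroup.normal_subgroupOf_of_le_normalizer (CL.Grp.le_normalizer_map_subtype _))
    (hall_aux hcop h hP) (hall_aux hcop.symm h.symm hQ) 1 1
  simpa only [map_one, one_smul] using this

end Cfsg.Agent.S0563
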