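import Cfsg.Statements.S0567
import Cfsg.Agent.Grp.Subnormal

set_option autoImplicit false
open Cfsg

namespace Cfsg.Agent.S0567

/-- A subgroup H of a group G is subnormal exactly when, for some m, the subgroup obtained from G by taking the commutator with H m times in succession is contained in H. -/
theorem result {G : Type*} [Group G] (H : Subgroup G) : H.IsSubnormal ↔ ∃ m : ℕ, (fun K : Subgroup G => ⁅K, H⁆)^[m] ⊤ ≤ H := by
  constructor
  · intro h
    have key : ∀ L : Subgroup G, L.IsSubnormal → H ≤ L →
        ∃ m : ℕ, (fun K : Subgroup G => ⁅K, H⁆)^[m] ⊤ ≤ L := by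
      intro L hL
      induction hL with
      | top => exact fun _ => ⟨0, le_top⟩
      | step L M hle _ hN ih =>
        intro hHL
        obtain ⟨m, hm⟩ := ih (hHL.trans hle)
        refine ⟨m + 1, ?_⟩
        rw [Function.iterate_succ_apply']
        refine (Subgroup.commutator_mono hm hHL).trans ?_
        exact Subgroup.le_normalizer_iff_commutator_le_right.1
          ((Subgroup.normal_subgroupOf_iff_le_normalizer hle).1 hN)
    exact key H h le_rfl
  · rintro ⟨m, hm⟩
    have key : ∀ n : ℕ, CL.Grp.SubnIn (H ⊔ (fun K : Subgroup G => ⁅K, H⁆)^[n] ⊤) ⊤ ∧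
        H ≤ Subgroup.normalizer (((fun K : Subgroup G => ⁅K, H⁆)^[n] ⊤ : Subgroup G) : Set G) := by
      intro n
      induction n with
      | zero => exact ⟨by simpa using CL.Grp.SubnIn.refl (⊤ : Subgroup G), Subgroup.le_normalizer_of_normal (H := ⊤)⟩
      | succ n ih =>
        rw [Function.iterate_succ_apply']
        set K := (fun K : Subgroup G => ⁅K, H⁆)^[n] ⊤
        refine ⟨.step _ _ _ ?_ ?_ ih.1, Subgroup.normalizer_commutator_ge_right _ _⟩
        · exact sup_le le_sup_left (le_sup_of_le_right
            (Subgroup.le_normalizer_iff_commutator_le_left.1 ih.2))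
        · refine sup_le (le_sup_left.trans Subgroup.le_normalizer) ?_
          refine CL.Grp.le_normalizer_iff_conj_smul_le.2 fun k hk => ?_
          rw [Subgroup.smul_sup]
          refine sup_le ?_ (le_sup_of_le_right (CL.Grp.conj_smul_eq_of_mem_normalizer
            (Subgroup.normalizer_commutator_ge_left _ _ hk)).le)
          rw [CL.Grp.conj_smul_le_iff]
          intro x hx
          have : k * x * k⁻¹ = (k * x * k⁻¹ * x⁻¹) * x := by group
          rw [this]
          exact mul_mem (Subgroup.mem_sup_right (Subgroup.commutator_mem_commutator hk hx))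
            (Subgroup.mem_sup_left hx)
    have := (key m).1
    rw [sup_eq_left.2 hm] at this
    exact CL.Grp.subnIn_top_iff.1 this

end Cfsg.Agent.S0567
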