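import Cfsg.Statements.S0571
import Cfsg.Agent.Grp.Supersolv
import Cfsg.Agent.S0573

set_option autoImplicit false
open Cfsg

namespace Cfsg.Agent.S0571

open CL.Grp

/-- If a finite group G is the product AB of two cyclic subgroups (every element is a product ab), then G is supersolvable. -/
theorem result {G : Type*} [Group G] [Finite G] (A B : Subgroup G) [IsCyclic A] [IsCyclic B] (hAB : ∀ g : G, ∃ a ∈ A, ∃ b ∈ B, g = a * b) : Cfsg.IsSupersolvable G := by
  induction hn : Nat.card G using Nat.strong_induction_on generalizing G with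
  | _ m ih =>
  rcases subsingleton_or_nontrivial G with hX | hX
  · exact isSupersolvable_of_subsingleton
  obtain ⟨N, hN, hb, hle⟩ := Cfsg.Agent.S0573.result A B hAB
  have : IsCyclic N := hle.elim (fun h => Subgroup.isCyclic_of_le h) (fun h => Subgroup.isCyclic_of_le h)
  let π := QuotientGroup.mk' N
  have : IsCyclic (A.map π) := isCyclic_of_surjective _ (π.subgroupMap_surjective A)
  have : IsCyclic (B.map π) := isCyclic_of_surjective _ (π.subgroupMap_surjective B)
  refine isSupersolvable_of_isCyclic_normal N
    (ih _ (hn ▸ card_quotient_lt hb) (A.map π) (B.map π) (fun g => ?_) rfl)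
  obtain ⟨g, rfl⟩ := QuotientGroup.mk'_surjective N g
  obtain ⟨a, ha, b, hb, rfl⟩ := hAB g
  exact ⟨π a, Subgroup.mem_map_of_mem π ha, π b, Subgroup.mem_map_of_mem π hb, map_mul π a b⟩

end Cfsg.Agent.S0571
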