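import Cfsg.Statements.S0574
import Cfsg.Agent.Grp.Factor2

set_option autoImplicit false
open Cfsg

namespace Cfsg.Agent.S0574

open Subgroup CL.Grp
open scoped Pointwise

universe u

/-- a nontrivial element of `B'` whose normal closure is metabelian -/
theorem exists_metabelian {G : Type*} [Group G] [Finite G] {A B : Subgroup G} [hA : IsMulCommutative A]
    (hB : ⁅⁅B, B⁆, B⁆ = ⊥) (h : IsFact ⊤ A B) (hne : ⁅B, B⁆ ≠ ⊥) :
    ∃ K : Subgroup G, K.Normal ∧ K ⊓ ⁅B, B⁆ ≠ ⊥ ∧ ⁅⁅K, K⁆, ⁅K, K⁆⁆ = ⊥ := by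
  obtain ⟨X, hX⟩ := exists_minimal_of_wellFoundedLT (fun X : Subgroup G => A ≤ X ∧ X ⊓ ⁅B, B⁆ ≠ ⊥)
    ⟨⊤, le_top, by rwa [top_inf_eq]⟩
  have hf := h.inf_right hX.prop.1 le_top
  have hBn := isNilpotent_of_commutator_commutator_eq_bot hB
  have hXm : ⁅⁅X, X⁆, ⁅X, X⁆⁆ = ⊥ := by
    by_cases hAX : A = X
    · rw [← hAX, commutator_self_eq_bot_iff.2 hA, commutator_bot_left]
    have h1 := hf.sup_commutator_ne hA (isNilpotent_of_le hBn inf_le_right) hAX
    have h2 : ⁅X ⊓ B, X ⊓ B⁆ = ⊥ := by
      by_contra h0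
      have h3 : A ⊔ ⁅X ⊓ B, X ⊓ B⁆ ≤ X := sup_le hX.prop.1 ((commutator_le_self _).trans inf_le_left)
      refine h1 (le_antisymm h3 (hX.le_of_le ⟨le_sup_left, fun e => h0 (le_bot_iff.1 ?_)⟩ h3))
      rw [← e]
      exact le_inf le_sup_right (commutator_mono inf_le_right inf_le_right)
    have := commutator_self_eq_bot_iff.1 h2
    exact hf.commutator_commutator_eq_bot
  obtain ⟨b, ⟨hbX, hbB⟩, hb1⟩ := (bot_or_exists_ne_one _).resolve_left hX.prop.2
  have hK : normalClosure {b} ≤ X := by
    refine (closure_le _).2 fun y hy => ?_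
    obtain ⟨c, hc, hy'⟩ := Group.mem_conjugatesOfSet_iff.1 hy
    obtain rfl : c = b := hc
    obtain ⟨g, rfl⟩ := isConj_iff.1 hy'
    obtain ⟨u, hu, v, hv, rfl⟩ := h.exists_mul (mem_top g)
    have e : v * c = c * v := commutator_eq_bot_iff_le_centralizer.1 hB hbB v hv
    have : u * v * c * (u * v)⁻¹ = u * c * u⁻¹ := by rw [mul_assoc u, e]; group
    rw [SetLike.mem_coe, this]
    exact mul_mem (mul_mem (hX.prop.1 hu) hbX) (inv_mem (hX.prop.1 hu))
  refine ⟨normalClosure {b}, inferInstance, fun e => hb1 (mem_bot.1 (e ▸ ⟨subset_normalClosure rfl, hbB⟩)),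
    le_bot_iff.1 (hXm ▸ commutator_mono (commutator_mono hK hK) (commutator_mono hK hK))⟩

theorem aux (n : ℕ) : ∀ (G : Type u) [Group G] [Finite G] (A B : Subgroup G) [IsMulCommutative A],
    ⁅⁅B, B⁆, B⁆ = ⊥ → IsFact ⊤ A B →
    (Nat.card (⁅B, B⁆ : Subgroup G)).primeFactorsList.length ≤ n → derivedSeries G (2 * (1 + n)) = ⊥ := by
  induction n with
  | zero =>
    intro G _ _ A B _ hB h hn
    have h1 : ⁅B, B⁆ = ⊥ := by
      rw [Nat.le_zero, List.length_eq_zero_iff, Nat.primeFactorsList_eq_nil] at hn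
      exact card_eq_one.1 (hn.resolve_left Nat.card_pos.ne')
    have := commutator_self_eq_bot_iff.1 h1
    exact h.derivedSeries_two_eq_bot
  | succ n ih =>
    intro G _ _ A B _ hB h hn
    by_cases h1 : ⁅B, B⁆ = ⊥
    · have := commutator_self_eq_bot_iff.1 h1
      exact le_bot_iff.1 ((derivedSeries_antitone G (by omega)).trans h.derivedSeries_two_eq_bot.le)
    obtain ⟨K, hKn, hK1, hK2⟩ := exists_metabelian hB h h1
    have h2 := ih (G ⧸ K) (A.map (QuotientGroup.mk' K)) (B.map (QuotientGroup.mk' K))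
      (by rw [← map_commutator, ← map_commutator, hB, Subgroup.map_bot])
      (h.map_top (QuotientGroup.mk'_surjective K)) (by
        rw [← map_commutator]
        have e := card_eq_card_inf_ker_mul_card_map (QuotientGroup.mk' K) ⁅B, B⁆
        rw [QuotientGroup.ker_mk'] at e
        rw [e, (Nat.perm_primeFactorsList_mul Nat.card_pos.ne' Nat.card_pos.ne').length_eq,
          List.length_append] at hn
        have : (Nat.card (K ⊓ ⁅B, B⁆ : Subgroup G)).primeFactorsList.length ≠ 0 := by
          rw [Ne, List.length_eq_zero_iff, Nat.primeFactorsList_eq_nil, card_eq_one]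
          exact fun h => h.elim Nat.card_pos.ne' hK1
        omega)
    rw [← map_derivedSeries_eq (QuotientGroup.mk'_surjective K), Subgroup.map_eq_bot_iff,
      QuotientGroup.ker_mk'] at h2
    have e : 2 * (1 + (n + 1)) = 2 * (1 + n) + 1 + 1 := by ring
    rw [e, derivedSeries_succ, derivedSeries_succ, ← le_bot_iff, ← hK2]
    exact commutator_mono (commutator_mono h2 h2) (commutator_mono h2 h2)


/-- Let the finite group G be the product AB of an abelian subgroup A and a subgroup B of nilpotency class at most two, and let Ω be the number of prime factors, with multiplicity, of the order of the commutator subgroup of B. Then the term of index 2(1 + Ω) of the derived series of G is trivial. -/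
theorem result {G : Type*} [Group G] [Finite G] (A B : Subgroup G) [IsMulCommutative A] (hB : commutator ↥B ≤ Subgroup.center ↥B) (hAB : ∀ g : G, ∃ a ∈ A, ∃ b ∈ B, g = a * b) : derivedSeries G (2 * (1 + (Nat.card ↥(commutator ↥B)).primeFactorsList.length)) = ⊥ := by
  refine aux _ G A B ?_ (isFact_top_iff.2 hAB) ?_
  · rw [commutator_eq_bot_iff_le_centralizer, ← map_subtype_commutator]
    rintro _ ⟨x, hx, rfl⟩ y hy
    exact congrArg Subtype.val (mem_center_iff.1 (hB hx) ⟨y, hy⟩)
  · rw [← map_subtype_commutator, card_map_subtype]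

end Cfsg.Agent.S0574
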