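import Cfsg.Statements.S0577
import Cfsg.Agent.Grp.Schmidt2

set_option autoImplicit false
open Cfsg

namespace Cfsg.Agent.S0577

open CL.Grp
open scoped commutatorElement

/-- Let G be a finite minimal non-nilpotent group and Q a normal Sylow q-subgroup of G, and let D be the commutator subgroup of Q regarded in G (a normal subgroup). Then G modulo D is non-abelian and all its proper subgroups are abelian. -/
theorem result {G : Type*} [Group G] [Finite G] (hG : Cfsg.IsMinimalNonNilpotent G) (q : ℕ) [Fact q.Prime] (hq : q ∣ Nat.card G) (Q : Sylow q G) (hQ : (Q : Subgroup G).Normal) (D : Subgroup G) [D.Normal] (hD : D = (commutator ↥(Q : Subgroup G)).map (Q : Subgroup G).subtype) : ¬ IsMulCommutative (G ⧸ D) ∧ ∀ K : Subgroup (G ⧸ D), K ≠ ⊤ → IsMulCommutative K := by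
  obtain ⟨r, k, g, hr, hrq, hg, htop, hgC⟩ :=
    CL.Grp.IsMinimalNonNilpotent.exists_of_normal_sylow hG hq Q
  have hco : (orderOf g).Coprime q := hg ▸ ((Nat.coprime_primes hr Fact.out).2 hrq).pow_left k
  have hD' : D = ⁅(Q : Subgroup G), (Q : Subgroup G)⁆ := by
    rw [hD, Subgroup.map_subtype_commutator]
  have hlt : D < Q := by
    have := Q.2.isNilpotent
    refine lt_of_le_of_ne (hD ▸ Subgroup.map_subtype_le _) fun e => ?_
    exact Q.ne_bot_of_dvd_card hq
      (eq_bot_of_le_commutator_of_isNilpotent le_rfl (e.symm.trans hD').le)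
  constructor
  · intro hc
    exact CL.Grp.IsMinimalNonNilpotent.not_forall_commutator_mem hG Q.2 hlt hco hgC fun x _ =>
      Subgroup.Normal.quotient_commutative_iff_commutator_le.1 hc (comm_mem_commutator x g)
  · intro K hK
    have h1 : K.comap (QuotientGroup.mk' D) ≠ ⊤ := fun e => hK (by
      rw [← Subgroup.map_comap_eq_self_of_surjective (QuotientGroup.mk'_surjective D) K, e,
        Subgroup.map_top_of_surjective _ (QuotientGroup.mk'_surjective D)])
    have h2 := isNilpotent_map (hG.2 _ h1) (QuotientGroup.mk' D)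
    rw [Subgroup.map_comap_eq_self_of_surjective (QuotientGroup.mk'_surjective D) K] at h2
    let Q' : Sylow q (G ⧸ D) := Q.mapSurjective (QuotientGroup.mk'_surjective D)
    have hQ' : (Q' : Subgroup (G ⧸ D)).Normal := hQ.map _ (QuotientGroup.mk'_surjective D)
    refine isMulCommutative_of_isNilpotent_of_commutator_le (p := q)
      (Q := (Q' : Subgroup (G ⧸ D)).subgroupOf K) Q'.2.comap_subtype ?_ ?_ ?_
    · rintro ⟨_, hx⟩ ⟨x, hxQ, rfl⟩ ⟨_, hy⟩ ⟨y, hyQ, rfl⟩
      apply Subtype.ext
      change QuotientGroup.mk' D x * QuotientGroup.mk' D y = QuotientGroup.mk' D y * QuotientGroup.mk' D x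
      rw [← commutatorElement_eq_one_iff_mul_comm, ← map_commutatorElement]
      exact (QuotientGroup.eq_one_iff _).2 (hD'.ge (Subgroup.commutator_mem_commutator hxQ hyQ))
    · rintro x ⟨l, hl⟩
      have hA : IsPGroup q (Subgroup.zpowers (x : G ⧸ D)) :=
        IsPGroup.of_card (by rw [Nat.card_zpowers, Subgroup.orderOf_coe, hl])
      obtain ⟨R, hR⟩ := hA.exists_le_sylow
      have := Q'.unique_of_normal hQ'
      exact (Subsingleton.elim R Q' ▸ hR) (Subgroup.mem_zpowers _)
    · rw [Subgroup.subgroupOf, ← Subgroup.map_le_iff_le_comap, Subgroup.map_subtype_commutator]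
      refine (Subgroup.commutator_mono le_top le_top).trans ?_
      apply commutator_le_of_sup_zpowers (g := QuotientGroup.mk' D g)
      have := congrArg (Subgroup.map (QuotientGroup.mk' D)) htop
      rwa [Subgroup.map_sup, MonoidHom.map_zpowers,
        Subgroup.map_top_of_surjective _ (QuotientGroup.mk'_surjective D)] at this

end Cfsg.Agent.S0577
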