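import Cfsg.Statements.S0578
import Cfsg.Agent.Grp.Schmidt2

set_option autoImplicit false
open Cfsg

namespace Cfsg.Agent.S0578

open CL.Grp

/-- If in a finite group the normalizer of each abelian subgroup coincides with its centralizer, then the group is abelian. -/
theorem result {G : Type*} [Group G] [Finite G] (h : ∀ A : Subgroup G, IsMulCommutative A → Subgroup.normalizer (A : Set G) = Subgroup.centralizer (A : Set G)) : IsMulCommutative G := by
  induction hn : Nat.card G using Nat.strong_induction_on generalizing G with
  | _ n ih =>
  have hsub : ∀ H : Subgroup G, H ≠ ⊤ → IsMulCommutative H := by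
    intro H hH
    refine ih _ ?_ (fun A hA => ?_) rfl
    · rw [← hn, ← Subgroup.card_top (G := G)]
      exact subgroup_card_lt_of_lt hH.lt_top
    · refine le_antisymm (fun x hx a ha => ?_) (Subgroup.centralizer_le_normalizer _)
      have := (h (A.map H.subtype) inferInstance).le
        (Subgroup.le_normalizer_map H.subtype ⟨x, hx, rfl⟩) a ⟨a, ha, rfl⟩
      exact Subtype.ext this
  rcases subsingleton_or_nontrivial G with hG | hG
  · exact ⟨⟨fun a b => Subsingleton.elim _ _⟩⟩
  have := isSolvable_of_forall_proper_isNilpotent fun H hH =>
    isNilpotent_of_isMulCommutative (hsub H hH)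
  obtain ⟨M, hM, hMn, -⟩ := exists_isCoatom_normal_of_isSolvable G
  refine isMulCommutative_of_isCoatom_le_center hM ?_
  apply Subgroup.centralizer_eq_top_iff_subset.1
  rw [← h M (hsub M hM.1), Subgroup.normalizer_eq_top]

end Cfsg.Agent.S0578
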