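import Cfsg.Statements.S0582
import Cfsg.Agent.Grp.Supersolv3
import Cfsg.Agent.Grp.SZConj

set_option autoImplicit false
open Pointwise
open Cfsg CL.Grp Subgroup

namespace Cfsg.Agent.S0582

universe u

theorem index_eq {G : Type u} [Group G] [Finite G] {H K : Subgroup G} (h : Nat.card H = Nat.card K) :
    H.index = K.index :=
  Nat.eq_of_mul_eq_mul_left (Nat.card_pos (α := H)) (by rw [H.card_mul_index, h, K.card_mul_index])

theorem exists_sylow {G : Type u} [Group G] [Finite G] {p : ℕ} [hp : Fact p.Prime] {H : Subgroup G}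
    (hH : IsSupersolvable H) (hmax : ∀ q : ℕ, q.Prime → q ∣ Nat.card H → q ≤ p) (hi : ¬ p ∣ H.index) :
    ∃ P : Sylow p G, (P : Subgroup G) ≤ H ∧ H ≤ normalizer (P : Subgroup G) := by
  obtain ⟨P⟩ : Nonempty (Sylow p H) := inferInstance
  have hn := IsSupersolvable.sylow_normal hH hmax P
  have h1 : ¬ p ∣ ((P : Subgroup H).map H.subtype).index := by
    rw [index_map_subtype]
    exact fun e => (hp.out.dvd_mul.1 e).elim P.not_dvd_index hi
  refine ⟨(P.isPGroup'.map H.subtype).toSylow h1, map_subtype_le _, ?_⟩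
  rw [IsPGroup.toSylow_coe, ← normal_subgroupOf_iff_le_normalizer (map_subtype_le _), subgroupOf,
    comap_map_eq_self_of_injective H.subtype_injective]
  exact hn

theorem aux (n : ℕ) : ∀ {G : Type u} [Group G] [Finite G] (H K : Subgroup G), Nat.card H = n → IsSupersolvable H →
    IsSupersolvable K → Nat.card H = Nat.card K → (Nat.card H).Coprime H.index →
    ∃ x : G, MulAut.conj x • H = K := by
  induction n using Nat.strong_induction_on with
  | _ n ih =>
  intro G _ _ H K hn hH hK hc hh
  by_cases h1 : Nat.card H = 1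
  · exact ⟨1, by rw [card_eq_one.1 h1, card_eq_one.1 (hc.symm.trans h1), map_one, one_smul]⟩
  obtain ⟨p, hp, hd, hmax⟩ := exists_max_prime_dvd Nat.card_pos.ne' h1
  have := Fact.mk hp
  have hi : ¬ p ∣ H.index := fun e => hp.one_lt.ne' (Nat.eq_one_of_dvd_coprimes hh hd e)
  obtain ⟨P, hP, hPn⟩ := exists_sylow hH hmax hi
  obtain ⟨Q, hQ, hQn⟩ := exists_sylow hK (hc ▸ hmax) (index_eq hc ▸ hi)
  obtain ⟨g, rfl⟩ := MulAction.exists_smul_eq G Q P
  set L := MulAut.conj g • K with hL
  have cL : Nat.card H = Nat.card L := hc.trans (Nat.card_congr (K.equivSMul _).toEquiv)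
  have sL : IsSupersolvable L := IsSupersolvable.of_equiv hK (K.equivSMul _)
  have hQ' : ((g • Q : Sylow p G) : Subgroup G) ≤ L := pointwise_smul_le_pointwise_smul_iff.2 hQ
  have hQn' : L ≤ normalizer ((g • Q : Sylow p G) : Subgroup G) := by
    rw [Sylow.coe_subgroup_smul]
    exact (map_mono hQn).trans (le_normalizer_map _)
  generalize g • Q = P at hP hPn hQ' hQn'
  set N : Subgroup G := normalizer (P : Subgroup G) with hN
  let f := QuotientGroup.mk' ((P : Subgroup G).subgroupOf N)
  have hf : Function.Surjective f := QuotientGroup.mk'_surjective _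
  have k1 : f.ker ≤ H.subgroupOf N := by rw [QuotientGroup.ker_mk']; exact comap_mono hP
  have k2 : f.ker ≤ L.subgroupOf N := by rw [QuotientGroup.ker_mk']; exact comap_mono hQ'
  have c1 : Nat.card (H.subgroupOf N) = Nat.card H := Nat.card_congr (subgroupOfEquivOfLe hPn).toEquiv
  have c2 : Nat.card (L.subgroupOf N) = Nat.card L := Nat.card_congr (subgroupOfEquivOfLe hQn').toEquiv
  have i1 := index_map_eq _ hf k1
  have i2 := index_map_eq _ hf k2
  have c3 : Nat.card ((H.subgroupOf N).map f) = Nat.card ((L.subgroupOf N).map f) :=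
    Nat.eq_of_mul_eq_mul_right (Nat.pos_of_ne_zero ((H.subgroupOf N).map f).index_ne_zero_of_finite)
      (by rw [card_mul_index, i1, index_eq (c1.trans (cL.trans c2.symm)), ← i2, card_mul_index])
  obtain ⟨x, hx⟩ := ih (Nat.card ((H.subgroupOf N).map f)) (by
      have hlt : Nat.card (N ⧸ (P : Subgroup G).subgroupOf N) < Nat.card N := by
        rw [card_eq_card_quotient_mul_card_subgroup ((P : Subgroup G).subgroupOf N),
          Nat.card_congr (subgroupOfEquivOfLe le_normalizer).toEquiv]
        exact lt_mul_of_one_lt_right Nat.card_pos (one_lt_card_iff_ne_bot _ |>.2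
          (P.ne_bot_of_dvd_card (hd.trans H.card_subgroup_dvd_card)))
      rw [← ((H.subgroupOf N).map f).card_mul_index, ← (H.subgroupOf N).card_mul_index, i1, c1, hn] at hlt
      exact lt_of_mul_lt_mul_right hlt (Nat.zero_le _))
    _ ((L.subgroupOf N).map f) rfl
    (IsSupersolvable.map (IsSupersolvable.of_equiv hH (subgroupOfEquivOfLe hPn).symm) f)
    (IsSupersolvable.map (IsSupersolvable.of_equiv sL (subgroupOfEquivOfLe hQn').symm) f) c3 (by
      rw [i1]
      exact (hh.coprime_dvd_left (c1 ▸ card_map_dvd _ f)).coprime_dvd_right (relIndex_dvd_index_of_le hPn))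
  obtain ⟨x, rfl⟩ := hf x
  have k3 : f.ker ≤ MulAut.conj x • H.subgroupOf N := by
    rw [← (f.normal_ker.conj_smul_eq_self x)]
    exact pointwise_smul_le_pointwise_smul_iff.2 k1
  rw [← map_conj_smul] at hx
  have e := congrArg (map N.subtype) (map_injective_of_ker_le f k3 k2 hx)
  rw [map_conj_smul, map_subgroupOf_eq_of_le hPn, map_subgroupOf_eq_of_le hQn'] at e
  exact ⟨g⁻¹ * x, by rw [map_mul, mul_smul, show MulAut.conj (x : G) • H = L from e, hL, map_inv, inv_smul_smul]⟩

/-- Let H and K be supersolvable subgroups of a finite group G of the same order, that order being coprime to their index. Then H and K are conjugate in G. -/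
theorem result {G : Type*} [Group G] [Finite G] (H K : Subgroup G) (hH : Cfsg.IsSupersolvable H) (hK : Cfsg.IsSupersolvable K) (hcard : Nat.card H = Nat.card K) (hHall : (Nat.card H).Coprime H.index) : ∃ x : G, MulAut.conj x • H = K :=
  aux _ H K rfl hH hK hcard hHall

end Cfsg.Agent.S0582
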