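import Cfsg.Statements.S0587
import Cfsg.Agent.Grp.Primitive
import Cfsg.Agent.Grp.Coprime

set_option autoImplicit false
open Cfsg

namespace Cfsg.Agent.S0587

/-- Let G be a finite group whose largest normal p-subgroup L is nontrivial, and M a maximal subgroup of G with trivial normal core. Then L is elementary abelian, M is a complement to L, L is a minimal normal subgroup of G, the centralizer of L is L, and for every prime q such that the largest normal q-subgroup of M is nontrivial, the order of L is congruent to 1 modulo q and q ≠ p. -/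
theorem result {G : Type*} [Group G] [Finite G] (p : ℕ) [Fact p.Prime] (hL : Cfsg.pCore p G ≠ ⊥) (M : Subgroup G) (hM : IsCoatom M) (hcore : M.normalCore = ⊥) : Cfsg.IsElementaryAbelian p (Cfsg.pCore p G) ∧ Subgroup.IsComplement' (Cfsg.pCore p G) M ∧ (∀ K : Subgroup G, K.Normal → K ≤ Cfsg.pCore p G → K = ⊥ ∨ K = Cfsg.pCore p G) ∧ Subgroup.centralizer ((Cfsg.pCore p G : Subgroup G) : Set G) = Cfsg.pCore p G ∧ ∀ (q : ℕ) [Fact q.Prime], Cfsg.pCore q ↥M ≠ ⊥ → Nat.card (Cfsg.pCore p G) % q = 1 % q ∧ q ≠ p := by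
  have hP := CL.Grp.pCore_isPGroup p G
  have hc := CL.Grp.isMulCommutative_of_coreFree hP.isNilpotent hM hcore hL
  have hm := CL.Grp.isMinNormal_of_coreFree hM hcore hL
  have hcomp := CL.Grp.isComplement'_of_coreFree hM hcore hL
  have hC := CL.Grp.centralizer_eq_of_coreFree hM hcore hL
  have hd := disjoint_iff.mp hcomp.disjoint
  refine ⟨hm.isElementaryAbelian_of_isPGroup hP, hcomp, hm.min, hC, fun q _ hq => ?_⟩
  have hQ : pCoreOf q M ≠ ⊥ := fun hb =>
    hq ((Subgroup.map_eq_bot_iff_of_injective _ M.subtype_injective).mp hb)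
  have hnQ : ¬ pCoreOf q M ≤ pCore p G := fun hle =>
    hQ (le_bot_iff.mp (hd ▸ le_inf hle (CL.Grp.pCoreOf_le q M)))
  constructor
  · have h1 := CL.Grp.card_modEq_card_inf_centralizer (CL.Grp.pCoreOf_isPGroup q M)
      (K := pCore p G) Subgroup.le_normalizer_of_normal
    have hn : (pCore p G ⊓ Subgroup.centralizer (pCoreOf q M : Set G)).Normal :=
      CL.Grp.normal_of_sup_le_normalizer hcomp.sup_eq_top
        (CL.Grp.le_normalizer_of_isMulCommutative inf_le_left)
        (CL.Grp.le_normalizer_inf Subgroup.le_normalizer_of_normal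
          (CL.Grp.le_normalizer_centralizer' (CL.Grp.le_normalizer_pCoreOf q M)))
    rcases hm.min _ hn inf_le_left with h2 | h2
    · rw [h2, Subgroup.card_bot] at h1
      exact h1
    · exact absurd (hC ▸ Subgroup.le_centralizer_iff.mp (inf_eq_left.mp h2)) hnQ
  · rintro rfl
    have hn : (pCore q G ⊔ pCoreOf q M).Normal :=
      CL.Grp.normal_of_sup_le_normalizer hcomp.sup_eq_top (le_sup_left.trans Subgroup.le_normalizer)
        ((le_inf Subgroup.le_normalizer_of_normal (CL.Grp.le_normalizer_pCoreOf q M)).trans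
          (Subgroup.normalizer_inf_normalizer_le_normalizer_sup _ _))
    exact hnQ (le_sup_right.trans (CL.Grp.le_pCore
      (hP.to_sup_of_normal_left (CL.Grp.pCoreOf_isPGroup q M))))

end Cfsg.Agent.S0587
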