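import Cfsg.Statements.S0588
import Cfsg.Agent.Base

set_option autoImplicit false
open Cfsg

namespace Cfsg.Agent.S0588

/-- If a subgroup H of a finite group G contains the centralizer of every non-identity element of H, then the order of H is coprime to its index. -/
theorem result {G : Type*} [Group G] [Finite G] (H : Subgroup G) (h : ∀ x ∈ H, x ≠ 1 → Subgroup.centralizer ({x} : Set G) ≤ H) : (Nat.card H).Coprime H.index := by
  classical
  by_contra hcop
  obtain ⟨p, hp, hpH, hpi⟩ := Nat.Prime.not_coprime_iff_dvd.1 hcop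
  have := Fact.mk hp
  -- a Sylow subgroup of `G` containing an element of order `p` of `H`
  obtain ⟨x, hx⟩ := exists_prime_orderOf_dvd_card' p hpH
  have hx' : orderOf (x : G) = p := by rw [Subgroup.orderOf_coe, hx]
  have hx1 : (x : G) ≠ 1 := by
    intro e; rw [e, orderOf_one] at hx'; exact hp.one_lt.ne hx'
  have hz : IsPGroup p (Subgroup.zpowers (x : G)) :=
    IsPGroup.of_card (n := 1) (by rw [Nat.card_zpowers, hx', pow_one])
  obtain ⟨P, hP⟩ := hz.exists_le_sylow
  have hxP : (x : G) ∈ P := hP (Subgroup.mem_zpowers _)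
  have : Nontrivial P := ⟨⟨⟨x, hxP⟩, 1, fun e => hx1 (congrArg Subtype.val e)⟩⟩
  obtain ⟨z, hz1⟩ := (Subgroup.ne_bot_iff_exists_ne_one).1
    ((Subgroup.nontrivial_iff_ne_bot _).1 (P.isPGroup'.center_nontrivial))
  have hzc : ∀ y ∈ P, y * ((z : P) : G) = ((z : P) : G) * y := fun y hy =>
    congrArg Subtype.val (Subgroup.mem_center_iff.1 z.2 ⟨y, hy⟩)
  have hzH : ((z : P) : G) ∈ H :=
    h x x.2 hx1 (Subgroup.mem_centralizer_singleton_iff.2 (hzc x hxP).symm)
  have hz1' : ((z : P) : G) ≠ 1 := fun e => hz1 (Subtype.ext (Subtype.ext e))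
  have hPH : (P : Subgroup G) ≤ H := fun y hy =>
    h _ hzH hz1' (Subgroup.mem_centralizer_singleton_iff.2 (hzc y hy))
  exact P.not_dvd_index (hpi.trans (Subgroup.index_dvd_of_le hPH))

end Cfsg.Agent.S0588
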