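import Cfsg.Statements.S0592
import Cfsg.Agent.Loc.QuadLin

set_option autoImplicit false
open Cfsg

namespace Cfsg.Agent.S0592

/-- Two quadratically acting generators of a linear group that is not a p-group, with the p'-part of the order of their product dividing q - 1, give a homomorphism onto a subgroup of SL(2, q) that is not a p-group. -/
theorem result {K : Type*} [Field K] [Fintype K] {p : ℕ} [Fact p.Prime] [CharP K p] {W : Type*} [AddCommGroup W] [Module K W] [FiniteDimensional K W] [Finite W] [Nontrivial W] (H : Subgroup (W ≃ₗ[K] W)) (a b : W ≃ₗ[K] W) (hH : H = Subgroup.closure {a, b}) (ha : ∀ w : W, a (a w - w) = a w - w) (hb : ∀ w : W, b (b w - w) = b w - w) (hnp : ¬ IsPGroup p H) (hk : ∃ e k : ℕ, orderOf (a * b) = p ^ e * k ∧ k ∣ Fintype.card K - 1) : ∃ φ : H →* Matrix.SpecialLinearGroup (Fin 2) K, ¬ IsPGroup p φ.range := by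
  subst hH
  let ρ : (W ≃ₗ[K] W) →* Module.End K W := LinearEquiv.automorphismGroup.toLinearMapMonoidHom
  have hρ : ∀ g w, ρ g w = g w := fun _ _ => rfl
  have hinj : Function.Injective ρ := fun _ _ h => LinearEquiv.toLinearMap_injective h
  have hA : (ρ a - 1) * (ρ a - 1) = 0 := LinearMap.ext fun w => sub_eq_zero.mpr (ha w)
  have hB : (ρ b - 1) * (ρ b - 1) = 0 := LinearMap.ext fun w => sub_eq_zero.mpr (hb w)
  have hs : (minpoly K (ρ (a * b))).Splits := by
    obtain ⟨e, k, he, hk⟩ := hk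
    have h1 : (a * b) ^ (p ^ e * (Fintype.card K - 1)) = 1 :=
      orderOf_dvd_iff_pow_eq_one.mp (he ▸ Nat.mul_dvd_mul_left _ hk)
    have hq : 1 < Fintype.card K := Fintype.one_lt_card
    have h2 : Polynomial.aeval (ρ (a * b))
        ((Polynomial.X ^ Nat.card K - Polynomial.X : Polynomial K) ^ p ^ e) = 0 := by
      rw [sub_pow_char_pow, map_sub, ← pow_mul, map_pow, map_pow, Polynomial.aeval_X, sub_eq_zero,
        ← map_pow, ← map_pow, Nat.card_eq_fintype_card]
      congr 1
      obtain ⟨m, hm⟩ : ∃ m, Fintype.card K = m + 1 := ⟨Fintype.card K - 1, by omega⟩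
      rw [hm, Nat.add_sub_cancel] at h1
      rw [hm, add_mul, pow_add, mul_comm m, h1, one_mul, one_mul]
    refine ((Polynomial.splits_X_pow_nat_card_sub_X (K := K)).pow _).of_dvd (pow_ne_zero _ ?_)
      (minpoly.dvd K _ h2)
    exact FiniteField.X_pow_card_sub_X_ne_zero K (by rwa [Nat.card_eq_fintype_card])
  obtain ⟨lam, ι, φ, hlam, -, -, h1, h2⟩ := CL.Loc.exists_hom_SL2_of_splits (p := p) ρ hA hB hs (by
    by_contra hcon
    push Not at hcon
    refine hnp fun g => ?_
    obtain ⟨k, hk⟩ := hcon g g.2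
    refine ⟨k, Subtype.ext (hinj ?_)⟩
    simpa using hk)
  refine ⟨φ, fun h => ?_⟩
  obtain ⟨k, hk⟩ := h ⟨CL.Loc.sl2Up lam * CL.Loc.sl2Lo 1, by
    rw [← h1, ← h2, ← map_mul]; exact ⟨_, rfl⟩⟩
  exact CL.Loc.sl2Up_mul_sl2Lo_pow_ne_one hlam one_ne_zero k (congrArg Subtype.val hk)

end Cfsg.Agent.S0592
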