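import Cfsg.Statements.S0617
import Cfsg.Agent.Loc.FF3

set_option autoImplicit false
open Cfsg

namespace Cfsg.Agent.S0617

/-- Structure Theorem for failure of factorization: a faithful group generated by best offenders, with self-centralizing p'-core, is a direct product of copies of SL(2, p) (p = 2 or 3), each acting on its own plane in V, which is the direct product of these planes and C_V(H). -/
theorem result {G : Type*} [Group G] [Finite G] {p : ℕ} [Fact p.Prime] (V H : Subgroup G) (hV : Cfsg.IsElementaryAbelian p V) (hHV : H ≤ Subgroup.normalizer (V : Set G)) (hf : H ⊓ Subgroup.centralizer (V : Set G) = ⊥) (hS1 : Subgroup.centralizer (Cfsg.pPrimeCore p ↥H : Set ↥H) ≤ Cfsg.pPrimeCore p ↥H) (hS3 : H = ⨆ A : {A : Subgroup G // A ≤ H ∧ Cfsg.IsBestOffenderOn p V A}, (A : Subgroup G)) (hH1 : H ≠ ⊥) : (p = 2 ∨ p = 3) ∧ (∀ E : {E : Subgroup G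 // ∃ A : Subgroup G, A ≤ H ∧ Cfsg.IsBestOffenderOn p V A ∧ ⁅V, A⁆ ≠ ⊥ ∧ (∀ B : Subgroup G, B ≤ A → Cfsg.IsBestOffenderOn p V B → ⁅V, B⁆ ≠ ⊥ → B = A) ∧ E = ⁅((Cfsg.pPrimeCore p ↥H).map H.subtype), A⁆ ⊔ A}, H ≤ Subgroup.normalizer ((E : Subgroup G) : Set G) ∧ Nonempty (↥(E : Subgroup G) ≃* Matrix.SpecialLinearGroup (Fin 2) (ZMod p)) ∧ Nat.card ↥(⁅V, (E : Subgroup G)⁆) = p ^ 2) ∧ iSupIndep (fun E : {E : Subgroup G // ∃ A : Subgroup G, A ≤ H ∧ Cfsg.IsBestOffenderOn p V A ∧ ⁅V, A⁆ ≠ ⊥ ∧ (∀ B : Subgroup G, B ≤ A → Cfsg.IsBestOffenderOn p V B → ⁅V, B⁆ ≠ ⊥ → B = A) ∧ E = ⁅((Cfsg.pPrimeCore p ↥H).map H.subtype), A⁆ ⊔ A} => (E : Subgroup G)) ∧ (⨆ E : {E : Subgroup G // ∃ A : Subgroup G, A ≤ H ∧ Cfsg.IsBestOffenderOn p V A ∧ ⁅V, A⁆ ≠ ⊥ ∧ (∀ B : Subgroup G, B ≤ A → Cfsg.IsBestOffenderOn p V B → ⁅V, B⁆ ≠ ⊥ → B = A) ∧ E = ⁅((Cfsg.pPrimeCore p ↥H).map H.subtype),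 A⁆ ⊔ A}, (E : Subgroup G)) = H ∧ iSupIndep (fun o : Option {E : Subgroup G // ∃ A : Subgroup G, A ≤ H ∧ Cfsg.IsBestOffenderOn p V A ∧ ⁅V, A⁆ ≠ ⊥ ∧ (∀ B : Subgroup G, B ≤ A → Cfsg.IsBestOffenderOn p V B → ⁅V, B⁆ ≠ ⊥ → B = A) ∧ E = ⁅((Cfsg.pPrimeCore p ↥H).map H.subtype), A⁆ ⊔ A} => o.elim (V ⊓ Subgroup.centralizer (H : Set G)) (fun E => ⁅V, (E : Subgroup G)⁆)) ∧ (V ⊓ Subgroup.centralizer (H : Set G)) ⊔ (⨆ E : {E : Subgroup G // ∃ A : Subgroup G, A ≤ H ∧ Cfsg.IsBestOffenderOn p V A ∧ ⁅V, A⁆ ≠ ⊥ ∧ (∀ B : Subgroup G, B ≤ A → Cfsg.IsBestOffenderOn p V B → ⁅V, B⁆ ≠ ⊥ → B = A) ∧ E = ⁅((Cfsg.pPrimeCore p ↥H).map H.subtype), A⁆ ⊔ A}, ⁅V, (E : Subgroup G)⁆) = V := by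
  have h := CL.Loc.FFHyp.of_core hV hHV hf hS1
  have hg := h.le_sSup_isTv hS3
  obtain ⟨A₀, hA₀⟩ := CL.Loc.FFHyp.exists_isTv hg hH1
  set 𝓔 : Subgroup G → Prop := fun E => ∃ A : Subgroup G, A ≤ H ∧ Cfsg.IsBestOffenderOn p V A ∧
    ⁅V, A⁆ ≠ ⊥ ∧ (∀ B : Subgroup G, B ≤ A → Cfsg.IsBestOffenderOn p V B → ⁅V, B⁆ ≠ ⊥ → B = A) ∧
    E = ⁅((Cfsg.pPrimeCore p ↥H).map H.subtype), A⁆ ⊔ A with h𝓔
  have k1 : ∀ E : {E // 𝓔 E}, ∃ A, CL.Loc.IsTv p V H A ∧ (E : Subgroup G) = CL.Loc.tvE p H A := by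
    rintro ⟨E, A, h1, h2, h3, h4, h5⟩
    exact ⟨A, h.isTv_of_min h1 h2 h3 h4, h5⟩
  have k2 : ∀ A, CL.Loc.IsTv p V H A → ∃ E : {E // 𝓔 E}, (E : Subgroup G) = CL.Loc.tvE p H A :=
    fun A hA => ⟨⟨_, A, hA.le, h.bestOffender_of_isTv hA, (h.min_of_card_eq hA.le hA.card).1,
      (h.min_of_card_eq hA.le hA.card).2, rfl⟩, rfl⟩
  have k3 : ∀ E : {E // 𝓔 E}, (E : Subgroup G) ≤ H := fun E => by
    obtain ⟨A, hA, e⟩ := k1 E
    rw [e]; exact CL.Loc.tvE_le hA.le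
  have k4 : ∀ E E' : {E // 𝓔 E}, E' ≠ E →
      ⁅V, (E : Subgroup G)⁆ ≤ Subgroup.centralizer ((E' : Subgroup G) : Set G) := fun E E' hne => by
    obtain ⟨A, hA, e⟩ := k1 E
    obtain ⟨B, hB, e'⟩ := k1 E'
    rw [e, e']
    exact h.comm_le_centralizer_of_ne hA hB fun e'' => hne (Subtype.ext (by rw [e, e', e'']))
  refine ⟨h.two_or_three hA₀, fun E => ?_, fun E => ?_, ?_, fun o => ?_,
    h.centralizer_sup_iSup_comm hg _ k2 k3⟩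
  · obtain ⟨A, hA, e⟩ := k1 E
    rw [e]
    exact ⟨h.le_normalizer_tvE hg hA, (h.pair_tvE hA).equiv, (h.pair_tvE hA).card_comm⟩
  · obtain ⟨A, hA, e⟩ := k1 E
    have := (h.pair_tvE hA).faith
    rw [← e] at this
    exact (disjoint_iff.2 this).mono_right
      (iSup₂_le fun E' hne => Subgroup.le_centralizer_iff.1 (k4 E E' hne))
  · refine le_antisymm (iSup_le k3) (hg.trans (sSup_le fun A hA => ?_))
    obtain ⟨E, e⟩ := k2 A hA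
    exact le_trans (e ▸ le_sup_right) (le_iSup (fun E : {E // 𝓔 E} => (E : Subgroup G)) E)
  · rcases o with _ | E
    · refine (disjoint_iff.2 (h.centralizer_inf_commutator_core le_rfl)).mono
        (inf_le_inf_left _ (CL.Loc.centralizer_anti (CL.Grp.pPrimeCoreOf_le p H)))
        (iSup₂_le fun o ho => ?_)
      rcases o with _ | E
      · exact absurd rfl ho
      · obtain ⟨A, hA, e⟩ := k1 E
        change ⁅V, (E : Subgroup G)⁆ ≤ _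
        rw [e, ← h.comm_tvE hA]
        exact Subgroup.commutator_mono le_rfl (CL.Loc.commutator_core_le hA.le)
    · obtain ⟨A, hA, e⟩ := k1 E
      have := h.comm_inf_cent_tvE hA
      rw [← e] at this
      refine (disjoint_iff.2 this).mono_right (iSup₂_le fun o ho => ?_)
      rcases o with _ | E'
      · exact inf_le_inf_left _ (CL.Loc.centralizer_anti (k3 E))
      · exact le_inf (h.commutator_le (k3 E')) (k4 E' E fun e => ho (e ▸ rfl))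

end Cfsg.Agent.S0617
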