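import Cfsg.Statements.S0618
import Cfsg.Agent.Loc.FFMain

set_option autoImplicit false
open Cfsg

namespace Cfsg.Agent.S0618

/-- A p-separable group with trivial p'-core in which the Thompson factorization fails has p = 2 or 3, and J(G) induces on the normal closure of Ω₁(Z(S)) a group containing a normal SL(2, p). -/
theorem result {G : Type*} [Group G] [Finite G] {p : ℕ} [Fact p.Prime] (hsep : Cfsg.IsPSolvable p G) (hO : Cfsg.pPrimeCore p G = ⊥) (hnf : ¬ Cfsg.IsThompsonFactorizable p G) : (p = 2 ∨ p = 3) ∧ ∃ E : Subgroup G, Subgroup.centralizer ((⨆ S : Sylow p G, Cfsg.omegaOne p ((S : Subgroup G) ⊓ Subgroup.centralizer ((S : Subgroup G) : Set G))) : Set G) ≤ E ∧ E ≤ Cfsg.thompsonSubgroup p G ⊔ Subgroup.centralizer ((⨆ S : Sylow p G, Cfsg.omegaOne p ((S : Subgroup G) ⊓ Subgroup.centralizer ((S : Subgroup G) : Set G))) : Set G) ∧ Cfsg.thompsonSubgroup p G ⊔ Subgroup.centralizer ((⨆ S : Sylow p G, Cfsg.omegaOne p ((S : Subgroup G) ⊓ Subgroup.centralizer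 ((S : Subgroup G) : Set G))) : Set G) ≤ Subgroup.normalizer (E : Set G) ∧ ∃ hn : ((Subgroup.centralizer ((⨆ S : Sylow p G, Cfsg.omegaOne p ((S : Subgroup G) ⊓ Subgroup.centralizer ((S : Subgroup G) : Set G))) : Set G)).subgroupOf E).Normal, Nonempty ((↥E ⧸ (Subgroup.centralizer ((⨆ S : Sylow p G, Cfsg.omegaOne p ((S : Subgroup G) ⊓ Subgroup.centralizer ((S : Subgroup G) : Set G))) : Set G)).subgroupOf E) ≃* Matrix.SpecialLinearGroup (Fin 2) (ZMod p)) := by
  have := CL.Loc.sylV_normal (p := p) (G := G)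
  obtain ⟨hp, E, W, h1, h2, h3, -, h5, h6⟩ := CL.Loc.exists_natural_of_not_thompson_le
    (CL.Loc.ea_sylV (CL.Loc.centralizer_pCore_le_of_isPSolvable hsep hO)) hsep
    CL.Loc.pCore_quotient_centralizer_sylV
    (fun h => hnf ((CL.Loc.isThompsonFactorizable_iff hO).2 h))
  have e0 : Subgroup.centralizer ((⨆ S : Sylow p G, Cfsg.omegaOne p ((S : Subgroup G) ⊓
      Subgroup.centralizer ((S : Subgroup G) : Set G))) : Set G) =
      Subgroup.centralizer (CL.Loc.sylV p G : Set G) := by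
    rw [CL.Loc.sylV, Subgroup.iSup_eq_closure, Subgroup.centralizer_closure]
    rfl
  rw [e0]
  refine ⟨hp, E, h1, h2, h3, ?_⟩
  have e : (Subgroup.centralizer (CL.Loc.sylV p G : Set G)).subgroupOf E =
      (Subgroup.centralizer (W : Set G)).subgroupOf E := by
    rw [← h6, Subgroup.inf_subgroupOf_left]
  rw [e]
  exact CL.Loc.nonempty_quotient_equiv_of_naturalSL2Module h5

end Cfsg.Agent.S0618
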