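import Cfsg.Statements.S0619
import Cfsg.Agent.Loc.FFMain

set_option autoImplicit false
open Cfsg

namespace Cfsg.Agent.S0619

/-- For a p-separable group and a normal elementary abelian p-subgroup V with no nontrivial normal p-subgroup modulo its centralizer C, the Thompson subgroup J(G) moves Ω₁(Z(J(C))) only inside V. -/
theorem result {G : Type*} [Group G] [Finite G] {p : ℕ} [Fact p.Prime] (hsep : Cfsg.IsPSolvable p G) (V : Subgroup G) [V.Normal] (hV : Cfsg.IsElementaryAbelian p V) (hO : Cfsg.pCore p (G ⧸ Subgroup.centralizer (V : Set G)) = ⊥) : ⁅Cfsg.omegaOne p (Cfsg.centerThompsonOf p (Subgroup.centralizer (V : Set G))), Cfsg.thompsonSubgroup p G⁆ ≤ V := by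
  rw [Subgroup.commutator_comm, CL.Loc.thompsonSubgroup_eq_sSup]
  refine CL.Loc.commutator_sSup_le_of_le_normalizer (fun _ _ => Subgroup.le_normalizer_of_normal)
    fun A hA => ?_
  have h1 := CL.Loc.omegaOne_centerThompsonOf_le_of_mem_meaIn (CL.Loc.mem_meaIn_of_le
    (CL.Loc.inf_centralizer_sup_mem_meaIn hV hsep hO hA)
    (sup_le inf_le_left (CL.Loc.ea_le_centralizer hV)) le_top)
  rw [Subgroup.commutator_comm]
  refine (Subgroup.commutator_mono h1 le_rfl).trans (CL.Loc.commutator_sup_le_of_le_normalizer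
    Subgroup.le_normalizer_of_normal Subgroup.le_normalizer_of_normal ?_
    (Subgroup.commutator_le_left _ _))
  rw [CL.Loc.ea_commutator_eq_bot hA.2.1 inf_le_right le_rfl]
  exact bot_le

end Cfsg.Agent.S0619
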