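import Cfsg.Statements.S0620
import Cfsg.Agent.Loc.FFMain

set_option autoImplicit false
open Cfsg

namespace Cfsg.Agent.S0620

/-- Under coprime action of an elementary abelian q-group X on a p-separable group K with trivial p'-core, K is generated by the normalizer of J(S), the centralizer of Ω₁(Z(S)) and the fixed points of X. -/
theorem result {G : Type*} [Group G] [Finite G] {p : ℕ} [Fact p.Prime] {q : ℕ} [Fact q.Prime] (K X : Subgroup G) (hXK : X ≤ Subgroup.normalizer (K : Set G)) (hX : Cfsg.IsElementaryAbelian q X) (hq : ¬ q ∣ Nat.card K) (hsep : Cfsg.IsPSolvable p ↥K) (hO : Cfsg.pPrimeCore p ↥K = ⊥) (S : Sylow p ↥K) : (Subgroup.normalizer (Cfsg.thompsonSubgroupOf p (S : Subgroup ↥K) : Set ↥K) ⊔ Subgroup.centralizer (Cfsg.omegaOne p ((S : Subgroup ↥K) ⊓ Subgroup.centralizer ((S : Subgroup ↥K) : Set ↥K)) : Set ↥K) ⊔ (Subgroup.centralizer (X : Set G)).subgroupOf K) = ⊤ := by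
  obtain ⟨Γ, _, _, π, ι, Y, h, hF, hYV, hYH, hY, hq', hfix, -⟩ :=
    CL.Loc.exists_op_setup (p := p) K X hXK (CL.Loc.ea_isPGroup hX) hq hsep hO
  have := CL.Loc.sylV_normal (p := p) (G := K)
  have := CL.Loc.thompsonSubgroup_normal (p := p) (G := K)
  have hg := h.thompson_gen (CL.Loc.ea_sylV (CL.Loc.centralizer_pCore_le_of_isPSolvable hsep hO)) hF
  set M := (Subgroup.normalizer (Cfsg.thompsonSubgroupOf p (S : Subgroup ↥K) : Set ↥K) ⊔
    Subgroup.centralizer (Cfsg.omegaOne p ((S : Subgroup ↥K) ⊓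
      Subgroup.centralizer ((S : Subgroup ↥K) : Set ↥K)) : Set ↥K) ⊔
    (Subgroup.centralizer (X : Set G)).subgroupOf K) with hM
  have hN : Subgroup.normalizer (Cfsg.thompsonSubgroupOf p (S : Subgroup ↥K) : Set ↥K) ≤ M :=
    le_sup_left.trans le_sup_left
  have h1 : (thompsonSubgroup p K).map π ≤ M.map π := hg.trans (sSup_le fun A hA =>
    hF.op_le_of_sylow hYV hYH hY hq' hA hg
      (CL.Loc.isSylowIn_map (CL.Grp.isSylowIn_inf_normal S (thompsonSubgroup p K)) π)
      (Subgroup.map_mono (inf_le_left.trans ((Subgroup.le_normalizer.trans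
        (CL.Loc.normalizer_le_normalizer_thompsonSubgroupOf _)).trans hN)))
      (hfix ▸ Subgroup.map_mono (inf_le_right.trans le_sup_right)))
  rw [Subgroup.map_le_iff_le_comap, Subgroup.comap_map_eq, h.ker_eq, sup_eq_left.2
    ((CL.Loc.centralizer_anti (CL.Loc.omegaOne_center_le_sylV S)).trans
      (le_sup_right.trans le_sup_left))] at h1
  refine eq_top_iff.2 fun g _ => ?_
  obtain ⟨c, hc, n, hn, rfl⟩ := CL.Loc.exists_mul_normalizer_thompson S
    (CL.Loc.thompsonSubgroupOf_sylow_le S) g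
  exact mul_mem (h1 hc) (hN hn)

end Cfsg.Agent.S0620
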