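import Cfsg.Statements.S0627
import Cfsg.Agent.Loc.StableW
import Cfsg.Agent.Loc.QuadStab2
import Cfsg.Agent.Loc.PConstr
import Cfsg.Agent.S0274

set_option autoImplicit false
open Cfsg

namespace Cfsg.Agent.S0627

/-- In a p-separable group with p at least 5, the normalizer of W(S) supplements the largest normal subgroup of order prime to p. -/
theorem result {G : Type*} [Group G] [Finite G] {p : ℕ} [Fact p.Prime] (hp : 5 ≤ p) (hsep : Cfsg.IsPSolvable p G) (S : Sylow p G) : Cfsg.pPrimeCore p G ⊔ Subgroup.normalizer (((Cfsg.stableNormalClosure p ↥(S : Subgroup G)).map (S : Subgroup G).subtype) : Set G) = ⊤ := by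
  have hp2 : p ≠ 2 := by omega
  set f := QuotientGroup.mk' (pPrimeCore p G) with hf
  have hs : Function.Surjective f := QuotientGroup.mk'_surjective _
  have hk : (Nat.card f.ker).Coprime p := by
    rw [hf, QuotientGroup.ker_mk']; exact CL.Grp.pPrimeCore_coprime p G
  have hq := CL.Loc.isPSolvable_quotient hsep (pPrimeCore p G)
  have h1 := CL.Loc.stW_normal_of_isActionPStable
    (CL.Loc.isActionPStable_of_not_involves_qd (fun F _ _ _ H hH => Cfsg.Agent.S0274.result p hp2 H hH)
      hp2 (CL.Loc.not_involves_qd_of_isPSolvable hp hq))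
    (CL.Loc.centralizer_pCore_le_of_isPSolvable hq (CL.Grp.pPrimeCore_quotient_pPrimeCore p G))
    (S.mapSurjective hs)
  have h2 := CL.Grp.map_inducedFunctor CL.Loc.isCharPFunctor_stW f S.isPGroup'
    (CL.Loc.inf_eq_bot_of_isPGroup_of_coprime S.isPGroup' hk)
  have h3 := CL.Grp.map_normalizer_of_ker_coprime hs hk
    (CL.Grp.inducedFunctor_isPGroup (fun Q _ => stableNormalClosure p Q) S.isPGroup')
  rw [h2] at h3
  have h4 := congrArg (Subgroup.comap f) (h3.trans (Subgroup.normalizer_eq_top_iff.2 h1))
  rwa [Subgroup.comap_map_eq, Subgroup.comap_top, hf, QuotientGroup.ker_mk', sup_comm] at h4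

end Cfsg.Agent.S0627
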