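import Cfsg.Statements.S0632
import Cfsg.Agent.Base
import Cfsg.Agent.Loc.PLength

set_option autoImplicit false
open Cfsg

namespace Cfsg.Agent.S0632

open CL.Grp CL.Loc
open scoped commutatorElement

variable {G : Type*} [Group G] {G' : Type*} [Group G'] {p : ℕ} [hp : Fact p.Prime]

/-- the conclusion of the stability condition -/
def Stab (p : ℕ) (A P : Subgroup G) : Prop :=
  (A.subgroupOf (Subgroup.normalizer (P : Set G))).map
          (QuotientGroup.mk' ((Subgroup.centralizer (P : Set G)).subgroupOf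
            (Subgroup.normalizer (P : Set G))))
        ≤ pCore p _

theorem stab_iff [Finite G] {f : G →* G'} (hf : Function.Surjective f)
    (hk : (Nat.card f.ker).Coprime p) {A P : Subgroup G} (hP : IsPGroup p P)
    (hA : A ≤ Subgroup.normalizer (P : Set G)) : Stab p A P ↔ Stab p (A.map f) (P.map f) := by
  have hN := map_normalizer_eq_of_coprime_ker hf hk hP
  have hbot : P ⊓ f.ker = ⊥ := inf_eq_bot_of_isPGroup_of_coprime hP hk
  set N := Subgroup.normalizer (P : Set G) with hNdef
  set N' := Subgroup.normalizer ((P.map f : Subgroup G') : Set G') with hN'def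
  let ψ : N →* N' := (f.comp N.subtype).codRestrict N' (fun x => by
    rw [← hN]; exact Subgroup.mem_map_of_mem f x.2)
  have hψ : ∀ x : N, (ψ x : G') = f x := fun x => rfl
  have hψs : Function.Surjective ψ := by
    rintro ⟨y, hy⟩
    rw [← hN] at hy
    obtain ⟨x, hx, rfl⟩ := hy
    exact ⟨⟨x, hx⟩, rfl⟩
  let π := QuotientGroup.mk' ((Subgroup.centralizer (P : Set G)).subgroupOf N)
  let π' := QuotientGroup.mk' ((Subgroup.centralizer ((P.map f : Subgroup G') : Set G')).subgroupOf N')
  have hker : π.ker = (π'.comp ψ).ker := by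
    ext x
    simp only [π, π', MonoidHom.mem_ker, MonoidHom.comp_apply, QuotientGroup.mk'_apply,
      QuotientGroup.eq_one_iff, Subgroup.mem_subgroupOf, Subgroup.mem_centralizer_iff, hψ]
    constructor
    · rintro h _ ⟨y, hy, rfl⟩
      rw [← map_mul, ← map_mul, h y hy]
    · intro h y hy
      have h1 : y * x * y⁻¹ * (x : G)⁻¹ ∈ P ⊓ f.ker := by
        refine ⟨?_, ?_⟩
        · have h2 : (x : G) * y⁻¹ * (x : G)⁻¹ ∈ P :=
            (Subgroup.mem_normalizer_iff.mp x.2 _).mp (P.inv_mem hy)
          have := P.mul_mem hy h2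
          simpa [mul_assoc] using this
        · have := h (f y) (Subgroup.mem_map_of_mem f hy)
          refine MonoidHom.mem_ker.mpr ?_
          rw [map_mul, map_mul, map_mul, map_inv, map_inv, this]; group
      rw [hbot, Subgroup.mem_bot] at h1
      calc y * x = (y * x * y⁻¹ * (x : G)⁻¹) * (x * y) := by group
        _ = x * y := by rw [h1, one_mul]
  obtain ⟨e, he⟩ := exists_equiv_of_ker_eq (f := π) (g := π'.comp ψ)
    (QuotientGroup.mk'_surjective _) ((QuotientGroup.mk'_surjective _).comp hψs) hker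
  constructor
  · rintro h _ ⟨⟨y, hy⟩, ⟨x, hx, rfl⟩, rfl⟩
    have h1 := h ⟨⟨x, hA hx⟩, hx, rfl⟩
    rw [← mem_pCore_equiv e, he] at h1
    exact h1
  · rintro h _ ⟨x, hx, rfl⟩
    rw [← mem_pCore_equiv e, he]
    exact h ⟨ψ x, Subgroup.mem_map_of_mem f hx, rfl⟩

omit hp in
theorem le_normalizer_of_conj [Finite G] {A P : Subgroup G}
    (h : ∀ a ∈ A, ∀ x ∈ P, a * x * a⁻¹ ∈ P) : A ≤ Subgroup.normalizer (P : Set G) :=
  fun a ha => Subgroup.mem_normalizer_fintype (h a ha)
/-- For a group with a nontrivial normal p-subgroup, p-stability passes to and from the quotient by the largest normal subgroup of order prime to p. -/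
theorem result {G : Type*} [Group G] [Finite G] {p : ℕ} [Fact p.Prime] (hO : Cfsg.pCore p G ≠ ⊥) : Cfsg.IsPStable p G ↔ Cfsg.IsPStable p (G ⧸ Cfsg.pPrimeCore p G) := by
  classical
  set N := pPrimeCore p G with hNdef
  let π := QuotientGroup.mk' N
  have hπ : Function.Surjective π := QuotientGroup.mk'_surjective N
  have hk : (Nat.card π.ker).Coprime p := by
    rw [QuotientGroup.ker_mk']; exact pPrimeCore_coprime p G
  have hbot : pPrimeCore p (G ⧸ N) = ⊥ := pPrimeCore_quotient_pPrimeCore p G
  have hO' : pCore p (G ⧸ N) ≠ ⊥ := by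
    intro h
    apply hO
    have h1 : pCore p G ≤ π.ker := by
      rw [← Subgroup.map_eq_bot_iff, ← le_bot_iff, ← h]
      exact map_pCore_le_of_surjective hπ
    rw [← inf_eq_bot_of_isPGroup_of_coprime (pCore_isPGroup p G) hk, eq_comm, inf_eq_left]
    exact h1
  have hcomap := pPrimePCore_eq_comap_of_coprime_ker (p := p) hπ hk
  constructor
  · rintro ⟨hodd, -, h⟩
    refine ⟨hodd, hO', fun A' P' hA' hP' hAP' hP'le hnorm hcomm => ?_⟩
    obtain ⟨P, hP⟩ := exists_isSylowIn p (P'.comap π)
    have hPm : P.map π = P' := by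
      have := isSylowIn_map hP π
      rw [Subgroup.map_comap_eq_self_of_surjective hπ] at this
      exact isSylowIn_eq_of_isPGroup this hP'
    obtain ⟨A, hA⟩ := exists_isSylowIn p (A'.comap π ⊓ Subgroup.normalizer (P : Set G))
    have hAm : A.map π = A' := by
      have := isSylowIn_map hA π
      have h2 : (A'.comap π ⊓ Subgroup.normalizer (P : Set G)).map π = A' := by
        apply le_antisymm
        · exact (Subgroup.map_mono inf_le_left).trans (Subgroup.map_comap_le _ _)
        · intro a ha
          have h3 := le_normalizer_of_conj hAP' ha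
          rw [← hPm, ← map_normalizer_eq_of_coprime_ker hπ hk hP.isPGroup] at h3
          obtain ⟨x, hx, rfl⟩ := h3
          exact ⟨x, ⟨ha, hx⟩, rfl⟩
      rw [h2] at this
      exact isSylowIn_eq_of_isPGroup this hA'
    have hAN : A ≤ Subgroup.normalizer (P : Set G) := hA.le.trans inf_le_right
    have key := (stab_iff hπ hk hP.isPGroup hAN).mp (h A P hA.isPGroup hP.isPGroup
      (fun a ha x hx => (Subgroup.mem_normalizer_iff.mp (hAN ha) x).mp hx) ?_ ?_ ?_)
    · rw [hAm, hPm] at key; exact key
    · rw [hcomap, ← Subgroup.map_le_iff_le_comap, hPm]; exact hP'le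
    · rw [hbot, bot_sup_eq] at hnorm
      have : N ⊔ P = P'.comap π := by
        rw [← hPm, Subgroup.comap_map_eq, QuotientGroup.ker_mk', sup_comm]
      rw [this]; infer_instance
    · rw [← le_bot_iff, ← inf_eq_bot_of_isPGroup_of_coprime hP.isPGroup hk]
      have h1 : ⁅P, A⁆ ≤ P := Subgroup.le_normalizer_iff_commutator_le_left.mp hAN
      refine le_inf ((Subgroup.commutator_mono h1 le_rfl).trans h1) ?_
      rw [← Subgroup.map_eq_bot_iff, Subgroup.map_commutator, Subgroup.map_commutator, hAm, hPm,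
        hcomm]
  · rintro ⟨hodd, -, h⟩
    refine ⟨hodd, hO, fun A P hA hP hAP hPle hnorm hcomm => ?_⟩
    refine (stab_iff hπ hk hP (le_normalizer_of_conj hAP)).mpr
      (h _ _ (hA.map π) (hP.map π) ?_ ?_ ?_ ?_)
    · rintro _ ⟨a, ha, rfl⟩ _ ⟨x, hx, rfl⟩
      rw [← map_inv, ← map_mul, ← map_mul]
      exact Subgroup.mem_map_of_mem π (hAP a ha x hx)
    · rw [Subgroup.map_le_iff_le_comap, ← hcomap]; exact hPle
    · rw [hbot, bot_sup_eq]
      have : P.map π = (N ⊔ P).map π := by
        rw [Subgroup.map_sup, (Subgroup.map_eq_bot_iff _).mpr (QuotientGroup.ker_mk' N).ge,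
          bot_sup_eq]
      rw [this]
      exact hnorm.map π hπ
    · rw [← Subgroup.map_commutator, ← Subgroup.map_commutator, hcomm, Subgroup.map_bot]

end Cfsg.Agent.S0632
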