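import Cfsg.Statements.S0633
import Cfsg.Agent.Fgs.HHThm
import Cfsg.Agent.Loc.FFHol

set_option autoImplicit false
open Cfsg

namespace Cfsg.Agent.S0633

/-- Theorem B of Hall and Higman on the minimal polynomial of a p-element of order p^n in a p-solvable linear group on a nonzero vector space in characteristic p with no nontrivial normal p-subgroup: its degree is p^n, except when some p^n₀ - 1 (n₀ ≤ n) is a power of a prime q for which the Sylow q-subgroups are non-abelian, in which case the degree is at least p^(n-n₀)(p^n₀ - 1). -/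
theorem result {F : Type*} [Field F] {p : ℕ} [Fact p.Prime] [CharP F p] {V : Type*} [AddCommGroup V] [Module F V] [FiniteDimensional F V] [Nontrivial V] (H : Subgroup (V ≃ₗ[F] V)) [Finite H] (hsol : Cfsg.IsPSolvable p H) (hOp : Cfsg.pCore p H = ⊥) (x : V ≃ₗ[F] V) (hx : x ∈ H) (n : ℕ) (hn : orderOf x = p ^ n) (r : ℕ) (hr : minpoly F (x : Module.End F V) = (Polynomial.X - 1) ^ r) : r = p ^ n ∨ ∃ n₀ q m : ℕ, 1 ≤ n₀ ∧ n₀ ≤ n ∧ q.Prime ∧ 1 ≤ m ∧ p ^ n₀ - 1 = q ^ m ∧ (∀ Q : Sylow q H, ¬ IsMulCommutative Q) ∧ p ^ (n - n₀) * (p ^ n₀ - 1) ≤ r := by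
  have hp : p.Prime := Fact.out
  rcases n with _ | m
  · left
    rw [pow_zero, orderOf_eq_one_iff] at hn
    subst hn
    have e := congrArg Polynomial.natDegree hr
    rw [show ((1 : V ≃ₗ[F] V) : Module.End F V) = 1 from rfl, minpoly.one, ← Polynomial.C_1,
      Polynomial.natDegree_pow, Polynomial.natDegree_X_sub_C] at e
    rw [pow_zero]; omega
  let ρ : H →* Module.End F V := (LinearEquiv.automorphismGroup.toLinearMapMonoidHom).comp H.subtype
  have hρ : ∀ g, ρ g = 1 → g = 1 := fun g hg => Subtype.ext (LinearEquiv.toLinearMap_injective hg)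
  set y : H := ⟨x, hx⟩
  have hy : orderOf y = p ^ (m + 1) := by rw [← hn, Subgroup.orderOf_mk]
  have hyn : y ^ p ^ (m + 1) = 1 := hy ▸ pow_orderOf_eq_one y
  have hcop := CL.Grp.pPrimeCore_coprime p H
  have hcy : (Nat.card (Subgroup.zpowers y)).Coprime (Nat.card (pPrimeCore p H)) := by
    rw [Nat.card_zpowers, hy]; exact hcop.symm.pow_left _
  have hnc : ¬ pPrimeCore p H ≤ Subgroup.centralizer {y ^ p ^ m} := fun h => by
    have h1 : y ^ p ^ m ∈ pPrimeCore p H := CL.Loc.centralizer_pPrimeCore_le_of_isPSolvable hsol hOp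
      (Subgroup.mem_centralizer_iff.2 fun g hg => Subgroup.mem_centralizer_singleton_iff.1 (h hg))
    have h2 : y ^ p ^ m = 1 := by
      have a := Subgroup.orderOf_dvd_natCard _ h1
      have b : orderOf (y ^ p ^ m) ∣ p := orderOf_dvd_of_pow_eq_one (by rw [← pow_mul, ← pow_succ, hyn])
      exact orderOf_eq_one_iff.1 (Nat.eq_one_of_dvd_coprimes hcop a b)
    have := Nat.le_of_dvd (pow_pos hp.pos m) (hy ▸ orderOf_dvd_of_pow_eq_one h2)
    exact absurd this (not_le.2 (Nat.pow_lt_pow_right hp.one_lt (Nat.lt_succ_self m)))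
  obtain ⟨q, hq, hqd, S, hS, hyS, hSn⟩ : ∃ q : ℕ, q.Prime ∧ q ∣ Nat.card (pPrimeCore p H) ∧ ∃ S : Subgroup H,
      CL.Grp.IsSylowIn q S (pPrimeCore p H) ∧ y ∈ Subgroup.normalizer (S : Set H) ∧
        ¬ S ≤ Subgroup.centralizer {y ^ p ^ m} := by
    by_contra hc
    push Not at hc
    refine hnc (CL.Grp.le_of_forall_exists_isSylowIn_le fun q hq hqd => ?_)
    have := Fact.mk hq
    obtain ⟨S, hS, hn⟩ := CL.Grp.exists_isSylowIn_le_normalizer q (A := Subgroup.zpowers y)
      (K := pPrimeCore p H) (by rw [Subgroup.normalizer_eq_top]; exact le_top) hcy (Or.inl inferInstance)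
    exact ⟨S, hS, hc q hq hqd S hS (Subgroup.zpowers_le.1 hn)⟩
  have hpq : p ≠ q := by
    rintro rfl
    exact hp.one_lt.ne' (Nat.eq_one_of_dvd_coprimes hcop hqd dvd_rfl)
  have hint : IsIntegral F (x : Module.End F V) := Algebra.IsIntegral.isIntegral _
  have hdeg : (minpoly F (x : Module.End F V)).natDegree = r := by
    rw [hr, ← Polynomial.C_1, Polynomial.natDegree_pow, Polynomial.natDegree_X_sub_C, mul_one]
  have hH := CL.Fgs.HH.hh_B ρ hp hq hpq hS.isPGroup
    (fun h0 => hpq ((Nat.prime_dvd_prime_iff_eq hp hq).1 ((CharP.cast_eq_zero_iff F p q).1 h0)))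
    (fun g _ => hρ g) hyS hyn (fun h => hSn fun g hg => Subgroup.mem_centralizer_singleton_iff.2
      (Subgroup.mem_centralizer_iff.1 h g hg)) (minpoly.ne_zero hint) (minpoly.aeval F _)
  rw [hdeg] at hH
  rcases hH with h | ⟨n₀, a, h1, h2, h3, h4, h5, h6⟩
  · left
    refine le_antisymm ?_ h
    have h0 : Polynomial.aeval (x : Module.End F V) ((Polynomial.X - 1 : Polynomial F) ^ p ^ (m + 1)) = 0 := by
      rw [sub_pow_char_pow, one_pow, map_sub, map_pow, Polynomial.aeval_X, map_one, sub_eq_zero]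
      exact (map_pow ρ y _).symm.trans (by rw [hyn, map_one])
    have := Polynomial.natDegree_le_of_dvd (minpoly.dvd F _ h0)
      (pow_ne_zero _ (Polynomial.X_sub_C_ne_zero (1 : F)))
    rwa [hdeg, ← Polynomial.C_1, Polynomial.natDegree_pow, Polynomial.natDegree_X_sub_C, mul_one] at this
  · refine Or.inr ⟨n₀, q, a, h1, h2, hq, h3, h4, fun Q hQ => h5 ?_, h6⟩
    have := Fact.mk hq
    obtain ⟨T, hT⟩ := hS.isPGroup.exists_le_sylow
    obtain ⟨g, rfl⟩ := MulAction.exists_smul_eq H Q T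
    have : IsMulCommutative ((g • Q : Sylow q H) : Subgroup H) :=
      Subgroup.map_isMulCommutative _ (MulAut.conj g).toMonoidHom
    exact ⟨⟨fun a b => Subtype.ext (setLike_mul_comm (hT a.2) (hT b.2))⟩⟩

end Cfsg.Agent.S0633
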