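import Cfsg.Statements.S0642
import Cfsg.Agent.Fgs.Regular

set_option autoImplicit false
open Cfsg

namespace Cfsg.Agent.S0642

/-- Among finite 2-groups the regular ones are exactly the abelian ones. -/
theorem result {G : Type*} [Group G] [Finite G] (hG : IsPGroup 2 G) : Cfsg.IsRegularPGroup 2 G ↔ ∀ a b : G, a * b = b * a := by
  have : Fact (Nat.Prime 2) := ⟨Nat.prime_two⟩
  rw [CL.Fgs.isRegular_iff_wreg hG]
  constructor
  · intro hw a b
    set K := Subgroup.closure ({a, b} : Set G) with hK
    have haK : a ∈ K := CL.Fgs.left_mem_closure_pair a b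
    have hbK : b ∈ K := CL.Fgs.right_mem_closure_pair a b
    have hKN : K ≤ Subgroup.normalizer (Cfsg.powerClosure 2 1 ⁅K, K⁆ : Set G) :=
      (Subgroup.normalizer_commutator_ge_left K K).trans
        (CL.Fgs.normalizer_le_normalizer_powerClosure _)
    have h1 : ⁅K, K⁆ ≤ Cfsg.powerClosure 2 1 ⁅K, K⁆ := by
      refine CL.Fgs.commutator_closure_pair_le (hKN haK) (hKN hbK) ?_
      have := (Subgroup.mem_normalizer_iff.mp (hKN (mul_mem (mul_mem hbK haK) hbK)) _).mp
        (inv_mem (hw a b))
      convert this using 1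
      rw [commutatorElement_def, sq, sq, sq]; group
    have h2 : ∀ k : ℕ, ∀ x ∈ ⁅K, K⁆, ∃ z ∈ ⁅K, K⁆, x = z ^ 2 ^ k := by
      intro k
      induction k with
      | zero => intro x hx; exact ⟨x, hx, by simp⟩
      | succ k ih =>
        intro x hx
        obtain ⟨z, hz, rfl⟩ := ih x hx
        obtain ⟨w, hw', rfl⟩ := (hw.mem_powerClosure hG).mp (h1 hz)
        exact ⟨w, hw', by rw [pow_one, ← pow_mul, ← pow_succ']⟩
    obtain ⟨n, hn⟩ := hG.exists_card_eq
    obtain ⟨z, -, hz⟩ := h2 n _ (Subgroup.commutator_mem_commutator haK hbK)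
    rw [← hn, pow_card_eq_one'] at hz
    exact commutatorElement_eq_one_iff_mul_comm.mp hz
  · intro h a b
    rw [(show Commute a b from h a b).mul_pow, inv_mul_cancel]
    exact one_mem _

end Cfsg.Agent.S0642
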