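import Cfsg.Statements.S0644
import Cfsg.Agent.Fgs.Regular

set_option autoImplicit false
open Cfsg

namespace Cfsg.Agent.S0644

/-- In a regular p-group the p^n-th powers of the elements of any subgroup H form a subgroup, whose derived subgroup is contained in the subgroup generated by the p^n-th powers of elements of the derived subgroup of H. -/
theorem result {G : Type*} [Group G] [Finite G] {p : ℕ} [Fact p.Prime] (hG : Cfsg.IsRegularPGroup p G) (H : Subgroup G) (n : ℕ) : {y : G | ∃ x ∈ H, y = x ^ (p ^ n)} = (Cfsg.powerClosure p n H : Set G) ∧ ⁅Cfsg.powerClosure p n H, Cfsg.powerClosure p n H⁆ ≤ Cfsg.powerClosure p n ⁅H, H⁆ := by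
  have hw := CL.Fgs.wreg_of_isRegular hG
  refine ⟨?_, ?_⟩
  · ext y
    exact (hw.mem_powerClosure hG.1).symm
  · let N : Subgroup H := Cfsg.powerClosure p n ⁅(⊤ : Subgroup H), ⊤⁆
    have hN : N.Normal := CL.Fgs.powerClosure_normal _
    have h1 : ⁅Cfsg.powerClosure p n (⊤ : Subgroup H), (⊤ : Subgroup H)⁆ ≤ N := by
      rw [Subgroup.commutator_le]
      intro x hx y _
      obtain ⟨z, -, rfl⟩ := ((hw.subgroup H).mem_powerClosure (hG.1.to_subgroup H)).mp hx
      have := (((hw.subgroup H).quotient N).commute_pow_iff' ((hG.1.to_subgroup H).to_quotient N) n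
        (QuotientGroup.mk' N z) (QuotientGroup.mk' N y)).mpr (by
          rw [← map_commutatorElement, ← map_pow, QuotientGroup.mk'_apply, QuotientGroup.eq_one_iff]
          exact CL.Fgs.pow_mem_powerClosure (Subgroup.commutator_mem_commutator trivial trivial))
      rw [← QuotientGroup.eq_one_iff, ← QuotientGroup.mk'_apply, map_commutatorElement, map_pow]
      exact this.commutator_eq
    have h2 := Subgroup.map_mono (f := H.subtype) h1
    rw [Subgroup.map_commutator, CL.Fgs.map_subtype_powerClosure_top, CL.Fgs.map_powerClosure,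
      Subgroup.map_commutator, ← MonoidHom.range_eq_map, Subgroup.range_subtype] at h2
    exact (Subgroup.commutator_mono le_rfl (CL.Fgs.powerClosure_le_self H)).trans h2

end Cfsg.Agent.S0644
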