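import Cfsg.Statements.S0663
import Cfsg.Agent.Base
import Cfsg.Agent.Loc.PSolv
import Cfsg.Agent.Grp.PGroupBasic
import Cfsg.Agent.Grp.Coprime

set_option autoImplicit false
open Cfsg

namespace Cfsg.Agent.S0663

open CL.Grp CL.Loc

variable {L : Type*} [Group L] [Finite L] {p : ℕ} [hp : Fact p.Prime]

theorem isPGroup_sup {X G : Subgroup L} (hX : IsPGroup p X) (hG : IsPGroup p G)
    (hGX : G ≤ Subgroup.normalizer (X : Set L)) : IsPGroup p (X ⊔ G : Subgroup L) :=
  IsPGroup.to_sup_of_normal_left' hX hG hGX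

/-- step inside the `p`-group `X ⊔ G` -/
theorem exists_step {X G H : Subgroup L} (hX : IsPGroup p X) (hG : IsPGroup p G)
    (hGX : G ≤ Subgroup.normalizer (X : Set L)) (hH : H < X)
    (hGH : G ≤ Subgroup.normalizer (H : Set L)) (hXH : X ≤ Subgroup.normalizer (H : Set L)) :
    ∃ K : Subgroup L, H < K ∧ K ≤ X ∧ X ⊔ G ≤ Subgroup.normalizer (K : Set L) ∧ ⁅K, G⁆ ≤ H ∧
      Nat.card K = p * Nat.card H := by
  have h1 : (H.subgroupOf (X ⊔ G)).Normal := normal_subgroupOf_of_le_normalizer' (sup_le hXH hGH)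
  have h2 : (X.subgroupOf (X ⊔ G)).Normal :=
    normal_subgroupOf_of_le_normalizer' (sup_le Subgroup.le_normalizer hGX)
  have hHP : H ≤ X ⊔ G := hH.le.trans le_sup_left
  have h3 : H.subgroupOf (X ⊔ G) < X.subgroupOf (X ⊔ G) := by
    refine lt_of_le_of_ne (Subgroup.subgroupOf_mono _ hH.le) fun h => hH.ne ?_
    rw [← Subgroup.map_subgroupOf_eq_of_le hHP, h, Subgroup.map_subgroupOf_eq_of_le le_sup_left]
  obtain ⟨K, hKn, hHK, hKX, hc, -, hcomm⟩ := exists_normal_card_eq_mul (isPGroup_sup hX hG hGX) h3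
  have hc' : Nat.card (K.map (X ⊔ G).subtype) = p * Nat.card H := by
    rw [card_map_subtype, hc, card_subgroupOf_of_le hHP]
  have hle : H ≤ K.map (X ⊔ G).subtype := by
    rw [← Subgroup.map_subgroupOf_eq_of_le hHP]; exact Subgroup.map_mono hHK
  refine ⟨K.map (X ⊔ G).subtype, lt_of_le_of_ne hle ?_, ?_, le_normalizer_map_subtype K, ?_, hc'⟩
  · intro h
    rw [← h] at hc'
    have := hp.out.one_lt
    have h0 : 0 < Nat.card H := Nat.card_pos
    nlinarith
  · exact (Subgroup.map_mono hKX).trans (Subgroup.map_subgroupOf_eq_of_le le_sup_left).le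
  · have := Subgroup.map_mono (f := (X ⊔ G).subtype) hcomm
    rw [Subgroup.map_commutator, Subgroup.map_subgroupOf_eq_of_le hHP] at this
    refine le_trans (Subgroup.commutator_mono le_rfl ?_) this
    rw [← MonoidHom.range_eq_map, Subgroup.range_subtype]
    exact le_sup_right

theorem exists_max {X G : Subgroup L} (hX : IsPGroup p X) (hG : IsPGroup p G)
    (hGX : G ≤ Subgroup.normalizer (X : Set L)) (H : Subgroup L) (hH : H < X)
    (hGH : G ≤ Subgroup.normalizer (H : Set L)) :
    ∃ M : Subgroup L, H ≤ M ∧ M < X ∧ ⁅X, G⁆ ≤ M := by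
  induction H using WellFoundedGT.induction with
  | _ H ih =>
    have h1 := lt_inf_normalizer_pGroup hX hH
    rcases (inf_le_left : X ⊓ Subgroup.normalizer (H : Set L) ≤ X).lt_or_eq with h2 | h2
    · obtain ⟨M, h3, h4, h5⟩ := ih _ h1 h2 (le_normalizer_inf' hGX (le_normalizer_normalizer' hGH))
      exact ⟨M, h1.le.trans h3, h4, h5⟩
    · obtain ⟨K, hHK, hKX, hKn, hKG, -⟩ := exists_step hX hG hGX hH hGH (inf_eq_left.mp h2)
      rcases hKX.lt_or_eq with h3 | rfl
      · obtain ⟨M, h3, h4, h5⟩ := ih K hHK h3 (le_sup_right.trans hKn)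
        exact ⟨M, hHK.le.trans h3, h4, h5⟩
      · exact ⟨H, le_rfl, hH, hKG⟩

theorem card_mul_le_of_lt {H K : Subgroup L} (hK : IsPGroup p K) (h : H < K) :
    p * Nat.card H ≤ Nat.card K := by
  obtain ⟨a, ha⟩ := (hK.to_le h.le).exists_card_eq
  obtain ⟨b, hb⟩ := hK.exists_card_eq
  have := card_lt_card_of_lt h
  rw [ha, hb] at this ⊢
  rw [← pow_succ']
  exact Nat.pow_le_pow_right hp.out.pos ((Nat.pow_lt_pow_iff_right hp.out.one_lt).mp this)

omit [Finite L] hp in
theorem iter_inv {N G : Subgroup L} (hGN : G ≤ Subgroup.normalizer (N : Set L)) (i : ℕ) :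
    G ≤ Subgroup.normalizer (iterCommutator N G i : Set L) ∧ iterCommutator N G i ≤ N := by
  induction i with
  | zero => exact ⟨hGN, le_rfl⟩
  | succ i ih =>
    exact ⟨Subgroup.normalizer_commutator_ge_right _ _,
      (Subgroup.le_normalizer_iff_commutator_le_left.mp ih.1).trans ih.2⟩

theorem iter_lt {N G : Subgroup L} (hN : IsPGroup p N) (hG : IsPGroup p G)
    (hGN : G ≤ Subgroup.normalizer (N : Set L)) (i : ℕ) (h : iterCommutator N G i ≠ ⊥) :
    iterCommutator N G (i + 1) < iterCommutator N G i := by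
  obtain ⟨M, -, h1, h2⟩ := exists_max (hN.to_le (iter_inv hGN i).2) hG (iter_inv hGN i).1 ⊥
    (bot_lt_iff_ne_bot.mpr h) Subgroup.le_normalizer_of_normal
  exact lt_of_le_of_lt h2 h1

theorem iter_card_le {N G : Subgroup L} (hN : IsPGroup p N) (hG : IsPGroup p G)
    (hGN : G ≤ Subgroup.normalizer (N : Set L)) (i j : ℕ) (h : iterCommutator N G (i + j) ≠ ⊥) :
    p ^ j * Nat.card (iterCommutator N G (i + j)) ≤ Nat.card (iterCommutator N G i) := by
  induction j with
  | zero => simp
  | succ j ih =>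
    have h1 : iterCommutator N G (i + j) ≠ ⊥ := by
      intro h0
      apply h
      show ⁅iterCommutator N G (i + j), G⁆ = ⊥
      rw [h0, Subgroup.commutator_bot_left]
    have h2 := card_mul_le_of_lt (hN.to_le (iter_inv hGN _).2) (iter_lt hN hG hGN _ h1)
    calc p ^ (j + 1) * Nat.card (iterCommutator N G (i + (j + 1)))
        = p ^ j * (p * Nat.card (iterCommutator N G (i + j + 1))) := by rw [pow_succ, mul_assoc]; rfl
      _ ≤ p ^ j * Nat.card (iterCommutator N G (i + j)) := Nat.mul_le_mul_left _ h2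
      _ ≤ _ := ih h1

theorem iter_card {N G : Subgroup L} (hN : IsPGroup p N) (hG : IsPGroup p G)
    (hGN : G ≤ Subgroup.normalizer (N : Set L)) (m : ℕ) (hn : Nat.card N = p ^ (m + 1))
    (h : iterCommutator N G m ≠ ⊥) (i : ℕ) (hi : i ≤ m + 1) :
    Nat.card (iterCommutator N G i) = p ^ (m + 1 - i) := by
  have hlast : p ≤ Nat.card (iterCommutator N G m) := by
    simpa using card_mul_le_of_lt (hN.to_le (iter_inv hGN m).2) (bot_lt_iff_ne_bot.mpr h)
  have main : ∀ i ≤ m, Nat.card (iterCommutator N G i) = p ^ (m + 1 - i) := by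
    intro i hi
    obtain ⟨j, rfl⟩ := Nat.exists_eq_add_of_le hi
    have h1 := iter_card_le hN hG hGN i j h
    have h0 : iterCommutator N G (0 + i) ≠ ⊥ := by
      rw [zero_add]
      intro h0
      rw [h0, Subgroup.card_bot] at h1
      have := hp.out.one_lt
      have : 0 < p ^ j := by positivity
      nlinarith
    have h2 := iter_card_le hN hG hGN 0 i h0
    rw [zero_add] at h2
    change _ ≤ Nat.card N at h2
    rw [hn, add_assoc, pow_add] at h2
    rw [show i + j + 1 - i = j + 1 by omega]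
    refine le_antisymm (Nat.le_of_mul_le_mul_left h2 (by have := hp.out.pos; positivity)) ?_
    exact le_trans (by rw [pow_succ]; exact Nat.mul_le_mul_left _ hlast) h1
  rcases hi.lt_or_eq with hi | rfl
  · exact main i (by omega)
  · have h1 := card_mul_le_of_lt (hN.to_le (iter_inv hGN m).2) (iter_lt hN hG hGN m h)
    rw [main m le_rfl, show m + 1 - m = 1 by omega, pow_one] at h1
    rw [Nat.sub_self, pow_zero]
    have h0 : 0 < Nat.card (iterCommutator N G (m + 1)) := Nat.card_pos
    have := hp.out.pos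
    nlinarith

theorem classify {N G : Subgroup L} (hN : IsPGroup p N) (hG : IsPGroup p G)
    (hGN : G ≤ Subgroup.normalizer (N : Set L)) (n : ℕ)
    (hc : ∀ i ≤ n, Nat.card (iterCommutator N G i) = p ^ (n - i)) (H : Subgroup L) (hH : H ≤ N)
    (hGH : G ≤ Subgroup.normalizer (H : Set L)) : ∃ i ≤ n, H = iterCommutator N G i := by
  have key : ∀ i ≤ n, H ≤ iterCommutator N G i ∨ ∃ j ≤ n, H = iterCommutator N G j := by
    intro i
    induction i with
    | zero => exact fun _ => Or.inl hH
    | succ i ih =>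
      intro hi
      rcases ih (by omega) with h | h
      · rcases h.lt_or_eq with h | h
        · left
          obtain ⟨M, h1, h2, h3⟩ := exists_max (hN.to_le (iter_inv hGN i).2) hG (iter_inv hGN i).1 H h hGH
          have h4 := card_mul_le_of_lt (hN.to_le (iter_inv hGN i).2) h2
          rw [hc i (by omega), show n - i = n - (i + 1) + 1 by omega, pow_succ', ← hc _ hi] at h4
          have h5 : iterCommutator N G (i + 1) = M :=
            Subgroup.eq_of_le_of_card_ge h3 (Nat.le_of_mul_le_mul_left h4 hp.out.pos)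
          rw [h5]; exact h1
        · exact Or.inr ⟨i, by omega, h⟩
      · exact Or.inr h
  rcases key n le_rfl with h | h
  · refine ⟨n, le_rfl, ?_⟩
    have h1 := hc n le_rfl
    rw [Nat.sub_self, pow_zero, Subgroup.card_eq_one] at h1
    rw [h1] at h ⊢
    exact le_bot_iff.mp h
  · exact h

theorem exists_normal_card {N G : Subgroup L} (hN : IsPGroup p N) (hG : IsPGroup p G)
    (hGN : G ≤ Subgroup.normalizer (N : Set L)) (k : ℕ) (hk : p ^ k ≤ Nat.card N) :
    ∃ K : Subgroup L, K ≤ N ∧ N ⊔ G ≤ Subgroup.normalizer (K : Set L) ∧ Nat.card K = p ^ k := by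
  have h2 : (N.subgroupOf (N ⊔ G)).Normal :=
    normal_subgroupOf_of_le_normalizer' (sup_le Subgroup.le_normalizer hGN)
  obtain ⟨K, hKn, hK, hc⟩ := exists_normal_card_eq_pow_le (isPGroup_sup hN hG hGN)
    (N.subgroupOf (N ⊔ G)) (b := k) (by rwa [card_subgroupOf_of_le le_sup_left])
  refine ⟨K.map (N ⊔ G).subtype, ?_, le_normalizer_map_subtype K, by rw [card_map_subtype, hc]⟩
  exact (Subgroup.map_mono hK).trans (Subgroup.map_subgroupOf_eq_of_le le_sup_left).le

/-- A p-group acts uniserially on a p-group N of order p^n exactly when the iterated commutator chain from N has length n; in that case the chain terms are all the invariant subgroups of N and they are normal in N. -/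
theorem result {L : Type*} [Group L] [Finite L] {p : ℕ} [Fact p.Prime] (N G : Subgroup L) (hN : IsPGroup p N) (hG : IsPGroup p G) (hGN : G ≤ Subgroup.normalizer (N : Set L)) (n : ℕ) (hn : Nat.card N = p ^ n) : ((∀ H : Subgroup L, H ≤ N → G ≤ Subgroup.normalizer (H : Set L) → H ≠ ⊥ → (⁅H, G⁆).relIndex H = p) ↔ Cfsg.iterCommutator N G (n - 1) ≠ ⊥ ∨ n = 0) ∧ ((∀ H : Subgroup L, H ≤ N → G ≤ Subgroup.normalizer (H : Set L) → H ≠ ⊥ → (⁅H, G⁆).relIndex H = p) → ∀ H : Subgroup L, H ≤ N → G ≤ Subgroup.normalizer (H : Set L) → (∃ i ≤ n, H = Cfsg.iterCommutator N G i) ∧ N ≤ Subgroup.normalizer (H : Set L)) := by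
  have hp : p.Prime := Fact.out
  have hU : (∀ H : Subgroup L, H ≤ N → G ≤ Subgroup.normalizer (H : Set L) → H ≠ ⊥ →
      (⁅H, G⁆).relIndex H = p) → ∀ i ≤ n, Nat.card (iterCommutator N G i) = p ^ (n - i) := by
    intro h i
    induction i with
    | zero => exact fun _ => hn
    | succ i ih =>
      intro hi
      have h1 := ih (by omega)
      have h2 : iterCommutator N G i ≠ ⊥ := by
        intro h0
        rw [h0, Subgroup.card_bot] at h1
        exact absurd h1.symm (Nat.one_lt_pow (by omega) hp.one_lt).ne'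
      have h3 := h _ (iter_inv hGN i).2 (iter_inv hGN i).1 h2
      have h4 := card_mul_relIndex
        (Subgroup.le_normalizer_iff_commutator_le_left.mp (iter_inv hGN i).1)
      rw [h3, h1, show n - i = n - (i + 1) + 1 by omega, pow_succ] at h4
      exact Nat.eq_of_mul_eq_mul_right hp.pos h4
  refine ⟨⟨fun h => ?_, fun h H hH hGH hb => ?_⟩, fun h H hH hGH => ?_⟩
  · rcases Nat.eq_zero_or_pos n with h0 | h0
    · exact Or.inr h0
    · left
      intro hb
      have := hU h (n - 1) (by omega)
      rw [hb, Subgroup.card_bot, show n - (n - 1) = 1 by omega, pow_one] at this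
      exact hp.one_lt.ne this
  · rcases Nat.eq_zero_or_pos n with rfl | h0
    · rw [pow_zero, Subgroup.card_eq_one] at hn
      exact absurd (le_bot_iff.mp (hn ▸ hH)) hb
    · obtain ⟨m, rfl⟩ : ∃ m, n = m + 1 := ⟨n - 1, by omega⟩
      have hc := iter_card hN hG hGN m hn (by simpa using h)
      obtain ⟨i, hi, rfl⟩ := classify hN hG hGN _ hc H hH hGH
      have hi' : i ≠ m + 1 := by
        rintro rfl
        apply hb
        rw [← Subgroup.card_eq_one, hc _ le_rfl, Nat.sub_self, pow_zero]
      have h4 := card_mul_relIndex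
        (Subgroup.le_normalizer_iff_commutator_le_left.mp (iter_inv hGN i).1)
      have h5 := hc (i + 1) (by omega)
      change Nat.card (⁅iterCommutator N G i, G⁆ : Subgroup L) = _ at h5
      rw [h5, hc i hi, show m + 1 - i = m + 1 - (i + 1) + 1 by omega, pow_succ] at h4
      exact Nat.eq_of_mul_eq_mul_left (by have := hp.pos; positivity) h4
  · have hc := hU h
    obtain ⟨i, hi, rfl⟩ := classify hN hG hGN _ hc H hH hGH
    refine ⟨⟨i, hi, rfl⟩, ?_⟩
    obtain ⟨K, hK, hKn, hKc⟩ := exists_normal_card hN hG hGN (n - i)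
      (by rw [hn]; exact Nat.pow_le_pow_right hp.pos (by omega))
    obtain ⟨j, hj, rfl⟩ := classify hN hG hGN _ hc K hK (le_sup_right.trans hKn)
    rw [hc j hj] at hKc
    have : j = i := by
      have := Nat.pow_right_injective hp.two_le hKc
      omega
    rw [← this]
    exact le_sup_left.trans hKn

end Cfsg.Agent.S0663
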