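import Cfsg.Statements.S0666
import Cfsg.Agent.Grp.FrobPartition
import Cfsg.Agent.Grp.FrobKernel

set_option autoImplicit false
open Cfsg

namespace Cfsg.Agent.S0666

/-- A Frobenius group acting on a nontrivial abelian group of order prime to that of its kernel, with the kernel acting without nontrivial fixed points, has a complement with a nontrivial fixed point. -/
theorem result {G : Type*} [Group G] [Finite G] (V F : Subgroup G) (hVab : IsMulCommutative V) (hV1 : V ≠ ⊥) (hFV : F ≤ Subgroup.normalizer (V : Set G)) (H : Subgroup ↥F) (hH : Cfsg.IsFrobeniusComplement H) (hcop : (Nat.card V).Coprime (Nat.card (Cfsg.frobeniusKernel H))) (hCK : V ⊓ Subgroup.centralizer (Subtype.val '' Cfsg.frobeniusKernel H : Set G) = ⊥) : V ⊓ Subgroup.centralizer ((H.map F.subtype : Subgroup G) : Set G) ≠ ⊥ := by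
  obtain ⟨K, h1, h2, h3, -, h4, -⟩ := CL.Grp.exists_frobenius_kernel hH
  refine CL.Grp.inf_centralizer_ne_bot_of_frobenius hV1 hFV h3 h4 ?_ ?_
  · rw [← h1] at hcop; exact hcop
  · rw [← h1] at hCK; exact hCK

end Cfsg.Agent.S0666
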