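import Cfsg.Statements.S0668
import Cfsg.Agent.Base

set_option autoImplicit false
open Cfsg

namespace Cfsg.Agent.S0668

theorem permRep_single {G : Type*} [Group G] {K : Type*} [Field K] {Ω : Type*} [DecidableEq Ω]
    [MulAction G Ω] (g : G) (x : Ω) (c : K) :
    Cfsg.permRep K G Ω g (Pi.single x c) = Pi.single (g • x) c := by
  funext y
  change (Pi.single x c : Ω → K) (g⁻¹ • y) = _
  by_cases h : y = g • x
  · subst h; simp
  · have : g⁻¹ • y ≠ x := fun h' => h (by rw [← h', smul_inv_smul])
    simp [h, this]

/-- The equivariant linear maps between the permutation modules of two finite `G`-sets form a space whose dimension is the number of `G`-orbits on the product of the two sets. -/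
theorem result {G : Type*} [Group G] {K : Type*} [Field K] {Ω₁ Ω₂ : Type*} [Fintype Ω₁] [Fintype Ω₂] [MulAction G Ω₁] [MulAction G Ω₂] : Module.finrank K ((Cfsg.permRep K G Ω₁).linHom (Cfsg.permRep K G Ω₂)).invariants = Nat.card (MulAction.orbitRel.Quotient G (Ω₁ × Ω₂)) := by
  classical
  set Q := MulAction.orbitRel.Quotient G (Ω₁ × Ω₂)
  have : Fintype Q := Fintype.ofFinite Q
  -- the linear map attached to a function on orbits
  let L : (Q → K) →ₗ[K] ((Ω₁ → K) →ₗ[K] (Ω₂ → K)) :=
    { toFun := fun F =>
        { toFun := fun v y => ∑ x, v x * F (Quotient.mk'' (x, y))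
          map_add' := by
            intro v w; funext y; simp [add_mul, Finset.sum_add_distrib]
          map_smul' := by
            intro c v; funext y; simp [Finset.mul_sum, mul_assoc] }
      map_add' := by
        intro F F'; ext v y; simp [mul_add, Finset.sum_add_distrib]
      map_smul' := by
        intro c F; ext v y; simp [Finset.mul_sum, mul_left_comm] }
  have hL : ∀ F x y, L F (Pi.single x 1) y = F (Quotient.mk'' (x, y)) := by
    intro F x y
    change ∑ x', (Pi.single x (1 : K) : Ω₁ → K) x' * F (Quotient.mk'' (x', y)) = _
    rw [Finset.sum_eq_single x]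
    · simp
    · intro b _ hb; simp [hb]
    · simp
  have hinj : Function.Injective L := by
    intro F F' h
    funext q
    induction q using Quotient.inductionOn' with
    | h xy =>
    obtain ⟨x, y⟩ := xy
    rw [← hL F x y, ← hL F' x y, h]
  have hext : ∀ φ ψ : (Ω₁ → K) →ₗ[K] (Ω₂ → K),
      (∀ x y, φ (Pi.single x 1) y = ψ (Pi.single x 1) y) → φ = ψ := by
    intro φ ψ h
    apply LinearMap.pi_ext'
    intro x
    apply LinearMap.ext_ring
    funext y
    simpa using h x y
  have hrange : LinearMap.range L =
      ((Cfsg.permRep K G Ω₁).linHom (Cfsg.permRep K G Ω₂)).invariants := by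
    ext φ
    rw [Representation.mem_invariants]
    constructor
    · rintro ⟨F, rfl⟩ g
      apply hext
      intro x y
      rw [Representation.linHom_apply]
      simp only [LinearMap.comp_apply]
      rw [permRep_single]
      change L F (Pi.single (g⁻¹ • x) 1) (g⁻¹ • y) = _
      rw [hL, hL]
      congr 1
      apply Quotient.sound'
      rw [MulAction.orbitRel_apply]
      exact ⟨g⁻¹, rfl⟩
    · intro h
      refine ⟨Quotient.lift (fun xy => φ (Pi.single xy.1 1) xy.2) ?_, ?_⟩
      · intro a b hab
        have hab' : (MulAction.orbitRel G (Ω₁ × Ω₂)) a b := hab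
        rw [MulAction.orbitRel_apply] at hab'
        obtain ⟨g, rfl⟩ := hab'
        have := congrFun (LinearMap.congr_fun (h g⁻¹) (Pi.single b.1 1)) b.2
        rw [Representation.linHom_apply] at this
        simp only [LinearMap.comp_apply] at this
        rw [permRep_single] at this
        rw [← this]
        change φ (Pi.single (g • b.1) 1) (g • b.2) = φ (Pi.single (g⁻¹⁻¹ • b.1) 1) (g⁻¹⁻¹ • b.2)
        rw [inv_inv]
      · apply hext
        intro x y
        rw [hL]
        rfl
  rw [← hrange, LinearMap.finrank_range_of_inj hinj, Module.finrank_fintype_fun_eq_card,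
    Nat.card_eq_fintype_card]

end Cfsg.Agent.S0668
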