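import Cfsg.Statements.S0675
import Cfsg.Agent.Perm.PrimeDegree

set_option autoImplicit false
open Cfsg

namespace Cfsg.Agent.S0675

open CL.Perm

/-- Burnside's Theorem on permutation groups of prime degree: a transitive permutation group of prime degree that is not solvable is doubly transitive. -/
theorem result {α : Type*} [Fintype α] [DecidableEq α] (hα : (Fintype.card α).Prime) (G : Subgroup (Equiv.Perm α)) [MulAction.IsPretransitive G α] : Group.IsSolvable G ∨ MulAction.IsMultiplyPretransitive G α 2 := by
  have : Fact (Fintype.card α).Prime := ⟨hα⟩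
  have hα' : Nat.card α = Fintype.card α := Nat.card_eq_fintype_card
  obtain ⟨σ, hσ⟩ := exists_orderOf_eq_of_transitive (G := G) hα'
  obtain ⟨a⟩ : Nonempty α := Fintype.card_pos_iff.1 hα.pos
  obtain ⟨e, -, he⟩ := exists_coords hα' hσ a
  rcases affine_or_two_transitive he with h | h
  · exact Or.inl (isSolvable_of_affine e h)
  · exact Or.inr h

end Cfsg.Agent.S0675
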