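import Cfsg.Statements.S0677
import Cfsg.Agent.Perm.PrimeDegree2

set_option autoImplicit false
open Cfsg

namespace Cfsg.Agent.S0677

open CL.Perm

theorem general {G : Type*} [Group G] [Finite G] {α : Type*} [MulAction G α] [FaithfulSMul G α]
    {p : ℕ} [Fact p.Prime] (hα : Nat.card α = p) [MulAction.IsPretransitive G α] (P : Sylow p G)
    (heven : Even (Nat.card (Subgroup.normalizer ((P : Subgroup G) : Set G))))
    (H : Subgroup G) (hH : H.index = p) : ∃ a : α, H = MulAction.stabilizer G a := by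
  classical
  have hp : p.Prime := Fact.out
  obtain ⟨a₀⟩ : Nonempty α := (Nat.card_pos_iff.1 (by rw [hα]; exact hp.pos)).1
  have hHp : ¬ p ∣ Nat.card H := by
    intro h
    apply not_sq_dvd_card_of_prime_degree (G := G) hα
    rw [← H.card_mul_index, hH, pow_two]
    exact Nat.mul_dvd_mul_right h p
  suffices h : ∃ a : α, ∀ g ∈ H, g • a = a by
    obtain ⟨a, ha⟩ := h
    refine ⟨a, Subgroup.eq_of_le_of_card_ge ha ?_⟩
    have h1 := H.card_mul_index
    have h2 := (MulAction.stabilizer G a).card_mul_index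
    rw [MulAction.index_stabilizer_of_transitive, hα] at h2
    rw [hH, ← h2] at h1
    exact (Nat.eq_of_mul_eq_mul_right hp.pos h1).ge
  by_cases haff : ∃ e : ZMod p ≃ α, ∀ g : G, IsAffineIn e g
  · obtain ⟨e, he⟩ := haff
    obtain ⟨x, hx⟩ := exists_fixed_of_affine (G := H) e (fun g => he (g : G)) hHp
    exact ⟨x, fun g hg => hx ⟨g, hg⟩⟩
  have hp2 : p ≠ 2 := by
    intro h2
    obtain ⟨σ, hσ⟩ := exists_orderOf_eq_of_transitive (G := G) hα
    obtain ⟨e, -, he⟩ := exists_coords hα hσ a₀
    exact haff ⟨e, affine_of_le_three (by omega) e⟩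
  obtain ⟨σ, t, e, -, hσ, ht⟩ := exists_coords_neg hα hp2 P heven
  have htr : MulAction.IsMultiplyPretransitive G α 2 :=
    (affine_or_two_transitive hσ).resolve_left fun h => haff ⟨e, h⟩
  rw [MulAction.is_two_pretransitive_iff] at htr
  have hσo := orderOf_of_coords hσ
  have hσt : σ * t * σ = t := eq_of_coords e fun j => by
    simp only [mul_smul, hσ, ht]; congr 1; ring
  have htt : t * t = 1 := eq_of_coords e fun j => by simp only [mul_smul, ht, one_smul, neg_neg]
  obtain ⟨x₀, hx₀, hx₀'⟩ := existsUnique_fixed_of_inverts hp2 hσ hσt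
  -- the action on the cosets of `H`
  have hβ : Nat.card (G ⧸ H) = p := hH
  have hfix : ∀ (g : G) (c : G ⧸ H), g • c = c → orderOf g ∣ Nat.card H := by
    intro g c hc
    obtain ⟨k, rfl⟩ := QuotientGroup.mk_surjective c
    have h1 : ((g * k : G) : G ⧸ H) = (k : G ⧸ H) := hc
    have h2 := QuotientGroup.eq.1 h1.symm
    have h3 := Subgroup.orderOf_dvd_natCard H h2
    have h4 : orderOf (k⁻¹ * (g * k)) = orderOf g := by
      rw [← orderOf_injective (MulAut.conj k).toMonoidHom (MulAut.conj k).injective]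
      congr 1
      simp [mul_assoc]
    rwa [h4] at h3
  let φ := MulAction.toPermHom G (G ⧸ H)
  have hφσ : orderOf (φ σ) = p := by
    apply orderOf_eq_prime
    · rw [← map_pow, ← hσo, pow_orderOf_eq_one, map_one]
    · intro h
      apply hHp
      rw [← hσo]
      exact hfix σ ((1 : G) : G ⧸ H) (by simpa [φ] using DFunLike.congr_fun h ((1 : G) : G ⧸ H))
  obtain ⟨e', -, he'⟩ := exists_coords hβ hφσ ((1 : G) : G ⧸ H)
  obtain ⟨c₀, hc₀, hc₀'⟩ := existsUnique_fixed_of_inverts hp2 (t := φ t) he'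
    (by rw [← map_mul, ← map_mul, hσt])
  have hc₁ : t • c₀ = c₀ := hc₀
  have hc₂ : ∀ c : G ⧸ H, t • c = c → c = c₀ := hc₀'
  -- incidence
  let I : α → G ⧸ H → Prop := fun x c => ∃ g : G, g • a₀ = x ∧ (g : G ⧸ H) = c
  have hI : ∀ (g : G) x c, I (g • x) (g • c) ↔ I x c := by
    intro g x c
    constructor
    · rintro ⟨k, h1, h2⟩
      refine ⟨g⁻¹ * k, by rw [mul_smul, h1, inv_smul_smul], ?_⟩
      change g⁻¹ • (k : G ⧸ H) = c
      rw [h2, inv_smul_smul]
    · rintro ⟨k, h1, h2⟩
      refine ⟨g * k, by rw [mul_smul, h1], ?_⟩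
      change g • (k : G ⧸ H) = g • c
      rw [h2]
  have := Fintype.ofFinite (G ⧸ H)
  let N : α → α → ZMod 2 := fun x y => ∑ c : G ⧸ H, if I x c ∧ I y c then 1 else 0
  have hN : ∀ (g : G) x y, N (g • x) (g • y) = N x y := by
    intro g x y
    symm
    refine Fintype.sum_equiv (MulAction.toPerm g) _ _ fun c => ?_
    simp only [MulAction.toPerm_apply, hI]
  have hNt : ∀ x, N x (t • x) = if I x c₀ then 1 else 0 := by
    intro x
    have h1 : ∀ c, (I x (t • c) ∧ I (t • x) (t • c)) ↔ (I x c ∧ I (t • x) c) := by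
      intro c
      rw [hI, and_comm, ← hI t (t • x) c, smul_smul, htt, one_smul]
    have h2 : ∑ c ∈ Finset.univ.erase c₀, (if I x c ∧ I (t • x) c then (1 : ZMod 2) else 0) = 0 := by
      refine Finset.sum_involution (fun c _ => t • c) ?_ ?_ ?_ ?_
      · intro c _
        simp only [h1]
        split_ifs
        · rfl
        · rfl
      · intro c hc _ h
        exact (Finset.mem_erase.1 hc).1 (hc₂ c h)
      · intro c hc
        refine Finset.mem_erase.2 ⟨fun h => (Finset.mem_erase.1 hc).1 ?_, Finset.mem_univ _⟩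
        exact smul_left_cancel t (h.trans hc₁.symm)
      · intro c _
        rw [smul_smul, htt, one_smul]
    change ∑ c : G ⧸ H, (if I x c ∧ I (t • x) c then (1 : ZMod 2) else 0) = _
    rw [← Finset.add_sum_erase _ _ (Finset.mem_univ c₀), h2, add_zero]
    have h3 : I (t • x) c₀ ↔ I x c₀ := by rw [← hI t x c₀, hc₁]
    simp only [h3, and_self]
  have hconst : ∀ x y, x ≠ x₀ → y ≠ x₀ → I x c₀ → I y c₀ := by
    intro x y hx hy hxc
    obtain ⟨g, h1, h2⟩ := htr (a := x) (b := t • x) (c := y) (d := t • y)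
      (fun h => hx (hx₀' x h.symm)) (fun h => hy (hx₀' y h.symm))
    have h3 := hN g x (t • x)
    rw [h1, h2, hNt, hNt, if_pos hxc] at h3
    by_contra h4
    rw [if_neg h4] at h3
    exact absurd h3 (by decide)
  obtain ⟨k, rfl⟩ := QuotientGroup.mk_surjective c₀
  -- the set of points incident with `c₀` is non-empty and proper
  have hne : I (k • a₀) (k : G ⧸ H) := ⟨k, rfl, rfl⟩
  have hprop : ∃ x, ¬ I x (k : G ⧸ H) := by
    by_contra hh
    push Not at hh
    apply hHp
    have : MulAction.IsPretransitive H α := by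
      rw [MulAction.isPretransitive_iff_base a₀]
      intro x
      obtain ⟨g, h1, h2⟩ := hh (k • x)
      exact ⟨⟨k⁻¹ * g, QuotientGroup.eq.1 h2.symm⟩, by
        change (k⁻¹ * g) • a₀ = x
        rw [mul_smul, h1, inv_smul_smul]⟩
    exact prime_dvd_card_of_transitive hα
  have hstab : ∀ s : G, s • (k : G ⧸ H) = k → s • x₀ = x₀ := by
    intro s hs
    by_contra hsx
    have h1 : I (s • x₀) k ↔ I x₀ k := by rw [← hI s x₀, hs]
    by_cases h2 : I x₀ k
    · obtain ⟨y, hy⟩ := hprop
      by_cases hy0 : y = x₀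
      · exact hy (hy0 ▸ h2)
      · exact hy (hconst _ _ hsx hy0 (h1.2 h2))
    · by_cases h3 : k • a₀ = x₀
      · exact h2 (h3 ▸ hne)
      · exact h2 (h1.1 (hconst _ _ h3 hsx hne))
  refine ⟨k⁻¹ • x₀, fun g hg => ?_⟩
  have := hstab (k * g * k⁻¹) (by
    change ((k * g * k⁻¹ * k : G) : G ⧸ H) = k
    rw [eq_comm, QuotientGroup.eq]
    simpa [mul_assoc] using hg)
  rw [eq_inv_smul_iff, smul_smul, smul_smul, this]

/-- In a transitive permutation group of prime degree `p` whose Sylow `p`-normaliser has even order, the point stabilisers are the only subgroups of index `p`. -/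
theorem result {α : Type*} [Fintype α] [DecidableEq α] {p : ℕ} [Fact p.Prime] (hα : Fintype.card α = p) (G : Subgroup (Equiv.Perm α)) [MulAction.IsPretransitive G α] (P : Sylow p G) (heven : Even (Nat.card (Subgroup.normalizer ((P : Subgroup G) : Set G)))) (H : Subgroup G) (hH : H.index = p) : ∃ a : α, H = MulAction.stabilizer G a :=
  general (by rw [Nat.card_eq_fintype_card, hα]) P heven H hH

end Cfsg.Agent.S0677
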