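import Cfsg.Statements.S0682
import Cfsg.Agent.Perm.NearField

set_option autoImplicit false
open Cfsg

namespace Cfsg.Agent.S0682

/-- A finite near-field has prime-power order; its additive group is commutative of prime exponent. -/
theorem result {F : Type*} [Cfsg.NearField F] [Finite F] : ∃ p j : ℕ, p.Prime ∧ 1 ≤ j ∧ Nat.card F = p ^ j ∧ (∀ x y : F, x + y = y + x) ∧ ∀ x : F, p • x = 0 := by
  have : Nontrivial F := CL.Perm.nf_nontrivial
  have h := CL.Perm.nfAffine_isSharp2 (F := F)
  obtain ⟨p, j, hp, hj, hc, hall⟩ := h.exists_prime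
  have htr : ∀ b : F, ∃ t ∈ h.kernel, ∀ x : F, t • x = x + b := by
    intro b
    obtain ⟨σ, hσ⟩ := CL.Perm.nf_exists_perm (NearField.zero_ne_one (F := F)).symm b
    refine ⟨⟨σ, 1, b, NearField.zero_ne_one.symm, hσ⟩, ?_, fun x => ?_⟩
    · by_cases hb : b = 0
      · left
        ext x
        simp [hσ, hb]
      · right
        intro a ha
        change σ a = a at ha
        rw [hσ, mul_one] at ha
        exact hb (add_eq_left.mp ha)
    · change σ x = _
      rw [hσ, mul_one]
  refine ⟨p, j, hp, hj, hc, fun x y => ?_, fun x => ?_⟩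
  · obtain ⟨s, hs, hsx⟩ := htr x
    obtain ⟨t, ht, hty⟩ := htr y
    have := congrArg (fun g => g • (0 : F)) (h.kernel_comm ht hs)
    simpa only [mul_smul, hsx, hty, zero_add] using this
  · obtain ⟨s, hs, hsx⟩ := htr x
    have key : ∀ n : ℕ, s ^ n • (0 : F) = n • x := by
      intro n
      induction n with
      | zero => simp
      | succ n ih => rw [pow_succ', mul_smul, ih, hsx, succ_nsmul]
    rw [← key, hall s hs, one_smul]

end Cfsg.Agent.S0682
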