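import Cfsg.Statements.S0683
import Cfsg.Agent.Perm.NearField

set_option autoImplicit false
open Cfsg

namespace Cfsg.Agent.S0683

/-- A finite sharply doubly transitive permutation group is the affine group of a near-field: the permuted set carries a near-field structure for which the group consists exactly of the maps `x ↦ x * a + b` with `a ≠ 0`. -/
theorem result {α : Type*} [Fintype α] [DecidableEq α] (H : Subgroup (Equiv.Perm α)) [MulAction.IsMultiplyPretransitive H α 2] (hsharp : ∀ x : Fin 2 ↪ α, MulAction.stabilizer H x = ⊥) (h2 : 2 ≤ Fintype.card α) : ∃ _ : Cfsg.NearField α, ∀ σ : Equiv.Perm α, σ ∈ H ↔ ∃ a b : α, a ≠ 0 ∧ ∀ x : α, σ x = x * a + b := by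
  have h : CL.Perm.IsSharp2 H α := CL.Perm.isSharp2_of inferInstance hsharp
  have : Nontrivial α := Fintype.one_lt_card_iff_nontrivial.mp h2
  obtain ⟨e0, e1, he⟩ := exists_pair_ne α
  obtain ⟨N, h0, h1, htr, hker, hmul, hstab⟩ := h.exists_nearField he
  refine ⟨N, fun σ => ⟨fun hσ => ?_, ?_⟩⟩
  · obtain ⟨t, ht, htx⟩ := htr (σ e0)
    have hte : t • e0 = σ e0 := by rw [htx, ← h0, zero_add]
    have hg : (t⁻¹ * ⟨σ, hσ⟩) • e0 = e0 := by
      rw [mul_smul, inv_smul_eq_iff, hte]; rfl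
    refine ⟨(t⁻¹ * ⟨σ, hσ⟩) • e1, σ e0, ?_, fun x => ?_⟩
    · intro hc
      rw [h0] at hc
      exact he (smul_left_cancel _ (hg.trans hc.symm))
    · rw [← hstab _ hg x, ← htx, mul_smul, smul_inv_smul]; rfl
  · rintro ⟨a, b, ha, hσ⟩
    obtain ⟨t, -, htx⟩ := htr b
    obtain ⟨m, hm⟩ := hmul a ha
    have : σ = ((t * m : H) : Equiv.Perm α) := by
      ext x
      rw [hσ, ← hm, ← htx, ← mul_smul]; rfl
    rw [this]
    exact (t * m).2

end Cfsg.Agent.S0683
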