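import Cfsg.Statements.S0684
import Cfsg.Agent.Perm.FCReg

set_option autoImplicit false
open Cfsg

namespace Cfsg.Agent.S0684

/-- Point stabiliser of a sharply doubly transitive group not of semilinear type: a maximal normal abelian subgroup `A` of a linear group `H` that is regular on non-zero vectors and has no irreducible cyclic normal subgroup is cyclic and reducible, and the order of `A` divides `p ^ k - 1` for `k` the dimension of a minimal `A`-invariant subspace. -/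
theorem result {p : ℕ} [Fact p.Prime] {V : Type*} [AddCommGroup V] [Module (ZMod p) V] [Finite V] (H : Subgroup (V ≃ₗ[ZMod p] V)) (hreg : ∀ v w : V, v ≠ 0 → w ≠ 0 → ∃! h : H, (h : V ≃ₗ[ZMod p] V) v = w) (hI : ∀ A : Subgroup H, A.Normal → IsCyclic A → ∃ W : Submodule (ZMod p) V, W ≠ ⊥ ∧ W ≠ ⊤ ∧ ∀ a ∈ A, ∀ v ∈ W, ((a : H) : V ≃ₗ[ZMod p] V) v ∈ W) (A : Subgroup H) (hAn : A.Normal) (hAc : IsMulCommutative A) (hAmax : ∀ B : Subgroup H, B.Normal → IsMulCommutative B → A ≤ B → B = A) : IsCyclic A ∧ ∃ W : Submodule (ZMod p) V, W ≠ ⊥ ∧ W ≠ ⊤ ∧ (∀ a ∈ A, ∀ v ∈ W, ((a : H) : V ≃ₗ[ZMod p] V) v ∈ W) ∧ (∀ W' : Submodule (ZMod p) V, W' ≤ W → (∀ a ∈ A, ∀ v ∈ W', ((a : H) : V ≃ₗ[ZMod p] V) v ∈ W') → W' = ⊥ ∨ W' = W) ∧ Nat.card A ∣ p ^ Module.finrank (ZMod p) W - 1 := by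
  have hreg' : CL.Perm.IsReg H := hreg
  obtain ⟨U₀, hU₀, -, -⟩ := hI ⊥ inferInstance inferInstance
  have hnt := CL.Perm.nontrivial_of_submodule_ne_bot hU₀
  have hfin := CL.Perm.finite_linearEquiv (p := p) (V := V)
  have hc : IsCyclic A := (hreg'.isFpf.subgroup A).isCyclic_of_isMulCommutative
  obtain ⟨U, hU0, hU1, hU⟩ := hI A hAn hc
  obtain ⟨W, h1, h2, h3, h4⟩ := CL.Perm.exists_min_invariant_le A U hU0 hU
  refine ⟨hc, W, h2, fun h => hU1 (top_le_iff.mp (h ▸ h1)), h3, h4, ?_⟩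
  rw [← CL.Perm.card_submodule]
  exact hreg'.card_dvd A W h3

end Cfsg.Agent.S0684
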