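import Cfsg.Statements.S0687
import Cfsg.Agent.Perm.FCReg2

set_option autoImplicit false
open Cfsg

namespace Cfsg.Agent.S0687

/-- In a linear group over the prime field that is regular on non-zero vectors and has no irreducible cyclic normal subgroup, a normal subgroup `N` minimal among the non-abelian normal subgroups centralising a maximal normal abelian subgroup `A` is irreducible on `V`, and its centraliser is `A`. -/
theorem result {p : ℕ} [Fact p.Prime] {V : Type*} [AddCommGroup V] [Module (ZMod p) V] [Finite V] (H : Subgroup (V ≃ₗ[ZMod p] V)) (hreg : ∀ v w : V, v ≠ 0 → w ≠ 0 → ∃! h : H, (h : V ≃ₗ[ZMod p] V) v = w) (hI : ∀ A : Subgroup H, A.Normal → IsCyclic A → ∃ W : Submodule (ZMod p) V, W ≠ ⊥ ∧ W ≠ ⊤ ∧ ∀ a ∈ A, ∀ v ∈ W, ((a : H) : V ≃ₗ[ZMod p] V) v ∈ W) (A : Subgroup H) (hAn : A.Normal) (hAc : IsMulCommutative A) (hAmax : ∀ B : Subgroup H, B.Normal → IsMulCommutative B → A ≤ B → B = A) (N : Subgroup H) (hNn : N.Normal) (hNle : N ≤ Subgroup.centralizer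 (A : Set H)) (hNna : ¬ IsMulCommutative N) (hNmin : ∀ M : Subgroup H, M.Normal → M ≤ N → ¬ IsMulCommutative M → M = N) : (∀ W : Submodule (ZMod p) V, (∀ n ∈ N, ∀ v ∈ W, ((n : H) : V ≃ₗ[ZMod p] V) v ∈ W) → W = ⊥ ∨ W = ⊤) ∧ Subgroup.centralizer (N : Set H) = A := by
  have hreg' : CL.Perm.IsReg H := hreg
  obtain ⟨U₀, hU₀, -, -⟩ := hI ⊥ inferInstance inferInstance
  have hnt := CL.Perm.nontrivial_of_submodule_ne_bot hU₀
  have hfin := CL.Perm.finite_linearEquiv (p := p) (V := V)
  have key : ∃ s : ℕ, s.Prime ∧ Nat.card V = s * s ∧ ¬ Nat.card N ∣ s - 1 ∧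
      ∃ i ∈ N, ∃ j ∈ N, CL.Perm.IsQPair i j := by
    rcases hreg'.isFpf.quaternion_or_sl25 A hAmax N hNle hNna hNmin with ⟨⟨e⟩⟩ | ⟨⟨e⟩⟩
    · have h1 : Nat.card N = 8 := by
        rw [Nat.card_congr e.toEquiv, Nat.card_eq_fintype_card, QuaternionGroup.card]
      have h2 := CL.Perm.exists_isQPair_of_equiv e (CL.Perm.isQPair_quaternion 0)
      rw [h1]
      rcases hreg'.card_of_quaternion hI N e with h | h | h | h <;>
        exact ⟨_, by norm_num, h, by norm_num, h2⟩
    · have h1 : Nat.card N = 120 := by rw [Nat.card_congr e.toEquiv, CL.Perm.card_sl25]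
      have h2 := CL.Perm.exists_isQPair_of_equiv e CL.Perm.isQPair_sl25
      have hns : ¬ Group.IsSolvable H := by
        intro h
        have : Nontrivial (Matrix.SpecialLinearGroup (Fin 2) (ZMod 5)) :=
          Finite.one_lt_card_iff_nontrivial.mp (by rw [CL.Perm.card_sl25]; norm_num)
        exact CL.Perm.not_isSolvable_of_perfect CL.Perm.sl25_perfect
          (Group.isSolvable_of_surjective (f := e.toMonoidHom) e.surjective)
      rw [h1]
      obtain ⟨m, hm, -⟩ := hreg'.card_of_not_isSolvable hns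
      rcases hm with h | h | h <;> exact ⟨_, by norm_num, h.1, by norm_num, h2⟩
  obtain ⟨s, hs, hV, hd, i, hi, j, hj, hij⟩ := key
  constructor
  · intro W hW
    by_contra h
    push Not at h
    exact hd (CL.Perm.card_submodule_eq_of_prime hs hV W h.1 h.2 ▸ hreg'.card_dvd N W hW)
  · obtain ⟨s', t, h1, -, -, -, -, h2⟩ := hreg'.exists_sqrt hi hj hij
    have h3 : s' = s := Nat.mul_self_inj.mp (h1.symm.trans hV)
    exact hAmax _ inferInstance (h2 (h3 ▸ hs)) (Subgroup.le_centralizer_iff.mp hNle)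

end Cfsg.Agent.S0687
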