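import Cfsg.Statements.S0688
import Cfsg.Agent.Perm.FCReg2
import Cfsg.Agent.S0685

set_option autoImplicit false
open Cfsg

namespace Cfsg.Agent.S0688

/-- Degrees of the soluble exceptional sharply doubly transitive groups: if a solvable linear group over the prime field is regular on the non-zero vectors of `V` and has no irreducible cyclic normal subgroup, then `V` has 25, 49, 121 or 529 elements. -/
theorem result {p : ℕ} [Fact p.Prime] {V : Type*} [AddCommGroup V] [Module (ZMod p) V] [Finite V] (H : Subgroup (V ≃ₗ[ZMod p] V)) (hreg : ∀ v w : V, v ≠ 0 → w ≠ 0 → ∃! h : H, (h : V ≃ₗ[ZMod p] V) v = w) (hI : ∀ A : Subgroup H, A.Normal → IsCyclic A → ∃ W : Submodule (ZMod p) V, W ≠ ⊥ ∧ W ≠ ⊤ ∧ ∀ a ∈ A, ∀ v ∈ W, ((a : H) : V ≃ₗ[ZMod p] V) v ∈ W) (hsolv : Group.IsSolvable H) : Nat.card V = 25 ∨ Nat.card V = 49 ∨ Nat.card V = 121 ∨ Nat.card V = 529 := by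
  have hreg' : CL.Perm.IsReg H := hreg
  obtain ⟨U₀, hU₀, -, -⟩ := hI ⊥ inferInstance inferInstance
  have hnt := CL.Perm.nontrivial_of_submodule_ne_bot hU₀
  have hfin := CL.Perm.finite_linearEquiv (p := p) (V := V)
  obtain ⟨A, ⟨hAn, hAc⟩, hAmax⟩ := WellFounded.has_min (wellFounded_gt (α := Subgroup H))
    {A : Subgroup H | A.Normal ∧ IsMulCommutative A} ⟨⊥, inferInstance, inferInstance⟩
  have hAmax' : ∀ B : Subgroup H, B.Normal → IsMulCommutative B → A ≤ B → B = A :=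
    fun B h1 h2 h3 => (h3.eq_or_lt.resolve_right (hAmax B ⟨h1, h2⟩)).symm
  obtain ⟨N, ⟨hNn, hNle, hNna⟩, hNmin⟩ := WellFounded.has_min (wellFounded_lt (α := Subgroup H))
    {N : Subgroup H | N.Normal ∧ N ≤ Subgroup.centralizer (A : Set H) ∧ ¬ IsMulCommutative N}
    ⟨_, inferInstance, le_rfl, (Cfsg.Agent.S0685.result H hreg hI A hAn hAc hAmax').2⟩
  rcases hreg'.isFpf.quaternion_or_sl25 A hAmax' N hNle hNna
    (fun M h1 h2 h3 => h2.eq_or_lt.resolve_right (hNmin M ⟨h1, h2.trans hNle, h3⟩)) with ⟨⟨e⟩⟩ | ⟨⟨e⟩⟩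
  · exact hreg'.card_of_quaternion hI N e
  · have : Nontrivial (Matrix.SpecialLinearGroup (Fin 2) (ZMod 5)) :=
      Finite.one_lt_card_iff_nontrivial.mp (by rw [CL.Perm.card_sl25]; norm_num)
    exact absurd (Group.isSolvable_of_surjective (f := e.toMonoidHom) e.surjective)
      (CL.Perm.not_isSolvable_of_perfect CL.Perm.sl25_perfect)

end Cfsg.Agent.S0688
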