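import Cfsg.Statements.S0691
import Cfsg.Agent.Perm.RegularGL2

set_option autoImplicit false
open Cfsg

namespace Cfsg.Agent.S0691

/-- packed table: second column of the group element with given first column, and distance to `(1,0)` -/
def tbl : ℕ := 0x40830821020811020821000410c30440c10430420420021031041041010c40830c00c30c30c40c30420c20010010010800c20020c0100000

def ent (a c : ZMod 5) : ℕ := (tbl >>> (18 * (a.val * 5 + c.val))) % 262144

def T1 (a c : ZMod 5) : ZMod 5 := ((ent a c % 64 : ℕ) : ZMod 5)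
def T2 (a c : ZMod 5) : ZMod 5 := ((ent a c / 64 % 64 : ℕ) : ZMod 5)
def D (a c : ZMod 5) : ℕ := ent a c / 4096

theorem commA : ∀ a c : ZMod 5, ¬ (a = 0 ∧ c = 0) →
    2 * T1 a c + 0 * T2 a c = T1 (2 * a + 0 * c) (0 * a + 3 * c) ∧
    0 * T1 a c + 3 * T2 a c = T2 (2 * a + 0 * c) (0 * a + 3 * c) := by
  decide +kernel

theorem commB : ∀ a c : ZMod 5, ¬ (a = 0 ∧ c = 0) →
    0 * T1 a c + 4 * T2 a c = T1 (0 * a + 4 * c) (1 * a + 0 * c) ∧
    1 * T1 a c + 0 * T2 a c = T2 (0 * a + 4 * c) (1 * a + 0 * c) := by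
  decide +kernel

theorem commC : ∀ a c : ZMod 5, ¬ (a = 0 ∧ c = 0) →
    1 * T1 a c + 2 * T2 a c = T1 (1 * a + 2 * c) (1 * a + 3 * c) ∧
    1 * T1 a c + 3 * T2 a c = T2 (1 * a + 2 * c) (1 * a + 3 * c) := by
  decide +kernel

theorem dist : ∀ a c : ZMod 5, ¬ (a = 0 ∧ c = 0) → (a = 1 ∧ c = 0) ∨
      D (2 * a + 0 * c) (0 * a + 3 * c) < D a c ∨
      D (0 * a + 4 * c) (1 * a + 0 * c) < D a c ∨
      D (1 * a + 2 * c) (1 * a + 3 * c) < D a c := by
  decide +kernel

local instance factPrime : Fact (Nat.Prime 5) := ⟨by norm_num⟩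


/-- An exceptional sharply doubly transitive group of degree 5^2: the listed matrices generate a subgroup of GL(2,5) of order 24 acting regularly on the non-zero vectors. -/
theorem result (A : Matrix.GeneralLinearGroup (Fin 2) (ZMod 5)) (B : Matrix.GeneralLinearGroup (Fin 2) (ZMod 5)) (C : Matrix.GeneralLinearGroup (Fin 2) (ZMod 5)) (hA : (A : Matrix (Fin 2) (Fin 2) (ZMod 5)) = !![2, 0; 0, -2]) (hB : (B : Matrix (Fin 2) (Fin 2) (ZMod 5)) = !![0, -1; 1, 0]) (hC : (C : Matrix (Fin 2) (Fin 2) (ZMod 5)) = !![1, 2; 1, -2]) : Nat.card (Subgroup.closure ({A, B, C} : Set (Matrix.GeneralLinearGroup (Fin 2) (ZMod 5)))) = 24 ∧ ∀ v w : Fin 2 → ZMod 5, v ≠ 0 → w ≠ 0 → ∃! h : Subgroup.closure ({A, B, C} : Set (Matrix.GeneralLinearGroup (Fin 2) (ZMod 5))), Matrix.mulVec ((h : Matrix.GeneralLinearGroup (Fin 2) (ZMod 5)) : Matrix (Fin 2) (Fin 2) (ZMod 5)) v = w := by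
  have eA00 : A.1 0 0 = 2 := by rw [hA]; decide +kernel
  have eA01 : A.1 0 1 = 0 := by rw [hA]; decide +kernel
  have eA10 : A.1 1 0 = 0 := by rw [hA]; decide +kernel
  have eA11 : A.1 1 1 = 3 := by rw [hA]; decide +kernel
  have eB00 : B.1 0 0 = 0 := by rw [hB]; decide +kernel
  have eB01 : B.1 0 1 = 4 := by rw [hB]; decide +kernel
  have eB10 : B.1 1 0 = 1 := by rw [hB]; decide +kernel
  have eB11 : B.1 1 1 = 0 := by rw [hB]; decide +kernel
  have eC00 : C.1 0 0 = 1 := by rw [hC]; decide +kernel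
  have eC01 : C.1 0 1 = 2 := by rw [hC]; decide +kernel
  have eC10 : C.1 1 0 = 1 := by rw [hC]; decide +kernel
  have eC11 : C.1 1 1 = 3 := by rw [hC]; decide +kernel
  have := CL.Perm.regular_of_certificate ({A, B, C} : Set (Matrix.GeneralLinearGroup (Fin 2) (ZMod 5))) T1 T2 D
    (by decide +kernel) (by decide +kernel) ?_ ?_
  · rw [Nat.card_zmod] at this
    exact this
  · rintro g (rfl | rfl | rfl)
    · rw [eA00, eA01, eA10, eA11]; exact commA
    · rw [eB00, eB01, eB10, eB11]; exact commB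
    · rw [eC00, eC01, eC10, eC11]; exact commC
  · intro a c hac
    rcases dist a c hac with h | h | h | h
    · exact Or.inl h
    · exact Or.inr ⟨A, by simp, by rw [eA00, eA01, eA10, eA11]; exact h⟩
    · exact Or.inr ⟨B, by simp, by rw [eB00, eB01, eB10, eB11]; exact h⟩
    · exact Or.inr ⟨C, by simp, by rw [eC00, eC01, eC10, eC11]; exact h⟩

end Cfsg.Agent.S0691
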