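import Cfsg.Statements.S0694
import Cfsg.Agent.Base

set_option autoImplicit false
open Cfsg

namespace Cfsg.Agent.S0694

def S (q i : ℕ) : ℕ := ∑ j ∈ Finset.range i, q ^ j

theorem S_mul {q : ℕ} (hq : 2 ≤ q) (i : ℕ) : S q i * (q - 1) = q ^ i - 1 := by
  unfold S
  rw [Nat.geomSum_eq hq]
  exact Nat.div_mul_cancel (by simpa using Nat.sub_dvd_pow_sub_pow q 1 i)

theorem modEq_iff {q : ℕ} (hq : 2 ≤ q) (n i : ℕ) : q ^ i ≡ 1 [MOD n * (q - 1)] ↔ n ∣ S q i := by
  rw [Nat.ModEq.comm, Nat.modEq_iff_dvd' (Nat.one_le_pow _ _ (by omega)), ← S_mul hq,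
    Nat.mul_dvd_mul_iff_right (by omega)]

theorem S_ne_zero {q : ℕ} (hq : 2 ≤ q) {i : ℕ} (hi : i ≠ 0) : S q i ≠ 0 := by
  intro h
  have h1 := S_mul hq i
  rw [h, zero_mul] at h1
  have : 1 < q ^ i := Nat.one_lt_pow hi (by omega)
  omega

theorem S_dvd {q : ℕ} (hq : 2 ≤ q) {i j : ℕ} (h : i ∣ j) : S q i ∣ S q j := by
  rw [← Nat.mul_dvd_mul_iff_right (show 0 < q - 1 by omega), S_mul hq, S_mul hq]
  exact Nat.pow_sub_one_dvd_pow_sub_one q h

theorem dvd_S_iff {q r : ℕ} (hq : 2 ≤ q) (hr : r ∣ q - 1) (i : ℕ) : r ∣ S q i ↔ r ∣ i := by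
  have h1 : q ≡ 1 [MOD r] := ((Nat.modEq_iff_dvd' (by omega)).mpr hr).symm
  have : S q i ≡ i [MOD r] := by
    induction i with
    | zero => simp [S, Nat.ModEq]
    | succ i ih =>
      have e : S q (i + 1) = S q i + q ^ i := Finset.sum_range_succ _ _
      rw [e]
      exact ih.add (by simpa using h1.pow i)
  rw [← Nat.modEq_zero_iff_dvd, ← Nat.modEq_zero_iff_dvd]
  exact ⟨fun h => this.symm.trans h, fun h => this.trans h⟩

theorem val_S {q r : ℕ} (hq : 2 ≤ q) (hp : r.Prime) (hr : r ∣ q - 1) (h4 : r = 2 → 4 ∣ q - 1) {i : ℕ}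
    (hi : i ≠ 0) : padicValNat r (S q i) = padicValNat r i := by
  have := Fact.mk hp
  have hrq : ¬ r ∣ q := by
    intro h
    have := Nat.dvd_sub h hr
    rw [show q - (q - 1) = 1 by omega] at this
    exact hp.one_lt.ne' (Nat.dvd_one.mp this)
  have hm : padicValNat r (q ^ i - 1) = padicValNat r (S q i) + padicValNat r (q - 1) := by
    rw [← S_mul hq, padicValNat.mul (S_ne_zero hq hi) (by omega)]
  rcases hp.eq_two_or_odd' with rfl | hodd
  · rcases Nat.even_or_odd i with he | ho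
    · have h1 := padicValNat.pow_two_sub_one (x := q) (by omega) hrq hi he
      have h2 : padicValNat 2 (q + 1) = 1 := by
        have h3 := h4 rfl
        have a1 : 1 ≤ padicValNat 2 (q + 1) := (padicValNat_dvd_iff_le (by omega)).mp (by omega)
        have a2 : ¬ 2 ≤ padicValNat 2 (q + 1) := fun h => by
          have := (padicValNat_dvd_iff_le (by omega)).mpr h
          omega
        omega
      omega
    · have h1 : ¬ 2 ∣ i := by rw [← even_iff_two_dvd, Nat.not_even_iff_odd]; exact ho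
      rw [padicValNat.eq_zero_of_not_dvd h1,
        padicValNat.eq_zero_of_not_dvd (mt (dvd_S_iff hq hr i).mp h1)]
  · have h1 := padicValNat.pow_sub_pow hodd (x := q) (y := 1) (by omega) hr hrq hi
    rw [one_pow] at h1
    omega

theorem val_S_two {q : ℕ} (hq : 2 ≤ q) (hr : 2 ∣ q - 1) (h4 : ¬ 4 ∣ q - 1) {i : ℕ}
    (hi : i ≠ 0) (he : Even i) : padicValNat 2 i + 1 ≤ padicValNat 2 (S q i) := by
  have hm : padicValNat 2 (q ^ i - 1) = padicValNat 2 (S q i) + padicValNat 2 (q - 1) := by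
    rw [← S_mul hq, padicValNat.mul (S_ne_zero hq hi) (by omega)]
  have h1 := padicValNat.pow_two_sub_one (x := q) (by omega) (by omega) hi he
  have a1 : 2 ≤ padicValNat 2 (q + 1) := (padicValNat_dvd_iff_le (by omega)).mp (by omega)
  omega

theorem good_dvd_iff {q n : ℕ} (hq : 2 ≤ q) (hn : n ≠ 0) (h1 : ∀ r : ℕ, r.Prime → r ∣ n → r ∣ q - 1)
    (h4 : 4 ∣ n → 4 ∣ q - 1) {i : ℕ} (hi : i ≠ 0) : n ∣ S q i ↔ n ∣ i := by
  have key : ∀ r k : ℕ, r.Prime → r ^ k ∣ n → (r ^ k ∣ S q i ↔ r ^ k ∣ i) := by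
    intro r k hp hk
    have := Fact.mk hp
    rcases Nat.eq_zero_or_pos k with rfl | hk0
    · simp
    have hr : r ∣ q - 1 := h1 r hp ((dvd_pow_self r hk0.ne').trans hk)
    by_cases h : r = 2 → 4 ∣ q - 1
    · rw [padicValNat_dvd_iff_le (S_ne_zero hq hi), padicValNat_dvd_iff_le hi, val_S hq hp hr h hi]
    · push Not at h
      obtain ⟨rfl, h⟩ := h
      have hk1 : k = 1 := by
        by_contra hne
        exact h (h4 ((pow_dvd_pow 2 (show 2 ≤ k by omega)).trans hk))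
      subst hk1
      simpa using dvd_S_iff hq hr i
  constructor
  · intro h
    rw [Nat.dvd_iff_prime_pow_dvd_dvd]
    intro r k hp hk
    exact (key r k hp hk).mp (hk.trans h)
  · intro h
    rw [Nat.dvd_iff_prime_pow_dvd_dvd]
    intro r k hp hk
    exact (key r k hp hk).mpr (hk.trans h)

theorem exists_small {q : ℕ} (hq : 2 ≤ q) (n : ℕ) : n ≠ 0 → n.Coprime q →
    ∃ i, 0 < i ∧ i ≤ n ∧ n ∣ S q i ∧
      (((∃ r : ℕ, r.Prime ∧ r ∣ n ∧ ¬ r ∣ q - 1) ∨ (4 ∣ n ∧ ¬ 4 ∣ q - 1)) → i < n) := by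
  induction n using Nat.recOnPosPrimePosCoprime with
  | zero => intro h; exact absurd rfl h
  | one =>
    intro _ _
    refine ⟨1, one_pos, le_rfl, one_dvd _, ?_⟩
    rintro (⟨r, hp, hr, -⟩ | ⟨h, -⟩)
    · exact absurd (Nat.dvd_one.mp hr) hp.one_lt.ne'
    · omega
  | prime_pow r k hp hk =>
    intro hn hc
    have := Fact.mk hp
    by_cases hr : r ∣ q - 1
    · by_cases h4 : 4 ∣ r ^ k → 4 ∣ q - 1
      · refine ⟨r ^ k, Nat.pos_of_ne_zero hn, le_rfl, ?_, ?_⟩
        · refine (good_dvd_iff hq hn ?_ h4 hn).mpr dvd_rfl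
          intro s hs hsd
          rwa [(Nat.prime_dvd_prime_iff_eq hs hp).mp (hs.dvd_of_dvd_pow hsd)]
        · rintro (⟨s, hs, hsd, hns⟩ | ⟨h, h'⟩)
          · rw [(Nat.prime_dvd_prime_iff_eq hs hp).mp (hs.dvd_of_dvd_pow hsd)] at hns
            exact absurd hr hns
          · exact absurd (h4 h) h'
      · push Not at h4
        obtain ⟨h4, h4'⟩ := h4
        have hr2 : r = 2 := ((Nat.prime_dvd_prime_iff_eq Nat.prime_two hp).mp
          (Nat.prime_two.dvd_of_dvd_pow ((show 2 ∣ 4 by norm_num).trans h4))).symm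
        subst hr2
        have hk2 : 2 ≤ k := by
          by_contra hlt
          have : k = 1 := by omega
          subst this
          norm_num at h4
        obtain ⟨m, rfl⟩ : ∃ m, k = m + 2 := ⟨k - 2, by omega⟩
        have hlt : 2 ^ (m + 1) < 2 ^ (m + 2) := Nat.pow_lt_pow_right (by norm_num) (by omega)
        refine ⟨2 ^ (m + 1), by positivity, hlt.le, ?_, fun _ => hlt⟩
        have h5 := val_S_two hq hr h4' (i := 2 ^ (m + 1)) (by positivity) (by
          rw [pow_succ]; exact even_two.mul_left _)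
        rw [padicValNat.prime_pow] at h5
        exact (padicValNat_dvd_iff_le (S_ne_zero hq (by positivity))).mpr h5
    · have hlt : Nat.totient (r ^ k) < r ^ k := Nat.totient_lt _ (Nat.one_lt_pow hk.ne' hp.one_lt)
      refine ⟨Nat.totient (r ^ k), Nat.totient_pos.mpr (Nat.pos_of_ne_zero hn), hlt.le, ?_, fun _ => hlt⟩
      have h1 := Nat.ModEq.pow_totient hc.symm
      rw [Nat.ModEq.comm, Nat.modEq_iff_dvd' (Nat.one_le_pow _ _ (by omega)), ← S_mul hq] at h1
      exact (Nat.Coprime.pow_left k ((hp.coprime_iff_not_dvd).mpr hr)).dvd_of_dvd_mul_right h1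
  | coprime a b ha hb hab iha ihb =>
    intro _ hc
    obtain ⟨i, hi0, hia, hi, hi'⟩ := iha (by omega) (Nat.Coprime.coprime_mul_right hc)
    obtain ⟨j, hj0, hjb, hj, hj'⟩ := ihb (by omega) (Nat.Coprime.coprime_mul_left hc)
    refine ⟨i * j, by positivity, Nat.mul_le_mul hia hjb, ?_, ?_⟩
    · exact hab.mul_dvd_of_dvd_of_dvd (hi.trans (S_dvd hq (dvd_mul_right _ _)))
        (hj.trans (S_dvd hq (dvd_mul_left _ _)))
    · intro hbad
      have : i < a ∨ j < b := by
        rcases hbad with ⟨r, hp, hr, hn⟩ | ⟨h, h'⟩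
        · rcases (hp.dvd_mul).mp hr with h | h
          · exact Or.inl (hi' (Or.inl ⟨r, hp, h, hn⟩))
          · exact Or.inr (hj' (Or.inl ⟨r, hp, h, hn⟩))
        · by_cases h2 : 2 ∣ a
          · have hb2 : Nat.Coprime 4 b :=
              Nat.Coprime.pow_left 2 (Nat.Coprime.coprime_dvd_left h2 hab)
            exact Or.inl (hi' (Or.inr ⟨hb2.dvd_of_dvd_mul_right h, h'⟩))
          · have ha2 : Nat.Coprime 4 a :=
              Nat.Coprime.pow_left 2 ((Nat.prime_two.coprime_iff_not_dvd).mpr h2)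
            exact Or.inr (hj' (Or.inr ⟨ha2.dvd_of_dvd_mul_left h, h'⟩))
      rcases this with h | h
      · exact Nat.mul_lt_mul_of_lt_of_le h hjb (by omega)
      · exact Nat.mul_lt_mul_of_le_of_lt hia h (by omega)


/-- The Dickson pair condition: for a prime power `q` and `n > 1`, (every prime factor of `n` divides `q - 1`, and `4 ∣ n → 4 ∣ q - 1`) holds exactly when `q ^ n ≡ 1` modulo `n * (q - 1)` but `q ^ i` is not, for `0 < i < n`. -/
theorem result (q n : ℕ) (hq : IsPrimePow q) (hn : 1 < n) : ((∀ r : ℕ, r.Prime → r ∣ n → r ∣ q - 1) ∧ (4 ∣ n → 4 ∣ q - 1)) ↔ (q ^ n ≡ 1 [MOD n * (q - 1)] ∧ ∀ i : ℕ, 0 < i → i < n → ¬ q ^ i ≡ 1 [MOD n * (q - 1)]) := by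
  have hq2 : 2 ≤ q := hq.two_le
  constructor
  · rintro ⟨h1, h4⟩
    refine ⟨(modEq_iff hq2 n n).mpr ((good_dvd_iff hq2 (by omega) h1 h4 (by omega)).mpr dvd_rfl), ?_⟩
    intro i hi hin h
    have := (good_dvd_iff hq2 (by omega) h1 h4 (by omega)).mp ((modEq_iff hq2 n i).mp h)
    exact absurd (Nat.le_of_dvd hi this) (by omega)
  · rintro ⟨h1, h2⟩
    have hc : n.Coprime q := by
      have h3 : q ^ n ≡ 1 [MOD n] := h1.of_mul_right _
      have h4 : Nat.Coprime (q ^ n) n := by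
        rw [Nat.Coprime, h3.gcd_eq]; simp
      exact (Nat.Coprime.coprime_dvd_left (dvd_pow_self q (by omega)) h4).symm
    obtain ⟨i, hi0, -, hi, hi'⟩ := exists_small hq2 n (by omega) hc
    have hn' : ¬ i < n := fun h => h2 i hi0 h ((modEq_iff hq2 n i).mpr hi)
    refine ⟨fun r hp hr => ?_, fun h => ?_⟩
    · by_contra hh
      exact hn' (hi' (Or.inl ⟨r, hp, hr, hh⟩))
    · by_contra hh
      exact hn' (hi' (Or.inr ⟨h, hh⟩))

end Cfsg.Agent.S0694
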