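import Cfsg.Statements.S0695
import Cfsg.Agent.Perm.PrimRegNormal

set_option autoImplicit false
open Cfsg

namespace Cfsg.Agent.S0695

/-- A regular normal subgroup of a doubly primitive group of finite degree at least 2 is an elementary abelian 2-group (and the degree is a power of 2), unless the degree is 3. -/
theorem result {G : Type*} [Group G] {X : Type*} [Fintype X] [MulAction G X] (hX : 2 ≤ Fintype.card X) (h2 : MulAction.IsMultiplyPreprimitive G X 2) (N : Subgroup G) [N.Normal] (htrans : MulAction.IsPretransitive N X) (hreg : ∀ x : X, MulAction.stabilizer N x = ⊥) : Fintype.card X = 3 ∨ (IsMulCommutative N ∧ (∀ n ∈ N, n ^ 2 = 1) ∧ ∃ m : ℕ, Fintype.card X = 2 ^ m) := by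
  rw [← Nat.card_eq_fintype_card] at hX ⊢
  refine (CL.Perm.sq_eq_one_of_two_preprimitive hX h2 N hreg).imp_right fun hsq => ⟨?_, hsq, ?_⟩
  · refine ⟨⟨fun a b => Subtype.ext ?_⟩⟩
    have hinv : ∀ n ∈ N, n⁻¹ = n := fun n hn => by
      rw [inv_eq_iff_mul_eq_one, ← sq, hsq n hn]
    change (a : G) * b = b * a
    rw [← hinv _ (N.mul_mem a.2 b.2), mul_inv_rev, hinv _ a.2, hinv _ b.2]
  · have : Nonempty X := (Nat.card_pos_iff.1 (by omega)).1
    obtain ⟨a⟩ := this
    have hc := CL.Perm.card_eq_of_regular a (hreg a)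
    have : Finite N := Nat.finite_of_card_ne_zero (by omega)
    have : Fact (Nat.Prime 2) := ⟨Nat.prime_two⟩
    have hp : IsPGroup 2 N := fun n => ⟨1, Subtype.ext (by simpa using hsq n n.2)⟩
    rw [← hc]
    exact IsPGroup.iff_card.1 hp

end Cfsg.Agent.S0695
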