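import Cfsg.Statements.S0701
import Cfsg.Agent.Perm.PrimBasic

set_option autoImplicit false
open Cfsg

namespace Cfsg.Agent.S0701

/-- The centraliser in the full symmetric group of a transitive permutation group `G` is semiregular, and it is transitive if and only if `G` is regular. -/
theorem result {α : Type*} (G : Subgroup (Equiv.Perm α)) [MulAction.IsPretransitive G α] : (∀ c ∈ Subgroup.centralizer (G : Set (Equiv.Perm α)), ∀ a : α, c a = a → c = 1) ∧ (MulAction.IsPretransitive (Subgroup.centralizer (G : Set (Equiv.Perm α))) α ↔ ∀ a : α, MulAction.stabilizer G a = ⊥) := by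
  constructor
  · intro c hc a ha
    ext x
    exact CL.Perm.eq_id_of_commute_of_fix c ((CL.Perm.mem_centralizer_perm_iff G c).1 hc) ha x
  · constructor
    · intro ht a
      rw [eq_bot_iff]
      intro g hg
      rw [Subgroup.mem_bot]
      ext x
      obtain ⟨c, rfl⟩ := MulAction.exists_smul_eq
        (Subgroup.centralizer (G : Set (Equiv.Perm α))) a x
      have h1 := (CL.Perm.mem_centralizer_perm_iff G c).1 c.2 g a
      rw [MulAction.mem_stabilizer_iff.1 hg] at h1
      exact h1.symm
    · intro h
      refine ⟨fun a b => ?_⟩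
      obtain ⟨c, hc, hab⟩ := CL.Perm.exists_perm_commute_of_stabilizer_eq (G := G) (a := a) (b := b)
        (by rw [h a, h b])
      exact ⟨⟨c, (CL.Perm.mem_centralizer_perm_iff G c).2 hc⟩, hab⟩

end Cfsg.Agent.S0701
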