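import Cfsg.Statements.S0702
import Cfsg.Agent.Perm.PrimBasic

set_option autoImplicit false
open Cfsg

namespace Cfsg.Agent.S0702

/-- For a transitive permutation group `G` on a finite set, the centraliser of `G` in the symmetric group is isomorphic to `N_G(G_ω)/G_ω`, and its orbit of `ω` is the set of fixed points of `G_ω`. -/
theorem result {α : Type*} [Finite α] (G : Subgroup (Equiv.Perm α)) [MulAction.IsPretransitive G α] (a : α) : Nonempty (Subgroup.centralizer (G : Set (Equiv.Perm α)) ≃* Subgroup.normalizer ((MulAction.stabilizer G a : Subgroup G) : Set G) ⧸ (MulAction.stabilizer G a).subgroupOf (Subgroup.normalizer ((MulAction.stabilizer G a : Subgroup G) : Set G))) ∧ MulAction.orbit (Subgroup.centralizer (G : Set (Equiv.Perm α))) a = MulAction.fixedPoints (MulAction.stabilizer G a) α := by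
  have hex : ∀ n : Subgroup.normalizer ((MulAction.stabilizer G a : Subgroup G) : Set G),
      ∃ c : Subgroup.centralizer (G : Set (Equiv.Perm α)),
        (c : Equiv.Perm α) a = (n : G)⁻¹ • a := by
    intro n
    obtain ⟨c, hc, hca⟩ := CL.Perm.exists_perm_commute_of_stabilizer_eq (G := G) (a := a)
      (b := (n : G)⁻¹ • a) (by
        ext h
        rw [(Subgroup.mem_normalizer_iff.1 n.2) h]
        simp only [MulAction.mem_stabilizer_iff, mul_smul]
        rw [eq_inv_smul_iff])
    exact ⟨⟨c, (CL.Perm.mem_centralizer_perm_iff G c).2 hc⟩, hca⟩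
  have hcomm : ∀ c : Subgroup.centralizer (G : Set (Equiv.Perm α)), ∀ (g : G) (x : α),
      (c : Equiv.Perm α) (g • x) = g • (c : Equiv.Perm α) x :=
    fun c => (CL.Perm.mem_centralizer_perm_iff G c).1 c.2
  have huniq : ∀ c d : Subgroup.centralizer (G : Set (Equiv.Perm α)),
      (c : Equiv.Perm α) a = (d : Equiv.Perm α) a → c = d := by
    intro c d h
    ext x
    exact CL.Perm.eq_of_commute_of_eq_at _ _ (hcomm c) (hcomm d) h x
  choose f hf using hex
  let φ : Subgroup.normalizer ((MulAction.stabilizer G a : Subgroup G) : Set G) →*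
      Subgroup.centralizer (G : Set (Equiv.Perm α)) := MonoidHom.mk' f (by
    intro m n
    apply huniq
    rw [hf, Subgroup.coe_mul, Subgroup.coe_mul, Equiv.Perm.mul_apply, hf, hcomm, hf, mul_inv_rev,
      mul_smul])
  have hsurj : Function.Surjective φ := by
    intro c
    obtain ⟨g, hg⟩ := MulAction.exists_smul_eq G ((c : Equiv.Perm α) a) a
    have hg' : (c : Equiv.Perm α) a = g⁻¹ • a := by rw [eq_inv_smul_iff, hg]
    have hgN : g ∈ Subgroup.normalizer ((MulAction.stabilizer G a : Subgroup G) : Set G) := by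
      rw [Subgroup.mem_normalizer_iff]
      intro h
      simp only [MulAction.mem_stabilizer_iff, mul_smul]
      rw [← eq_inv_smul_iff (g := g), ← hg', ← hcomm, Equiv.apply_eq_iff_eq]
    refine ⟨⟨g, hgN⟩, huniq _ _ ?_⟩
    exact (hf ⟨g, hgN⟩).trans hg'.symm
  have hker : φ.ker = (MulAction.stabilizer G a).subgroupOf
      (Subgroup.normalizer ((MulAction.stabilizer G a : Subgroup G) : Set G)) := by
    ext n
    rw [MonoidHom.mem_ker, Subgroup.mem_subgroupOf, MulAction.mem_stabilizer_iff]
    constructor
    · intro h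
      have h1 := hf n
      have h2 : f n = 1 := h
      rw [h2, eq_inv_smul_iff] at h1
      exact h1
    · intro h
      apply huniq
      refine (hf n).trans ?_
      rw [inv_smul_eq_iff]
      exact h.symm
  refine ⟨⟨((QuotientGroup.quotientMulEquivOfEq hker.symm).trans
    (QuotientGroup.quotientKerEquivOfSurjective φ hsurj)).symm⟩, ?_⟩
  ext b
  constructor
  · rintro ⟨c, rfl⟩ k
    change (k : G) • (c : Equiv.Perm α) a = (c : Equiv.Perm α) a
    rw [← hcomm, MulAction.mem_stabilizer_iff.1 k.2]
  · intro hb
    have hle : MulAction.stabilizer G a ≤ MulAction.stabilizer G b := fun k hk => hb ⟨k, hk⟩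
    have heq : MulAction.stabilizer G a = MulAction.stabilizer G b := by
      apply Subgroup.eq_of_le_of_card_ge hle
      have h1 := CL.Perm.card_eq_mul_card_stabilizer (G := G) a
      have h2 := CL.Perm.card_eq_mul_card_stabilizer (G := G) b
      have : Nonempty α := ⟨a⟩
      exact (Nat.eq_of_mul_eq_mul_left Nat.card_pos (h2.symm.trans h1)).le
    obtain ⟨c, hc, hca⟩ := CL.Perm.exists_perm_commute_of_stabilizer_eq heq
    exact ⟨⟨c, (CL.Perm.mem_centralizer_perm_iff G c).2 hc⟩, hca⟩

end Cfsg.Agent.S0702
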