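import Cfsg.Statements.S0703
import Cfsg.Agent.Perm.PrimCentral

set_option autoImplicit false
open Cfsg

namespace Cfsg.Agent.S0703

/-- An abelian transitive minimal normal subgroup `M` of a permutation group on a finite set is self-centralising in the symmetric group, regular, elementary abelian, and is the unique minimal normal subgroup. -/
theorem result {α : Type*} [Finite α] (G : Subgroup (Equiv.Perm α)) (M : Subgroup G) [M.Normal] (hM : M ≠ ⊥) (hmin : ∀ L : Subgroup G, L.Normal → L ≤ M → L = ⊥ ∨ L = M) (hab : IsMulCommutative M) (htrans : MulAction.IsPretransitive M α) : Subgroup.centralizer ((M.map G.subtype : Subgroup (Equiv.Perm α)) : Set (Equiv.Perm α)) = M.map G.subtype ∧ (∀ a : α, MulAction.stabilizer M a = ⊥) ∧ (∃ p : ℕ, p.Prime ∧ ∀ m ∈ M, m ^ p = 1) ∧ ∀ L : Subgroup G, L.Normal → L ≠ ⊥ → (∀ L' : Subgroup G, L'.Normal → L' ≤ L → L' = ⊥ ∨ L' = L) → L = M := by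
  have hc : ∀ m ∈ M, ∀ n ∈ M, m * n = n * m := fun m hm n hn => setLike_mul_comm (s := M) hm hn
  refine ⟨CL.Perm.centralizer_map_eq_of_commute G M M hc,
    CL.Perm.stabilizer_eq_bot_of_commute M M hc,
    CL.Perm.exists_prime_pow_eq_one_of_minimal_normal_comm M hM hmin hab, ?_⟩
  intro L hL hL0 hLmin
  by_contra hne
  have hinf := CL.Perm.inf_eq_bot_of_minimal_normal hL inferInstance hLmin hmin hne
  have hle : L ≤ M := fun l hl =>
    CL.Perm.mem_of_commute_of_transitive (α := α) M M hc fun m hm =>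
      (CL.Perm.commute_of_normal_of_inf_eq_bot hL inferInstance hinf hl hm).symm
  rw [inf_eq_left.2 hle] at hinf
  exact hL0 hinf

end Cfsg.Agent.S0703
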