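import Cfsg.Statements.S0704
import Cfsg.Agent.Perm.PrimCentral

set_option autoImplicit false
open Cfsg

namespace Cfsg.Agent.S0704

/-- Two distinct transitive minimal normal subgroups `M`, `N` of a permutation group are regular, non-abelian, isomorphic, each other's centraliser in the symmetric group, and the only minimal normal subgroups. -/
theorem result {α : Type*} (G : Subgroup (Equiv.Perm α)) (M N : Subgroup G) [M.Normal] [N.Normal] (hM : M ≠ ⊥) (hN : N ≠ ⊥) (hMmin : ∀ L : Subgroup G, L.Normal → L ≤ M → L = ⊥ ∨ L = M) (hNmin : ∀ L : Subgroup G, L.Normal → L ≤ N → L = ⊥ ∨ L = N) (hMN : M ≠ N) (hMt : MulAction.IsPretransitive M α) (hNt : MulAction.IsPretransitive N α) : (∀ a : α, MulAction.stabilizer M a = ⊥) ∧ (∀ a : α, MulAction.stabilizer N a = ⊥) ∧ ¬ IsMulCommutative M ∧ Nonempty (M ≃* N) ∧ Subgroup.centralizer ((M.map G.subtype : Subgroup (Equiv.Perm α)) : Set (Equiv.Perm α)) = N.map G.subtype ∧ Subgroup.centralizer ((N.map G.subtype : Subgroup (Equiv.Perm α)) : Set (Equiv.Perm α)) = M.map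 G.subtype ∧ ∀ L : Subgroup G, L.Normal → L ≠ ⊥ → (∀ L' : Subgroup G, L'.Normal → L' ≤ L → L' = ⊥ ∨ L' = L) → L = M ∨ L = N := by
  have hinf := CL.Perm.inf_eq_bot_of_minimal_normal inferInstance inferInstance hMmin hNmin hMN
  have hc : ∀ m ∈ M, ∀ n ∈ N, m * n = n * m := fun m hm n hn =>
    CL.Perm.commute_of_normal_of_inf_eq_bot inferInstance inferInstance hinf hm hn
  have hc' : ∀ n ∈ N, ∀ m ∈ M, n * m = m * n := fun n hn m hm => (hc m hm n hn).symm
  have : Nontrivial α := CL.Perm.nontrivial_of_ne_bot hN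
  refine ⟨CL.Perm.stabilizer_eq_bot_of_commute N M hc', CL.Perm.stabilizer_eq_bot_of_commute M N hc,
    ?_, CL.Perm.nonempty_mulEquiv_of_commute (α := α) M N hc,
    CL.Perm.centralizer_map_eq_of_commute G M N hc,
    CL.Perm.centralizer_map_eq_of_commute G N M hc', ?_⟩
  · intro hab
    have hle : M ≤ N := fun l hl =>
      CL.Perm.mem_of_commute_of_transitive (α := α) M N hc fun m hm =>
        setLike_mul_comm (s := M) hm hl
    rw [inf_eq_left.2 hle] at hinf
    exact hM hinf
  · intro L hL hL0 hLmin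
    by_cases hLM : L = M
    · exact Or.inl hLM
    · right
      have hinf' := CL.Perm.inf_eq_bot_of_minimal_normal hL inferInstance hLmin hMmin hLM
      have hle : L ≤ N := fun l hl =>
        CL.Perm.mem_of_commute_of_transitive (α := α) M N hc fun m hm =>
          (CL.Perm.commute_of_normal_of_inf_eq_bot hL inferInstance hinf' hl hm).symm
      exact (hNmin L hL hle).resolve_left hL0

end Cfsg.Agent.S0704
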