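import Cfsg.Statements.S0707
import Cfsg.Agent.Perm.PrimBasic

set_option autoImplicit false
open Cfsg

namespace Cfsg.Agent.S0707

/-- In a primitive permutation group, distinct points have distinct stabilisers unless the group is regular of prime degree. -/
theorem result {α : Type*} (G : Subgroup (Equiv.Perm α)) [MulAction.IsPreprimitive G α] (h : ¬ (Nat.card α).Prime ∨ ∃ a : α, MulAction.stabilizer G a ≠ ⊥) {a b : α} (hab : a ≠ b) : MulAction.stabilizer G a ≠ MulAction.stabilizer G b := by
  intro hst
  have : Nontrivial α := ⟨⟨a, b, hab⟩⟩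
  have hco := MulAction.IsPreprimitive.isCoatom_stabilizer_of_isPreprimitive G a
  obtain ⟨g, hg⟩ := MulAction.exists_smul_eq G a b
  have hnorm : Subgroup.normalizer ((MulAction.stabilizer G a : Subgroup G) : Set G) = ⊤ := by
    apply hco.2
    refine lt_of_le_of_ne Subgroup.le_normalizer ?_
    intro heq
    have hgN : g ∈ Subgroup.normalizer ((MulAction.stabilizer G a : Subgroup G) : Set G) := by
      rw [Subgroup.mem_normalizer_iff]
      intro h
      conv_rhs => rw [hst, ← hg]
      simp only [MulAction.mem_stabilizer_iff, mul_smul, inv_smul_smul, smul_left_cancel_iff]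
    rw [← heq, MulAction.mem_stabilizer_iff, hg] at hgN
    exact hab hgN.symm
  have hN : (MulAction.stabilizer G a).Normal := Subgroup.normalizer_eq_top_iff.1 hnorm
  have hall : ∀ x : α, MulAction.stabilizer G x = ⊥ := by
    intro x
    rw [eq_bot_iff]
    intro k hk
    rw [Subgroup.mem_bot]
    ext y
    obtain ⟨u, rfl⟩ := MulAction.exists_smul_eq G a x
    obtain ⟨v, rfl⟩ := MulAction.exists_smul_eq G a y
    have h1 : u⁻¹ * k * u ∈ MulAction.stabilizer G a := by
      rw [MulAction.mem_stabilizer_iff] at hk ⊢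
      rw [mul_smul, mul_smul, hk, inv_smul_smul]
    have h2 := hN.conj_mem _ h1 (v⁻¹ * u)
    rw [MulAction.mem_stabilizer_iff] at h2
    have h3 : v⁻¹ * u * (u⁻¹ * k * u) * (v⁻¹ * u)⁻¹ = v⁻¹ * k * v := by group
    rw [h3, mul_smul, mul_smul, inv_smul_eq_iff] at h2
    exact h2
  rcases h with h | ⟨x, hx⟩
  · apply h
    rw [hall a] at hco
    have hsub : ∀ K : Subgroup G, K = ⊥ ∨ K = ⊤ := by
      intro K
      by_cases hK : K = ⊥
      · exact Or.inl hK
      · exact Or.inr (hco.2 K (bot_lt_iff_ne_bot.2 hK))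
    have hnt : Nontrivial G := by
      refine ⟨⟨g, 1, ?_⟩⟩
      rintro rfl
      exact hab (by simpa using hg)
    have hg1 : g ≠ 1 := by
      rintro rfl
      exact hab (by simpa using hg)
    have hcyc : IsCyclic G := ⟨⟨g, (Subgroup.eq_top_iff' _).1
      ((hsub (Subgroup.zpowers g)).resolve_left (Subgroup.zpowers_ne_bot.2 hg1))⟩⟩
    have : IsMulCommutative G := IsCyclic.isMulCommutative
    have hs : IsSimpleGroup G := ⟨fun K _ => hsub K⟩
    rw [← CL.Perm.card_eq_of_regular a (hall a)]
    exact Group.is_simple_iff_prime_card.1 hs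
  · exact hx (hall x)

end Cfsg.Agent.S0707
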