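import Cfsg.Statements.S0712
import Cfsg.Agent.Perm.PrimBasic

set_option autoImplicit false
open Cfsg

namespace Cfsg.Agent.S0712

/-- Jordan: a primitive group in which the pointwise stabiliser of a set `s` is doubly transitive on the complement of `s` (which has at least 2 points) is `(|s| + 2)`-transitive. -/
theorem result {α : Type*} [Fintype α] [DecidableEq α] (G : Subgroup (Equiv.Perm α)) (hG : MulAction.IsPreprimitive G α) (s : Set α) {m : ℕ} (hsm : s.ncard = m) (hm : m + 2 ≤ Fintype.card α) (h2 : MulAction.IsMultiplyPretransitive (fixingSubgroup G s) (SubMulAction.ofFixingSubgroup G s) 2) : MulAction.IsMultiplyPretransitive G α (m + 2) := by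
  classical
  have hprim := MulAction.isPreprimitive_of_is_two_pretransitive h2
  have h1 : MulAction.IsMultiplyPretransitive G α (m + 1) := by
    rcases Nat.eq_zero_or_pos m with rfl | hpos
    · exact MulAction.is_one_pretransitive_iff.2 hG.toIsPretransitive
    · obtain ⟨n, rfl⟩ : ∃ n, m = n + 1 := ⟨m - 1, by omega⟩
      exact (hG.isMultiplyPreprimitive hsm (by rw [Nat.card_eq_fintype_card]; omega)
        hprim).isMultiplyPretransitive
  obtain ⟨a, ha⟩ : ∃ a, a ∉ s := by
    by_contra h
    push Not at h
    have : s = Set.univ := Set.eq_univ_of_forall h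
    rw [this, Set.ncard_univ, Nat.card_eq_fintype_card] at hsm
    omega
  have ha' : a ∉ s.toFinset := by simpa using ha
  refine CL.Perm.isMultiplyPretransitive_succ_of_fixing h1 (insert a s.toFinset)
    (by rw [Finset.card_insert_of_notMem ha', ← Set.ncard_eq_toFinset_card', hsm]) ?_
  intro b c hb hc
  simp only [Finset.mem_insert, Set.mem_toFinset, not_or] at hb hc
  rw [MulAction.is_two_pretransitive_iff] at h2
  obtain ⟨g, hg1, hg2⟩ := h2
    (a := ⟨a, ha⟩) (b := ⟨b, hb.2⟩) (c := ⟨a, ha⟩) (d := ⟨c, hc.2⟩)
    (fun h => hb.1 (congrArg Subtype.val h).symm) (fun h => hc.1 (congrArg Subtype.val h).symm)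
  refine ⟨g, fun x hx => ?_, congrArg Subtype.val hg2⟩
  simp only [Finset.mem_insert, Set.mem_toFinset] at hx
  rcases hx with rfl | hx
  · exact congrArg Subtype.val hg1
  · exact g.2 ⟨x, hx⟩

end Cfsg.Agent.S0712
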