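import Cfsg.Statements.S0714
import Cfsg.Agent.Perm.Module
import Cfsg.Agent.Perm.Tuples

set_option autoImplicit false
open Cfsg

namespace Cfsg.Agent.S0714

open CL.Perm

/-- Over any field, the permutation module of the alternating group of degree at least 5 has exactly four invariant subspaces: zero, the constant functions, the functions with coordinate sum zero, and everything. -/
theorem result {α : Type*} [Fintype α] [DecidableEq α] (hα : 5 ≤ Fintype.card α) {K : Type*} [Field K] (W : Subrepresentation (Cfsg.permRep K (alternatingGroup α) α)) : W.toSubmodule = ⊥ ∨ W = Cfsg.permConstants K (alternatingGroup α) α ∨ W = Cfsg.permSumZero K (alternatingGroup α) α ∨ W.toSubmodule = ⊤ := by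
  have hne : Nonempty α := Fintype.card_pos_iff.1 (by omega)
  have h3 : MulAction.IsMultiplyPretransitive (alternatingGroup α) α 3 := by
    have := alternatingGroup.isMultiplyPretransitive α
    exact MulAction.isMultiplyPretransitive_of_le (n := Nat.card α - 2)
      (by rw [Nat.card_eq_fintype_card]; omega) (by omega)
  have h2 : MulAction.IsMultiplyPretransitive (alternatingGroup α) α 2 :=
    MulAction.isMultiplyPretransitive_of_le (n := 3) (by omega)
      (by rw [Nat.card_eq_fintype_card]; omega)
  rw [three_pretransitive_iff] at h3
  rw [MulAction.is_two_pretransitive_iff] at h2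
  by_cases hC : W.toSubmodule ≤ (permConstants K (alternatingGroup α) α).toSubmodule
  · -- contained in the constants
    by_cases hb : W.toSubmodule = ⊥
    · exact Or.inl hb
    · right; left
      apply Subrepresentation.ext
      apply Submodule.eq_of_le_of_finrank_le hC
      rw [finrank_permConstants]
      exact Submodule.one_le_finrank_iff.2 hb
  · -- a non-constant function lies in `W`
    have hS : (permSumZero K (alternatingGroup α) α).toSubmodule ≤ W.toSubmodule := by
      obtain ⟨f, hfW, hf⟩ := SetLike.not_le_iff_exists.1 hC
      obtain ⟨a, b, hab⟩ : ∃ a b, f a ≠ f b := by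
        by_contra hh
        push Not at hh
        exact hf ((mem_permConstants f).2 ⟨f (Classical.arbitrary α), funext fun x => hh _ _⟩)
      have hab' : a ≠ b := fun h => hab (by rw [h])
      -- three further points
      obtain ⟨c, d, e, hca, hcb, hda, hdb, hdc, hea, heb, hec, hed⟩ : ∃ c d e : α, c ≠ a ∧ c ≠ b ∧
          d ≠ a ∧ d ≠ b ∧ d ≠ c ∧ e ≠ a ∧ e ≠ b ∧ e ≠ c ∧ e ≠ d := by
        have ex : ∀ s : Finset α, s.card ≤ 4 → ∃ x, x ∉ s := by
          intro s hs
          by_contra hh
          push Not at hh
          have : s = Finset.univ := Finset.eq_univ_iff_forall.2 hh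
          rw [this, Finset.card_univ] at hs
          omega
        obtain ⟨c, hc⟩ := ex {a, b} (Finset.card_le_two.trans (by omega))
        obtain ⟨d, hd⟩ := ex {a, b, c} (Finset.card_le_three.trans (by omega))
        obtain ⟨e, he⟩ := ex {a, b, c, d} Finset.card_le_four
        simp only [Finset.mem_insert, Finset.mem_singleton, not_or] at hc hd he
        exact ⟨c, d, e, hc.1, hc.2, hd.1, hd.2.1, hd.2.2, he.1, he.2.1, he.2.2.1, he.2.2.2⟩
      -- key: for distinct x y z, with the 3-cycle `τ = swap x y * swap x z`... work with values
      have cyc : ∀ x y z : α, x ≠ y → x ≠ z → y ≠ z → ∀ v ∈ W.toSubmodule,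
          ((v z - v x) • Pi.single x (1 : K) + (v x - v y) • Pi.single y (1 : K)
            + (v y - v z) • Pi.single z (1 : K) : α → K) ∈ W.toSubmodule := by
        intro x y z hxy hxz hyz v hv
        let τ : Equiv.Perm α := Equiv.swap x z * Equiv.swap x y
        have hτ : τ ∈ alternatingGroup α := by
          rw [Equiv.Perm.mem_alternatingGroup]
          simp [τ, Equiv.Perm.sign_swap hxz, Equiv.Perm.sign_swap hxy]
        have h1 := W.toSubmodule.sub_mem (W.apply_mem_toSubmodule ⟨τ, hτ⟩ hv) hv
        convert h1 using 1
        funext w
        simp only [Pi.add_apply, Pi.smul_apply, Pi.sub_apply, permRep_apply, smul_eq_mul]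
        change _ = v (τ⁻¹ w) - v w
        have : τ⁻¹ w = Equiv.swap x y (Equiv.swap x z w) := by
          simp [τ]
        rw [this]
        by_cases hw1 : w = x
        · subst hw1
          simp [hxy, hxz, Equiv.swap_apply_of_ne_of_ne hxz.symm hyz.symm]
        by_cases hw2 : w = y
        · subst hw2
          simp [hxy.symm, hyz, Equiv.swap_apply_of_ne_of_ne hxy.symm hyz]
        by_cases hw3 : w = z
        · subst hw3
          simp [hxz.symm, hyz.symm]
        · simp [hw1, hw2, hw3, Equiv.swap_apply_of_ne_of_ne hw1 hw3,
            Equiv.swap_apply_of_ne_of_ne hw1 hw2]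
      -- `u` is supported on `{a, b, c}` with `u b ≠ 0`
      set u : α → K := (f c - f a) • Pi.single a (1 : K) + (f a - f b) • Pi.single b (1 : K)
            + (f b - f c) • Pi.single c (1 : K) with hu
      have huW : u ∈ W.toSubmodule := cyc a b c hab' hca.symm hcb.symm f hfW
      have hub : u b = f a - f b := by simp [hu, hab'.symm, hcb.symm]
      have hud : u d = 0 := by simp [hu, hda, hdb, hdc]
      have hue : u e = 0 := by simp [hu, hea, heb, hec]
      have h4 := cyc b d e hdb.symm heb.symm hed.symm u huW
      rw [hub, hud, hue] at h4
      have h5 : (Pi.single d (1 : K) - Pi.single b 1 : α → K) ∈ W.toSubmodule := by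
        have h6 := W.toSubmodule.smul_mem (f a - f b)⁻¹ h4
        convert h6 using 1
        have hne' : f a - f b ≠ 0 := sub_ne_zero.2 hab
        funext w
        simp only [Pi.add_apply, Pi.smul_apply, Pi.sub_apply, smul_eq_mul]
        field_simp
        ring
      have h7 : ∀ x y : α, (Pi.single x (1 : K) - Pi.single y 1 : α → K) ∈ W.toSubmodule := by
        intro x y
        by_cases hxy : x = y
        · subst hxy; simp
        obtain ⟨g, hg1, hg2⟩ := h2 hdb hxy
        have := W.apply_mem_toSubmodule g h5
        rwa [map_sub, permRep_single, permRep_single, hg1, hg2] at this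
      intro v hv
      rw [mem_permSumZero] at hv
      have : v = ∑ x, v x • (Pi.single x (1 : K) - Pi.single a 1 : α → K) := by
        simp only [smul_sub, Finset.sum_sub_distrib, ← Finset.sum_smul, hv, zero_smul, sub_zero]
        funext w
        simp [Finset.sum_apply, Pi.single_apply]
      rw [this]
      exact W.toSubmodule.sum_mem fun x _ => W.toSubmodule.smul_mem _ (h7 x a)
    right; right
    by_cases ht : W.toSubmodule = ⊤
    · exact Or.inr ht
    · left
      apply Subrepresentation.ext
      symm
      apply Submodule.eq_of_le_of_finrank_le hS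
      rw [finrank_permSumZero]
      have := Submodule.finrank_lt ht
      rw [Module.finrank_fintype_fun_eq_card] at this
      omega

end Cfsg.Agent.S0714
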