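import Cfsg.Statements.S0720
import Cfsg.Agent.Perm.Wiel2p3

set_option autoImplicit false
open Cfsg

namespace Cfsg.Agent.S0720

/-- Wielandt's Theorem on primitive groups of degree `2p`: such a group is doubly transitive, or it has rank 3, `p = 2a² + 2a + 1`, and subdegrees `a(2a+1)` and `(a+1)(2a+1)`. -/
theorem result {α : Type*} [Fintype α] [DecidableEq α] {p : ℕ} (hp : p.Prime) (hα : Fintype.card α = 2 * p) (G : Subgroup (Equiv.Perm α)) (hG : MulAction.IsPreprimitive G α) (a₀ : α) : MulAction.IsMultiplyPretransitive G α 2 ∨ (Nat.card (MulAction.orbitRel.Quotient (MulAction.stabilizer G a₀) α) = 3 ∧ ∃ a : ℕ, 0 < a ∧ p = 2 * a ^ 2 + 2 * a + 1 ∧ ∀ b : α, b ≠ a₀ → Nat.card (MulAction.orbit (MulAction.stabilizer G a₀) b) = a * (2 * a + 1) ∨ Nat.card (MulAction.orbit (MulAction.stabilizer G a₀) b) = (a + 1) * (2 * a + 1)) := by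
  classical
  have := Fact.mk hp
  refine or_iff_not_imp_left.2 fun h2 => ?_
  obtain ⟨u, O, h⟩ := CL.Perm.exists_twoOrb hp hα hG h2
  obtain ⟨b, c, hb, hc, hbc⟩ : ∃ b c : α, b ≠ a₀ ∧ c ≠ a₀ ∧ ¬ ∃ g : G, g • a₀ = a₀ ∧ g • b = c := by
    by_contra hn
    push Not at hn
    refine h2 (CL.Perm.isMultiplyPretransitive_succ_of_fixing (m := 1)
      (MulAction.is_one_pretransitive_iff.2 inferInstance) {a₀} rfl fun b c hb hc => ?_)
    simpa using hn b c (by simpa using hb) (by simpa using hc)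
  have hcases : ∀ v, v ≠ a₀ → (∃ g : G, g • a₀ = a₀ ∧ g • b = v) ∨ ∃ g : G, g • a₀ = a₀ ∧ g • c = v :=
    fun v hv => by
      by_contra hn
      rw [not_or] at hn
      exact h.false_of_three hb hc hv hbc hn.1 hn.2
  have hrank : Nat.card (MulAction.orbitRel.Quotient (MulAction.stabilizer G a₀) α) = 3 := by
    rw [← Set.ncard_univ, Set.ncard_eq_three]
    refine ⟨Quotient.mk'' a₀, Quotient.mk'' b, Quotient.mk'' c, (CL.Perm.mk_ne_mk_of_ne hb).symm,
      (CL.Perm.mk_ne_mk_of_ne hc).symm, fun e => hbc ?_, (Set.eq_univ_of_forall fun q => ?_).symm⟩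
    · obtain ⟨g, hg⟩ := MulAction.orbitRel_apply.1 (Quotient.exact' e.symm)
      exact ⟨g, g.2, hg⟩
    · obtain ⟨v, rfl⟩ := Quotient.mk''_surjective q
      by_cases hv : v = a₀
      · exact Or.inl (by rw [hv])
      rcases hcases v hv with ⟨g, h1, h3⟩ | ⟨g, h1, h3⟩
      · exact Or.inr (Or.inl (Quotient.sound' (MulAction.orbitRel_apply.2 ⟨⟨g, h1⟩, h3⟩)))
      · exact Or.inr (Or.inr (Quotient.sound' (MulAction.orbitRel_apply.2 ⟨⟨g, h1⟩, h3⟩)))
  have hp2 : p ≠ 2 := by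
    have := CL.Perm.rank_three_bounds hG hα a₀ hrank hb
    omega
  refine ⟨hrank, CL.Perm.wielandt_of_traces hG hα a₀ hrank fun v hv => ?_⟩
  rcases hcases v hv with ⟨g, h1, rfl⟩ | ⟨g, h1, rfl⟩
  · exact h.traces hp2 hv hc fun ⟨k, k1, k2⟩ => hbc ⟨k * g, by rw [mul_smul, h1, k1], by rw [mul_smul, k2]⟩
  · exact h.traces hp2 hv hb fun ⟨k, k1, k2⟩ => hbc ⟨(k * g)⁻¹, by
      rw [inv_smul_eq_iff, mul_smul, h1, k1], by rw [inv_smul_eq_iff, mul_smul, k2]⟩

end Cfsg.Agent.S0720
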