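import Cfsg.Statements.S0724
import Cfsg.Agent.Base

set_option autoImplicit false
open Cfsg

namespace Cfsg.Agent.S0724

theorem dvd_sum_pow {G α : Type*} [Group G] [Fintype G] [Fintype α] [MulAction G α] (k : ℕ) :
    Nat.card G ∣ ∑ g : G, Nat.card (MulAction.fixedBy α g) ^ k := by
  classical
  have h := MulAction.sum_card_fixedBy_eq_card_orbits_mul_card_group G (Fin k → α)
  have h2 : ∀ g : G, Fintype.card (MulAction.fixedBy (Fin k → α) g) =
      Nat.card (MulAction.fixedBy α g) ^ k := by
    intro g
    let e : MulAction.fixedBy (Fin k → α) g ≃ (Fin k → MulAction.fixedBy α g) :=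
      { toFun := fun f i => ⟨f.1 i, congrFun f.2 i⟩
        invFun := fun f => ⟨fun i => f i, funext fun i => (f i).2⟩
        left_inv := fun f => rfl
        right_inv := fun f => rfl }
    rw [← Nat.card_eq_fintype_card, Nat.card_congr e, Nat.card_fun, Nat.card_fin]
  simp only [h2] at h
  rw [h, Nat.card_eq_fintype_card]
  exact Dvd.intro_left _ rfl

theorem dvd_sum_eval {G α : Type*} [Group G] [Fintype G] [Fintype α] [MulAction G α]
    (P : Polynomial ℤ) :
    (Nat.card G : ℤ) ∣ ∑ g : G, P.eval (Nat.card (MulAction.fixedBy α g) : ℤ) := by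
  simp only [Polynomial.eval_eq_sum_range]
  rw [Finset.sum_comm]
  apply Finset.dvd_sum
  intro i _
  rw [← Finset.mul_sum]
  apply Dvd.dvd.mul_left
  exact_mod_cast dvd_sum_pow (G := G) (α := α) i

/-- Blichfeldt's Theorem: if a finite set `L` of natural numbers contains the number of fixed points of every non-identity element of a permutation group `G` of degree `n`, then the order of `G` divides `∏ (n - l)` over `l ∈ L`. -/
theorem result {α : Type*} [Fintype α] [DecidableEq α] (G : Subgroup (Equiv.Perm α)) (L : Finset ℕ) (hL : ∀ g ∈ G, g ≠ 1 → Nat.card (MulAction.fixedBy α g) ∈ L) : Nat.card G ∣ ∏ l ∈ L, (Fintype.card α - l) := by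
  classical
  by_cases hL' : ∃ l ∈ L, Fintype.card α ≤ l
  · obtain ⟨l, hl, hle⟩ := hL'
    rw [Finset.prod_eq_zero hl (Nat.sub_eq_zero_of_le hle)]
    exact dvd_zero _
  push Not at hL'
  have h := dvd_sum_eval (G := G) (α := α) (∏ l ∈ L, (Polynomial.X - Polynomial.C (l : ℤ)))
  rw [Finset.sum_eq_single 1] at h
  · have h1 : Nat.card (MulAction.fixedBy α (1 : G)) = Fintype.card α := by
      rw [MulAction.fixedBy_one_eq_univ, Nat.card_univ, Nat.card_eq_fintype_card]
    rw [h1, Polynomial.eval_prod] at h
    rw [← Int.natCast_dvd_natCast, Nat.cast_prod]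
    convert h using 2 with l hl
    rw [Nat.cast_sub (hL' l hl).le]
    simp
  · intro g _ hg
    rw [Polynomial.eval_prod]
    have hm := hL g g.2 (fun h => hg (Subtype.ext h))
    refine Finset.prod_eq_zero hm ?_
    simp only [Polynomial.eval_sub, Polynomial.eval_X, Polynomial.eval_C]
    exact sub_eq_zero.2 rfl
  · simp

end Cfsg.Agent.S0724
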