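import Cfsg.Statements.S0725
import Cfsg.Agent.PS.Main
import Cfsg.Agent.PS.NumL

set_option autoImplicit false
open Cfsg

namespace Cfsg.Agent.S0725

/-- The Praeger–Saxl bound: a primitive permutation group of degree `n` not containing the alternating group has order at most `4 ^ n`. -/
theorem result {α : Type*} [Fintype α] [DecidableEq α] (G : Subgroup (Equiv.Perm α)) (hG : MulAction.IsPreprimitive G α) (hA : ¬ alternatingGroup α ≤ G) : Nat.card G ≤ 4 ^ Fintype.card α := by
  exact CL.PS.praeger_saxl CL.PS.numL G hG hA

end Cfsg.Agent.S0725
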