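import Cfsg.Statements.S0728
import Cfsg.Agent.Perm.ZassStruct

set_option autoImplicit false
open Cfsg

namespace Cfsg.Agent.S0728

/-- In a sharply triply transitive group of even degree at least 6 (degree `q + 1`, `q` odd), a two-point stabiliser has at most one subgroup of order 3. -/
theorem result {α : Type*} [Fintype α] [DecidableEq α] (heven : Even (Fintype.card α)) (h6 : 6 ≤ Fintype.card α) (G : Subgroup (Equiv.Perm α)) (h3 : MulAction.IsMultiplyPretransitive G α 3) (hsharp : ∀ x : Fin 3 ↪ α, MulAction.stabilizer G x = ⊥) {a b : α} (hab : a ≠ b) (A B : Subgroup G) (hA : A ≤ MulAction.stabilizer G a ⊓ MulAction.stabilizer G b) (hB : B ≤ MulAction.stabilizer G a ⊓ MulAction.stabilizer G b) (hA3 : Nat.card A = 3) (hB3 : Nat.card B = 3) : A = B := by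
  have h := CL.Perm.isSharp3_of h3 hsharp (by rw [Nat.card_eq_fintype_card]; omega)
  have key : ∀ A B : Subgroup G, A ≤ CL.Perm.stab2 G a b → B ≤ CL.Perm.stab2 G a b → Nat.card A = 3 →
      Nat.card B = 3 → A ≤ B := by
    intro A B hA hB hA3 hB3 u hu
    by_cases hu1 : u = 1
    · rw [hu1]; exact B.one_mem
    have : Nontrivial B := Finite.one_lt_card_iff_nontrivial.1 (by omega)
    obtain ⟨t, ht⟩ := exists_ne (1 : B)
    have ht3 : (t : G) ^ 3 = 1 := by
      rw [← hB3]; exact congrArg Subtype.val (pow_card_eq_one' (G := B) (x := t))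
    have hu3 : u ^ 3 = 1 := by
      rw [← hA3]; exact congrArg Subtype.val (pow_card_eq_one' (G := A) (x := ⟨u, hu⟩))
    rcases h.eq_or_eq_inv hab (hB t.2) (fun e => ht (Subtype.ext e)) ht3 (hA hu) hu1 hu3 with e | e
    · rw [e]; exact t.2
    · rw [e]; exact B.inv_mem t.2
  exact le_antisymm (key A B hA hB hA3 hB3) (key B A hB hA hB3 hA3)

end Cfsg.Agent.S0728
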