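import Cfsg.Statements.S0729
import Cfsg.Agent.Perm.ZassSharp2

set_option autoImplicit false
open Cfsg

namespace Cfsg.Agent.S0729

/-- In a sharply triply transitive group of even degree at least 6, the two-point stabiliser `H = G_{a,b}` has a normal subgroup of index 2 that is normalised by the element `s` interchanging `a, b` and fixing a third point `c`. -/
theorem result {α : Type*} [Fintype α] [DecidableEq α] (heven : Even (Fintype.card α)) (h6 : 6 ≤ Fintype.card α) (G : Subgroup (Equiv.Perm α)) (h3 : MulAction.IsMultiplyPretransitive G α 3) (hsharp : ∀ x : Fin 3 ↪ α, MulAction.stabilizer G x = ⊥) {a b c : α} (hab : a ≠ b) (hac : a ≠ c) (hbc : b ≠ c) (s : G) (hsa : s • a = b) (hsb : s • b = a) (hsc : s • c = c) : ∃ N : Subgroup G, N ≤ MulAction.stabilizer G a ⊓ MulAction.stabilizer G b ∧ (N.subgroupOf (MulAction.stabilizer G a ⊓ MulAction.stabilizer G b)).Normal ∧ N.relIndex (MulAction.stabilizer G a ⊓ MulAction.stabilizer G b) = 2 ∧ ∀ n ∈ N, s * n * s⁻¹ ∈ N := by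
  have h := CL.Perm.isSharp3_of h3 hsharp (by rw [Nat.card_eq_fintype_card]; omega)
  obtain ⟨lam, h1, h2⟩ := h.exists_sign_stab2 (by rw [Nat.card_eq_fintype_card]; exact heven) hab hsa hsb
    (h.swap_sq_of_fix hab hac.symm hbc.symm hsa hsb hsc)
  have e : (lam.ker.map (CL.Perm.stab2 G a b).subtype).subgroupOf (CL.Perm.stab2 G a b) = lam.ker :=
    Subgroup.comap_map_eq_self_of_injective (Subgroup.subtype_injective _) _
  refine ⟨lam.ker.map (CL.Perm.stab2 G a b).subtype, Subgroup.map_subtype_le _, ?_, ?_, ?_⟩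
  · rw [e]; infer_instance
  · rw [Subgroup.relIndex, e]; exact CL.Perm.index_ker_eq_two_of_ne_one h1
  · rintro _ ⟨n, hn, rfl⟩
    exact ⟨CL.Perm.swapAut hsa hsb n, (h2 n).trans hn, rfl⟩

end Cfsg.Agent.S0729
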