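import Cfsg.Statements.S0730
import Cfsg.Agent.Perm.ZassSharp2
import Cfsg.Agent.Perm.ZassCoord

set_option autoImplicit false
open Cfsg

namespace Cfsg.Agent.S0730

/-- A sharply triply transitive group of degree `p^f + 1`, `p` an odd prime and `f` odd, is isomorphic to the projective general linear group of degree 2 over the field with `p^f` elements (for even `f` there is a second, twisted, group). -/
theorem result {α : Type*} [Fintype α] [DecidableEq α] {p f : ℕ} (hp : p.Prime) (hp2 : p ≠ 2) (hfo : Odd f) (hα : Fintype.card α = p ^ f + 1) (G : Subgroup (Equiv.Perm α)) (h3 : MulAction.IsMultiplyPretransitive G α 3) (hsharp : ∀ x : Fin 3 ↪ α, MulAction.stabilizer G x = ⊥) : ∃ (F : Type) (_ : Field F) (_ : Fintype F), Fintype.card F = p ^ f ∧ Nonempty (G ≃* Matrix.ProjGenLinGroup (Fin 2) F) := by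
  have hΩ : Nat.card α = p ^ f + 1 := by rw [Nat.card_eq_fintype_card, hα]
  have h := CL.Perm.isSharp3_of h3 hsharp (by
    have := Nat.one_lt_pow hfo.pos.ne' hp.one_lt
    omega)
  obtain ⟨a, b, -, hab, -⟩ := h.three
  obtain ⟨K, _, _, h1, h2⟩ := h.pgl2_of_comm hab (h.comm_of_odd_pow hp hp2 hfo hΩ hab)
  exact ⟨K, inferInstance, inferInstance, by omega, h2⟩

end Cfsg.Agent.S0730
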