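import Cfsg.Statements.S0733
import Cfsg.Agent.Base

set_option autoImplicit false
open Cfsg

namespace Cfsg.Agent.S0733

/-- A permutation group of affine type — generated by the translations of a finite vector space `V` over `ZMod p` together with a group `G₀` of linear automorphisms — is primitive on `V` if and only if `G₀` is irreducible on `V`. -/
theorem result {p : ℕ} [Fact p.Prime] {V : Type*} [AddCommGroup V] [Module (ZMod p) V] [Finite V] [Nontrivial V] (G₀ : Subgroup (V ≃ₗ[ZMod p] V)) (G : Subgroup (Equiv.Perm V)) (hG : ∀ σ : Equiv.Perm V, σ ∈ G ↔ ∃ g ∈ G₀, ∃ b : V, ∀ x : V, σ x = (g : V ≃ₗ[ZMod p] V) x + b) : MulAction.IsPreprimitive G V ↔ ∀ W : Submodule (ZMod p) V, (∀ g ∈ G₀, ∀ v ∈ W, (g : V ≃ₗ[ZMod p] V) v ∈ W) → W = ⊥ ∨ W = ⊤ := by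
  have htr : ∀ b : V, Equiv.addRight b ∈ G := fun b => (hG _).2 ⟨1, G₀.one_mem, b, fun x => rfl⟩
  have hlin : ∀ g ∈ G₀, (g : V ≃ₗ[ZMod p] V).toEquiv ∈ G := fun g hg =>
    (hG _).2 ⟨g, hg, 0, fun x => by simp⟩
  constructor
  · intro hprim W hW
    have hB : MulAction.IsBlock G (W : Set V) := by
      rw [MulAction.isBlock_iff_smul_eq_of_nonempty]
      rintro σ ⟨y, hy1, hy2⟩
      obtain ⟨x, hx, rfl⟩ := hy1
      obtain ⟨g, hg, b, hσ⟩ := (hG σ).1 σ.2
      have hs : ∀ x : V, σ • x = g x + b := hσ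
      have hb : b ∈ W := by
        have h1 : g x + b ∈ W := hs x ▸ hy2
        simpa using W.sub_mem h1 (hW g hg x hx)
      ext z
      constructor
      · rintro ⟨u, hu, rfl⟩
        show σ • u ∈ W
        rw [hs]
        exact W.add_mem (hW g hg u hu) hb
      · intro hz
        refine ⟨g⁻¹ (z - b), hW _ (G₀.inv_mem hg) _ (W.sub_mem hz hb), ?_⟩
        show σ • _ = z
        rw [hs]
        have : g (g⁻¹ (z - b)) = z - b := g.apply_symm_apply _
        rw [this]; simp
    rcases hprim.isTrivialBlock_of_isBlock hB with h | h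
    · left
      rw [eq_bot_iff]
      intro x hx
      exact h hx W.zero_mem
    · right
      exact SetLike.coe_injective h
  · intro h
    have ht : MulAction.IsPretransitive G V :=
      ⟨fun x y => ⟨⟨_, htr (y - x)⟩, by show x + (y - x) = y; simp⟩⟩
    refine MulAction.IsPreprimitive.of_isTrivialBlock_base (0 : V) fun {B} h0 hB => ?_
    have hadd : ∀ x ∈ B, ∀ y ∈ B, x + y ∈ B := by
      intro x hx y hy
      have h1 := hB.smul_eq_of_nonempty (g := ⟨_, htr y⟩)
        ⟨y, ⟨0, h0, by show (0 : V) + y = y; simp⟩, hy⟩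
      rw [← h1]
      exact ⟨x, hx, rfl⟩
    have hneg : ∀ x ∈ B, -x ∈ B := by
      intro x hx
      have h1 := hB.smul_eq_of_nonempty (g := ⟨_, htr (-x)⟩)
        ⟨0, ⟨x, hx, by show x + -x = 0; simp⟩, h0⟩
      rw [← h1]
      exact ⟨0, h0, by show (0 : V) + -x = -x; simp⟩
    let A : AddSubgroup V := ⟨⟨⟨B, fun {x y} hx hy => hadd x hx y hy⟩, h0⟩, fun {x} hx => hneg x hx⟩
    rcases h (AddSubgroup.toZModSubmodule p A) (by
      intro g hg v hv
      have h1 := hB.smul_eq_of_nonempty (g := ⟨_, hlin g hg⟩)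
        ⟨0, ⟨0, h0, by show g 0 = 0; simp⟩, h0⟩
      show g v ∈ B
      rw [← h1]
      exact ⟨v, hv, rfl⟩) with h1 | h1
    · left
      intro x hx y hy
      have hx' : x ∈ AddSubgroup.toZModSubmodule p A := hx
      have hy' : y ∈ AddSubgroup.toZModSubmodule p A := hy
      rw [h1, Submodule.mem_bot] at hx' hy'
      rw [hx', hy']
    · right
      rw [Set.eq_univ_iff_forall]
      intro x
      have : x ∈ AddSubgroup.toZModSubmodule p A := h1 ▸ Submodule.mem_top
      exact this

end Cfsg.Agent.S0733
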