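import Cfsg.Statements.S0734
import Cfsg.Agent.Base

set_option autoImplicit false
open Cfsg

namespace Cfsg.Agent.S0734

/-- Higman's criterion for primitivity: a transitive action on a finite set is primitive if and only if every non-trivial orbital graph (edges = images of a fixed pair of distinct points) is connected. -/
theorem result {G : Type*} [Group G] {Ω : Type*} [Finite Ω] [MulAction G Ω] [MulAction.IsPretransitive G Ω] [Nontrivial Ω] : MulAction.IsPreprimitive G Ω ↔ ∀ a b : Ω, a ≠ b → (SimpleGraph.fromRel fun x y : Ω => ∃ g : G, g • a = x ∧ g • b = y).Connected := by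
  constructor
  · intro hprim a b hab
    let Γ := SimpleGraph.fromRel fun x y : Ω => ∃ g : G, g • a = x ∧ g • b = y
    have hadj : ∀ (g : G) {x y : Ω}, Γ.Adj x y → Γ.Adj (g • x) (g • y) := by
      intro g x y h
      simp only [Γ, SimpleGraph.fromRel_adj] at h ⊢
      refine ⟨fun e => h.1 (MulAction.injective g e), ?_⟩
      rcases h.2 with ⟨u, h1, h2⟩ | ⟨u, h1, h2⟩
      · exact Or.inl ⟨g * u, by rw [mul_smul, h1], by rw [mul_smul, h2]⟩
      · exact Or.inr ⟨g * u, by rw [mul_smul, h1], by rw [mul_smul, h2]⟩
    have hreach : ∀ (g : G) {x y : Ω}, Γ.Reachable x y → Γ.Reachable (g • x) (g • y) := by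
      intro g x y h
      exact h.map (⟨fun x => g • x, fun h => hadj g h⟩ : Γ →g Γ)
    let B : Set Ω := {x | Γ.Reachable a x}
    have hB : MulAction.IsBlock G B := by
      rw [MulAction.isBlock_iff_smul_eq_of_nonempty]
      rintro g ⟨y, hy1, hy2⟩
      obtain ⟨x, hx, rfl⟩ := hy1
      have h1 : Γ.Reachable a (g • a) := hy2.trans (hreach g hx).symm
      ext z
      rw [Set.mem_smul_set_iff_inv_smul_mem]
      constructor
      · intro hz
        have := hreach g hz
        rw [smul_inv_smul] at this
        exact h1.trans this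
      · intro hz
        have := hreach g⁻¹ (h1.symm.trans hz)
        rwa [inv_smul_smul] at this
    have hb : b ∈ B := by
      refine SimpleGraph.Adj.reachable ?_
      simp only [Γ, SimpleGraph.fromRel_adj]
      exact ⟨hab, Or.inl ⟨1, one_smul _ _, one_smul _ _⟩⟩
    have ha : a ∈ B := SimpleGraph.Reachable.refl a
    rcases hprim.isTrivialBlock_of_isBlock hB with h | h
    · exact absurd (h ha hb) hab
    · refine SimpleGraph.Connected.mk fun x y => ?_
      have hx : x ∈ B := h ▸ Set.mem_univ x
      have hy : y ∈ B := h ▸ Set.mem_univ y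
      exact hx.symm.trans hy
  · intro h
    refine MulAction.IsPreprimitive.mk fun {B} hB => ?_
    by_cases hs : B.Subsingleton
    · exact Or.inl hs
    right
    rw [Set.not_subsingleton_iff] at hs
    obtain ⟨a, ha, b, hb, hab⟩ := hs
    have hc := h a b hab
    rw [Set.eq_univ_iff_forall]
    intro c
    obtain ⟨w⟩ := hc.preconnected a c
    have key : ∀ {x y : Ω} (_ : (SimpleGraph.fromRel fun x y : Ω => ∃ g : G, g • a = x ∧ g • b = y).Walk x y),
        x ∈ B → y ∈ B := by
      intro x y w
      induction w with
      | nil => exact id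
      | cons hadj _ ih =>
        intro hx
        apply ih
        simp only [SimpleGraph.fromRel_adj] at hadj
        rcases hadj.2 with ⟨g, h1, h2⟩ | ⟨g, h1, h2⟩
        · have := hB.smul_eq_of_nonempty (g := g) ⟨_, h1 ▸ Set.smul_mem_smul_set ha, hx⟩
          rw [← this, ← h2]; exact Set.smul_mem_smul_set hb
        · have := hB.smul_eq_of_nonempty (g := g) ⟨_, h2 ▸ Set.smul_mem_smul_set hb, hx⟩
          rw [← this, ← h1]; exact Set.smul_mem_smul_set ha
    exact key w ha

end Cfsg.Agent.S0734
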