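import Cfsg.Statements.S0735
import Cfsg.Agent.Perm.Homog2

set_option autoImplicit false
open Cfsg

namespace Cfsg.Agent.S0735

/-- A 2-homogeneous permutation group (transitive on 2-subsets) of even order is doubly transitive; a non-trivial 2-homogeneous group is primitive. -/
theorem result {α : Type*} [Fintype α] [DecidableEq α] (G : Subgroup (Equiv.Perm α)) (h2 : MulAction.IsPretransitive G (Set.powersetCard α 2)) (hα : 3 ≤ Fintype.card α) : (Even (Nat.card G) → MulAction.IsMultiplyPretransitive G α 2) ∧ (G ≠ ⊥ → MulAction.IsPreprimitive G α) := by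
  rw [CL.Perm.homog_iff_subgroup] at h2
  exact ⟨h2.two_trans_of_even, fun _ => h2.isPreprimitive hα⟩

end Cfsg.Agent.S0735
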