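import Cfsg.Statements.S0736
import Cfsg.Agent.Perm.Homog1

set_option autoImplicit false
open Cfsg

namespace Cfsg.Agent.S0736

/-- A `k`-homogeneous permutation group of degree `n`, `k ≥ 2`, with `k + q - 1 ≤ n` for every prime power `q` dividing `k`, is `(k-1)`-homogeneous. -/
theorem result {α : Type*} [Fintype α] [DecidableEq α] (G : Subgroup (Equiv.Perm α)) {k : ℕ} (hk : 2 ≤ k) (hG : MulAction.IsPretransitive G (Set.powersetCard α k)) (hq : ∀ q : ℕ, IsPrimePow q → q ∣ k → k + q - 1 ≤ Fintype.card α) : MulAction.IsPretransitive G (Set.powersetCard α (k - 1)) := by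
  obtain ⟨m, rfl⟩ : ∃ m, k = m + 1 := ⟨k - 1, by omega⟩
  rw [CL.Perm.homog_iff_subgroup] at hG ⊢
  refine hG.pred ?_ hq
  obtain ⟨p, hp, hd⟩ := Nat.exists_prime_and_dvd (n := m + 1) (by omega)
  have := hq p hp.isPrimePow hd
  have := hp.pos
  omega

end Cfsg.Agent.S0736
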