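import Cfsg.Statements.S0737
import Cfsg.Agent.Perm.KantorHomog
import Cfsg.Agent.Odd.FT

set_option autoImplicit false
open Cfsg

namespace Cfsg.Agent.S0737

/-- A non-trivial 2-homogeneous permutation group that is not doubly transitive has odd order and degree `p^f ≡ 3 (mod 4)`, and is permutation-isomorphic to a group of semi-affine transformations `x ↦ a φ(x) + b` of the field with `p^f` elements containing all translations. -/
theorem result {α : Type*} [Fintype α] [DecidableEq α] (G : Subgroup (Equiv.Perm α)) (hne : G ≠ ⊥) (h2 : MulAction.IsPretransitive G (Set.powersetCard α 2)) (hn2 : ¬ MulAction.IsMultiplyPretransitive G α 2) : Odd (Nat.card G) ∧ ∃ (p f : ℕ) (_ : Fact p.Prime), p ≠ 2 ∧ Fintype.card α = p ^ f ∧ p ^ f % 4 = 3 ∧ ∃ e : α ≃ GaloisField p f, (∀ g : G, e.symm.trans (((g : Equiv.Perm α)).trans e) ∈ Cfsg.semiaffineGroup (GaloisField p f)) ∧ ∀ b : GaloisField p f, ∃ g : G, ∀ x : α, e ((g : Equiv.Perm α) x) = e x + b := by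
  have hH := CL.Perm.homog_iff_subgroup.1 h2
  have hodd : Odd (Nat.card G) := Nat.not_even_iff_odd.1 fun he => hn2 (hH.two_trans_of_even he)
  have := (Subgroup.nontrivial_iff_ne_bot G).2 hne
  obtain ⟨K, _, _, e, hK, h3, h4⟩ := hH.exists_semiaffine_of_odd hodd (CL.Odd.feit_thompson hodd)
  obtain ⟨p, _, n, hp, hn⟩ := FiniteField.card' K
  have := Fact.mk hp
  have := Fintype.ofFinite (GaloisField p n)
  let ι : K ≃+* GaloisField p n := FiniteField.ringEquivOfCardEq (by
    rw [hn, ← Nat.card_eq_fintype_card, GaloisField.card p n n.ne_zero])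
  refine ⟨hodd, p, n, inferInstance, ?_, by rw [← hn]; exact (Fintype.card_congr e).symm, hn ▸ hK,
    e.symm.trans ι.toEquiv, fun g => ?_, fun b => ?_⟩
  · rintro rfl
    have := dvd_pow_self 2 n.ne_zero
    omega
  · obtain ⟨c, t, φ, hg⟩ := h3 g
    refine ⟨Units.map (ι : K →* GaloisField p n) c, ι t, ι.symm.trans (φ.trans ι), fun x => ?_⟩
    show ι (e.symm (g • e (ι.symm x))) = _
    rw [hg, e.symm_apply_apply, map_add, map_mul]
    rfl
  · obtain ⟨g, hg⟩ := h4 (ι.symm b)
    refine ⟨g, fun x => ?_⟩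
    obtain ⟨y, rfl⟩ := e.surjective x
    show ι (e.symm (g • e y)) = ι (e.symm (e y)) + b
    rw [hg, e.symm_apply_apply, e.symm_apply_apply, map_add, ι.apply_symm_apply]

end Cfsg.Agent.S0737
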