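import Cfsg.Statements.S0739
import Cfsg.Agent.Perm.ZassOdd

set_option autoImplicit false
open Cfsg

namespace Cfsg.Agent.S0739

/-- In a finite Zassenhaus group whose two-point stabiliser `H = G_{a,b}` has odd order `d`, and which has no normal `q`-complement for any prime `q ∣ d`, `H` is cyclic, `C_G(H) = H`, and every element swapping `a` and `b` inverts each element of `H`. -/
theorem result {G Ω : Type*} [Group G] [Finite G] [MulAction G Ω] [Fintype Ω] (hZ : Cfsg.IsZassenhausGroup G Ω) {a b : Ω} (hab : a ≠ b) (hodd : Odd (Nat.card ↥(MulAction.stabilizer G a ⊓ MulAction.stabilizer G b))) (hnil : ∀ q : ℕ, q.Prime → q ∣ Nat.card ↥(MulAction.stabilizer G a ⊓ MulAction.stabilizer G b) → ¬ ∃ N : Subgroup G, N.Normal ∧ N.index = q ^ (Nat.card G).factorization q) : IsCyclic ↥(MulAction.stabilizer G a ⊓ MulAction.stabilizer G b) ∧ Subgroup.centralizer ((MulAction.stabilizer G a ⊓ MulAction.stabilizer G b : Subgroup G) : Set G) = MulAction.stabilizer G a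 ⊓ MulAction.stabilizer G b ∧ ∀ s : G, s • a = b → s • b = a → ∀ h ∈ MulAction.stabilizer G a ⊓ MulAction.stabilizer G b, s * h * s⁻¹ = h⁻¹ := by
  have h := CL.Perm.isZ_of_zassenhaus hZ
  have hi : ∀ s : G, s • a = b → s • b = a → ∀ y ∈ CL.Perm.stab2 G a b, s * y * s⁻¹ = y⁻¹ :=
    fun s h1 h2 y hy => h.inverts_of_no_compl hab hodd hnil h1 h2 hy
  obtain ⟨s, h1, h2⟩ := h.exists_swap hab
  refine ⟨h.isCyclic_of_inverts hab (hi s h1 h2), le_antisymm (fun g hg => ?_) fun g hg => ?_, hi⟩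
  · obtain ⟨⟨x, hx⟩, hx1⟩ := Subgroup.ne_bot_iff_exists_ne_one.1
      (CL.Perm.IsZ.stab2_ne_bot_of_zassenhaus hZ hab)
    exact h.mem_stab2_of_commute hab hodd h1 h2 (hi s h1 h2) hx (fun e => hx1 (Subtype.ext e))
      (Subgroup.mem_centralizer_iff.1 hg x hx).symm
  · exact Subgroup.mem_centralizer_iff.2 fun x hx => CL.Perm.comm_of_inverts (hi s h1 h2) hx hg

end Cfsg.Agent.S0739
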