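import Cfsg.Statements.S0740
import Cfsg.Agent.Perm.ZassBasic

set_option autoImplicit false
open Cfsg

namespace Cfsg.Agent.S0740

/-- In a finite Zassenhaus group any two points `a ≠ b` are swapped by an involution; every such involution has exactly one fixed point when the degree is odd and 0 or 2 fixed points when the degree is even; and if the two-point stabiliser has even order, some such involution has exactly 2 fixed points. -/
theorem result {G Ω : Type*} [Group G] [Finite G] [MulAction G Ω] [Fintype Ω] (hZ : Cfsg.IsZassenhausGroup G Ω) {a b : Ω} (hab : a ≠ b) : (∃ s : G, orderOf s = 2 ∧ s • a = b ∧ s • b = a) ∧ (∀ s : G, orderOf s = 2 → s • a = b → s • b = a → (Odd (Fintype.card Ω) → Nat.card (MulAction.fixedBy Ω s) = 1) ∧ (Even (Fintype.card Ω) → Nat.card (MulAction.fixedBy Ω s) = 0 ∨ Nat.card (MulAction.fixedBy Ω s) = 2)) ∧ (Even (Fintype.card Ω) → Even (Nat.card ↥(MulAction.stabilizer G a ⊓ MulAction.stabilizer G b)) → ∃ s : G, orderOf s = 2 ∧ s • a = b ∧ s • b = a ∧ Nat.card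 (MulAction.fixedBy Ω s) = 2) := by
  have h := CL.Perm.isZ_of_zassenhaus hZ
  have ord : ∀ s : G, s * s = 1 → s • a = b → orderOf s = 2 := fun s hs hsa =>
    orderOf_eq_prime (by rw [sq, hs]) (fun e => hab (by simpa [e] using hsa))
  refine ⟨?_, ?_, ?_⟩
  · obtain ⟨s, h1, h2, h3⟩ := h.exists_invol_swap hab
    exact ⟨s, ord s h1 h2, h2, h3⟩
  · intro s hs hsa hsb
    have hs1 : s ≠ 1 := fun e => hab (by simpa [e] using hsa)
    have h1 := h.ncard_fixedBy_le hs1
    have h2 := CL.Perm.ncard_fixedBy_modEq (Ω := Ω) (g := s) (p := 2) (n := 1)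
      (by rw [pow_one, ← hs, pow_orderOf_eq_one])
    rw [Nat.card_eq_fintype_card] at h2
    rw [Nat.card_coe_set_eq]
    unfold Nat.ModEq at h2
    refine ⟨fun ho => ?_, fun he => ?_⟩
    · rw [Nat.odd_iff] at ho; omega
    · rw [Nat.even_iff] at he; omega
  · intro _ heven
    obtain ⟨c, hca, hcb⟩ := h.exists_third a b
    obtain ⟨s, h1, h2, h3, h4, x, hx, hx'⟩ := h.exists_invol_swap_fix hab hca hcb heven
    refine ⟨s, ord s h1 h2, h2, h3, ?_⟩
    have hs1 : s ≠ 1 := fun e => hab (by simpa [e] using h2)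
    rw [h.fixedBy_eq hs1 hx hx' h4, Nat.card_coe_set_eq, Set.ncard_pair hx]

end Cfsg.Agent.S0740
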