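import Cfsg.Statements.S0745
import Cfsg.Agent.Perm.Homog7

set_option autoImplicit false
open Cfsg

namespace Cfsg.Agent.S0745

/-- Let `G` have degree `n` and `3 ≤ k ≤ n`; suppose `G` is `(k-2)`-transitive but not `(k-1)`-transitive, and is `(k-1)`-homogeneous and `k`-homogeneous. Then `k = n` and `G` is the alternating group, or `n = 5, k = 4, |G| = 20`, or `n = 6, k = 5, |G| = 120`, or `n = 9, k = 5, |G| ∈ {504, 1512}`. -/
theorem result {α : Type*} [Fintype α] [DecidableEq α] (G : Subgroup (Equiv.Perm α)) {k : ℕ} (hk : 3 ≤ k) (hkn : k ≤ Fintype.card α) (ht : MulAction.IsMultiplyPretransitive G α (k - 2)) (hnt : ¬ MulAction.IsMultiplyPretransitive G α (k - 1)) (hh1 : MulAction.IsPretransitive G (Set.powersetCard α (k - 1))) (hh : MulAction.IsPretransitive G (Set.powersetCard α k)) : (k = Fintype.card α ∧ G = alternatingGroup α) ∨ (Fintype.card α = 5 ∧ k = 4 ∧ Nat.card G = 20) ∨ (Fintype.card α = 6 ∧ k = 5 ∧ Nat.card G = 120) ∨ (Fintype.card α = 9 ∧ k = 5 ∧ (Nat.card G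 = 504 ∨ Nat.card G = 1512)) := by
  obtain ⟨r, rfl⟩ : ∃ r, k = r + 2 := ⟨k - 2, by omega⟩
  rw [CL.Perm.homog_iff_subgroup] at hh hh1
  by_cases hn : r + 2 = Fintype.card α
  · left
    refine ⟨hn, ?_⟩
    have h1 : alternatingGroup α ≤ G := IsMultiplyPretransitive.alternatingGroup_le α G
      (by rwa [Nat.card_eq_fintype_card, ← hn])
    by_contra hne
    have h2 : G = ⊤ := by
      rw [eq_top_iff]
      obtain ⟨σ, hσ, hσ'⟩ := SetLike.exists_of_lt (lt_of_le_of_ne h1 (Ne.symm hne))
      have hs : Equiv.Perm.sign σ = -1 := (Int.units_eq_one_or _).resolve_left hσ'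
      intro τ _
      rcases Int.units_eq_one_or (Equiv.Perm.sign τ) with h | h
      · exact h1 h
      · have := G.mul_mem (h1 (show τ * σ⁻¹ ∈ alternatingGroup _ by
          rw [Equiv.Perm.mem_alternatingGroup]; simp [h, hs])) hσ
        simpa using this
    apply hnt
    subst h2
    refine ⟨fun x y => ?_⟩
    obtain ⟨g, hg⟩ := (Equiv.Perm.isMultiplyPretransitive α (r + 2 - 1)).exists_smul_eq x y
    exact ⟨⟨g, Subgroup.mem_top g⟩, hg⟩
  · right
    have := CL.Perm.lw_step (G := G) (α := α) (r := r) (by omega)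
      (by rw [Nat.card_eq_fintype_card]; omega) ht hnt hh1 hh
    rw [Nat.card_eq_fintype_card] at this
    omega

end Cfsg.Agent.S0745
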