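import Cfsg.Statements.S0747
import Cfsg.Agent.Perm.Homog5

set_option autoImplicit false
open scoped Pointwise
open Cfsg

namespace Cfsg.Agent.S0747

/-- In a `k`-transitive permutation group with `4 ≤ k < n`, some `(k+1)`-subset `Δ` has the property that every even permutation of `Δ` is induced by an element of the group stabilising `Δ`. -/
theorem result {α : Type*} [Fintype α] [DecidableEq α] (G : Subgroup (Equiv.Perm α)) {k : ℕ} (hk : 4 ≤ k) (hkn : k < Fintype.card α) (hG : MulAction.IsMultiplyPretransitive G α k) : ∃ Δ : Finset α, Δ.card = k + 1 ∧ ∀ σ : Equiv.Perm ↥Δ, σ ∈ alternatingGroup ↥Δ → ∃ g ∈ G, ∀ x : ↥Δ, g (x : α) = σ x := by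
  obtain ⟨e, he, h⟩ := CL.Perm.exists_alternatingGroup_le_indGrp hk
    (by rwa [Nat.card_eq_fintype_card]) hG
  refine ⟨Finset.univ.image e, by rw [Finset.card_image_of_injective _ he]; simp, fun σ hσ => ?_⟩
  let f : Fin (k + 1) ≃ (Finset.univ.image e : Finset α) :=
    (Equiv.ofInjective e he).trans (Equiv.subtypeEquivRight (by simp))
  have hf : ∀ i, (f i : α) = e i := fun i => rfl
  obtain ⟨g, hg⟩ := h (show f.symm.permCongr σ ∈ alternatingGroup _ by
    rw [Equiv.Perm.mem_alternatingGroup, Equiv.Perm.sign_permCongr]; exact hσ)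
  refine ⟨g, g.2, fun x => ?_⟩
  obtain ⟨i, rfl⟩ := f.surjective x
  have := hg i
  rw [← hf, ← hf] at this
  simp only [Equiv.permCongr_apply, Equiv.symm_symm, Equiv.apply_symm_apply] at this
  exact this

end Cfsg.Agent.S0747
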