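import Cfsg.Statements.S0750
import Cfsg.Agent.Cls.Witt

set_option autoImplicit false
open Cfsg

namespace Cfsg.Agent.S0750

/-- Witt's Lemma for quadratic forms over a finite field, in any characteristic: if Q is a quadratic form on a finite-dimensional space V whose polar bilinear form is non-degenerate, then every linear equivalence between subspaces X, Y of V that preserves Q extends to a Q-preserving linear automorphism of V. (In odd characteristic this is the symmetric-bilinear case; in characteristic two it is the statement for non-degenerate quadratic forms.) -/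
theorem result {F V : Type*} [Field F] [Finite F] [AddCommGroup V] [Module F V] [FiniteDimensional F V] (Q : QuadraticForm F V) (hQ : (QuadraticMap.polarBilin Q).Nondegenerate) (X Y : Submodule F V) (φ : X ≃ₗ[F] Y) (hφ : ∀ x : X, Q (φ x : V) = Q (x : V)) : ∃ g : V ≃ₗ[F] V, (∀ v : V, Q (g v) = Q v) ∧ ∀ x : X, g (x : V) = (φ x : V) := by
  obtain ⟨g, -, g2, g3⟩ := (CL.Cls.isWittForm_quad Q hQ.1).exists_isometry_extend X
    (Y.subtype ∘ₗ (φ : X →ₗ[F] Y)) (Y.subtype_injective.comp φ.injective) (fun x x' => by
      have h := hφ (x + x')
      simp only [map_add, Submodule.coe_add] at h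
      simp only [QuadraticMap.polarBilin_apply_apply, QuadraticMap.polar, LinearMap.comp_apply,
        Submodule.subtype_apply, LinearEquiv.coe_coe, h, hφ]) hφ
  exact ⟨g, g2, g3⟩

end Cfsg.Agent.S0750
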