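import Cfsg.Statements.S0752
import Cfsg.Agent.Cls.SympBasis

set_option autoImplicit false
open Cfsg

namespace Cfsg.Agent.S0752

/-- Classification of alternating forms: for an alternating bilinear form B on a finite-dimensional space over any field there is a basis indexed by (Fin m ⊕ Fin m) ⊕ Fin k such that B (e_i, f_j) = δ_ij, the e's are pairwise orthogonal, the f's are pairwise orthogonal, and the last k basis vectors are orthogonal to everything (they span the radical). -/
theorem result {F V : Type*} [Field F] [AddCommGroup V] [Module F V] [FiniteDimensional F V] (B : LinearMap.BilinForm F V) (hA : B.IsAlt) : ∃ (m k : ℕ) (b : Module.Basis ((Fin m ⊕ Fin m) ⊕ Fin k) F V), (∀ i j : Fin m, B (b (Sum.inl (Sum.inl i))) (b (Sum.inl (Sum.inr j))) = if i = j then 1 else 0) ∧ (∀ i j : Fin m, B (b (Sum.inl (Sum.inl i))) (b (Sum.inl (Sum.inl j))) = 0) ∧ (∀ i j : Fin m, B (b (Sum.inl (Sum.inr i))) (b (Sum.inl (Sum.inr j))) = 0) ∧ (∀ (j : Fin k) (v : V), B (b (Sum.inr j)) v = 0) := by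
  obtain ⟨U, hU⟩ := Submodule.exists_isCompl (LinearMap.ker B)
  have hnd : ∀ x : U, (∀ y : U, B.restrict U x y = 0) → x = 0 := by
    intro x hx
    have hk : (x : V) ∈ LinearMap.ker B := by
      rw [LinearMap.mem_ker]
      ext v
      obtain ⟨r, hr, u, hu, rfl⟩ := Submodule.mem_sup.mp (hU.sup_eq_top ▸ Submodule.mem_top : v ∈ _)
      have h1 : B r x = 0 := by rw [LinearMap.mem_ker.mp hr]; rfl
      have h2 : B x r = 0 := by rw [← LinearMap.IsAlt.neg hA, h1, neg_zero]
      have h3 : B x u = 0 := hx ⟨u, hu⟩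
      simp [h2, h3]
    exact Subtype.ext (Submodule.disjoint_def.mp hU.disjoint _ hk x.2)
  have hA' : (B.restrict U).IsAlt := fun x => hA x
  obtain ⟨m, hm⟩ := CL.Cls.even_finrank_of_alt _ hnd hA'
  obtain ⟨b, b1, b2, b3⟩ := CL.Cls.exists_symplectic_basis _ hnd hA' (m := m) (by omega)
  let r := Module.finBasis F (LinearMap.ker B)
  refine ⟨m, _, (b.prod r).map (Submodule.prodEquivOfIsCompl _ _ hU.symm), fun i j => ?_, fun i j => ?_,
    fun i j => ?_, fun j v => ?_⟩
  · simpa using b1 i j
  · simpa using b2 i j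
  · simpa using b3 i j
  · have := LinearMap.mem_ker.mp (r j).2
    simp [this]

end Cfsg.Agent.S0752
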