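import Cfsg.Statements.S0756
import Cfsg.Agent.Cls.QuadDisc

set_option autoImplicit false
open Cfsg

namespace Cfsg.Agent.S0756

/-- Classification of symmetric bilinear forms over finite fields of odd characteristic: if B is non-degenerate symmetric on V of dimension n + 1 and α is a fixed non-square of F, there is an orthogonal basis b_0, ..., b_n with B(b_i, b_i) = 1 for i < n and B(b_n, b_n) ∈ {1, α}. -/
theorem result {F V : Type*} [Field F] [Finite F] [AddCommGroup V] [Module F V] [FiniteDimensional F V] (h2 : (2 : F) ≠ 0) (B : LinearMap.BilinForm F V) (hS : B.IsSymm) (hB : B.Nondegenerate) {n : ℕ} (hn : Module.finrank F V = n + 1) (α : F) (hα : ¬ IsSquare α) : ∃ b : Module.Basis (Fin (n + 1)) F V, (∀ i j, i ≠ j → B (b i) (b j) = 0) ∧ (∀ i, i ≠ Fin.last n → B (b i) (b i) = 1) ∧ (B (b (Fin.last n)) (b (Fin.last n)) = 1 ∨ B (b (Fin.last n)) (b (Fin.last n)) = α) := by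
  classical
  let b₀ := Module.finBasis F V
  have hd := (LinearMap.BilinForm.nondegenerate_iff_det_ne_zero b₀).mp hB
  have hα0 : α ≠ 0 := by rintro rfl; exact hα IsSquare.zero
  obtain ⟨β, hβ, hβ0, hs⟩ : ∃ β : F, (β = 1 ∨ β = α) ∧ β ≠ 0 ∧
      IsSquare ((LinearMap.BilinForm.toMatrix b₀ B).det * β) := by
    by_cases h : IsSquare (LinearMap.BilinForm.toMatrix b₀ B).det
    · exact ⟨1, Or.inl rfl, one_ne_zero, by simpa using h⟩
    · exact ⟨α, Or.inr rfl, hα0, CL.Cls.isSquare_mul_of_not_isSquare h hα⟩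
  let D : Matrix (Fin (n + 1)) (Fin (n + 1)) F := Matrix.diagonal fun i => if i = Fin.last n then β else 1
  have hD : D.det = β := by simp [D, Matrix.det_diagonal]
  have hG : LinearMap.BilinForm.toMatrix (Pi.basisFun F _) (Matrix.toBilin' D) = D := by
    rw [LinearMap.BilinForm.toMatrix_basisFun, LinearMap.BilinForm.toMatrix'_toBilin']
  obtain ⟨e, he⟩ := CL.Cls.symm_exists_equiv_of_isSquare_det h2 (B' := Matrix.toBilin' D) hS
    (Matrix.isSymm_toBilin'_iff_isSymm.mpr (Matrix.isSymm_diagonal _)) hB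
    (LinearMap.BilinForm.nondegenerate_toBilin'_of_det_ne_zero' _ (hD ▸ hβ0)) (by simp [hn]) b₀ (Pi.basisFun F _)
    (by rw [hG, hD]; exact hs)
  have key : ∀ i j, B ((Pi.basisFun F _).map e.symm i) ((Pi.basisFun F _).map e.symm j) = D i j := by
    intro i j
    rw [← he]
    simp [Matrix.toBilin'_single]
  refine ⟨(Pi.basisFun F _).map e.symm, fun i j hij => ?_, fun i hi => ?_, ?_⟩
  · rw [key]; simp [D, hij]
  · rw [key]; simp [D, hi]
  · rw [key]; simpa [D] using hβ

end Cfsg.Agent.S0756
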