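import Cfsg.Statements.S0757
import Cfsg.Agent.Cls.QuadDisc

set_option autoImplicit false
open Cfsg

namespace Cfsg.Agent.S0757

/-- The two diagonal forms Σ x_i^2 and Σ_(i<n) x_i^2 + α x_n^2 on F^(n+1), with α a non-square and 2 ≠ 0 in F, are inequivalent quadratic forms (so over a finite field of odd order there are exactly two classes of non-singular symmetric bilinear forms in each dimension). -/
theorem result {F : Type*} [Field F] (h2 : (2 : F) ≠ 0) (n : ℕ) (α : F) (hα : ¬ IsSquare α) : ¬ (QuadraticMap.weightedSumSquares F (fun _ : Fin (n + 1) => (1 : F))).Equivalent (QuadraticMap.weightedSumSquares F (fun i : Fin (n + 1) => if i = Fin.last n then α else (1 : F))) := by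
  classical
  rintro ⟨e⟩
  have key : ∀ w : Fin (n + 1) → F, (LinearMap.BilinForm.toMatrix (Pi.basisFun F _)
      (QuadraticMap.polarBilin (QuadraticMap.weightedSumSquares F w))).det = 2 ^ (n + 1) * ∏ i, w i := by
    intro w
    have : LinearMap.BilinForm.toMatrix (Pi.basisFun F _)
        (QuadraticMap.polarBilin (QuadraticMap.weightedSumSquares F w)) = Matrix.diagonal fun i => 2 * w i := by
      ext i j
      have hp : ∀ u v : Fin (n + 1) → F, QuadraticMap.polar (QuadraticMap.weightedSumSquares F w) u v =
          ∑ k, 2 * w k * u k * v k := by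
        intro u v
        simp only [QuadraticMap.polar, QuadraticMap.weightedSumSquares_apply, ← Finset.sum_sub_distrib,
          Pi.add_apply, smul_eq_mul]
        exact Finset.sum_congr rfl fun k _ => by ring
      simp [LinearMap.BilinForm.toMatrix_apply, hp, Pi.single_apply, Matrix.diagonal_apply]
      by_cases h : i = j <;> simp [h, eq_comm]
    rw [this, Matrix.det_diagonal, Finset.prod_mul_distrib]
    simp
  obtain ⟨c, hc0, hc⟩ := CL.Cls.det_gram_polar_congr e.toLinearEquiv (fun v => e.map_app v) (Pi.basisFun F _)
    (Pi.basisFun F _)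
  rw [key, key] at hc
  simp only [Finset.prod_const_one, mul_one, Finset.prod_ite_eq', Finset.mem_univ, if_true] at hc
  refine hα ⟨c⁻¹, ?_⟩
  have h3 : (2 : F) ^ (n + 1) ≠ 0 := pow_ne_zero _ h2
  field_simp
  apply mul_left_cancel₀ h3
  linear_combination -hc

end Cfsg.Agent.S0757
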