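import Cfsg.Statements.S0758
import Cfsg.Agent.Cls.QuadClass

set_option autoImplicit false
open Cfsg

namespace Cfsg.Agent.S0758

/-- For a finite field F of odd order q and a non-square α: the form x² + y² is isotropic iff q ≡ 1 mod 4, and the form x² + α y² is isotropic iff q ≡ 3 mod 4. -/
theorem result {F : Type*} [Field F] [Fintype F] (h2 : (2 : F) ≠ 0) (α : F) (hα : ¬ IsSquare α) : ((∃ x y : F, (x ≠ 0 ∨ y ≠ 0) ∧ x ^ 2 + y ^ 2 = 0) ↔ Fintype.card F % 4 = 1) ∧ ((∃ x y : F, (x ≠ 0 ∨ y ≠ 0) ∧ x ^ 2 + α * y ^ 2 = 0) ↔ Fintype.card F % 4 = 3) := by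
  have hchar : ringChar F ≠ 2 := fun h => h2 (by
    have := ringChar.Nat.cast_ringChar (R := F)
    rw [h] at this
    exact_mod_cast this)
  have hodd := FiniteField.odd_card_of_char_ne_two hchar
  have key : ∀ β : F, β ≠ 0 → ((∃ x y : F, (x ≠ 0 ∨ y ≠ 0) ∧ x ^ 2 + β * y ^ 2 = 0) ↔ IsSquare (-β)) := by
    intro β hβ
    constructor
    · rintro ⟨x, y, h0, h⟩
      have hy : y ≠ 0 := by
        rintro rfl
        have : x = 0 := by simpa using h
        simp [this] at h0
      exact ⟨x / y, by field_simp; linear_combination -h⟩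
    · rintro ⟨s, hs⟩
      exact ⟨s, 1, Or.inr one_ne_zero, by linear_combination -hs⟩
  have hα0 : α ≠ 0 := by rintro rfl; exact hα IsSquare.zero
  have h1 := FiniteField.isSquare_neg_one_iff (F := F)
  constructor
  · have := key 1 one_ne_zero
    simp only [one_mul] at this
    rw [this, h1]
    omega
  · rw [key α hα0]
    constructor
    · intro h
      by_contra h3
      obtain ⟨s, hs⟩ := h1.mpr h3
      obtain ⟨t, ht⟩ := h
      exact hα ⟨s * t, by linear_combination (t * t) * hs - ht⟩
    · intro h3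
      have := CL.Cls.isSquare_mul_of_not_isSquare (a := -1) (by rw [h1]; simpa using h3) hα
      simpa using this

end Cfsg.Agent.S0758
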