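import Cfsg.Statements.S0759
import Cfsg.Agent.Cls.QuadDisc

set_option autoImplicit false
open Cfsg

namespace Cfsg.Agent.S0759

/-- Type of the orthonormal form: over a finite field of odd order q and for m ≥ 1, the quadratic form Σ_(i<2m) x_i² on F^(2m) admits an m-dimensional subspace on which it vanishes identically if and only if it is not the case that q ≡ 3 (mod 4) and m is odd. -/
theorem result {F : Type*} [Field F] [Fintype F] (h2 : (2 : F) ≠ 0) (m : ℕ) (hm : 1 ≤ m) : (∃ W : Submodule F (Fin (2 * m) → F), Module.finrank F W = m ∧ ∀ w ∈ W, ∑ i, w i ^ 2 = 0) ↔ ¬ (Fintype.card F % 4 = 3 ∧ Odd m) := by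
  classical
  have hchar : ringChar F ≠ 2 := fun h => h2 (by
    have := ringChar.Nat.cast_ringChar (R := F)
    rw [h] at this
    exact_mod_cast this)
  have hG : LinearMap.BilinForm.toMatrix (Pi.basisFun F _)
      (Matrix.toBilin' (1 : Matrix (Fin (2 * m)) (Fin (2 * m)) F)) = 1 := by
    rw [LinearMap.BilinForm.toMatrix_basisFun, LinearMap.BilinForm.toMatrix'_toBilin']
  have h := CL.Cls.symm_plus_iff_isSquare_det h2 (B := Matrix.toBilin' (1 : Matrix (Fin (2 * m)) (Fin (2 * m)) F))
    (Matrix.isSymm_toBilin'_iff_isSymm.mpr Matrix.isSymm_one)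
    (LinearMap.BilinForm.nondegenerate_toBilin'_of_det_ne_zero' _ (by simp)) (m := m) (by simp) (Pi.basisFun F _)
  rw [hG, Matrix.det_one, mul_one] at h
  have h1 := FiniteField.isSquare_neg_one_iff (F := F)
  have h3 : IsSquare ((-1 : F) ^ m) ↔ ¬ (Fintype.card F % 4 = 3 ∧ Odd m) := by
    rcases Nat.even_or_odd m with hm | hm
    · simp [hm.neg_one_pow, Nat.not_odd_iff_even.mpr hm]
    · simp [hm.neg_one_pow, hm, h1]
  rw [← h3, ← h]
  refine exists_congr fun X => and_congr_right fun _ => ⟨fun hX x hx y hy => ?_, fun hX x hx => ?_⟩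
  · have h4 := hX _ (X.add_mem hx hy)
    have h5 := hX x hx
    have h6 := hX y hy
    rw [Matrix.toBilin'_apply', Matrix.one_mulVec, dotProduct]
    apply mul_left_cancel₀ h2
    rw [mul_zero, Finset.mul_sum, ← h4, ← sub_zero (∑ i, (x + y) i ^ 2), ← sub_zero (_ - 0)]
    nth_rewrite 1 [← h5]
    rw [← h6, ← Finset.sum_sub_distrib, ← Finset.sum_sub_distrib]
    exact Finset.sum_congr rfl fun i _ => by simp only [Pi.add_apply]; ring
  · simpa [Matrix.toBilin'_apply', dotProduct, sq] using hX x hx x hx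

end Cfsg.Agent.S0759
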