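import Cfsg.Statements.S0763
import Cfsg.Agent.Cls.QuadClass

set_option autoImplicit false
open Cfsg

namespace Cfsg.Agent.S0763

/-- Binary quadratic forms in characteristic two over a finite field: if Q is a quadratic form on a 2-dimensional space whose polar form is non-degenerate, then either there are vectors v, w with Q v = Q w = 0 and polar value 1 (Q is xy in these coordinates), or there are v, w and μ with Q v = 1, Q w = μ, polar value 1 and x² + x + μ without roots in F (Q is x² + xy + μy²). -/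
theorem result {F V : Type*} [Field F] [Finite F] [CharP F 2] [AddCommGroup V] [Module F V] (Q : QuadraticForm F V) (h2 : Module.finrank F V = 2) (hQ : (QuadraticMap.polarBilin Q).Nondegenerate) : (∃ v w : V, LinearIndependent F ![v, w] ∧ Q v = 0 ∧ Q w = 0 ∧ QuadraticMap.polar Q v w = 1) ∨ (∃ (v w : V) (μ : F), LinearIndependent F ![v, w] ∧ (∀ x : F, x ^ 2 + x + μ ≠ 0) ∧ Q v = 1 ∧ Q w = μ ∧ QuadraticMap.polar Q v w = 1) := by
  classical
  have : FiniteDimensional F V := Module.finite_of_finrank_eq_succ h2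
  have h20 : (2 : F) = 0 := by exact_mod_cast CharP.cast_eq_zero F 2
  obtain ⟨a, b, hab⟩ := CL.Cls.exists_anisotropic_pair F
  have ha : a ≠ 0 := by
    rintro rfl
    exact CL.Cls.disc_ne_zero_of_anisotropic _ _ hab (by linear_combination (-2 * b) * h20)
  have hab' : ∀ z₁ z₂ : F, z₁ ^ 2 + 1 * z₁ * z₂ + (b / a ^ 2) * z₂ ^ 2 = 0 → z₁ = 0 ∧ z₂ = 0 := fun z₁ z₂ h => by
    obtain ⟨h1, h3⟩ := hab z₁ (z₂ / a) (by rw [← h]; field_simp)
    exact ⟨h1, by simpa [ha] using h3⟩
  have pol : ∀ {W : Type _} [AddCommGroup W] [Module F W] (Q' : QuadraticForm F W) (e : V ≃ₗ[F] W),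
      (∀ v, Q' (e v) = Q v) → ∀ x y, QuadraticMap.polar Q (e.symm x) (e.symm y) = QuadraticMap.polar Q' x y := by
    intro W _ _ Q' e he x y
    simp [QuadraticMap.polar, ← he]
  rcases CL.Cls.exists_equiv_qfPlus_or_qfMinus hQ (m := 0) h2 hab' with ⟨e, he⟩ | ⟨e, he⟩
  · left
    refine ⟨e.symm (Pi.single (.inl 0) 1), e.symm (Pi.single (.inr 0) 1), ?_, ?_, ?_, ?_⟩
    · rw [LinearIndependent.pair_iff]
      intro s t hst
      rw [← map_smul, ← map_smul, ← map_add, LinearEquiv.map_eq_zero_iff] at hst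
      exact ⟨by simpa using congrFun hst (.inl 0), by simpa using congrFun hst (.inr 0)⟩
    · rw [← he]; simp [CL.Cls.qfPlus_apply]
    · rw [← he]; simp [CL.Cls.qfPlus_apply]
    · rw [pol _ e he]; simp [CL.Cls.polar_qfPlus]
  · right
    refine ⟨e.symm (Pi.single (.inr 0) 1), e.symm (Pi.single (.inr 1) 1), b / a ^ 2, ?_, fun x hx => ?_, ?_, ?_, ?_⟩
    · rw [LinearIndependent.pair_iff]
      intro s t hst
      rw [← map_smul, ← map_smul, ← map_add, LinearEquiv.map_eq_zero_iff] at hst
      exact ⟨by simpa using congrFun hst (.inr 0), by simpa using congrFun hst (.inr 1)⟩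
    · exact one_ne_zero (hab' x 1 (by linear_combination hx)).2
    · rw [← he]; simp [CL.Cls.qfMinus_apply]
    · rw [← he]; simp [CL.Cls.qfMinus_apply]
    · rw [pol _ e he]; simp [CL.Cls.polar_qfMinus]

end Cfsg.Agent.S0763
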