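import Cfsg.Statements.S0766
import Cfsg.Agent.Cls.SpMatrix

set_option autoImplicit false
open Cfsg

namespace Cfsg.Agent.S0766


/-- The subgroup generated by the symplectic transvections acts transitively on ordered pairs (u, v) with f(u, v) = 1. -/
theorem result {F : Type*} [Field F] (m : ℕ) (u v u' v' : Fin m ⊕ Fin m → F) (h : Cfsg.sympForm m F u v = 1) (h' : Cfsg.sympForm m F u' v' = 1) : ∃ A ∈ Subgroup.closure {A : Matrix.symplecticGroup (Fin m) F | ∃ (w : Fin m ⊕ Fin m → F) (c : F), (A : Matrix (Fin m ⊕ Fin m) (Fin m ⊕ Fin m) F) = Cfsg.sympTransvection m w c}, (A : Matrix (Fin m ⊕ Fin m) (Fin m ⊕ Fin m) F).mulVec u = u' ∧ (A : Matrix (Fin m ⊕ Fin m) (Fin m ⊕ Fin m) F).mulVec v = v' := by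
  have hA := CL.Sp.stdForm_isAlt (Fin m) F
  have li : ∀ x y : Fin m ⊕ Fin m → F, Cfsg.sympForm m F x y = 1 → LinearIndependent F ![x, y] := by
    intro x y hxy
    rw [← CL.Sp.stdForm_eq_sympForm] at hxy
    rw [LinearIndependent.pair_iff]
    intro s t hst
    have h1 := congrArg (fun z => CL.Sp.stdForm (Fin m) F z y) hst
    have h2 := congrArg (fun z => CL.Sp.stdForm (Fin m) F x z) hst
    simp only [map_add, map_smul, LinearMap.add_apply, LinearMap.smul_apply, smul_eq_mul, hxy,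
      CL.Sp.alt_self hA, map_zero, LinearMap.zero_apply] at h1 h2
    exact ⟨by simpa using h1, by simpa using h2⟩
  obtain ⟨t, ht, e⟩ := CL.Sp.witt_family hA (CL.Sp.stdForm_nondegenerate (Fin m) F) (li u v h) (li u' v' h')
    (by
      rw [← CL.Sp.stdForm_eq_sympForm] at h h'
      intro i j
      fin_cases i <;> fin_cases j <;>
        simp [CL.Sp.alt_self hA, h, h', CL.Sp.alt_neg hA v u, CL.Sp.alt_neg hA v' u'])
  obtain ⟨A, rfl⟩ := CL.Sp.exists_spLin_eq ht
  exact ⟨A, by rw [CL.Sp.closure_sympTransvection]; trivial, e 0, e 1⟩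

end Cfsg.Agent.S0766
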