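import Cfsg.Statements.S0767
import Cfsg.Agent.Cls.SpMatrix

set_option autoImplicit false
open Cfsg

namespace Cfsg.Agent.S0767


/-- The root group of a point: T_v(c) T_v(d) = T_v(c + d), and for A in the symplectic group with A v = a v, the conjugate A T_v(c) A⁻¹ is again some T_v(d). -/
theorem result {F : Type*} [Field F] (m : ℕ) (v : Fin m ⊕ Fin m → F) : (∀ c d : F, Cfsg.sympTransvection m v c * Cfsg.sympTransvection m v d = Cfsg.sympTransvection m v (c + d)) ∧ ∀ (A : Matrix (Fin m ⊕ Fin m) (Fin m ⊕ Fin m) F) (a : F), A ∈ Matrix.symplecticGroup (Fin m) F → A.mulVec v = a • v → ∀ c : F, ∃ d : F, A * Cfsg.sympTransvection m v c * A⁻¹ = Cfsg.sympTransvection m v d := by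
  have hB := CL.Sp.stdForm_isAlt (Fin m) F
  constructor
  · intro c d
    refine CL.Sp.matrix_ext_mulVec fun x => ?_
    rw [← Matrix.mulVec_mulVec, CL.Sp.sympTransvection_mulVec, CL.Sp.sympTransvection_mulVec,
      CL.Sp.sympTransvection_mulVec, ← CL.Sp.tv_mul, LinearEquiv.mul_apply]
  · intro A a hA hv c
    refine ⟨a ^ 2 * c, ?_⟩
    have h := CL.Sp.conj_tv hB (CL.Sp.spLin_mem ⟨A, hA⟩) v c
    rw [CL.Sp.spLin_apply, hv, CL.Sp.tv_smul, ← CL.Sp.spLin_sympTransvection,
      ← CL.Sp.spLin_sympTransvection, ← map_inv, ← map_mul, ← map_mul] at h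
    have h2 := congrArg Subtype.val (CL.Sp.spLin_injective h)
    simpa [SymplecticGroup.coe_inv'] using h2

end Cfsg.Agent.S0767
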