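import Cfsg.Statements.S0768
import Cfsg.Agent.Cls.SpMaxMat
import Cfsg.Agent.Cls.SpSimple

set_option autoImplicit false
open scoped LinearAlgebra.Projectivization
open Cfsg

namespace Cfsg.Agent.S0768


/-- Primitivity: for m ≥ 1 and F finite, the symplectic group of the form sympForm (as a subgroup of the general linear group) acts primitively on the projective space of F^(2m). -/
theorem result {F : Type*} [Field F] [Finite F] (m : ℕ) (hm : 1 ≤ m) : MulAction.IsPreprimitive ↥(Cfsg.spGL m F) (ℙ F (Fin m ⊕ Fin m → F)) := by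
  have hB := CL.Sp.stdForm_isAlt (Fin m) F
  have hN := CL.Sp.stdForm_nondegenerate (Fin m) F
  have htr : MulAction.IsPretransitive ↥(Cfsg.spGL m F) (ℙ F (Fin m ⊕ Fin m → F)) := ⟨fun x y => by
    induction x using Projectivization.ind with | _ v hv =>
    induction y using Projectivization.ind with | _ w hw =>
    obtain ⟨g, hg, e⟩ := CL.Sp.exists_isom_apply_eq hB hN hv hw
    refine ⟨⟨(CL.Sp.glEquiv _ F).symm g, by rwa [CL.Sp.mem_spGL_iff, MulEquiv.apply_symm_apply]⟩, ?_⟩
    rw [Subgroup.smul_def, Projectivization.smul_mk]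
    congr 1
    rw [← e]
    exact CL.Sp.glEquiv_symm_mulVec g v⟩
  have hnt : Nontrivial (ℙ F (Fin m ⊕ Fin m → F)) := by
    refine ⟨⟨Projectivization.mk F (Pi.single (Sum.inl ⟨0, hm⟩) 1) (by simp),
      Projectivization.mk F (Pi.single (Sum.inr ⟨0, hm⟩) 1) (by simp), fun h => ?_⟩⟩
    rw [Projectivization.mk_eq_mk_iff'] at h
    obtain ⟨a, ha⟩ := h
    simpa using congrFun ha (Sum.inl ⟨0, hm⟩)
  let v : Fin m ⊕ Fin m → F := Pi.single (Sum.inl ⟨0, hm⟩) 1
  have hv : v ≠ 0 := by simp [v]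
  rw [← MulAction.isCoatom_stabilizer_iff_preprimitive _ (Projectivization.mk F v hv)]
  have h := CL.Sp.isCoatom_subgroupOf_of_isMaximalIn (CL.Sp.isMaximalIn_stab_isotropic (m := m)
    (Submodule.span F {v}) (by simpa using hv) (fun x hx y hy => by
      rw [← CL.Sp.stdForm_eq_sympForm]; exact CL.Sp.span_le_orth hB v hy x hx))
  convert h using 1
  ext g
  rw [MulAction.mem_stabilizer_iff, Subgroup.smul_def, Projectivization.smul_mk, Projectivization.mk_eq_mk_iff',
    Subgroup.mem_subgroupOf, Subgroup.mem_inf, CL.Sp.mem_subspaceStabilizer_iff, ← Submodule.mem_span_singleton]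
  have hg := (CL.Sp.mem_spGL_iff _).1 g.2
  constructor
  · intro h'
    exact ⟨(CL.Sp.mem_stab_span_iff.2 ⟨hg, h'⟩).2, g.2⟩
  · intro h'
    exact (CL.Sp.mem_stab_span_iff.1 ⟨hg, h'.1⟩).2

end Cfsg.Agent.S0768
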