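import Cfsg.Statements.S0769
import Cfsg.Agent.Cls.SLnCard
-- import your own Cfsg.Agent.* helpers here

set_option autoImplicit false
open Cfsg

namespace Cfsg.Agent.S0769

/-- Order of the Borel subgroup of GL_n(q): the invertible lower-triangular n × n matrices over a field with q elements number q^(n(n-1)/2) (q-1)^n (unitriangular part times the diagonal torus). -/
theorem result {F : Type*} [Field F] [Fintype F] {q : ℕ} (hF : Fintype.card F = q) (n : ℕ) : Nat.card {g : Matrix.GeneralLinearGroup (Fin n) F // ∀ i j : Fin n, i < j → (g : Matrix (Fin n) (Fin n) F) i j = 0} = q ^ (n * (n - 1) / 2) * (q - 1) ^ n := by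
  classical
  have hdet : ∀ M : Matrix (Fin n) (Fin n) F, (∀ i j : Fin n, i < j → M i j = 0) →
      M.det = ∏ i, M i i := fun M hM ↦ Matrix.det_of_isLowerTriangular M (fun i j hij ↦ hM i j hij)
  let e : {g : Matrix.GeneralLinearGroup (Fin n) F //
      ∀ i j : Fin n, i < j → (g : Matrix (Fin n) (Fin n) F) i j = 0} ≃
      ({x : Fin n × Fin n // x.2 < x.1} → F) × (Fin n → Fˣ) :=
    { toFun := fun g ↦ (fun x ↦ g.1 x.1.1 x.1.2, fun i ↦ Units.mk0 (g.1 i i) (by
        have := g.1.det_ne_zero
        rw [hdet _ g.2] at this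
        exact Finset.prod_ne_zero_iff.1 this i (Finset.mem_univ i)))
      invFun := fun x ↦ ⟨Matrix.GeneralLinearGroup.mkOfDetNeZero
        (Matrix.of fun i j ↦ if h : j < i then x.1 ⟨(i, j), h⟩ else if i = j then (x.2 i : F) else 0)
        (by
          rw [hdet _ (fun i j hij ↦ by simp [hij.ne, hij.le])]
          simp [Finset.prod_ne_zero_iff]), fun i j hij ↦ by
            simp [Matrix.GeneralLinearGroup.mkOfDetNeZero, hij.ne, hij.le]⟩
      left_inv := fun g ↦ Subtype.ext (Units.ext (Matrix.ext fun i j ↦ by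
        rcases lt_trichotomy i j with h | h | h
        · simp [Matrix.GeneralLinearGroup.mkOfDetNeZero, h.ne, g.2 i j h]
        · simp [Matrix.GeneralLinearGroup.mkOfDetNeZero, h]
        · simp [Matrix.GeneralLinearGroup.mkOfDetNeZero, h]))
      right_inv := fun x ↦ Prod.ext (funext fun y ↦ by
          simp [Matrix.GeneralLinearGroup.mkOfDetNeZero, y.2])
        (funext fun i ↦ Units.ext (by simp [Matrix.GeneralLinearGroup.mkOfDetNeZero])) }
  have hc : Fintype.card {x : Fin n × Fin n // x.2 < x.1} = n * (n - 1) / 2 := by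
    rw [Fintype.card_congr (Equiv.subtypeProdEquivSigmaSubtype fun i j : Fin n ↦ j < i),
      Fintype.card_sigma, ← Finset.sum_range_id, ← Fin.sum_univ_eq_sum_range (fun i ↦ i) n]
    refine Finset.sum_congr rfl fun i _ ↦ ?_
    rw [Fintype.card_subtype, ← Fin.card_Iio i]
    congr 1
    ext j
    simp
  rw [Nat.card_congr e, Nat.card_prod, Nat.card_fun, Nat.card_fun, CL.SLn.card_units,
    Nat.card_eq_fintype_card, Nat.card_eq_fintype_card, Nat.card_eq_fintype_card, hc, hF,
    Fintype.card_fin]

end Cfsg.Agent.S0769
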