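import Cfsg.Statements.S0770
import Cfsg.Agent.Cls.SLnCard
-- import your own Cfsg.Agent.* helpers here

set_option autoImplicit false
open Cfsg

namespace Cfsg.Agent.S0770

/-- For a field with at least 3 elements, an invertible matrix normalises the subgroup of invertible diagonal matrices of GL_n if and only if it is monomial (exactly one non-zero entry in each row). -/
theorem result {F : Type*} [Field F] (hF : ∃ a : F, a ≠ 0 ∧ a ≠ 1) (n : ℕ) (g : Matrix.GeneralLinearGroup (Fin n) F) : g ∈ Subgroup.normalizer ((Units.map (Matrix.diagonalRingHom (Fin n) F).toMonoidHom).range : Subgroup (Matrix.GeneralLinearGroup (Fin n) F)) ↔ ∀ i : Fin n, ∃! j : Fin n, (g : Matrix (Fin n) (Fin n) F) i j ≠ 0 := by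
  classical
  obtain ⟨a, ha0, ha1⟩ := hF
  set D := (Units.map (Matrix.diagonalRingHom (Fin n) F).toMonoidHom).range with hD
  have memD : ∀ x : Matrix.GeneralLinearGroup (Fin n) F, x ∈ D ↔
      ∃ d : Fin n → F, (x : Matrix (Fin n) (Fin n) F) = Matrix.diagonal d := by
    intro x
    constructor
    · rintro ⟨d, rfl⟩; exact ⟨d, rfl⟩
    · rintro ⟨d, hd⟩
      have h : ∀ i, d i ≠ 0 := by
        have := x.det_ne_zero
        rw [hd, Matrix.det_diagonal] at this
        exact fun i ↦ Finset.prod_ne_zero_iff.1 this i (Finset.mem_univ i)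
      exact ⟨⟨d, fun i ↦ (d i)⁻¹, funext fun i ↦ mul_inv_cancel₀ (h i),
        funext fun i ↦ inv_mul_cancel₀ (h i)⟩, Units.ext hd.symm⟩
  have key : ∀ (x : Matrix.GeneralLinearGroup (Fin n) F) (d : Fin n → F),
      ((g * x * g⁻¹ : Matrix.GeneralLinearGroup (Fin n) F) : Matrix (Fin n) (Fin n) F) =
        Matrix.diagonal d ↔ (g : Matrix (Fin n) (Fin n) F) * x = Matrix.diagonal d * g := by
    intro x d
    rw [Units.val_mul, Units.val_mul, Units.mul_inv_eq_iff_eq_mul]
  rw [Subgroup.mem_normalizer_iff]
  constructor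
  · intro h i
    have hrow : ∃ j, (g : Matrix (Fin n) (Fin n) F) i j ≠ 0 := by
      by_contra hh
      push Not at hh
      exact g.det_ne_zero (Matrix.det_eq_zero_of_row_eq_zero i hh)
    obtain ⟨j, hj⟩ := hrow
    refine ⟨j, hj, fun l hl ↦ ?_⟩
    by_contra hlj
    let x : Matrix.GeneralLinearGroup (Fin n) F := Matrix.GeneralLinearGroup.mkOfDetNeZero
      (Matrix.diagonal (Function.update 1 j a)) (by
        rw [Matrix.det_diagonal, Finset.prod_update_of_mem (Finset.mem_univ j)]; simpa using ha0)
    obtain ⟨d, hd⟩ := (memD _).1 ((h x).1 ((memD x).2 ⟨_, rfl⟩))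
    rw [key] at hd
    have hx : (x : Matrix (Fin n) (Fin n) F) = Matrix.diagonal (Function.update 1 j a) := rfl
    have e1 := congrFun (congrFun hd i) j
    have e2 := congrFun (congrFun hd i) l
    rw [hx, Matrix.mul_diagonal, Matrix.diagonal_mul, mul_comm] at e1 e2
    have e3 := mul_right_cancel₀ hj e1
    have e4 := mul_right_cancel₀ hl e2
    rw [Function.update_of_ne hlj] at e4
    rw [Function.update_self] at e3
    exact ha1 (e3.trans e4.symm)
  · intro h x
    choose σ hσ hσ' using h
    have hz : ∀ i j, j ≠ σ i → (g : Matrix (Fin n) (Fin n) F) i j = 0 := fun i j hj ↦ by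
      by_contra hh; exact hj (hσ' i j hh)
    have hsurj : Function.Surjective σ := by
      intro j
      by_contra hh
      push Not at hh
      exact g.det_ne_zero (Matrix.det_eq_zero_of_column_eq_zero j fun i ↦ hz i j (hh i).symm)
    have hinj : Function.Injective σ := Finite.injective_iff_surjective.2 hsurj
    have comm : ∀ d : Fin n → F, (g : Matrix (Fin n) (Fin n) F) * Matrix.diagonal d =
        Matrix.diagonal (d ∘ σ) * g := fun d ↦ Matrix.ext fun i j ↦ by
      rw [Matrix.mul_diagonal, Matrix.diagonal_mul]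
      by_cases hj : j = σ i
      · rw [hj, mul_comm]; rfl
      · rw [hz i j hj, zero_mul, mul_zero]
    rw [memD, memD]
    constructor
    · rintro ⟨d, hd⟩
      exact ⟨d ∘ σ, by rw [key, hd, comm]⟩
    · rintro ⟨d, hd⟩
      rw [key] at hd
      refine ⟨d ∘ Function.surjInv hsurj, ?_⟩
      have e : d = (d ∘ Function.surjInv hsurj) ∘ σ := funext fun i ↦ by
        simp only [Function.comp_apply]
        rw [hinj (Function.surjInv_eq hsurj (σ i))]
      rw [e, ← comm] at hd
      exact (Units.mul_right_inj g).1 hd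

end Cfsg.Agent.S0770
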