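import Cfsg.Statements.S0772
import Cfsg.Agent.Cls.SLnParabolic
-- import your own Cfsg.Agent.* helpers here

set_option autoImplicit false
open Cfsg

namespace Cfsg.Agent.S0772

/-- The span of the first `k` coordinate vectors. -/
def coordSub (F : Type*) [Field F] (n k : ℕ) : Submodule F (Fin n → F) where
  carrier := {v : Fin n → F | ∀ i : Fin n, k ≤ (i : ℕ) → v i = 0}
  add_mem' ha hb i hi := by simp [ha i hi, hb i hi]
  zero_mem' _ _ := rfl
  smul_mem' c _ ha i hi := by simp [ha i hi]


/-- Maximal parabolics are maximal: over a finite field, for 0 < k < n the stabiliser in GL_n of the span of the first k coordinate vectors is a maximal proper subgroup. -/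
theorem result {F : Type*} [Field F] [Finite F] (n k : ℕ) (hk0 : 0 < k) (hkn : k < n) : IsCoatom (Cfsg.stabilizing (Cfsg.glToMat (Fin n) F) {v : Fin n → F | ∀ i : Fin n, k ≤ (i : ℕ) → v i = 0}) := by
  refine CL.SLn.isCoatom_subspaceStabilizer (W := coordSub F n k) ?_ ?_
  · intro h
    have : (Pi.single ⟨0, by omega⟩ 1 : Fin n → F) ∈ coordSub F n k := fun i hi ↦
      Pi.single_eq_of_ne (fun e ↦ by subst e; simp at hi; omega) _
    rw [h, Submodule.mem_bot] at this
    simpa using congrFun this ⟨0, by omega⟩
  · intro h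
    have : (fun _ ↦ 1 : Fin n → F) ∈ coordSub F n k := h ▸ Submodule.mem_top
    exact one_ne_zero (this ⟨k, hkn⟩ le_rfl)

end Cfsg.Agent.S0772
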