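import Cfsg.Statements.S0773
import Cfsg.Agent.Cls.SLnBlock
-- import your own Cfsg.Agent.* helpers here

set_option autoImplicit false
open Cfsg

namespace Cfsg.Agent.S0773

/-- The span of the first `k` coordinate vectors. -/
def coordSub (F : Type*) [Field F] (n k : ℕ) : Submodule F (Fin n → F) where
  carrier := {v : Fin n → F | ∀ i : Fin n, k ≤ (i : ℕ) → v i = 0}
  add_mem' ha hb i hi := by simp [ha i hi, hb i hi]
  zero_mem' _ _ := rfl
  smul_mem' c _ ha i hi := by simp [ha i hi]

theorem finrank_coordSub (F : Type*) [Field F] (n k : ℕ) (hk : k ≤ n) :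
    Module.finrank F (coordSub F n k) = k := by
  let f : (Fin k → F) →ₗ[F] (Fin n → F) :=
    { toFun := fun v i ↦ if h : (i : ℕ) < k then v ⟨i, h⟩ else 0
      map_add' := fun v w ↦ funext fun i ↦ by by_cases h : (i : ℕ) < k <;> simp [h]
      map_smul' := fun c v ↦ funext fun i ↦ by by_cases h : (i : ℕ) < k <;> simp [h] }
  have hf : Function.Injective f := fun v w h ↦ funext fun i ↦ by
    simpa [f] using congrFun h ⟨i, by omega⟩
  have : LinearMap.range f = coordSub F n k := by
    ext v
    constructor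
    · rintro ⟨w, rfl⟩ i hi
      simp [f, not_lt.2 hi]
    · intro hv
      refine ⟨fun i ↦ v ⟨i, by omega⟩, funext fun i ↦ ?_⟩
      by_cases h : (i : ℕ) < k
      · simp [f, h]
      · simp [f, h, hv i (not_lt.1 h)]
  rw [← this, LinearMap.finrank_range_of_inj hf, Module.finrank_fin_fun]

theorem mem_iff {F : Type*} [Field F] (n k : ℕ) (g : Matrix.GeneralLinearGroup (Fin n) F) :
    g ∈ Cfsg.Geo.subspaceStabilizer (coordSub F n k) ↔
      ∀ i j : Fin n, k ≤ (i : ℕ) → (j : ℕ) < k → (g : Matrix (Fin n) (Fin n) F) i j = 0 := by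
  have e : (coordSub F n k : Set (Fin n → F)) =
      {v : Fin n → F | ∀ i : Fin n, ¬ ((i : ℕ) < k) → v i = 0} := by
    ext v; simp [coordSub]
  rw [Cfsg.Geo.subspaceStabilizer, e, CL.SLn.mem_stabilizing_coord]
  simp

/-- Inverse transpose followed by reversal of the coordinates. -/
noncomputable def flip (F : Type*) [Field F] (n : ℕ) :
    Matrix.GeneralLinearGroup (Fin n) F ≃* Matrix.GeneralLinearGroup (Fin n) F :=
  CL.SLn.invTranspose.trans (CL.SLn.glReindex Fin.revPerm)

theorem flip_mem {F : Type*} [Field F] (n k l : ℕ) (hkl : k + l = n)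
    (g : Matrix.GeneralLinearGroup (Fin n) F)
    (hg : g ∈ Cfsg.Geo.subspaceStabilizer (coordSub F n k)) :
    flip F n g ∈ Cfsg.Geo.subspaceStabilizer (coordSub F n l) := by
  have hg' := (mem_iff n k _).1 (Subgroup.inv_mem _ hg)
  rw [mem_iff]
  intro i j hi hj
  exact hg' (Fin.rev j) (Fin.rev i) (by simp only [Fin.val_rev]; omega)
    (by simp only [Fin.val_rev]; omega)

theorem flip_flip {F : Type*} [Field F] (n : ℕ) (g : Matrix.GeneralLinearGroup (Fin n) F) :
    flip F n (flip F n g) = g :=
  Units.ext (Matrix.ext fun i j ↦ by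
    change (g : Matrix (Fin n) (Fin n) F) (Fin.rev (Fin.rev i)) (Fin.rev (Fin.rev j)) = _
    simp)


/-- The stabilisers in GL_n(F), F finite, of the coordinate subspaces of dimensions k and n − k are isomorphic groups, but when 2k ≠ n (and 0 < k < n) no element of GL_n conjugates one onto the other. -/
theorem result {F : Type*} [Field F] [Finite F] (n k : ℕ) (hk0 : 0 < k) (hkn : k < n) (h2 : 2 * k ≠ n) : Nonempty (↥(Cfsg.stabilizing (Cfsg.glToMat (Fin n) F) {v : Fin n → F | ∀ i : Fin n, k ≤ (i : ℕ) → v i = 0}) ≃* ↥(Cfsg.stabilizing (Cfsg.glToMat (Fin n) F) {v : Fin n → F | ∀ i : Fin n, n - k ≤ (i : ℕ) → v i = 0})) ∧ ∀ g : Matrix.GeneralLinearGroup (Fin n) F, (Cfsg.stabilizing (Cfsg.glToMat (Fin n) F) {v : Fin n → F | ∀ i : Fin n, k ≤ (i : ℕ) → v i = 0}).map (MulAut.conj g).toMonoidHom ≠ Cfsg.stabilizing (Cfsg.glToMat (Fin n) F) {v : Fin n → F | ∀ i : Fin n, n - k ≤ (i : ℕ) → v i = 0} := by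
  constructor
  · have e : (Cfsg.Geo.subspaceStabilizer (coordSub F n k)).map (flip F n : _ →* _) =
        Cfsg.Geo.subspaceStabilizer (coordSub F n (n - k)) := by
      apply le_antisymm
      · rintro _ ⟨g, hg, rfl⟩
        exact flip_mem n k (n - k) (by omega) g hg
      · intro g hg
        exact ⟨flip F n g, flip_mem n (n - k) k (by omega) g hg, flip_flip n g⟩
    exact ⟨((flip F n).subgroupMap _).trans (MulEquiv.subgroupCongr e)⟩
  · intro g hg
    change (Cfsg.Geo.subspaceStabilizer (coordSub F n k)).map _ =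
      Cfsg.Geo.subspaceStabilizer (coordSub F n (n - k)) at hg
    rw [CL.SLn.map_conj_subspaceStabilizer] at hg
    have h0 : coordSub F n (n - k) ≠ ⊥ := fun e ↦ by
      have := finrank_coordSub F n (n - k) (by omega)
      rw [e, finrank_bot] at this
      omega
    have h1 : coordSub F n (n - k) ≠ ⊤ := fun e ↦ by
      have := finrank_coordSub F n (n - k) (by omega)
      rw [e, finrank_top, Module.finrank_fin_fun] at this
      omega
    have := CL.SLn.eq_of_subspaceStabilizer_le h0 h1 (inf_le_left.trans hg.le)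
    have h3 := congrArg (fun W : Submodule F (Fin n → F) ↦ Module.finrank F W) this
    simp only [LinearEquiv.finrank_map_eq] at h3
    rw [finrank_coordSub F n (n - k) (by omega), finrank_coordSub F n k (by omega)] at h3
    omega

end Cfsg.Agent.S0773
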