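import Cfsg.Statements.S0774
import Cfsg.Agent.Cls.SpMatrix2

set_option autoImplicit false
open Cfsg

namespace Cfsg.Agent.S0774

open CL.Sp Module

/-- The coordinate subspace spanned by the first `k` vectors `e_i`. -/
def U (m : ℕ) (F : Type*) [Field F] (k : ℕ) : Submodule F (Fin m ⊕ Fin m → F) where
  carrier := {v | (∀ i : Fin m, k ≤ (i : ℕ) → v (Sum.inl i) = 0) ∧ ∀ i : Fin m, v (Sum.inr i) = 0}
  add_mem' {a b} ha hb := ⟨fun i hi => by simp [ha.1 i hi, hb.1 i hi], fun i => by simp [ha.2 i, hb.2 i]⟩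
  zero_mem' := ⟨fun _ _ => rfl, fun _ => rfl⟩
  smul_mem' c {a} ha := ⟨fun i hi => by simp [ha.1 i hi], fun i => by simp [ha.2 i]⟩

variable {m : ℕ} {F : Type*} [Field F]

theorem mem_U {k : ℕ} {v : Fin m ⊕ Fin m → F} : v ∈ U m F k ↔
    (∀ i : Fin m, k ≤ (i : ℕ) → v (Sum.inl i) = 0) ∧ ∀ i : Fin m, v (Sum.inr i) = 0 := Iff.rfl

theorem U_mono {k l : ℕ} (h : k ≤ l) : U m F k ≤ U m F l :=
  fun _ hv => ⟨fun i hi => hv.1 i (h.trans hi), hv.2⟩

theorem U_le (k : ℕ) : U m F k ≤ U m F m :=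
  fun _ hv => ⟨fun i hi => absurd i.2 (not_lt.2 hi), hv.2⟩

theorem U_zero : U m F 0 = ⊥ := by
  rw [eq_bot_iff]
  intro v hv
  ext (i | i)
  · exact hv.1 i (Nat.zero_le _)
  · exact hv.2 i

theorem single_mem (j : Fin m) : (Pi.single (Sum.inl j) 1 : Fin m ⊕ Fin m → F) ∈ U m F (j + 1) :=
  ⟨fun i hi => by
    rw [Pi.single_eq_of_ne]
    intro h
    have := Sum.inl_injective h
    subst this
    omega, fun i => by simp⟩

theorem single_notMem (j : Fin m) : (Pi.single (Sum.inl j) 1 : Fin m ⊕ Fin m → F) ∉ U m F j :=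
  fun h => by simpa using h.1 j le_rfl

theorem mem_U_of_succ (j : Fin m) {v : Fin m ⊕ Fin m → F} (hv : v ∈ U m F (j + 1))
    (h : v (Sum.inl j) = 0) : v ∈ U m F j :=
  ⟨fun i hi => by
    rcases hi.eq_or_lt with e | e
    · rw [← Fin.ext e]; exact h
    · exact hv.1 i e, hv.2⟩

theorem U_succ (j : Fin m) :
    U m F (j + 1) = U m F j ⊔ Submodule.span F {(Pi.single (Sum.inl j) 1 : Fin m ⊕ Fin m → F)} := by
  refine le_antisymm (fun v hv => ?_) (sup_le (U_mono (Nat.le_succ _)) (by simpa using single_mem j))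
  have : v = (v - v (Sum.inl j) • Pi.single (Sum.inl j) 1) + v (Sum.inl j) • Pi.single (Sum.inl j) 1 := by
    simp
  rw [this]
  refine Submodule.add_mem_sup (mem_U_of_succ j (sub_mem hv (Submodule.smul_mem _ _ (single_mem j))) (by simp))
    (Submodule.smul_mem _ _ (Submodule.mem_span_singleton_self _))

theorem finrank_U (k : ℕ) (hk : k ≤ m) : finrank F (U m F k) = k := by
  induction k with
  | zero => rw [U_zero, finrank_bot]
  | succ k ih =>
    have := U_succ (F := F) (⟨k, hk⟩ : Fin m)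
    simp only at this
    rw [this, finrank_sup_span (single_notMem ⟨k, hk⟩), ih (by omega)]

theorem U_isotropic {u v : Fin m ⊕ Fin m → F} (hu : u ∈ U m F m) (hv : v ∈ U m F m) :
    stdForm (Fin m) F u v = 0 := by
  rw [stdForm_apply']
  exact Finset.sum_eq_zero fun i _ => by simp [hu.2 i, hv.2 i]

/-- The chain of subgroups of the Borel subgroup. -/
noncomputable def G (m : ℕ) (F : Type*) [Field F] (j : ℕ) : Subgroup ((Fin m ⊕ Fin m → F) ≃ₗ[F] (Fin m ⊕ Fin m → F)) :=
  (⨅ k : Fin m, Stab (stdForm (Fin m) F) (U m F (k + 1))) ⊓ Fix (stdForm (Fin m) F) (U m F j)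

theorem card_G_step [Finite F] (j : Fin m) :
    Nat.card (G m F j) = (Nat.card F ^ (j : ℕ) * (Nat.card F - 1)) * Nat.card (G m F (j + 1)) := by
  have hfin : Finite (Fin m ⊕ Fin m → F) := inferInstance
  rw [card_eq_ncard_mul (G m F j) (G m F (j + 1)) (Pi.single (Sum.inl j) 1 : Fin m ⊕ Fin m → F)
    ((U m F (j + 1) : Set _) \ U m F j)]
  · rw [Set.ncard_sdiff (U_mono (Nat.le_succ _)), ncard_submodule, ncard_submodule, finrank_U _ j.2,
      finrank_U _ j.2.le, pow_succ, Nat.mul_sub_one]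
  · intro y
    constructor
    · rintro ⟨hy, hy'⟩
      have hyj : y (Sum.inl j) ≠ 0 := fun h => hy' (mem_U_of_succ j hy h)
      have hd : y - Pi.single (Sum.inl j) 1 ∈ U m F (j + 1) := sub_mem hy (single_mem j)
      let f : (Fin m ⊕ Fin m → F) →ₗ[F] (Fin m ⊕ Fin m → F) :=
        LinearMap.transvection (LinearMap.proj (Sum.inl j)) (y - Pi.single (Sum.inl j) 1)
      have hf : ∀ v, f v = v + v (Sum.inl j) • (y - Pi.single (Sum.inl j) 1) := fun v => rfl
      have hfU : ∀ k, ∀ v ∈ U m F k, f v ∈ U m F k := by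
        intro k v hv
        rw [hf]
        by_cases hk : k ≤ j
        · simpa [hv.1 j hk] using hv
        · exact add_mem hv (Submodule.smul_mem _ _ (U_mono (by omega) hd))
      obtain ⟨t, ht, e⟩ := witt (stdForm_isAlt _ _) (stdForm_nondegenerate _ _) (U m F m) f
        (fun w _ h0 => by
          have h1 := congrFun h0 (Sum.inl j)
          rw [hf] at h1 h0
          have h2 : w (Sum.inl j) * y (Sum.inl j) = 0 := by
            simp at h1; linear_combination h1
          have h3 := (mul_eq_zero.1 h2).resolve_right hyj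
          simpa [h3] using h0)
        (fun x hx z hz => by rw [U_isotropic hx hz, U_isotropic (hfU _ x hx) (hfU _ z hz)])
      refine ⟨t, ⟨Subgroup.mem_iInf.2 fun k => mem_stab_of_le ht fun w hw => ?_, ht, fun w hw => ?_⟩, ?_⟩
      · rw [e w (U_le _ hw)]; exact hfU _ w hw
      · rw [e w (U_le _ hw), hf, hw.1 j le_rfl]; simp
      · rw [LinearEquiv.smul_def, e _ (U_le _ (single_mem j)), hf]; simp
    · rintro ⟨g, hg, rfl⟩
      exact ⟨stab_apply_mem (Subgroup.mem_iInf.1 hg.1 j) (single_mem j),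
        fun h => single_notMem j ((stab_apply_mem_iff (fix_le_stab _ hg.2)).1 h)⟩
  · intro g
    rw [G, G, U_succ, Subgroup.mem_inf, Subgroup.mem_inf, mem_fix_sup_span, and_assoc]

theorem card_G [Finite F] (j : ℕ) (hj : j ≤ m) :
    Nat.card (G m F 0) = Nat.card F ^ (j * (j - 1) / 2) * (Nat.card F - 1) ^ j * Nat.card (G m F j) := by
  induction j with
  | zero => simp
  | succ j ih =>
    have := card_G_step (F := F) (⟨j, hj⟩ : Fin m)
    simp only at this
    rw [ih (by omega), this, Nat.triangle_succ]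
    ring

theorem G_top : G m F m = Fix (stdForm (Fin m) F) (U m F m) := by
  refine inf_eq_right.2 (le_iInf fun k g hg => ?_)
  exact fix_le_stab _ ⟨hg.1, fun x hx => hg.2 x (U_le _ hx)⟩


/-- Borel subgroup of the symplectic group: the elements of Sp_2m(q) stabilising each of the totally isotropic coordinate subspaces ⟨e_0, ..., e_k⟩ (k < m) form a subgroup of order q^(m²) (q − 1)^m. -/
theorem result {F : Type*} [Field F] [Fintype F] {q : ℕ} (hF : Fintype.card F = q) (m : ℕ) : Nat.card ↥(⨅ k : Fin m, Cfsg.stabilizing (Cfsg.spToMat m F) {v : Fin m ⊕ Fin m → F | (∀ i : Fin m, (k : ℕ) < (i : ℕ) → v (Sum.inl i) = 0) ∧ ∀ i : Fin m, v (Sum.inr i) = 0}) = q ^ (m ^ 2) * (q - 1) ^ m := by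
  have h1 : (⨅ k : Fin m, Cfsg.stabilizing (Cfsg.spToMat m F) {v : Fin m ⊕ Fin m → F | (∀ i : Fin m, (k : ℕ) < (i : ℕ) → v (Sum.inl i) = 0) ∧ ∀ i : Fin m, v (Sum.inr i) = 0}) = (G m F 0).comap (spLin (Fin m) F) := by
    rw [G, Subgroup.comap_inf, Subgroup.comap_iInf, U_zero, fix_bot, ← spLin_range,
      MonoidHom.comap_range_self, inf_top_eq]
    refine iInf_congr fun k => ?_
    rw [← stabilizing_spToMat]
    rfl
  have h2 := card_fix_isotropic (stdForm_isAlt (Fin m) F) (stdForm_nondegenerate _ _) 0 m (U m F m)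
    (fun v hv => mem_orth.2 fun u hu => U_isotropic hu hv) (finrank_U m le_rfl) (finrank_std m)
  rw [h1, Nat.card_congr (comapSpLinEquiv (G m F 0) (inf_le_right.trans (fix_le_isom _))).toEquiv, card_G m le_rfl,
    G_top, h2, Nat.card_eq_fintype_card, hF]
  have h3 : m ^ 2 = m * (m - 1) / 2 + m * (m + 1) / 2 := by
    have := Nat.triangle_succ m
    have h4 := Nat.two_mul_div_two_of_even (Nat.even_mul_succ_self m)
    rw [Nat.add_sub_cancel, mul_comm (m + 1) m] at this
    nlinarith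
  rw [h3]
  simp
  ring

end Cfsg.Agent.S0774
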