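import Cfsg.Statements.S0776
import Cfsg.Agent.Cls.SpWeyl

set_option autoImplicit false
open Cfsg

namespace Cfsg.Agent.S0776

/-- If W ≤ F^(2m) is a 2k-dimensional subspace on which the symplectic form is non-degenerate, then the stabiliser of W in Sp_2m(F) is isomorphic to Sp_2k(F) × Sp_(2m−2k)(F). -/
theorem result {F : Type*} [Field F] (m k : ℕ) (hk : k ≤ m) (W : Submodule F (Fin m ⊕ Fin m → F)) (hWk : Module.finrank F W = 2 * k) (hW : ∀ u ∈ W, (∀ v ∈ W, Cfsg.sympForm m F u v = 0) → u = 0) : Nonempty (↥(Cfsg.stabilizing (Cfsg.spToMat m F) (W : Set (Fin m ⊕ Fin m → F))) ≃* Matrix.symplecticGroup (Fin k) F × Matrix.symplecticGroup (Fin (m - k)) F) := by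
  have hB := CL.Sp.stdForm_isAlt (Fin m) F
  have hN := CL.Sp.stdForm_nondegenerate (Fin m) F
  have h1 : Disjoint W ((CL.Sp.stdForm (Fin m) F).orthogonal W) := Submodule.disjoint_def.2 fun u hu h =>
    hW u hu fun v hv => (CL.Sp.stdForm_eq_sympForm _ _).symm.trans ((CL.Sp.mem_orth' hB).1 h v hv)
  have h2 := CL.Sp.finrank_orth hN W
  rw [CL.Sp.finrank_std] at h2
  obtain ⟨e⟩ := CL.Sp.nonempty_stab_equiv hB h1
  obtain ⟨e1⟩ := CL.Sp.nonempty_isom_equiv_sp (CL.Sp.restrict_isAlt hB W) (CL.Sp.restrict_nondeg hB h1) hWk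
  obtain ⟨e2⟩ := CL.Sp.nonempty_isom_equiv_sp (m := m - k) (CL.Sp.restrict_isAlt hB _) (CL.Sp.restrict_nondeg hB
    (X := (CL.Sp.stdForm (Fin m) F).orthogonal W) (by rw [CL.Sp.orth_orth hB hN]; exact h1.symm)) (by omega)
  exact ⟨(CL.Sp.stabilizingEquiv W).trans (e.trans (e1.prodCongr e2))⟩

end Cfsg.Agent.S0776
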