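import Cfsg.Statements.S0777
import Cfsg.Agent.Cls.SpWeyl

set_option autoImplicit false
open Cfsg

namespace Cfsg.Agent.S0777

/-- Weyl group of type C_m: for q ≥ 4 the diagonal matrices of Sp_2m(q) form a torus T ≅ (C_(q−1))^m (the elements stabilising every coordinate axis), and the normaliser of T in Sp_2m(q) has order 2^m · m! · (q − 1)^m. -/
theorem result {F : Type*} [Field F] [Fintype F] {q : ℕ} (hF : Fintype.card F = q) (hq : 4 ≤ q) (m : ℕ) : Nat.card ↥(Subgroup.normalizer (⨅ i : Fin m ⊕ Fin m, Cfsg.stabilizing (Cfsg.spToMat m F) ((Submodule.span F {(Pi.single i (1 : F) : Fin m ⊕ Fin m → F)} : Submodule F (Fin m ⊕ Fin m → F)) : Set (Fin m ⊕ Fin m → F)) : Set (Matrix.symplecticGroup (Fin m) F))) = 2 ^ m * Nat.factorial m * (q - 1) ^ m := by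
  classical
  obtain ⟨a, -, ha⟩ := Finset.exists_mem_notMem_of_card_lt_card (s := ({0, 1, -1} : Finset F)) (t := Finset.univ)
    (Finset.card_le_three.trans_lt (by rw [Finset.card_univ]; omega))
  simp only [Finset.mem_insert, Finset.mem_singleton, not_or] at ha
  rw [Set.iInf_eq_iInter, ← Subgroup.coe_iInf, CL.Sp.card_normalizer_torus ha.1 (fun e => (mul_self_eq_one_iff.1 e).elim ha.2.1 ha.2.2) _ fun t => ?_,
    Fintype.card_fin, Nat.card_eq_fintype_card, hF]
  have h1 : ∀ (i : Fin m ⊕ Fin m) (x : F), (Pi.single i x : Fin m ⊕ Fin m → F) = x • Pi.single i 1 := fun i x => by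
    rw [← Pi.single_smul, smul_eq_mul, mul_one]
  simp only [Subgroup.mem_iInf, CL.Sp.stabilizing_spToMat, Subgroup.mem_comap]
  refine forall_congr' fun j => ⟨fun h => ?_, fun ⟨c, hc⟩ => CL.Sp.mem_stab_of_le (CL.Sp.spLin_mem t) fun w hw => ?_⟩
  · obtain ⟨c, hc⟩ := Submodule.mem_span_singleton.1 (CL.Sp.stab_apply_mem h (Submodule.mem_span_singleton_self _))
    exact ⟨c, by rw [h1 j c, hc, CL.Sp.spLin_apply]⟩
  · obtain ⟨b, rfl⟩ := Submodule.mem_span_singleton.1 hw
    rw [map_smul, CL.Sp.spLin_apply, hc, h1 j c]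
    exact Submodule.smul_mem _ _ (Submodule.smul_mem _ _ (Submodule.mem_span_singleton_self _))

end Cfsg.Agent.S0777
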