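import Cfsg.Statements.S0778
import Cfsg.Agent.Cls.SpWeyl

set_option autoImplicit false
open Cfsg

namespace Cfsg.Agent.S0778

/-- The elements of Sp_2m(F) stabilising both W = ⟨e_1..e_m⟩ and U = ⟨f_1..f_m⟩ form a subgroup isomorphic to GL_m(F) (block-diagonal matrices diag(X, X^(−ᵀ)) up to the sign convention of J), for m ≥ 1 or m = 0 alike. -/
theorem result {F : Type*} [Field F] (m : ℕ) : Nonempty (↥(Cfsg.stabilizing (Cfsg.spToMat m F) {v : Fin m ⊕ Fin m → F | ∀ i : Fin m, v (Sum.inr i) = 0} ⊓ Cfsg.stabilizing (Cfsg.spToMat m F) {v : Fin m ⊕ Fin m → F | ∀ i : Fin m, v (Sum.inl i) = 0}) ≃* Matrix.GeneralLinearGroup (Fin m) F) := by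
  refine ⟨((MonoidHom.ofInjective CL.Sp.leviGL_injective).trans (MulEquiv.subgroupCongr ?_)).symm⟩
  ext A
  rw [CL.Sp.mem_range_leviGL]
  refine ⟨fun h => ?_, fun h => ⟨?_, ?_⟩⟩
  · obtain ⟨g, rfl⟩ := CL.Sp.mem_range_leviGL.2 h
    have h1 : ∀ (g : Matrix.GeneralLinearGroup (Fin m) F) (v : Fin m → F), g.1.mulVec v = 0 ↔ v = 0 := fun g v =>
      ⟨fun e => Matrix.eq_zero_of_mulVec_eq_zero g.det_ne_zero e, fun e => by rw [e, Matrix.mulVec_zero]⟩
    refine ⟨fun v => ?_, fun v => ?_⟩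
    · have h2 : (g⁻¹.1.transpose).mulVec (v ∘ Sum.inr) = 0 ↔ v ∘ Sum.inr = 0 :=
        ⟨fun e => Matrix.eq_zero_of_mulVec_eq_zero (by rw [Matrix.det_transpose]; exact g⁻¹.det_ne_zero) e,
          fun e => by rw [e, Matrix.mulVec_zero]⟩
      simpa [CL.Sp.leviGL, Matrix.fromBlocks_mulVec, funext_iff] using h2.symm
    · simpa [CL.Sp.leviGL, Matrix.fromBlocks_mulVec, funext_iff] using (h1 g (v ∘ Sum.inl)).symm
  · ext i j
    simpa [Matrix.toBlocks₂₁] using (h.1 (Pi.single (Sum.inl j) 1)).1 (by simp) i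
  · ext i j
    simpa [Matrix.toBlocks₁₂] using (h.2 (Pi.single (Sum.inr j) 1)).1 (by simp) i

end Cfsg.Agent.S0778
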