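import Cfsg.Statements.S0781
import Cfsg.Agent.Cls.UniSimple

set_option autoImplicit false
open Cfsg

namespace Cfsg.Agent.S0781

/-- In SU_n(q) with n ≥ 4, or n = 3 and q > 2, every element whose matrix is a unitary transvection x ↦ x + c h(x, v) v (v isotropic) is a commutator ⁅B, C⁆ of two elements of SU_n(q). -/
theorem result {F : Type*} [Field F] [Fintype F] {q : ℕ} (hF : Fintype.card F = q ^ 2) (n : ℕ) (hn : 4 ≤ n ∨ (n = 3 ∧ 3 ≤ q)) (A : ↥(Cfsg.SU n F q)) (v : Fin n → F) (c : F) (hv0 : Cfsg.hermForm n F q v v = 0) (hA : ((A : Matrix.SpecialLinearGroup (Fin n) F) : Matrix (Fin n) (Fin n) F) = Cfsg.unitaryTransvection n q v c) : A ∈ commutatorSet ↥(Cfsg.SU n F q) := by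
  have h := CL.Uni.isBar_bar hF
  have hB := CL.Uni.isHerm_stdB h (Fin n)
  rw [CL.Uni.hermForm_eq h] at hv0
  rw [← CL.Uni.isTv_suEquiv_iff h] at hA
  rcases eq_or_ne v 0 with rfl | hv
  · have : CL.Uni.suEquiv h n A = 1 := by
      apply Subtype.ext
      apply LinearEquiv.ext
      intro x
      rw [hA]; simp
    rw [(CL.Uni.suEquiv h n).map_eq_one_iff.1 this]
    exact one_mem_commutatorSet _
  have hc : CL.Uni.bar hF c = -c := by
    obtain ⟨x, hx⟩ := hB.exists_eq_one hv
    have := CL.Uni.SUG_le_UG (CL.Uni.suEquiv h n A).2 x x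
    rw [hA] at this
    simp only [map_add, LinearMap.add_apply, LinearMap.map_smulₛₗ, LinearMap.smul_apply, hv0,
      smul_eq_mul, map_mul, hB.symm, RingHom.id_apply, hx, hB.flip_one hx, map_one] at this
    linear_combination this
  obtain ⟨a, ha, b, hb, e⟩ := hB.tv_eq_commutator (by simp; omega) hv0 hc hA
  refine ⟨(CL.Uni.suEquiv h n).symm ⟨a, ha⟩, (CL.Uni.suEquiv h n).symm ⟨b, hb⟩, ?_⟩
  apply (CL.Uni.suEquiv h n).injective
  rw [map_commutatorElement, MulEquiv.apply_symm_apply, MulEquiv.apply_symm_apply]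
  exact Subtype.ext e.symm

end Cfsg.Agent.S0781
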