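import Cfsg.Statements.S0783
import Cfsg.Agent.Cls.UniSimple

set_option autoImplicit false
open Cfsg

namespace Cfsg.Agent.S0783

/-- PGU_n(q)/PSU_n(q) is cyclic of order (n, q+1): for n ≥ 2 and |F| = q² there is a surjective homomorphism from GU_n(q) onto the cyclic group of order gcd(n, q + 1) whose kernel is generated by the determinant-one elements together with the centre. -/
theorem result {F : Type*} [Field F] [Fintype F] {q : ℕ} (hF : Fintype.card F = q ^ 2) (n : ℕ) (hn : 2 ≤ n) : ∃ φ : ↥(Cfsg.GU n F q) →* Multiplicative (ZMod (Nat.gcd n (q + 1))), Function.Surjective φ ∧ φ.ker = (Matrix.GeneralLinearGroup.det : Matrix.GeneralLinearGroup (Fin n) F →* Fˣ).ker.subgroupOf (Cfsg.GU n F q) ⊔ Subgroup.center ↥(Cfsg.GU n F q) := by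
  have h := CL.Uni.isBar_bar hF
  have hB := CL.Uni.isHerm_stdB h (Fin n)
  have : Nonempty (Fin n) := ⟨⟨0, by omega⟩⟩
  have : NeZero (Nat.gcd n (q + 1)) := ⟨Nat.gcd_ne_zero_right (by omega)⟩
  have := h.finite
  obtain ⟨ζ0, hζ0⟩ := h.exists_primitiveRoot
  have hne : ζ0 ≠ 0 := hζ0.ne_zero (by omega)
  set ζ : Fˣ := Units.mk0 ζ0 hne with hζdef
  have hζ : IsPrimitiveRoot ζ (q + 1) := IsPrimitiveRoot.coe_units_iff.1 hζ0
  have hnorm : ∀ a : Fˣ, (a : F) * CL.Uni.bar hF a = 1 → ∃ i : ℕ, ζ ^ i = a := by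
    intro a ha
    rw [h.norm_eq_pow] at ha
    obtain ⟨i, -, hi⟩ := hζ0.eq_pow_of_pow_eq_one ha
    exact ⟨i, Units.ext hi⟩
  have hdet : ∀ A : Cfsg.GU n F q, ∃ i : ℕ, ζ ^ i = Matrix.GeneralLinearGroup.det A.1 := by
    intro A
    apply hnorm
    have := hB.dt_norm (CL.Uni.guEquiv h n A).2
    rwa [CL.Uni.dt_guEquiv] at this
  choose lg hlg using hdet
  have hmod : ∀ i j : ℕ, ζ ^ i = ζ ^ j → (i : ZMod (Nat.gcd n (q + 1))) = j := by
    intro i j hij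
    rw [pow_eq_pow_iff_modEq, ← hζ.eq_orderOf] at hij
    exact (ZMod.natCast_eq_natCast_iff _ _ _).2 (hij.of_dvd (Nat.gcd_dvd_right _ _))
  let φ : Cfsg.GU n F q →* Multiplicative (ZMod (Nat.gcd n (q + 1))) :=
    MonoidHom.mk' (fun A => Multiplicative.ofAdd (lg A : ZMod _)) (fun A C => by
      rw [← ofAdd_add, ← Nat.cast_add]
      congr 1
      apply hmod
      rw [pow_add, hlg, hlg, hlg]; simp)
  have hφ : ∀ A, φ A = Multiplicative.ofAdd (lg A : ZMod _) := fun _ => rfl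
  have hζn : ∀ i : ℕ, ((ζ ^ i : Fˣ) : F) * CL.Uni.bar hF ((ζ ^ i : Fˣ) : F) = 1 := by
    intro i
    rw [h.norm_eq_pow, ← Units.val_pow_eq_pow_val, ← pow_mul, mul_comm, pow_mul, hζ.pow_eq_one]
    simp
  refine ⟨φ, fun z => ?_, le_antisymm (fun A hA => ?_) (sup_le (fun A hA => ?_) fun A hA => ?_)⟩
  · obtain ⟨i, hi⟩ := ZMod.natCast_zmod_surjective (n := Nat.gcd n (q + 1)) z.toAdd
    obtain ⟨g, hg, e⟩ := hB.exists_mem_UG_dt_eq (hζn i)
    refine ⟨(CL.Uni.guEquiv h n).symm ⟨g, hg⟩, ?_⟩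
    rw [hφ, hmod _ i, hi]; rfl
    rw [hlg]
    apply Units.ext
    rw [← e, Matrix.GeneralLinearGroup.val_det_apply, ← CL.Uni.dt_guEquiv h]
    simp
  · rw [MonoidHom.mem_ker, hφ, ofAdd_eq_one, ZMod.natCast_eq_zero_iff] at hA
    obtain ⟨k, hk⟩ := hA
    obtain ⟨m, hm⟩ : ∃ m : ℕ, (ζ ^ m) ^ n = ζ ^ Nat.gcd n (q + 1) := by
      obtain ⟨m, hm⟩ : ζ ^ Nat.gcdA n (q + 1) ∈ Submonoid.powers ζ :=
        mem_powers_iff_mem_zpowers.2 ⟨_, rfl⟩
      refine ⟨m, ?_⟩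
      dsimp only at hm
      rw [hm, ← zpow_natCast ζ, Nat.gcd_eq_gcd_ab, zpow_add, zpow_mul ζ (q + 1 : ℕ), zpow_natCast,
        hζ.pow_eq_one, one_zpow, mul_one, mul_comm, zpow_mul, zpow_natCast]
    obtain ⟨g, hg, e, hd⟩ := hB.exists_scalar (hζn (m * k))
    set Z := (CL.Uni.guEquiv h n).symm ⟨g, hg⟩ with hZ
    have hZc : Z ∈ Subgroup.center (Cfsg.GU n F q) := by
      rw [hZ, CL.Uni.apply_mem_center_iff, hB.mem_center_UG]
      exact ⟨_, e⟩
    rw [show A = A * Z⁻¹ * Z by group]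
    refine Subgroup.mul_mem_sup ?_ hZc
    rw [Subgroup.mem_subgroupOf, MonoidHom.mem_ker, Subgroup.coe_mul, Subgroup.coe_inv, map_mul, map_inv,
      ← hlg A, hk, mul_inv_eq_one, pow_mul, ← hm]
    apply Units.ext
    rw [Matrix.GeneralLinearGroup.val_det_apply, ← CL.Uni.dt_guEquiv h, hZ, MulEquiv.apply_symm_apply, hd]
    simp [← pow_mul, mul_comm, mul_left_comm]
  · rw [Subgroup.mem_subgroupOf, MonoidHom.mem_ker] at hA
    rw [MonoidHom.mem_ker, hφ, ofAdd_eq_one, hmod _ 0 (by rw [hlg, hA, pow_zero]), Nat.cast_zero]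
  · rw [← CL.Uni.apply_mem_center_iff (CL.Uni.guEquiv h n), hB.mem_center_UG] at hA
    obtain ⟨a, ha⟩ := hA
    have h1 := hB.norm_eq_one_of_scalar (CL.Uni.guEquiv h n A).2 ha
    have h2 := CL.Uni.dt_of_scalar ha
    have ha0 : a ≠ 0 := by rintro rfl; simp at h1
    obtain ⟨i, hi⟩ := hnorm (Units.mk0 a ha0) h1
    rw [MonoidHom.mem_ker, hφ, ofAdd_eq_one, hmod _ (i * n), ZMod.natCast_eq_zero_iff]
    · exact (Nat.gcd_dvd_left _ _).mul_left _
    · rw [hlg, pow_mul, hi]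
      apply Units.ext
      rw [Matrix.GeneralLinearGroup.val_det_apply, ← CL.Uni.dt_guEquiv h, h2]
      simp

end Cfsg.Agent.S0783
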