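import Cfsg.Statements.S0787
import Cfsg.Agent.Cls.OrthIndexTwo

set_option autoImplicit false
open Cfsg

namespace Cfsg.Agent.S0787

/-- Existence and uniqueness of Ω: if F is finite, n ≥ 2, Q is a quadratic form on F^n with non-degenerate polar form and (|F|, n) ≠ (2, 4), then the group of isometries of determinant one has a unique subgroup of index 2. -/
theorem result {F : Type*} [Field F] [Fintype F] {n : ℕ} (hn : 2 ≤ n) (Q : QuadraticForm F (Fin n → F)) (hQ : (QuadraticMap.polarBilin Q).Nondegenerate) (h : Fintype.card F ≠ 2 ∨ n ≠ 4) : ∃! H : Subgroup ↥(Cfsg.specialIsometryGroup F ⇑Q), H.index = 2 := by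
  have hF : (∃ a : F, a ≠ 0 ∧ a ≠ 1) ∨ Module.finrank F (Fin n → F) ≠ 4 := by
    rcases h with h | h
    · exact Or.inl (CL.Cls.exists_ne_zero_one_of_card h)
    · right
      simpa using h
  have hn' : 2 ≤ Module.finrank F (Fin n → F) := by simpa using hn
  have hmem : ∀ g : Cfsg.isometryGroup F ⇑Q, g ∈ Cfsg.specialIsometryGroup F ⇑Q ↔
      LinearMap.det ((CL.Cls.isomEquiv Q g).1 : (Fin n → F) →ₗ[F] (Fin n → F)) = 1 := by
    intro g
    rw [CL.Cls.det_isomEquiv, Cfsg.specialIsometryGroup, MonoidHom.mem_ker, Units.ext_iff]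
    rfl
  have hle : Cfsg.Omega F ⇑Q ≤ Cfsg.specialIsometryGroup F ⇑Q := by
    intro g hg
    rw [CL.Cls.mem_Omega_iff] at hg
    rw [hmem, CL.Cls.det_eq_dickson hQ, CL.Cls.dickson_eq_one_of_mem_commutator hQ hg]
    simp
  have hidx : ((Cfsg.Omega F ⇑Q).subgroupOf (Cfsg.specialIsometryGroup F ⇑Q)).index = 2 := by
    have h1 := Subgroup.relIndex_mul_index hle
    rw [CL.Cls.index_Omega] at h1
    by_cases h2 : (2 : F) = 0
    · have : Cfsg.specialIsometryGroup F ⇑Q = ⊤ := by
        ext g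
        simp [hmem, CL.Cls.det_eq_one_of_two_eq_zero hQ h2]
      rw [CL.Cls.index_commutator_OG_even hQ h2 hF (by omega)] at h1
      have h3 : (Cfsg.specialIsometryGroup F ⇑Q).index = 1 := by rw [this, Subgroup.index_top]
      rw [h3, mul_one] at h1
      exact h1
    · have : Cfsg.specialIsometryGroup F ⇑Q =
          ((CL.Cls.dickson hQ).comp (CL.Cls.isomEquiv Q).toMonoidHom).ker := by
        ext g
        rw [hmem, ← CL.Cls.dickson_eq_one_iff_det hQ h2]
        rfl
      have hs : Function.Surjective ((CL.Cls.dickson hQ).comp (CL.Cls.isomEquiv Q).toMonoidHom) := by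
        rw [MonoidHom.coe_comp]
        exact (CL.Cls.dickson_surjective hQ (by omega)).comp (CL.Cls.isomEquiv Q).surjective
      have h3 : (Cfsg.specialIsometryGroup F ⇑Q).index = 2 := by
        rw [this, Subgroup.index_ker, MonoidHom.range_eq_top.2 hs]
        simp
      rw [CL.Cls.index_commutator_OG_odd hQ h2 hn', h3] at h1
      unfold Subgroup.relIndex at h1
      omega
  refine ⟨_, hidx, fun H hH => ?_⟩
  have hle2 : (Cfsg.Omega F ⇑Q).subgroupOf (Cfsg.specialIsometryGroup F ⇑Q) ≤ H := by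
    intro g hg
    rw [Subgroup.mem_subgroupOf, CL.Cls.mem_Omega_iff] at hg
    have := CL.Cls.commutator_le_of_commutator_refl hQ hF
      (H := (H.map (Cfsg.specialIsometryGroup F ⇑Q).subtype).map (CL.Cls.isomEquiv Q).toMonoidHom)
      (fun u v hu hv => by
        have h1 : (CL.Cls.isomEquiv Q).symm (CL.Cls.refl Q u * CL.Cls.refl Q v) ∈
            Cfsg.specialIsometryGroup F ⇑Q := by
          rw [hmem, MulEquiv.apply_symm_apply, CL.Cls.OG.det_mul, CL.Cls.det_refl hu, CL.Cls.det_refl hv]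
          simp
        refine ⟨_, ⟨_, Subgroup.sq_mem_of_index_two hH ⟨_, h1⟩, rfl⟩, ?_⟩
        rw [CL.Cls.commutator_refl_eq_sq]
        simp) hg
    obtain ⟨_, ⟨k, hk, rfl⟩, hkg⟩ := this
    have : k = g := Subtype.ext ((CL.Cls.isomEquiv Q).injective hkg)
    rwa [← this]
  have h1 := Subgroup.relIndex_mul_index hle2
  rw [hH, hidx] at h1
  exact le_antisymm (Subgroup.relIndex_eq_one.1 (by omega)) hle2

end Cfsg.Agent.S0787
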