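import Cfsg.Statements.S0792
import Cfsg.Agent.Cls.OrthOmega

set_option autoImplicit false
open Cfsg

namespace Cfsg.Agent.S0792

/-- For q odd and Q with non-degenerate polar form on F^n, the determinant-one isometries form the subgroup generated by all products r_u r_v of two reflections (Q(u), Q(v) ≠ 0). -/
theorem result {F : Type*} [Field F] [Fintype F] (h2 : (2 : F) ≠ 0) {n : ℕ} (Q : QuadraticForm F (Fin n → F)) (hQ : (QuadraticMap.polarBilin Q).Nondegenerate) : Cfsg.specialIsometryGroup F ⇑Q = Subgroup.closure {g : ↥(Cfsg.isometryGroup F ⇑Q) | ∃ u v : Fin n → F, Q u ≠ 0 ∧ Q v ≠ 0 ∧ ((g : Matrix.GeneralLinearGroup (Fin n) F) : Matrix (Fin n) (Fin n) F) = Cfsg.reflectionMatrix ⇑Q u * Cfsg.reflectionMatrix ⇑Q v} := by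
  have hF : (∃ a : F, a ≠ 0 ∧ a ≠ 1) ∨ Module.finrank F (Fin n → F) ≠ 4 :=
    Or.inl (CL.Cls.exists_ne_zero_one_of_two_ne_zero h2)
  have hmem : ∀ g : Cfsg.isometryGroup F ⇑Q, g ∈ Cfsg.specialIsometryGroup F ⇑Q ↔
      CL.Cls.dickson hQ (CL.Cls.isomEquiv Q g) = 1 := by
    intro g
    rw [CL.Cls.dickson_eq_one_iff_det hQ h2, CL.Cls.det_isomEquiv, Cfsg.specialIsometryGroup,
      MonoidHom.mem_ker, Units.ext_iff]
    rfl
  apply le_antisymm
  · intro g hg
    rw [hmem] at hg
    obtain ⟨l, hl, hlg⟩ := CL.Cls.exists_list_refl hQ hF (CL.Cls.isomEquiv Q g)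
    rw [← hlg, CL.Cls.dickson_prod_refl hQ l hl, neg_one_pow_eq_one_iff_even (by decide)] at hg
    have hg' : g = (CL.Cls.isomEquiv Q).symm (l.map (CL.Cls.refl Q)).prod := by
      rw [hlg, MulEquiv.symm_apply_apply]
    rw [hg']
    clear hlg hg'
    obtain ⟨k, hk⟩ := hg
    induction k generalizing l with
    | zero =>
      have : l = [] := List.length_eq_zero_iff.1 (by simpa using hk)
      subst this
      simp
    | succ k ih =>
      match l, hl, hk with
      | u :: v :: l, hl, hk =>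
        simp only [List.map_cons, List.prod_cons, ← mul_assoc]
        rw [map_mul]
        refine Subgroup.mul_mem _ (Subgroup.subset_closure ⟨u, v, hl u (by simp), hl v (by simp), ?_⟩)
          (ih l (fun w hw => hl w (by simp [hw])) (by simp at hk; omega))
        rw [map_mul, ← CL.Cls.isomEquiv_symm_refl_coe, ← CL.Cls.isomEquiv_symm_refl_coe]
        rfl
      | [u], hl, hk => simp at hk; omega
      | [], hl, hk => simp at hk
  · rw [Subgroup.closure_le]
    rintro g ⟨u, v, hu, hv, hg⟩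
    rw [SetLike.mem_coe, hmem]
    have : g = (CL.Cls.isomEquiv Q).symm (CL.Cls.refl Q u) * (CL.Cls.isomEquiv Q).symm (CL.Cls.refl Q v) := by
      apply Subtype.ext
      apply Units.ext
      rw [hg, ← CL.Cls.isomEquiv_symm_refl_coe, ← CL.Cls.isomEquiv_symm_refl_coe]
      rfl
    rw [this, map_mul, map_mul, MulEquiv.apply_symm_apply, MulEquiv.apply_symm_apply,
      CL.Cls.dickson_refl hQ hu, CL.Cls.dickson_refl hQ hv]
    simp

end Cfsg.Agent.S0792
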