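import Cfsg.Statements.S0794
import Cfsg.Agent.Cls.OrthSiegel

set_option autoImplicit false
open Cfsg

namespace Cfsg.Agent.S0794

/-- For q odd, n ≥ 5 and Q with non-degenerate polar form: an isometry whose matrix is a Siegel transformation T_(u,v)(c) (u, v singular and orthogonal) is a commutator in the isometry group, so lies in Ω. -/
theorem result {F : Type*} [Field F] [Fintype F] (h2 : (2 : F) ≠ 0) {n : ℕ} (hn : 5 ≤ n) (Q : QuadraticForm F (Fin n → F)) (hQ : (QuadraticMap.polarBilin Q).Nondegenerate) (u v : Fin n → F) (hu : Q u = 0) (hv : Q v = 0) (huv : QuadraticMap.polar ⇑Q u v = 0) (c : F) (g : ↥(Cfsg.isometryGroup F ⇑Q)) (hg : ((g : Matrix.GeneralLinearGroup (Fin n) F) : Matrix (Fin n) (Fin n) F) = Cfsg.siegelMatrix ⇑Q u v c) : g ∈ commutatorSet ↥(Cfsg.isometryGroup F ⇑Q) ∧ g ∈ Cfsg.Omega F ⇑Q := by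
  have h5 : 5 ≤ Module.finrank F (⊤ : Submodule F (Fin n → F)) := by simpa using hn
  rw [CL.Cls.isom_coe_eq_siegelMatrix_iff Q g hu hv huv] at hg
  obtain ⟨a, -, b, -, d, -, h⟩ := CL.Cls.eich_eq_commutator (CL.Cls.ndon_top hQ) h5 (u := u)
    (v := (-c) • v) Submodule.mem_top Submodule.mem_top hu (by rw [CL.Cls.map_smul', hv, mul_zero])
    (by rw [QuadraticMap.polar_smul_right, huv, smul_zero])
  have h1 : g ∈ commutatorSet ↥(Cfsg.isometryGroup F ⇑Q) := by
    refine ⟨(CL.Cls.isomEquiv Q).symm (CL.Cls.eich Q a b), (CL.Cls.isomEquiv Q).symm (CL.Cls.eich Q u d), ?_⟩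
    apply (CL.Cls.isomEquiv Q).injective
    rw [hg, h, map_commutatorElement]
    simp
  refine ⟨h1, ?_⟩
  obtain ⟨x, y, rfl⟩ := h1
  exact Subgroup.commutator_mem_commutator trivial trivial

end Cfsg.Agent.S0794
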