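import Cfsg.Statements.S0796
import Cfsg.Agent.Base
-- import your own Cfsg.Agent.* helpers here

set_option autoImplicit false
open Cfsg

namespace Cfsg.Agent.S0796

/-- If G is finite and acts faithfully and primitively on X, H is the stabiliser of a point, A is a normal subgroup of H whose normal closure in G is G, then for every non-trivial normal subgroup K of G the quotient G ⧸ K is isomorphic to A ⧸ B for some normal subgroup B of A. -/
theorem result {G X : Type*} [Group G] [Finite G] [MulAction G X] [FaithfulSMul G X] (hprim : MulAction.IsPreprimitive G X) (x : X) (A : Subgroup G) (hA : A ≤ MulAction.stabilizer G x) (hAn : (A.subgroupOf (MulAction.stabilizer G x)).Normal) (hgen : Subgroup.normalClosure (A : Set G) = ⊤) (K : Subgroup G) [K.Normal] (hK : K ≠ ⊥) : ∃ (B : Subgroup A) (_ : B.Normal), Nonempty (G ⧸ K ≃* A ⧸ B) := by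
  have hfix : MulAction.fixedPoints K X ≠ Set.univ := by
    intro h
    apply hK
    rw [Subgroup.eq_bot_iff_forall]
    intro k hk
    apply FaithfulSMul.eq_of_smul_eq_smul (α := X)
    intro y
    rw [one_smul]
    exact Set.eq_univ_iff_forall.1 h y ⟨k, hk⟩
  have htr : MulAction.IsPretransitive K X :=
    MulAction.IsQuasiPreprimitive.isPretransitive_of_normal hfix
  have hnorm : (K ⊔ A).Normal := by
    refine ⟨fun a ha g ↦ ?_⟩
    obtain ⟨k, hk⟩ := MulAction.exists_smul_eq K x (g • x)
    have hs : (k : G)⁻¹ * g ∈ MulAction.stabilizer G x := by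
      rw [MulAction.mem_stabilizer_iff, mul_smul, inv_smul_eq_iff]
      exact hk.symm
    set s := (k : G)⁻¹ * g with hsdef
    have hg : g = k * s := by simp [hsdef]
    have hkm : (k : G) ∈ K ⊔ A := Subgroup.mem_sup_left k.2
    have h1 : s * a * s⁻¹ ∈ K ⊔ A := by
      have ha' : a ∈ ((K ⊔ A : Subgroup G) : Set G) := ha
      rw [Subgroup.normal_mul] at ha'
      obtain ⟨k', hk', a', ha', rfl⟩ := ha'
      have e : s * (k' * a') * s⁻¹ = (s * k' * s⁻¹) * (s * a' * s⁻¹) := by group
      simp only
      rw [e]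
      refine Subgroup.mul_mem _ (Subgroup.mem_sup_left (Subgroup.Normal.conj_mem ‹_› _ hk' _))
        (Subgroup.mem_sup_right ?_)
      exact hAn.conj_mem ⟨a', hA ha'⟩ ha' ⟨s, hs⟩
    have e : g * a * g⁻¹ = k * (s * a * s⁻¹) * (k : G)⁻¹ := by rw [hg]; group
    rw [e]
    exact Subgroup.mul_mem _ (Subgroup.mul_mem _ hkm h1) (Subgroup.inv_mem _ hkm)
  have htop : K ⊔ A = ⊤ := by
    rw [eq_top_iff, ← hgen]
    exact Subgroup.normalClosure_le_normal (fun a ha ↦ Subgroup.mem_sup_right ha)
  let f : A →* G ⧸ K := (QuotientGroup.mk' K).comp A.subtype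
  have hf : Function.Surjective f := by
    intro y
    obtain ⟨g, rfl⟩ := QuotientGroup.mk'_surjective K y
    have hg : g ∈ ((A ⊔ K : Subgroup G) : Set G) := by rw [sup_comm, htop]; trivial
    rw [Subgroup.mul_normal] at hg
    obtain ⟨a, ha, k, hk, rfl⟩ := hg
    refine ⟨⟨a, ha⟩, ?_⟩
    simp only [f, MonoidHom.comp_apply, Subgroup.coe_subtype, map_mul, QuotientGroup.mk'_apply]
    rw [(QuotientGroup.eq_one_iff k).2 hk, mul_one]
  exact ⟨f.ker, inferInstance, ⟨(QuotientGroup.quotientKerEquivOfSurjective f hf).symm⟩⟩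

end Cfsg.Agent.S0796
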