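import Cfsg.Statements.S0797
import Cfsg.Agent.Cls.OrthIndexTwo

set_option autoImplicit false
open Cfsg

namespace Cfsg.Agent.S0797

/-- O^ε_2m(q) ≅ Ω.2² for q odd: if F is finite of odd characteristic, n ≥ 2 is even and Q has non-degenerate polar form on F^n, the isometry group of Q has exactly three subgroups of index 2. -/
theorem result {F : Type*} [Field F] [Fintype F] (h2 : (2 : F) ≠ 0) {n : ℕ} (hn : 2 ≤ n) (heven : Even n) (Q : QuadraticForm F (Fin n → F)) (hQ : (QuadraticMap.polarBilin Q).Nondegenerate) : Nat.card {H : Subgroup ↥(Cfsg.isometryGroup F ⇑Q) // H.index = 2} = 3 := by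
  have hn' : 2 ≤ Module.finrank F (Fin n → F) := by simpa using hn
  refine CL.Cls.card_index_two_of_hom (((CL.Cls.dickson hQ).prod (CL.Cls.spinor hQ)).comp
    (CL.Cls.isomEquiv Q).toMonoidHom) ?_ ?_
  · rw [MonoidHom.coe_comp]
    exact (CL.Cls.dickson_prod_spinor_surjective hQ h2 hn').comp (CL.Cls.isomEquiv Q).surjective
  · ext g
    rw [← CL.Cls.mem_commutator_congr (CL.Cls.isomEquiv Q),
      CL.Cls.commutator_OG_eq_ker hQ (Or.inl (CL.Cls.exists_ne_zero_one_of_two_ne_zero h2))]
    rfl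

end Cfsg.Agent.S0797
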