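import Cfsg.Statements.S0798
import Cfsg.Agent.Cls.OrthIndexTwo

set_option autoImplicit false
open Cfsg

namespace Cfsg.Agent.S0798

/-- For q odd, n ≥ 2 even, Q with non-degenerate polar form (n, |F|) ≠ (4, 3), and a fixed c ≠ 0: the subgroup of the isometry group generated by the reflections r_v with Q(v) ∈ c·(F^×)² has index 2. -/
theorem result {F : Type*} [Field F] [Fintype F] (h2 : (2 : F) ≠ 0) {n : ℕ} (hn : 2 ≤ n) (heven : Even n) (Q : QuadraticForm F (Fin n → F)) (hQ : (QuadraticMap.polarBilin Q).Nondegenerate) (h43 : ¬ (n = 4 ∧ Fintype.card F = 3)) (c : F) (hc : c ≠ 0) : (Subgroup.closure {g : ↥(Cfsg.isometryGroup F ⇑Q) | ∃ (v : Fin n → F) (t : F), t ≠ 0 ∧ Q v = c * t ^ 2 ∧ ((g : Matrix.GeneralLinearGroup (Fin n) F) : Matrix (Fin n) (Fin n) F) = Cfsg.reflectionMatrix ⇑Q v}).index = 2 := by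
  classical
  have hF : Module.finrank F (Fin n → F) = 2 ∨ 6 ≤ Module.finrank F (Fin n → F) ∨
      (4 ≤ Module.finrank F (Fin n → F) ∧ ∃ t : F, t ≠ 0 ∧ t ^ 2 ≠ 1) := by
    simp only [Module.finrank_fintype_fun_eq_card, Fintype.card_fin]
    obtain ⟨k, hk⟩ := heven
    by_cases h4 : n = 4
    · right; right
      refine ⟨by omega, ?_⟩
      by_contra hc
      push Not at hc
      apply h43
      refine ⟨h4, ?_⟩
      have h1 : (1 : F) ≠ -1 := fun h => h2 (by linear_combination h)
      have : (Finset.univ : Finset F) = {0, 1, -1} := by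
        ext a
        by_cases ha : a = 0
        · simp [ha]
        · have := hc a ha
          rw [pow_two, mul_self_eq_one_iff] at this
          simp [this]
      rw [← Finset.card_univ, this, Finset.card_eq_three]
      exact ⟨0, 1, -1, zero_ne_one, by simp, h1, rfl⟩
    · omega
  refine Eq.trans ?_ (CL.Cls.index_closure_refl_class hQ h2 hF hc)
  rw [← Subgroup.index_comap_of_surjective _ (f := (CL.Cls.isomEquiv Q).toMonoidHom)
      (CL.Cls.isomEquiv Q).surjective]
  congr 1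
  apply Subgroup.map_injective (f := (CL.Cls.isomEquiv Q).toMonoidHom) (CL.Cls.isomEquiv Q).injective
  rw [Subgroup.map_comap_eq_self_of_surjective (CL.Cls.isomEquiv Q).surjective, MonoidHom.map_closure]
  congr 1
  ext g
  constructor
  · rintro ⟨k, ⟨v, t, ht, hv, hk⟩, rfl⟩
    exact ⟨v, t, ht, hv, (CL.Cls.isom_coe_eq_reflectionMatrix_iff Q k v).1 hk⟩
  · rintro ⟨v, t, ht, hv, rfl⟩
    exact ⟨(CL.Cls.isomEquiv Q).symm (CL.Cls.refl Q v), ⟨v, t, ht, hv, CL.Cls.isomEquiv_symm_refl_coe Q v⟩,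
      by simp⟩

end Cfsg.Agent.S0798
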