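import Cfsg.Statements.S0799
import Cfsg.Agent.Cls.SL2PSL


set_option autoImplicit false
open Cfsg

namespace Cfsg.Agent.S0799

/-- Dickson's classification of the subgroups of PSL_2(q), q a power of the prime p, d = gcd(2, q − 1): every subgroup H is (a) cyclic or dihedral with k dividing (q+1)/d or (q−1)/d (cyclic of order k, or dihedral of order 2k), (b) isomorphic to a subgroup of the normaliser of a Sylow p-subgroup, (c) isomorphic to A_4, S_4 or A_5, or (d) isomorphic to PSL_2(K) or PGL_2(K) for a finite field K with |K|^m = q. -/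
theorem result {F : Type*} [Field F] [Fintype F] {q : ℕ} (hF : Fintype.card F = q) (p : ℕ) [Fact p.Prime] [CharP F p] (H : Subgroup (Matrix.ProjectiveSpecialLinearGroup (Fin 2) F)) : (∃ k : ℕ, (k ∣ (q + 1) / Nat.gcd 2 (q - 1) ∨ k ∣ (q - 1) / Nat.gcd 2 (q - 1)) ∧ ((IsCyclic H ∧ Nat.card H = k) ∨ Nonempty (H ≃* DihedralGroup k))) ∨ (∃ (P : Sylow p (Matrix.ProjectiveSpecialLinearGroup (Fin 2) F)) (K : Subgroup (Matrix.ProjectiveSpecialLinearGroup (Fin 2) F)), K ≤ Subgroup.normalizer ((P : Subgroup (Matrix.ProjectiveSpecialLinearGroup (Fin 2) F)) : Set (Matrix.ProjectiveSpecialLinearGroup (Fin 2) F)) ∧ Nonempty (H ≃* K)) ∨ Nonempty (H ≃* alternatingGroup (Fin 4)) ∨ Nonempty (H ≃* Equiv.Perm (Fin 4)) ∨ Nonempty (H ≃* alternatingGroup (Fin 5)) ∨ (∃ (K : Type) (_ : Field K) (_ : Fintype K) (m : ℕ), Fintype.card K ^ m = q ∧ (Nonempty (H ≃* Matrix.ProjectiveSpecialLinearGroup (Fin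 2) K) ∨ Nonempty (H ≃* Matrix.ProjGenLinGroup (Fin 2) K))) := by
  subst hF
  rcases CL.SL2.dickson_psl p H with ⟨x, hx⟩ | ⟨h1, h2⟩ | ⟨k, hk, h⟩ | ⟨-, h⟩ | ⟨-, h⟩ | rfl |
    ⟨L, m, -, -, hm, h⟩
  · obtain ⟨P, hP⟩ := CL.SL2.normalizer_sylow_psl p x
    exact Or.inr (Or.inl ⟨P, H, hx.trans hP.ge, ⟨MulEquiv.refl _⟩⟩)
  · exact Or.inl ⟨_, h2, Or.inl ⟨h1, rfl⟩⟩
  · exact Or.inl ⟨k, hk, Or.inr h⟩
  · exact Or.inr (Or.inr (h.imp_right (Or.imp_right Or.inl)))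
  · exact Or.inr (Or.inr (Or.inr (Or.inr (Or.inl h))))
  · obtain ⟨K, _, _, hK⟩ := CL.SL2.exists_field_type F
    obtain ⟨e⟩ := CL.SLn.nonempty_psl_equiv_of_card_eq (ι := Fin 2) hK
    exact Or.inr (Or.inr (Or.inr (Or.inr (Or.inr ⟨K, _, _, 1, by rw [pow_one, hK],
      Or.inl ⟨Subgroup.topEquiv.trans e.symm⟩⟩))))
  · have := Fintype.ofFinite L
    obtain ⟨K, _, _, hK⟩ := CL.SL2.exists_field_type L
    obtain ⟨e⟩ := CL.SLn.nonempty_psl_equiv_of_card_eq (ι := Fin 2) hK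
    obtain ⟨e'⟩ := CL.SL2.nonempty_pgl_equiv_of_card_eq (ι := Fin 2) hK
    exact Or.inr (Or.inr (Or.inr (Or.inr (Or.inr ⟨K, _, _, m,
      by rw [hK, ← Nat.card_eq_fintype_card, hm],
      h.imp (fun ⟨f⟩ => ⟨f.trans e.symm⟩) (fun ⟨f⟩ => ⟨f.trans e'.symm⟩)⟩))))

end Cfsg.Agent.S0799
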