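import Cfsg.Statements.S0800
import Cfsg.Agent.Cls.SL2Tori


set_option autoImplicit false
open Cfsg

namespace Cfsg.Agent.S0800

/-- Tori of SL_2(q): if g ∈ SL_2(q) has order coprime to the characteristic p, then the order of g divides q − 1 or q + 1. -/
theorem result {F : Type*} [Field F] [Fintype F] {q : ℕ} (hF : Fintype.card F = q) (p : ℕ) [Fact p.Prime] [CharP F p] (g : Matrix.SpecialLinearGroup (Fin 2) F) (hg : Nat.Coprime (orderOf g) p) : orderOf g ∣ q - 1 ∨ orderOf g ∣ q + 1 := by
  subst hF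
  have key : g ^ (2 * p) = 1 → orderOf g ∣ Fintype.card F - 1 := fun h => by
    have h1 : orderOf g ∣ 2 := hg.dvd_of_dvd_mul_right (orderOf_dvd_of_pow_eq_one h)
    by_cases hp : p = 2
    · subst hp
      rw [hg.eq_one_of_dvd h1]
      exact one_dvd _
    · exact h1.trans ((CL.GL2.odd_of_charP hp).tsub_odd odd_one).two_dvd
  rcases CL.SL2.sl_pow_cases p g with h | h | h | h
  · exact Or.inr (orderOf_dvd_of_pow_eq_one h)
  · exact Or.inl (orderOf_dvd_of_pow_eq_one h)
  · exact Or.inl (key (by rw [mul_comm, pow_mul, h, one_pow]))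
  · exact Or.inl (key (by rw [mul_comm, pow_mul, h]; simp))

end Cfsg.Agent.S0800
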