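import Cfsg.Statements.S0801
import Cfsg.Agent.Cls.SL2Sub


set_option autoImplicit false
open Cfsg

namespace Cfsg.Agent.S0801

/-- Let F be a finite field of odd characteristic and λ ≠ 0 an element generating F as a field. Then the lower and upper unitriangular matrices with off-diagonal entries 1 and λ generate SL_2(F), unless |F| = 9 and λ² = −1, in which case they generate a subgroup of order 120. -/
theorem result {F : Type*} [Field F] [Fintype F] (h2 : (2 : F) ≠ 0) (lam : F) (hlam : lam ≠ 0) (hgen : Subfield.closure ({lam} : Set F) = ⊤) : (Subgroup.closure {g : Matrix.SpecialLinearGroup (Fin 2) F | (g : Matrix (Fin 2) (Fin 2) F) = !![1, 0; 1, 1] ∨ (g : Matrix (Fin 2) (Fin 2) F) = !![1, lam; 0, 1]} = ⊤ ∧ ¬ (Fintype.card F = 9 ∧ lam ^ 2 = -1)) ∨ (Fintype.card F = 9 ∧ lam ^ 2 = -1 ∧ Nat.card ↥(Subgroup.closure {g : Matrix.SpecialLinearGroup (Fin 2) F | (g : Matrix (Fin 2) (Fin 2) F) = !![1, 0; 1, 1] ∨ (g : Matrix (Fin 2) (Fin 2)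 F) = !![1, lam; 0, 1]}) = 120) := by
  have e : {g : Matrix.SpecialLinearGroup (Fin 2) F | (g : Matrix (Fin 2) (Fin 2) F) = !![1, 0; 1, 1] ∨
      (g : Matrix (Fin 2) (Fin 2) F) = !![1, lam; 0, 1]} = {CL.SL2.loT 1, CL.SL2.upT lam} := by
    ext g
    rw [← CL.SL2.coe_loT, ← CL.SL2.coe_upT]
    exact or_congr Subtype.val_inj Subtype.val_inj
  rw [e]
  by_cases h : Fintype.card F = 9 ∧ lam ^ 2 = -1
  · obtain ⟨f⟩ := CL.SL2.nonempty_closure_loT_upT (F := F) (by
      have h9 := FiniteField.cast_card_eq_zero F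
      rw [h.1] at h9
      exact pow_eq_zero_iff two_ne_zero |>.1 (by rw [← h9]; norm_num)) h.2
    exact Or.inr ⟨h.1, h.2, by rw [Nat.card_congr f.toEquiv, CL.GL2.card_SL2, ZMod.card]; rfl⟩
  · exact Or.inl ⟨CL.SL2.closure_loT_upT_eq_top h2 hlam hgen h, h⟩

end Cfsg.Agent.S0801
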