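import Cfsg.Statements.S0805
import Cfsg.Agent.Cls.SL2Sub


set_option autoImplicit false
open Cfsg

namespace Cfsg.Agent.S0805

/-- Subfield subgroups: let F be a finite field of odd order q and K a finite field with |K|^m = q, m ≥ 1. Then PSL_2(F) has a subgroup isomorphic to PSL_2(K), and has a subgroup isomorphic to PGL_2(K) if and only if m is even. -/
theorem result {F K : Type*} [Field F] [Fintype F] [Field K] [Fintype K] {q : ℕ} (hF : Fintype.card F = q) (hodd : Odd q) (m : ℕ) (hm : 1 ≤ m) (hK : Fintype.card K ^ m = q) : (∃ H : Subgroup (Matrix.ProjectiveSpecialLinearGroup (Fin 2) F), Nonempty (H ≃* Matrix.ProjectiveSpecialLinearGroup (Fin 2) K)) ∧ ((∃ H : Subgroup (Matrix.ProjectiveSpecialLinearGroup (Fin 2) F), Nonempty (H ≃* Matrix.ProjGenLinGroup (Fin 2) K)) ↔ Even m) := by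
  subst hF
  rw [CL.SL2.exists_subgroup_iff_exists_injective, CL.SL2.exists_subgroup_iff_exists_injective]
  refine ⟨CL.SL2.exists_psl_injective_of_card_pow hK, fun ⟨ψ, hψ⟩ => ?_,
    CL.SL2.exists_pgl_injective_of_even hK⟩
  by_contra hm'
  have h1 := Nat.mul_dvd_mul_right (Subgroup.card_dvd_of_injective ψ hψ)
    (Nat.gcd 2 (Fintype.card F - 1))
  have hK2 := CL.GL2.two_le_card (F := K)
  have hKo : Odd (Fintype.card K) := (Nat.odd_pow_iff (by omega)).1 (hK ▸ hodd)
  have h2 : Fintype.card F ^ 2 - 1 =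
      (∑ i ∈ Finset.range m, (Fintype.card K ^ 2) ^ i) * (Fintype.card K ^ 2 - 1) := by
    rw [Nat.geomSum_eq (by nlinarith), Nat.div_mul_cancel (Nat.sub_one_dvd_pow_sub_one _ _), ← hK,
      ← pow_mul, ← pow_mul, mul_comm]
  rw [CL.SL2.card_psl_mul, CL.SL2.gcd_two_of_ne (CL.GL2.two_ne_zero_of_odd hodd), CL.SL2.card_pgl,
    h2, mul_right_comm, ← mul_assoc] at h1
  have h3 := (Dvd.intro_left _ rfl).trans
    (Nat.dvd_of_mul_dvd_mul_right (by have : 4 ≤ Fintype.card K ^ 2 := by nlinarith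
                                      omega) h1)
  have h4 : Odd (∑ i ∈ Finset.range m, (Fintype.card K ^ 2) ^ i) := by
    rw [Finset.odd_sum_iff_odd_card_odd, Finset.filter_true_of_mem fun i _ => hKo.pow.pow,
      Finset.card_range]
    exact Nat.not_even_iff_odd.1 hm'
  exact (hodd.mul h4).not_two_dvd_nat h3

end Cfsg.Agent.S0805
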