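import Cfsg.Statements.S0806
import Cfsg.Agent.Cls.SL2PSL


set_option autoImplicit false
open Cfsg

namespace Cfsg.Agent.S0806

/-- Minimal index (Galois): if q ∉ {2, 3, 5, 7, 9, 11} then every proper subgroup of PSL_2(q) has index ≥ q + 1, and some subgroup has index exactly q + 1. -/
theorem result {F : Type*} [Field F] [Fintype F] {q : ℕ} (hF : Fintype.card F = q) (hq : q ∉ ({2, 3, 5, 7, 9, 11} : Finset ℕ)) : (∀ H : Subgroup (Matrix.ProjectiveSpecialLinearGroup (Fin 2) F), H ≠ ⊤ → q + 1 ≤ H.index) ∧ ∃ H : Subgroup (Matrix.ProjectiveSpecialLinearGroup (Fin 2) F), H.index = q + 1 := by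
  subst hF
  refine ⟨fun H hH => ?_, _, CL.SL2.index_stabilizer_psl CL.SL2.pinf⟩
  obtain ⟨p, _, -, hp, -⟩ := FiniteField.card' F
  have := Fact.mk hp
  simp only [Finset.mem_insert, Finset.mem_singleton, not_or] at hq
  have hq2 := CL.GL2.two_le_card (F := F)
  have hd : 0 < Nat.gcd 2 (Fintype.card F - 1) := Nat.gcd_pos_of_pos_left _ two_pos
  have hd2 : Nat.gcd 2 (Fintype.card F - 1) ≤ 2 := Nat.gcd_le_left _ two_pos
  obtain ⟨n, hn⟩ : ∃ n, Fintype.card F = n + 1 := ⟨Fintype.card F - 1, by omega⟩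
  have key : Nat.card H * Nat.gcd 2 (Fintype.card F - 1) ≤ (n + 1) * n →
      Fintype.card F + 1 ≤ H.index := fun h => by
    have h1 := CL.SL2.card_psl_mul (F := F)
    rw [← H.card_mul_index, mul_right_comm, Nat.sq_sub_sq _ 1] at h1
    by_contra h2
    have h3 := Nat.mul_lt_mul_of_le_of_lt h (not_le.1 h2) (by
      have : 0 < n := by omega
      positivity)
    rw [h1, hn, Nat.add_sub_cancel] at h3
    exact absurd h3 (by apply not_lt.2; apply le_of_eq; ring)
  have hk : ∀ k, (k ∣ (Fintype.card F + 1) / Nat.gcd 2 (Fintype.card F - 1) ∨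
      k ∣ (Fintype.card F - 1) / Nat.gcd 2 (Fintype.card F - 1)) →
      k * Nat.gcd 2 (Fintype.card F - 1) ≤ n + 2 := by
    rintro k (hk | hk)
    · exact ((Nat.mul_le_mul_right _ (Nat.le_of_dvd (Nat.div_pos (by omega) hd) hk)).trans
        (Nat.div_mul_le_self _ _)).trans (by omega)
    · exact ((Nat.mul_le_mul_right _ (Nat.le_of_dvd (Nat.div_pos (by omega) hd) hk)).trans
        (Nat.div_mul_le_self _ _)).trans (by omega)
  have h60 : Odd (Fintype.card F) → Nat.card H ≤ 60 → Fintype.card F + 1 ≤ H.index := by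
    rintro ⟨k, hk⟩ h
    refine key ((Nat.mul_le_mul h hd2).trans ?_)
    have : 12 ≤ n := by omega
    nlinarith
  have hn3 : 3 ≤ n := by omega
  rcases CL.SL2.dickson_psl p H with ⟨x, hx⟩ | ⟨-, h2⟩ | ⟨k, hk', ⟨e⟩⟩ | ⟨h1, h⟩ | ⟨rfl, ⟨e⟩⟩ | h |
    ⟨L, m, hm, hL, hLm, h⟩
  · rw [← CL.SL2.index_stabilizer_psl x]
    exact Subgroup.index_antitone hx
  · exact key ((hk _ h2).trans (by nlinarith))
  · refine key ?_
    rw [Nat.card_congr e.toEquiv, DihedralGroup.nat_card, mul_assoc]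
    have := hk _ hk'
    nlinarith
  · have h' := CL.SL2.card_cases_of_small h
    exact h60 (CL.SL2.odd_of_not_dvd_even h1 (by rcases h' with h | h | h <;> rw [h] <;> decide))
      (by omega)
  · exact h60 (CL.GL2.odd_of_charP (p := 3) (by decide))
      (by rw [Nat.card_congr e.toEquiv, CL.SL2.card_alt_five])
  · exact (hH h).elim
  · refine key ((Nat.mul_le_mul (CL.SL2.card_le_of_psl_or_pgl h) hd2).trans ?_)
    have h4 : Nat.card L ^ 2 ≤ n + 1 := hn ▸ hLm ▸ Nat.pow_le_pow_right (by omega) hm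
    rw [mul_right_comm]
    exact Nat.mul_le_mul (by nlinarith) (by omega)

end Cfsg.Agent.S0806
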