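import Cfsg.Statements.S0811
import Cfsg.Agent.Cls.SL2PSL


set_option autoImplicit false
open Cfsg

namespace Cfsg.Agent.S0811

/-- For q ∉ {2, 7, 9}, PSL_2(q) has a maximal subgroup isomorphic to the dihedral group of order 2(q + 1)/d, d = gcd(2, q − 1). -/
theorem result {F : Type*} [Field F] [Fintype F] {q : ℕ} (hF : Fintype.card F = q) (hq : q ∉ ({2, 7, 9} : Finset ℕ)) : ∃ H : Subgroup (Matrix.ProjectiveSpecialLinearGroup (Fin 2) F), IsCoatom H ∧ Nonempty (H ≃* DihedralGroup ((q + 1) / Nat.gcd 2 (q - 1))) := by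
  subst hF
  obtain ⟨p, _, -, hp, -⟩ := FiniteField.card' F
  have := Fact.mk hp
  simp only [Finset.mem_insert, Finset.mem_singleton, not_or] at hq
  have hq2 := CL.GL2.two_le_card (F := F)
  obtain ⟨ψ, hψ⟩ := CL.SL2.exists_dihedral_add_one (F := F)
  refine ⟨ψ.range, ?_, ⟨(MonoidHom.ofInjective hψ).symm⟩⟩
  have hmul : (Fintype.card F + 1) / Nat.gcd 2 (Fintype.card F - 1) *
      Nat.gcd 2 (Fintype.card F - 1) = Fintype.card F + 1 :=
    Nat.div_mul_cancel (by
      rw [show Fintype.card F + 1 = Fintype.card F - 1 + 2 by omega]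
      exact dvd_add (Nat.gcd_dvd_right _ _) (Nat.gcd_dvd_left _ _))
  have hd2 : Nat.gcd 2 (Fintype.card F - 1) ≤ 2 := Nat.gcd_le_left _ two_pos
  by_cases h3 : Fintype.card F = 3
  · have h12 : Nat.card (Matrix.ProjectiveSpecialLinearGroup (Fin 2) F) = 12 :=
      CL.Cls.card_PSL_two_of_card h3 rfl (by decide) (by decide)
    have h4 := ψ.range.card_mul_index
    rw [← Nat.card_congr (MonoidHom.ofInjective hψ).toEquiv, DihedralGroup.nat_card, h12] at h4
    simp only [h3] at h4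
    norm_num at h4
    exact CL.Grp.isCoatom_of_index_prime (by
      rw [show ψ.range.index = 3 by omega]; exact Nat.prime_three)
  refine CL.SL2.isCoatom_dihedral p (fun h => CL.SL2.not_dvd_card_add_one (F := F) p
    (h.trans (Dvd.intro _ hmul))) ?_ ψ hψ ?_ ?_ ?_ hq.2.2 ?_
  · by_contra h
    have := Nat.mul_le_mul (Nat.le_of_lt_succ (not_le.1 h)) hd2
    omega
  · rw [mul_assoc, hmul]; omega
  · rw [hmul]; omega
  · rw [mul_assoc, hmul, Nat.sq_sub_sq _ 1, mul_comm (Fintype.card F + 1), ← mul_assoc]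
    refine Nat.mul_lt_mul_of_pos_right ?_ (by omega)
    exact lt_of_lt_of_le (by decide : 2 < 4 * 3) (Nat.mul_le_mul (by omega) (by omega))
  · rintro ⟨k, hk⟩
    by_contra h
    have := Nat.mul_le_mul (not_lt.1 (not_or.1 h).1) hd2
    omega

end Cfsg.Agent.S0811
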