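import Cfsg.Statements.S0816
import Cfsg.Agent.Cls.OAut8

set_option autoImplicit false
open Cfsg

namespace Cfsg.Agent.S0816

open CL.Cls


/-- |Aut(PΩ_(2m+1)(q))| = 2 f · |PΩ_(2m+1)(q)| for q = p^f odd and m ≥ 3 (for the form quadFormOdd). -/
theorem result {F : Type*} [Field F] [Fintype F] (p f : ℕ) [Fact p.Prime] (hf : 1 ≤ f) (hF : Fintype.card F = p ^ f) (hodd : Odd p) (m : ℕ) (hm : 3 ≤ m) : Nat.card (MulAut (Cfsg.POmega F (Cfsg.quadFormOdd m F))) = 2 * f * Nat.card (Cfsg.POmega F (Cfsg.quadFormOdd m F)) := by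
  have h2 : (2 : F) ≠ 0 := fun h => by
    rw [(two_eq_zero_iff_of_card hF).1 h] at hodd
    exact absurd hodd (by decide)
  have hQ := nondeg_qfOdd (m := m) h2
  have hd : Module.finrank F (Unit ⊕ (Fin m ⊕ Fin m) → F) = 2 * m + 1 := by simp; ring
  obtain ⟨v, hv⟩ := exists_map_eq hQ (by omega) 1
  obtain ⟨x, hx, -, -⟩ := exists_frob_entry hF qfOdd_entry (v := v) (by rw [hv]; exact one_ne_zero)
  have := GamO.card_aut hQ (by omega) (range_toAut_qfOdd h2 hm) hx (CL.GLn.card_ringAut hF)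
  rw [GamO.card_map_ker_eq_two hQ (by omega) (Or.inr ⟨m, hd⟩)] at this
  exact (Nat.card_congr (MulAut.congr (pomegaEquiv (qfOdd m F))).toEquiv).trans
    (this.trans (congrArg _ (Nat.card_congr (pomegaEquiv (qfOdd m F)).toEquiv).symm))

end Cfsg.Agent.S0816
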