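import Cfsg.Statements.S0818
import Cfsg.Agent.Cls.OAut8

set_option autoImplicit false
open Cfsg

namespace Cfsg.Agent.S0818

open CL.Cls


/-- |Aut(PΩ⁻_2m(q))| for q = p^f, m ≥ 4 (form quadFormMinus (m−1) with anisotropic binary part): |PΩ⁻_2m(q)| times f, times 2 if p = 2, and times 4 or 8 if p is odd according as m(q−1)/2 is even or odd. -/
theorem result {F : Type*} [Field F] [Fintype F] (p f : ℕ) [Fact p.Prime] (hf : 1 ≤ f) (hF : Fintype.card F = p ^ f) (m : ℕ) (hm : 4 ≤ m) (a b : F) (hab : ∀ z₁ z₂ : F, z₁ ^ 2 + a * z₁ * z₂ + b * z₂ ^ 2 = 0 → z₁ = 0 ∧ z₂ = 0) : Nat.card (MulAut (Cfsg.POmega F (Cfsg.quadFormMinus (m - 1) F a b))) = (if p = 2 then 2 else (if Even (m * (p ^ f - 1) / 2) then 4 else 8)) * f * Nat.card (Cfsg.POmega F (Cfsg.quadFormMinus (m - 1) F a b)) := by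
  obtain ⟨m, rfl⟩ : ∃ k, m = k + 1 := ⟨m - 1, by omega⟩
  rw [Nat.add_sub_cancel]
  have hQ := nondeg_qfMinus (m := m) a b hab
  have hd : Module.finrank F ((Fin m ⊕ Fin m) ⊕ Fin 2 → F) = 2 * m + 2 := by simp; ring
  obtain ⟨x, r, hx, -, -, -⟩ := exists_frob_qfMinus hF m hab
  have := GamO.card_aut hQ (by omega) (range_toAut_qfMinus (by omega) hab) hx (CL.GLn.card_ringAut hF)
  refine (Nat.card_congr (MulAut.congr (pomegaEquiv (qfMinus m F a b))).toEquiv).trans (this.trans ?_)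
  refine congrArg₂ _ (congrArg₂ _ ?_ rfl) (Nat.card_congr (pomegaEquiv (qfMinus m F a b)).toEquiv).symm
  have he : Even (Module.finrank F ((Fin m ⊕ Fin m) ⊕ Fin 2 → F)) := ⟨m + 1, by omega⟩
  split_ifs with h1 h3
  · exact GamO.card_map_ker_eq_two hQ (by omega) (Or.inl ((two_eq_zero_iff_of_card hF).2 h1))
  · have h2 : (2 : F) ≠ 0 := fun h => h1 ((two_eq_zero_iff_of_card hF).1 h)
    rw [← hF, even_mul_div_two_iff (odd_card_of_two_ne_zero h2)] at h3
    exact GamO.card_map_ker_eq_four hQ (by omega) h2 he (by rw [negOG_mem_commutator_qfMinus h2 m a b hab]; omega)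
  · have h2 : (2 : F) ≠ 0 := fun h => h1 ((two_eq_zero_iff_of_card hF).1 h)
    rw [← hF, even_mul_div_two_iff (odd_card_of_two_ne_zero h2)] at h3
    exact GamO.card_map_ker_eq_eight hQ (by omega) h2 he
      ((negOG_mem_commutator_qfMinus h2 m a b hab).2 ((pow_card_mod_four h2 _).resolve_left h3))

end Cfsg.Agent.S0818
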