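import Cfsg.Statements.S0828
import Cfsg.Agent.Cls.SpWeyl

set_option autoImplicit false
open Cfsg

namespace Cfsg.Agent.S0828

/-- The symplectic generalised quadrangle over a field with q elements: the number of 2-dimensional subspaces of F^4 on which the symplectic form vanishes is (q + 1)(q² + 1), and every non-zero vector lies in exactly q + 1 of them. -/
theorem result {F : Type*} [Field F] [Fintype F] {q : ℕ} (hF : Fintype.card F = q) : Nat.card {W : Submodule F (Fin 2 ⊕ Fin 2 → F) // Module.finrank F W = 2 ∧ ∀ u ∈ W, ∀ v ∈ W, Cfsg.sympForm 2 F u v = 0} = (q + 1) * (q ^ 2 + 1) ∧ ∀ v : Fin 2 ⊕ Fin 2 → F, v ≠ 0 → Nat.card {W : Submodule F (Fin 2 ⊕ Fin 2 → F) // Module.finrank F W = 2 ∧ v ∈ W ∧ ∀ u ∈ W, ∀ w ∈ W, Cfsg.sympForm 2 F u w = 0} = q + 1 := by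
  have hB := CL.Sp.stdForm_isAlt (Fin 2) F
  have hN := CL.Sp.stdForm_nondegenerate (Fin 2) F
  simp only [← CL.Sp.stdForm_eq_sympForm, ← hF, ← Nat.card_eq_fintype_card]
  exact ⟨CL.Sp.card_lines hB hN (CL.Sp.finrank_std 2),
    fun v hv => CL.Sp.card_lines_through hB hN (CL.Sp.finrank_std 2) hv⟩

end Cfsg.Agent.S0828
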