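import Cfsg.Statements.S0829
import Cfsg.Agent.Cls.UniStab

set_option autoImplicit false
open Cfsg

namespace Cfsg.Agent.S0829

/-- The unitary quadrangle of PSU_4(q): with |F| = q², the number of 2-dimensional subspaces of F^4 on which the Hermitian form Σ x_i y_i^q vanishes is (q + 1)(q³ + 1). -/
theorem result {F : Type*} [Field F] [Fintype F] {q : ℕ} (hF : Fintype.card F = q ^ 2) : Nat.card {W : Submodule F (Fin 4 → F) // Module.finrank F W = 2 ∧ ∀ u ∈ W, ∀ v ∈ W, Cfsg.hermForm 4 F q u v = 0} = (q + 1) * (q ^ 3 + 1) := by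
  have h := CL.Uni.isBar_bar hF
  have hB := CL.Uni.isHerm_stdB h (Fin 4)
  have hq := h.two_le
  have h1 := hB.card_ti_mul 2
  have h2 : Nat.card {W : Submodule F (Fin 4 → F) // Module.finrank F W = 2 ∧ ∀ u ∈ W, ∀ v ∈ W, Cfsg.hermForm 4 F q u v = 0} = Nat.card {W : Submodule F (Fin 4 → F) // Module.finrank F W = 2 ∧ W ≤ CL.Uni.perp (CL.Uni.stdB (CL.Uni.bar hF) (Fin 4)) W} :=
    Nat.card_congr (Equiv.subtypeEquivRight fun W => by simp only [CL.Uni.hermForm_eq h]; rfl)
  rw [h2]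
  simp only [Fin.prod_univ_two, Finset.prod_range_succ, Finset.prod_range_zero, Module.finrank_fintype_fun_eq_card, Fintype.card_fin] at h1
  have e1 := CL.Uni.isoCount_int (q := q) (by omega) 3
  have e2 := CL.Uni.isoCount_int (q := q) (by omega) 1
  have l1 : 1 < (q ^ 2) ^ 2 := Nat.one_lt_pow (by omega) (by nlinarith)
  have l2 : q ^ 2 < (q ^ 2) ^ 2 := by nlinarith
  norm_num at h1
  apply Nat.eq_of_mul_eq_mul_right (Nat.mul_pos (Nat.sub_pos_of_lt l1) (Nat.sub_pos_of_lt l2))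
  rw [h1]
  zify [l1.le, l2.le]
  rw [e1, e2]
  ring

end Cfsg.Agent.S0829
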