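import Cfsg.Statements.S0831
import Cfsg.Agent.Cls.QuadFamilies

set_option autoImplicit false
open Cfsg

namespace Cfsg.Agent.S0831

/-- The two families of maximal totally singular subspaces of the hyperbolic quadric: for the form Σ x_i y_i on F^(2m), m ≥ 1, and m-dimensional subspaces U, W, X on which it vanishes, the parities of m − dim(U ∩ W), m − dim(W ∩ X) and m − dim(U ∩ X) sum to an even number (so 'even codimension of the intersection' is an equivalence relation), and there exist two such subspaces meeting in codimension 1 (so there are exactly two classes). -/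
theorem result {F : Type*} [Field F] (m : ℕ) (hm : 1 ≤ m) : (∀ U W X : Submodule F (Fin m ⊕ Fin m → F), (Module.finrank F U = m ∧ ∀ w ∈ U, Cfsg.quadFormPlus m F w = 0) → (Module.finrank F W = m ∧ ∀ w ∈ W, Cfsg.quadFormPlus m F w = 0) → (Module.finrank F X = m ∧ ∀ w ∈ X, Cfsg.quadFormPlus m F w = 0) → Even ((m - Module.finrank F ↥(U ⊓ W)) + (m - Module.finrank F ↥(W ⊓ X)) + (m - Module.finrank F ↥(U ⊓ X)))) ∧ ∃ U W : Submodule F (Fin m ⊕ Fin m → F), (Module.finrank F U = m ∧ ∀ w ∈ U, Cfsg.quadFormPlus m F w = 0) ∧ (Module.finrank F W = m ∧ ∀ w ∈ W, Cfsg.quadFormPlus m F w = 0) ∧ Module.finrank F ↥(U ⊓ W) + 1 = m := by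
  have hQ := CL.Cls.nondeg_qfPlus (m := m) (F := F)
  have hd : Module.finrank F (Fin m ⊕ Fin m → F) = 2 * m := by simp [two_mul]
  constructor
  · rintro U W X ⟨hU, hU'⟩ ⟨hW, hW'⟩ ⟨hX, hX'⟩
    have h := CL.Cls.even_finrank_inf_three hQ hd hU hU' hW hW' hX hX'
    have h1 := Submodule.finrank_mono (inf_le_left : U ⊓ W ≤ U)
    have h2 := Submodule.finrank_mono (inf_le_left : W ⊓ X ≤ W)
    have h3 := Submodule.finrank_mono (inf_le_left : U ⊓ X ≤ U)
    rw [Nat.even_iff] at h ⊢
    omega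
  · obtain ⟨W, hW, hW'⟩ := CL.Cls.exists_singular_qfPlus m F
    have hne : W ≠ ⊥ := by rintro rfl; simp at hW; omega
    obtain ⟨e, he, he0⟩ := Submodule.exists_mem_ne_zero_of_ne_bot hne
    obtain ⟨f, hf1, hf2, -⟩ := (CL.Cls.isWittForm_of_nondeg hQ).exists_partner ⊥ (x := e) (by simpa using he0)
      (by simpa using hW' e he) (by simp)
    rw [map_zero] at hf1
    have hfW : f ∉ W := fun hf => by
      have := CL.Cls.polar_eq_zero_of_singular hW' e he f hf
      rw [← QuadraticMap.polarBilin_apply_apply, hf2] at this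
      exact one_ne_zero this
    obtain ⟨W₁, h1, h2, -, h4, -⟩ := CL.Cls.lagrangian_neighbour hQ hd hW hW' hf1 hfW
    exact ⟨W, W₁, ⟨hW, hW'⟩, ⟨h1, h2⟩, h4⟩

end Cfsg.Agent.S0831
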