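import Cfsg.Statements.S0832
import Cfsg.Agent.Cls.QuadFamilies

set_option autoImplicit false
open Cfsg

namespace Cfsg.Agent.S0832

/-- For the form Σ x_i y_i on F^(2m) over a finite field, m ≥ 1: an (m−1)-dimensional subspace on which the form vanishes is contained in exactly two m-dimensional subspaces on which it vanishes. -/
theorem result {F : Type*} [Field F] [Finite F] (m : ℕ) (hm : 1 ≤ m) (U : Submodule F (Fin m ⊕ Fin m → F)) (hU : Module.finrank F U + 1 = m ∧ ∀ u ∈ U, Cfsg.quadFormPlus m F u = 0) : Nat.card {W : Submodule F (Fin m ⊕ Fin m → F) // Module.finrank F W = m ∧ (∀ w ∈ W, Cfsg.quadFormPlus m F w = 0) ∧ U ≤ W} = 2 := by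
  obtain ⟨W₀, W₁, hne, h⟩ := CL.Cls.exists_two_lagrangians (CL.Cls.nondeg_qfPlus (m := m) (F := F)) (m := m)
    (by simp [two_mul]) (CL.Cls.exists_singular_qfPlus m F) hU.1 hU.2
  rw [Nat.card_eq_two_iff]
  refine ⟨⟨W₀, (h W₀).mpr (Or.inl rfl)⟩, ⟨W₁, (h W₁).mpr (Or.inr rfl)⟩, fun h0 => hne (congrArg Subtype.val h0),
    Set.eq_univ_of_forall fun ⟨W, hW⟩ => ?_⟩
  rcases (h W).mp hW with rfl | rfl
  · exact Or.inl rfl
  · exact Or.inr rfl

end Cfsg.Agent.S0832
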