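import Cfsg.Statements.S0833
import Cfsg.Agent.Cls.QuadDisc

set_option autoImplicit false
open Cfsg

namespace Cfsg.Agent.S0833

/-- If B₁, B₂ are non-degenerate alternating forms on U (dim 2k) and W (dim 2l), then B₁ ⊗ B₂ on U ⊗ W is symmetric, non-degenerate, and vanishes identically on some subspace of dimension 2kl (half of dim U ⊗ W). -/
theorem result {F U W : Type*} [Field F] [Fintype F] [AddCommGroup U] [Module F U] [FiniteDimensional F U] [AddCommGroup W] [Module F W] [FiniteDimensional F W] (B₁ : LinearMap.BilinForm F U) (B₂ : LinearMap.BilinForm F W) (h₁ : B₁.Nondegenerate) (h₂ : B₂.Nondegenerate) (hA₁ : B₁.IsAlt) (hA₂ : B₂.IsAlt) (k l : ℕ) (hU : Module.finrank F U = 2 * k) (hW : Module.finrank F W = 2 * l) : (B₁.tmul B₂).IsSymm ∧ (B₁.tmul B₂).Nondegenerate ∧ (∃ X : Submodule F (TensorProduct F U W), Module.finrank F X = 2 * k * l ∧ ∀ x ∈ X, ∀ y ∈ X, (B₁.tmul B₂) x y = 0) := by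
  refine ⟨⟨fun x y => ?_⟩, CL.Cls.nondeg_tmul h₁ h₂, ?_⟩
  · induction x using TensorProduct.induction_on with
    | zero => simp
    | add x x' hx hx' => simp only [map_add, LinearMap.add_apply, hx, hx']
    | tmul u w =>
      induction y using TensorProduct.induction_on with
      | zero => simp
      | add y y' hy hy' => simp only [map_add, LinearMap.add_apply, hy, hy']
      | tmul u' w' =>
        simp only [LinearMap.BilinForm.tmul, LinearMap.BilinForm.tensorDistrib_tmul, RingHom.id_apply]
        rw [← LinearMap.IsAlt.neg hA₁ u u', ← LinearMap.IsAlt.neg hA₂ w w']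
        simp
  · obtain ⟨b, -, b2, -⟩ := CL.Cls.exists_symplectic_basis B₁ h₁.1 hA₁ hU
    let c := Module.finBasisOfFinrankEq F W hW
    let v : Fin k × Fin (2 * l) → TensorProduct F U W := fun p => (b.tensorProduct c) (.inl p.1, p.2)
    have hv : LinearIndependent F v :=
      (b.tensorProduct c).linearIndependent.comp (fun p : Fin k × Fin (2 * l) => (Sum.inl p.1, p.2))
        (fun p q h => by simpa [Prod.ext_iff] using h)
    refine ⟨Submodule.span F (Set.range v), by rw [finrank_span_eq_card hv]; simp; ring, fun x hx y hy => ?_⟩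
    induction hx using Submodule.span_induction with
    | zero => simp
    | add x x' _ _ hx hx' => simp only [map_add, LinearMap.add_apply, hx, hx', add_zero]
    | smul a x _ hx => simp only [map_smul, LinearMap.smul_apply, hx, smul_zero]
    | mem x hx =>
      induction hy using Submodule.span_induction with
      | zero => simp
      | add y y' _ _ hy hy' => simp only [map_add, hy, hy', add_zero]
      | smul a y _ hy => simp only [map_smul, hy, smul_zero]
      | mem y hy =>
        obtain ⟨p, rfl⟩ := hx
        obtain ⟨q, rfl⟩ := hy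
        simp [v, LinearMap.BilinForm.tmul, b2]

end Cfsg.Agent.S0833
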