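import Cfsg.Statements.S0837
import Cfsg.Agent.Cls.UniStab

set_option autoImplicit false
open Cfsg

namespace Cfsg.Agent.S0837

/-- If W ≤ F^n (|F| = q²) is a k-dimensional subspace on which the Hermitian form Σ x_i y_i^q is non-degenerate, then the stabiliser of W in GU_n(q) is isomorphic to GU_k(q) × GU_(n−k)(q). -/
theorem result {F : Type*} [Field F] [Fintype F] {q : ℕ} (hF : Fintype.card F = q ^ 2) (n k : ℕ) (hk : k ≤ n) (W : Submodule F (Fin n → F)) (hWk : Module.finrank F W = k) (hW : ∀ u ∈ W, (∀ v ∈ W, Cfsg.hermForm n F q u v = 0) → u = 0) : Nonempty (↥((Cfsg.stabilizing (Cfsg.glToMat (Fin n) F) (W : Set (Fin n → F))).subgroupOf (Cfsg.GU n F q)) ≃* ↥(Cfsg.GU k F q) × ↥(Cfsg.GU (n - k) F q)) := by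
  have h := CL.Uni.isBar_bar hF
  have hB := CL.Uni.isHerm_stdB h (Fin n)
  have hW' : Disjoint W (CL.Uni.perp (CL.Uni.stdB (CL.Uni.bar hF) (Fin n)) W) :=
    hB.disjoint_perp_iff.2 fun u hu h1 => hW u hu fun v hv => by
      rw [CL.Uni.hermForm_eq h]; exact hB.flip_zero (h1 v hv)
  obtain ⟨e1⟩ := hB.nonempty_stab_equiv_prod hW'
  obtain ⟨e2⟩ := (hB.restrict hW').nonempty_guEquiv hWk
  obtain ⟨e3⟩ := (hB.restrict (hB.disjoint_perp_perp hW')).nonempty_guEquiv (n := n - k)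
    (by rw [hB.finrank_perp, hWk]; simp)
  refine ⟨((CL.Uni.restrictEquiv (CL.Uni.guEquiv h n) fun g => ?_).trans
    (CL.Uni.subgroupOfEquivInf _ _)).trans (e1.trans (e2.prodCongr e3))⟩
  exact CL.Uni.guEquiv_mem_stabSet h _ g

end Cfsg.Agent.S0837
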