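import Cfsg.Statements.S0839
import Cfsg.Agent.Cls.SLnTv
-- import your own Cfsg.Agent.* helpers here

set_option autoImplicit false
open Cfsg

namespace Cfsg.Agent.S0839

/-- Every transvection t ∈ SL_(n+2)(F) (rank(t − 1) = 1, (t − 1)² = 0) is conjugate in SL_(n+2)(F) to 1 + v·e_0ᵀ for some column vector v with v_0 = 0 (the group A of matrices that are the identity except in the first column below the diagonal); the dimension is written n + 2 ≥ 2. -/
theorem result {F : Type*} [Field F] (n : ℕ) (t : Matrix.SpecialLinearGroup (Fin (n + 2)) F) (ht : Cfsg.IsTransvection (t : Matrix (Fin (n + 2)) (Fin (n + 2)) F)) : ∃ (g : Matrix.SpecialLinearGroup (Fin (n + 2)) F) (v : Fin (n + 2) → F), v 0 = 0 ∧ ((g⁻¹ * t * g : Matrix.SpecialLinearGroup (Fin (n + 2)) F) : Matrix (Fin (n + 2)) (Fin (n + 2)) F) = 1 + Matrix.vecMulVec v (Pi.single 0 1) := by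
  classical
  obtain ⟨h1, h2⟩ := ht
  set N : Matrix (Fin (n + 2)) (Fin (n + 2)) F := (t : Matrix (Fin (n + 2)) (Fin (n + 2)) F) - 1
    with hN
  -- the kernel of `N` is a hyperplane; pick `φ` with `N x = φ x • w`
  obtain ⟨w, hw0, hw⟩ : ∃ w : Fin (n + 2) → F, w ≠ 0 ∧ ∀ x, ∃ c : F, c • w = N.mulVec x := by
    obtain ⟨⟨w, hwm⟩, hw0, hw⟩ := finrank_eq_one_iff'.1 h1
    refine ⟨w, fun e ↦ hw0 (Subtype.ext e), fun x ↦ ?_⟩
    obtain ⟨c, hc⟩ := hw ⟨N.mulVec x, x, rfl⟩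
    exact ⟨c, congrArg Subtype.val hc⟩
  obtain ⟨ψ, hψ⟩ := CL.SLn.exists_dual_eq_one (F := F) hw0
  let φ : Module.Dual F (Fin (n + 2) → F) := ψ ∘ₗ Matrix.toLin' N
  have hφ : ∀ x, N.mulVec x = φ x • w := fun x ↦ by
    obtain ⟨c, hc⟩ := hw x
    simp [φ, ← hc, hψ]
  have hφ0 : φ ≠ 0 := by
    intro e
    have : N = 0 := Matrix.ext_iff_mulVec.2 fun x ↦ by simp [hφ, e]
    rw [this, Matrix.rank_zero] at h1
    exact zero_ne_one h1
  have hφw : φ w = 0 := by
    obtain ⟨x, hx⟩ := DFunLike.ne_iff.1 hφ0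
    have : N.mulVec (N.mulVec x) = 0 := by rw [Matrix.mulVec_mulVec, h2, Matrix.zero_mulVec]
    rw [hφ, hφ, map_smul, smul_eq_zero, smul_eq_zero] at this
    simpa [hw0, show φ x ≠ 0 from hx] using this
  -- an element of `SL` carrying the coordinate functional to a multiple of `φ`
  obtain ⟨g, hg, c, hc⟩ : ∃ g ∈ Cfsg.Geo.specialLinear (Fin (n + 2)) F, ∃ c : F,
      ∀ x : Fin (n + 2) → F, φ (g • x) = c * x 0 := by
    by_cases hker : ∀ x : Fin (n + 2) → F, x 0 = 0 → φ x = 0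
    · refine ⟨1, Subgroup.one_mem _, φ (Pi.single 0 1), fun x ↦ ?_⟩
      have := hker (x - x 0 • Pi.single 0 1) (by simp)
      rw [map_sub, map_smul, sub_eq_zero] at this
      rw [one_smul, this, smul_eq_mul, mul_comm]
    · push Not at hker
      obtain ⟨u, hu0, hu⟩ := hker
      obtain ⟨y, hy0, hy⟩ : ∃ y : Fin (n + 2) → F, y 0 = 1 ∧ φ y = 1 :=
        ⟨Pi.single 0 1 + ((1 - φ (Pi.single 0 1)) / φ u) • u, by simp [hu0], by simp [hu]⟩
      let χ : Module.Dual F (Fin (n + 2) → F) := LinearMap.proj 0 - φ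
      have hχ : χ y = 0 := by simp [χ, hy0, hy]
      refine ⟨CL.SLn.tv y χ hχ, CL.SLn.tv_mem_specialLinear _ _ _, 1, fun x ↦ ?_⟩
      simp [χ, hy]
  rw [← CL.SLn.range_toGL_eq] at hg
  obtain ⟨g, rfl⟩ := hg
  have hc' : ∀ x : Fin (n + 2) → F, φ (g • x) = c * x 0 := hc
  refine ⟨g, c • g⁻¹ • w, ?_, Matrix.ext_iff_smul.2 fun x ↦ ?_⟩
  · have := hc' (g⁻¹ • w)
    rw [smul_inv_smul, hφw] at this
    simpa using this.symm
  · have e : t • (g • x) = g • x + φ (g • x) • w := by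
      rw [← hφ, hN, Matrix.sub_mulVec, Matrix.one_mulVec]
      exact (add_sub_cancel _ _).symm
    change (g⁻¹ * t * g) • x = _
    rw [mul_smul, mul_smul, e, smul_add, inv_smul_smul, hc', smul_comm]
    rw [Matrix.smul_eq_mulVec, Matrix.add_mulVec, Matrix.one_mulVec, Matrix.vecMulVec_mulVec]
    simp [smul_smul, mul_comm]

end Cfsg.Agent.S0839
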