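import Cfsg.Statements.S0841
import Cfsg.Agent.Base

set_option autoImplicit false
open Cfsg

namespace Cfsg.Agent.S0841

/-- If the commutator subgroup of G lies in the centre, then for all x, y in G and every natural number n one has (x * y) ^ n = x ^ n * y ^ n * c ^ (n * (n - 1) / 2) with c = y⁻¹ * x⁻¹ * y * x. -/
theorem result {G : Type*} [Group G] (hG : commutator G ≤ Subgroup.center G) (x y : G) (n : ℕ) : (x * y) ^ n = x ^ n * y ^ n * (y⁻¹ * x⁻¹ * y * x) ^ (n * (n - 1) / 2) := by
  have hc : y⁻¹ * x⁻¹ * y * x ∈ Subgroup.center G := by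
    apply hG
    have := Subgroup.commutator_mem_commutator (Subgroup.mem_top y⁻¹) (Subgroup.mem_top x⁻¹)
    simpa [commutatorElement_def, commutator_def] using this
  set c := y⁻¹ * x⁻¹ * y * x with hcdef
  have hcc : ∀ g : G, Commute c g := fun g => (Subgroup.mem_center_iff.1 hc g).symm
  have hyx : y * x = x * y * c := by rw [hcdef]; group
  have key : ∀ k : ℕ, y ^ k * x = x * y ^ k * c ^ k := by
    intro k
    induction k with
    | zero => simp
    | succ k ih =>
      calc y ^ (k + 1) * x = y ^ k * (y * x) := by rw [pow_succ, mul_assoc]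
        _ = (y ^ k * x) * y * c := by rw [hyx]; simp only [mul_assoc]
        _ = x * y ^ k * (c ^ k * y) * c := by rw [ih]; simp only [mul_assoc]
        _ = x * y ^ k * (y * c ^ k) * c := by rw [((hcc y).pow_left k).eq]
        _ = x * y ^ (k + 1) * c ^ (k + 1) := by simp only [pow_succ, mul_assoc]
  induction n with
  | zero => simp
  | succ n ih =>
    have e : (n + 1) * (n + 1 - 1) / 2 = n * (n - 1) / 2 + n := by
      have h1 := Nat.triangle_succ n
      simpa using h1
    rw [e, pow_succ (x * y), ih, pow_add c]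
    set m := n * (n - 1) / 2
    calc x ^ n * y ^ n * c ^ m * (x * y) = x ^ n * y ^ n * (c ^ m * (x * y)) := by
          simp only [mul_assoc]
      _ = x ^ n * y ^ n * ((x * y) * c ^ m) := by rw [((hcc (x * y)).pow_left m).eq]
      _ = x ^ n * (y ^ n * x) * y * c ^ m := by simp only [mul_assoc]
      _ = x ^ n * x * y ^ n * (c ^ n * y) * c ^ m := by rw [key]; simp only [mul_assoc]
      _ = x ^ n * x * y ^ n * (y * c ^ n) * c ^ m := by rw [((hcc y).pow_left n).eq]
      _ = x ^ (n + 1) * y ^ (n + 1) * (c ^ n * c ^ m) := by simp only [pow_succ, mul_assoc]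
      _ = x ^ (n + 1) * y ^ (n + 1) * (c ^ m * c ^ n) := by rw [← pow_add, ← pow_add, add_comm n m]

end Cfsg.Agent.S0841
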