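import Cfsg.Statements.S0842
import Cfsg.Agent.Char.BSGroup

set_option autoImplicit false
open Cfsg

namespace Cfsg.Agent.S0842

/-- Suppose a Sylow 2-subgroup S of the finite group G is generalized quaternion of order at least 16, and let D be the commutator subgroup of S, C its centralizer and N its normalizer in G. Then there is a subgroup K of odd order, contained in C and normalized by N, with K ⊔ S = N and K ⊔ (S ⊓ C) = C, and C has index 2 in N. -/
theorem result {G : Type*} [Group G] [Finite G] (S : Sylow 2 G) (n : ℕ) (e : (S : Subgroup G) ≃* QuaternionGroup (2 ^ (n + 2))) (D : Subgroup G) (hD : D = ⁅(S : Subgroup G), (S : Subgroup G)⁆) : ∃ K : Subgroup G, Odd (Nat.card K) ∧ K ≤ Subgroup.centralizer (D : Set G) ∧ Subgroup.normalizer (D : Set G) ≤ Subgroup.normalizer (K : Set G) ∧ K ⊔ (S : Subgroup G) = Subgroup.normalizer (D : Set G) ∧ K ⊔ ((S : Subgroup G) ⊓ Subgroup.centralizer (D : Set G)) = Subgroup.centralizer (D : Set G) ∧ ((Subgroup.centralizer (D : Set G)).subgroupOf (Subgroup.normalizer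 (D : Set G))).index = 2 := by
  obtain ⟨x, y, h⟩ := CL.Char.exists_bsData (n := n + 1) e
  have h3 : 3 ≤ n + 1 + 2 := by omega
  rw [h.comm] at hD
  subst hD
  set C := Subgroup.centralizer (Subgroup.zpowers (x ^ 2) : Set G) with hC
  have hS := h.isSylowIn_centralizer h3
  have hnc := CL.Char.bs_hasNormalPComplement_of_isSylowIn hS inferInstance
  have hmem : ∀ g : G, g ∈ (pResidual 2 C).map C.subtype ↔ g ∈ C ∧ (orderOf g).Coprime 2 := by
    intro g
    constructor
    · rintro ⟨c, hc, rfl⟩
      refine ⟨c.2, ?_⟩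
      have := CL.Grp.hasNormalPComplement_iff_forall_mem.1 hnc c hc
      rwa [← Subgroup.orderOf_coe] at this
    · rintro ⟨h1, h2⟩
      exact ⟨⟨g, h1⟩, CL.Grp.mem_pResidual_of_coprime (by rwa [← Subgroup.orderOf_coe]), rfl⟩
  have hN : ∀ g ∈ Subgroup.normalizer (Subgroup.zpowers (x ^ 2) : Set G), ∀ c ∈ C,
      g * c * g⁻¹ ∈ C := by
    intro g hg c hc
    rw [← CL.Grp.conj_smul_eq_self_iff] at hg
    have := CL.Grp.conj_mem_conj_smul g hc
    rwa [hC, ← CL.Grp.centralizer_conj_smul, hg] at this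
  have hKC : (pResidual 2 C).map C.subtype ≤ C := Subgroup.map_subtype_le _
  have h5 : (pResidual 2 C).map C.subtype ⊔ ((S : Subgroup G) ⊓ C) = C := by
    refine le_antisymm (sup_le hKC inf_le_right) fun c hc => ?_
    obtain ⟨a, ha, b, hb, hab⟩ := CL.Grp.exists_pResidual_mul_sylow hS.toSylow ⟨c, hc⟩
    have : c = a * b := congrArg Subtype.val hab
    rw [this]
    exact Subgroup.mul_mem_sup ⟨a, ha, rfl⟩ ⟨h.zpowers_le hb, b.2⟩
  refine ⟨(pResidual 2 C).map C.subtype, ?_, hKC, ?_, ?_, h5, ?_⟩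
  · rw [Subgroup.card_map_of_injective C.subtype_injective, ← Nat.coprime_two_right]
    exact CL.Grp.hasNormalPComplement_iff_coprime_pResidual.1 hnc
  · intro g hg
    rw [Subgroup.mem_normalizer_iff]
    intro a
    rw [hmem, hmem, show orderOf (g * a * g⁻¹) = orderOf a from (MulAut.conj g).orderOf_eq a]
    refine and_congr_left fun _ => ⟨hN g hg a, fun h1 => ?_⟩
    simpa [mul_assoc] using hN g⁻¹ (inv_mem hg) _ h1
  · refine le_antisymm (sup_le (hKC.trans (Subgroup.centralizer_le_normalizer _))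
      (h.le_normalizer 2)) fun g hg => ?_
    have hle : C ≤ (pResidual 2 C).map C.subtype ⊔ (S : Subgroup G) :=
      h5.ge.trans (sup_le_sup_left inf_le_left _)
    rcases (h.mem_normalizer_iff g).1 hg with h1 | h1
    · exact hle h1
    · simpa using mul_mem (hle h1) (Subgroup.mem_sup_right h.y_mem)
  · rw [Subgroup.index_eq_two_iff]
    refine ⟨⟨y⁻¹, inv_mem (h.le_normalizer 2 h.y_mem)⟩, fun b => ?_⟩
    simp only [Subgroup.mem_subgroupOf, Subgroup.coe_mul]
    have hy := h.y_notMem_centralizer h3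
    rcases (h.mem_normalizer_iff b).1 b.2 with hb | hb
    · exact Or.inr ⟨hb, by rw [Subgroup.mul_mem_cancel_left _ hb]; simpa using hy⟩
    · refine Or.inl ⟨hb, fun hb' => ?_⟩
      rw [Subgroup.mul_mem_cancel_left _ hb'] at hb
      exact hy (by simpa using hb)

end Cfsg.Agent.S0842
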