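import Cfsg.Statements.S0845
import Cfsg.Agent.Char.BSChar

set_option autoImplicit false
open Cfsg

namespace Cfsg.Agent.S0845

/-- Suppose a Sylow 2-subgroup S of the finite group G is generalized quaternion of order at least 16. Then G has a normal subgroup M of even order such that G / M is non-abelian, that is, M does not contain the commutator subgroup of G. -/
theorem result {G : Type*} [Group G] [Finite G] (S : Sylow 2 G) (n : ℕ) (e : (S : Subgroup G) ≃* QuaternionGroup (2 ^ (n + 2))) : ∃ M : Subgroup G, M.Normal ∧ Even (Nat.card M) ∧ ¬ commutator G ≤ M := by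
  obtain ⟨x, y, h⟩ := CL.Char.exists_bsData (n := n + 1) e
  obtain ⟨M, h1, h2, h3⟩ := h.exists_normal (by omega)
  refine ⟨M, h1, even_iff_two_dvd.2 ?_, h3⟩
  rw [← h.orderOf_z]
  exact M.orderOf_dvd_natCard (h2 _ h.orderOf_z)

end Cfsg.Agent.S0845
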