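import Cfsg.Statements.S0849
import Cfsg.Agent.Char.ClassAlg

set_option autoImplicit false
open Cfsg

namespace Cfsg.Agent.S0849

/-- Let H be a subgroup of a finite group G and S a subset of H that is mapped to itself under conjugation by H, is disjoint from its conjugate by any element outside H, and is closed under inverses. Let φ be a class function of H vanishing on H away from S, and let u, v be involutions of G. Then the sum of the induced function of φ over all products a * b with a conjugate to u and b conjugate to v equals the index of H times the sum of φ (a * b) over such pairs with a and b in H. -/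
theorem result {G : Type*} [Group G] [Fintype G] (H : Subgroup G) (S : Set G) (hSH : S ⊆ H) (hHS : ∀ h ∈ H, ∀ s ∈ S, h * s * h⁻¹ ∈ S) (hTI : ∀ g : G, g ∉ H → ∀ s ∈ S, g * s * g⁻¹ ∉ S) (hinv : ∀ s ∈ S, s⁻¹ ∈ S) (φ : H → ℂ) (hφ : Cfsg.IsClassFunction H φ) (hφS : ∀ x : H, (x : G) ∉ S → φ x = 0) (u v : G) (hu : orderOf u = 2) (hv : orderOf v = 2) : ∑ᶠ p ∈ {p : G × G | IsConj u p.1 ∧ IsConj v p.2}, Cfsg.indFun H φ (p.1 * p.2) = (H.index : ℂ) * ∑ᶠ p ∈ {p : H × H | IsConj u (p.1 : G) ∧ IsConj v (p.2 : G)}, φ (p.1 * p.2) := by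
  classical
  have hu2 : u * u = 1 := by rw [← sq, ← hu, pow_orderOf_eq_one]
  have hv2 : v * v = 1 := by rw [← sq, ← hv, pow_orderOf_eq_one]
  have h := CL.Char.classAlg_sum_indFun_invol H S hSH hTI hinv φ hφS hu2 hv2
  rw [← Finset.sum_product', ← Finset.sum_product'] at h
  have e1 : {p : G × G | IsConj u p.1 ∧ IsConj v p.2} =
      ((Finset.univ.filter (fun a : G => IsConj u a) ×ˢ Finset.univ.filter (fun b : G => IsConj v b) :
        Finset (G × G)) : Set (G × G)) := by
    ext p; simp only [Set.mem_setOf_eq, Finset.coe_product, Finset.coe_filter, Finset.mem_univ,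
      true_and, Set.mem_prod]
  have e2 : {p : H × H | IsConj u (p.1 : G) ∧ IsConj v (p.2 : G)} =
      ((Finset.univ.filter (fun a : H => IsConj u (a : G)) ×ˢ
        Finset.univ.filter (fun b : H => IsConj v (b : G)) : Finset (H × H)) : Set (H × H)) := by
    ext p; simp only [Set.mem_setOf_eq, Finset.coe_product, Finset.coe_filter, Finset.mem_univ,
      true_and, Set.mem_prod]
  rw [e1, e2, finsum_mem_coe_finset, finsum_mem_coe_finset]
  exact h

end Cfsg.Agent.S0849
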