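import Cfsg.Statements.S0851
import Cfsg.Agent.Char.FrobChar

set_option autoImplicit false
open Cfsg

namespace Cfsg.Agent.S0851

/-- Let K be a subgroup of the finite group G that meets each conjugate by an element outside its normalizer N trivially, is properly contained in N, and contains the centralizer of each of its non-identity elements (a T.I. subgroup with Frobenius normalizer). Suppose K is abelian, let e be the index of K in N, and call an irreducible character of N relevant when it takes at some element of K a value different from its degree. Then either there is exactly one relevant character and K is an elementary abelian p-group of order e + 1 for some prime p, or there are a sign ε and an injective map f from the relevant characters to the irreducible characters of G such that inducing χ - ξ to G gives ε (f χ - f ξ) for all relevant χ and ξ. -/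
theorem result {G : Type*} [Group G] [Fintype G] (K : Subgroup G) (hTI : ∀ g : G, g ∉ Subgroup.normalizer (K : Set G) → ∀ k ∈ K, g * k * g⁻¹ ∈ K → k = 1) (hlt : K < Subgroup.normalizer (K : Set G)) (hC : ∀ k ∈ K, k ≠ 1 → Subgroup.centralizer ({k} : Set G) ≤ K) (hab : ∀ a ∈ K, ∀ b ∈ K, a * b = b * a) : (Nat.card {χ : Cfsg.IrrCharacter (Subgroup.normalizer (K : Set G)) // ∃ k : Subgroup.normalizer (K : Set G), (k : G) ∈ K ∧ (χ : ↥(Subgroup.normalizer (K : Set G)) → ℂ) k ≠ (χ : ↥(Subgroup.normalizer (K : Set G)) → ℂ) 1} = 1 ∧ ∃ p : ℕ, p.Prime ∧ Cfsg.IsElementaryAbelian p K ∧ Nat.card K = (K.subgroupOf (Subgroup.normalizer (K : Set G))).index + 1) ∨ ∃ (ε : ℂ) (f : {χ : Cfsg.IrrCharacter (Subgroup.normalizer (K : Set G)) // ∃ k : Subgroup.normalizer (K : Set G), (k : G) ∈ K ∧ (χ : ↥(Subgroup.normalizer (K : Set G)) → ℂ) k ≠ (χ : ↥(Subgroup.normalizer (K : Set G)) → ℂ) 1} → Cfsg.IrrCharacter G), (ε = 1 ∨ ε = -1) ∧ Function.Injective f ∧ ∀ χ ξ, Cfsg.indFun (Subgroup.normalizer (K : Set G)) ((χ.1 : ↥(Subgroup.normalizer (K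 : Set G)) → ℂ) - (ξ.1 : ↥(Subgroup.normalizer (K : Set G)) → ℂ)) = ε • ((f χ : G → ℂ) - (f ξ : G → ℂ)) := by
  right
  have : Fintype (Subgroup.normalizer (K : Set G)) := Fintype.ofFinite _
  have key := fun χ : {χ : Cfsg.IrrCharacter (Subgroup.normalizer (K : Set G)) // ∃ k : Subgroup.normalizer (K : Set G), (k : G) ∈ K ∧ (χ : ↥(Subgroup.normalizer (K : Set G)) → ℂ) k ≠ (χ : ↥(Subgroup.normalizer (K : Set G)) → ℂ) 1} =>
    CL.Char.frob_exists_eq_indFun (CL.Char.tifn_centralizer hC (Subgroup.normalizer (K : Set G))) χ.1.2 χ.2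
  choose θ hθ hθ1 hθ2 using key
  obtain ⟨ε, hε, μ, hμ, h⟩ := CL.Char.exc_of_TI (T := (K : Set G)) hTI _ (fun χ => χ.1.2)
    (Subtype.val_injective.comp Subtype.val_injective)
    (fun i j x hx => by
      simp only [Function.comp_apply]
      have hx' : x ∉ K.subgroupOf (Subgroup.normalizer (K : Set G)) := hx
      rw [hθ2 i, hθ2 j, CL.Char.indFun_eq_zero_of_not_mem _ hx', CL.Char.indFun_eq_zero_of_not_mem _ hx'])
    (fun i j => by
      have hc : ∀ a b : K.subgroupOf (Subgroup.normalizer (K : Set G)), a * b = b * a :=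
        fun a b => Subtype.ext (Subtype.ext (hab _ a.2 _ b.2))
      simp only [Function.comp_apply]
      rw [hθ2 i, hθ2 j, CL.Char.indFun_one, CL.Char.indFun_one, (hθ i).one_eq_one_of_comm hc,
        (hθ j).one_eq_one_of_comm hc])
  exact ⟨ε, μ, hε, hμ, h⟩

end Cfsg.Agent.S0851
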