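import Cfsg.Statements.S0852
import Cfsg.Agent.Char.FrobChar

set_option autoImplicit false
open Cfsg

namespace Cfsg.Agent.S0852

/-- Let K be a subgroup of the finite group G that meets each conjugate by an element outside its normalizer N trivially, is properly contained in N, and contains the centralizer of each of its non-identity elements (a T.I. subgroup with Frobenius normalizer). Let S be the set of irreducible characters of N taking at some element of K a value different from their degree, suppose S has at least two members, and let star be a linear isometry on the integer span of S into the generalized characters of G that agrees with induction on the members vanishing at the identity (so S is coherent, with star as the extending isometry). Then an irreducible character ψ of G is of the form star χ or -star χ for some χ in S if and only if ψ is not constant on the non-identity elements of K. -/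
theorem result {G : Type*} [Group G] [Fintype G] (K : Subgroup G) (hTI : ∀ g : G, g ∉ Subgroup.normalizer (K : Set G) → ∀ k ∈ K, g * k * g⁻¹ ∈ K → k = 1) (hlt : K < Subgroup.normalizer (K : Set G)) (hC : ∀ k ∈ K, k ≠ 1 → Subgroup.centralizer ({k} : Set G) ≤ K) [Fintype ↥(Subgroup.normalizer (K : Set G))] (S : Set (↥(Subgroup.normalizer (K : Set G)) → ℂ)) (hS : S = {χ : ↥(Subgroup.normalizer (K : Set G)) → ℂ | Cfsg.IsIrrCharacter ↥(Subgroup.normalizer (K : Set G)) χ ∧ ∃ k : ↥(Subgroup.normalizer (K : Set G)), (k : G) ∈ K ∧ χ k ≠ χ 1}) (htwo : ∃ χ ∈ S, ∃ ξ ∈ S, χ ≠ ξ) (star : (↥(Subgroup.normalizer (K : Set G)) → ℂ) → (G → ℂ)) (hstar : Cfsg.IsLinearIsometryOn (Cfsg.zspan S) star) (hext : ∀ α ∈ Cfsg.zspanOn S ({1}ᶜ : Set ↥(Subgroup.normalizer (K : Set G))), star α = Cfsg.indFun (Subgroup.normalizer (K : Set G)) α) (ψ : G → ℂ) (hψ : Cfsg.IsIrrCharacter G ψ) : (∃ χ ∈ S, ψ = star χ ∨ ψ = -star χ) ↔ ∃ a ∈ K, ∃ b ∈ K, a ≠ 1 ∧ b ≠ 1 ∧ ψ a ≠ ψ b := by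
  have hirr : ∀ χ ∈ S, IsIrrCharacter _ χ := fun χ hχ => (hS ▸ hχ).1
  have hmem : ∀ χ ∈ S, χ ∈ zspan S := fun χ hχ => Submodule.subset_span hχ
  have hind : ∀ χ ∈ S, ∃ θ, IsIrrCharacter _ θ ∧ (θ ≠ fun _ => 1) ∧
      χ = indFun (K.subgroupOf (Subgroup.normalizer (K : Set G))) θ := fun χ hχ =>
    CL.Char.frob_exists_eq_indFun (CL.Char.tifn_centralizer hC _) (hirr χ hχ) (hS ▸ hχ).2
  have hne : ∀ χ ∈ S, χ ≠ fun _ => 1 := by
    rintro χ hχ rfl
    obtain ⟨k, -, hk⟩ := (hS ▸ hχ).2
    exact hk rfl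
  have hrec : ∀ χ ∈ S, ∀ ξ ∈ S, ξ 1 * classInner (star χ) ψ - χ 1 * classInner (star ξ) ψ =
      classInner (ξ 1 • χ - χ 1 • ξ) (fun x : Subgroup.normalizer (K : Set G) => ψ x) := by
    intro χ hχ ξ hξ
    rw [← CL.Char.frobenius_reciprocity _ hψ.isClassFunction,
      ← CL.Char.isometry_degree_comb hstar hext hχ hξ (hirr χ hχ).isCharacter (hirr ξ hξ).isCharacter,
      CL.Char.classInner_sub_left, CL.Char.classInner_smul_left, CL.Char.classInner_smul_left]
  constructor
  · rintro ⟨χ, hχ, hψχ⟩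
    by_contra hn
    push Not at hn
    obtain ⟨ξ, hξ, hξχ⟩ : ∃ ξ ∈ S, ξ ≠ χ := by
      obtain ⟨a, ha, b, hb, hab⟩ := htwo
      by_cases h : a = χ
      · exact ⟨b, hb, fun e => hab (h.trans e.symm)⟩
      · exact ⟨a, ha, h⟩
    have h1 := hrec χ hχ ξ hξ
    rw [CL.Char.classInner_eq_zero_of_const_on (K := K.subgroupOf (Subgroup.normalizer (K : Set G)))] at h1
    · have e1 : classInner (star χ) (star χ) = 1 := by
        rw [hstar.2.2.1 _ (hmem χ hχ) _ (hmem χ hχ), (hirr χ hχ).classInner_self]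
      have e2 : classInner (star ξ) (star χ) = 0 := by
        rw [hstar.2.2.1 _ (hmem ξ hξ) _ (hmem χ hχ), (hirr ξ hξ).classInner_of_ne (hirr χ hχ) hξχ]
      apply (hirr ξ hξ).one_ne_zero
      rcases hψχ with rfl | rfl
      · simpa [e1, e2] using h1
      · simpa [CL.Char.classInner_neg_right, e1, e2] using h1
    · intro x hx
      obtain ⟨θ, -, -, rfl⟩ := hind χ hχ
      obtain ⟨θ', -, -, rfl⟩ := hind ξ hξ
      simp [CL.Char.indFun_eq_zero_of_not_mem _ hx]
    · simp [mul_comm]
    · rw [CL.Char.classInner_sub_left, CL.Char.classInner_smul_left, CL.Char.classInner_smul_left,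
        (hirr χ hχ).classInner_of_ne CL.Char.isIrrCharacter_one (hne χ hχ),
        (hirr ξ hξ).classInner_of_ne CL.Char.isIrrCharacter_one (hne ξ hξ)]
      simp
    · exact fun a ha b hb ha1 hb1 => hn a ha b hb (fun e => ha1 (Subtype.ext e)) (fun e => hb1 (Subtype.ext e))
  · rintro ⟨a, ha, b, hb, ha1, hb1, hab⟩
    by_contra hn
    push Not at hn
    have h0 : ∀ χ ∈ S, classInner (star χ) ψ = 0 := by
      intro χ hχ
      rcases (hstar.2.2.2 _ (hmem χ hχ)).irr_or_neg_irr
        (by rw [hstar.2.2.1 _ (hmem χ hχ) _ (hmem χ hχ), (hirr χ hχ).classInner_self]) with h | h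
      · exact h.classInner_of_ne hψ (hn χ hχ).1.symm
      · have := h.classInner_of_ne hψ (hn χ hχ).2.symm
        rwa [CL.Char.classInner_neg_left, neg_eq_zero] at this
    refine hab (CL.Char.const_on_of_classInner_proportional (K := K.subgroupOf (Subgroup.normalizer (K : Set G)))
      (hψ.isClassFunction.restrict _) (fun χ ξ h1 h2 h3 h4 => ?_) ⟨a, hlt.le ha⟩ ha ⟨b, hlt.le hb⟩ hb
      (fun e => ha1 (congrArg Subtype.val e)) (fun e => hb1 (congrArg Subtype.val e)))
    have hχ : χ ∈ S := hS ▸ ⟨h1, h2⟩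
    have hξ : ξ ∈ S := hS ▸ ⟨h3, h4⟩
    have := hrec χ hχ ξ hξ
    rw [h0 χ hχ, h0 ξ hξ, CL.Char.classInner_sub_left, CL.Char.classInner_smul_left, CL.Char.classInner_smul_left,
      h1.isCharacter.classInner_comm (hψ.isCharacter.restrict _),
      h3.isCharacter.classInner_comm (hψ.isCharacter.restrict _)] at this
    linear_combination -this

end Cfsg.Agent.S0852
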