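import Cfsg.Statements.S0853
import Cfsg.Agent.Char.FrobChar

set_option autoImplicit false
open Cfsg

namespace Cfsg.Agent.S0853

/-- Let K be a subgroup of the finite group G that meets each conjugate by an element outside its normalizer N trivially, is properly contained in N, and contains the centralizer of each of its non-identity elements (a T.I. subgroup with Frobenius normalizer). Let S be the set of irreducible characters of N taking at some element of K a value different from their degree, suppose S has at least two members, and let star be a linear isometry on the integer span of S into the generalized characters of G that agrees with induction on the members vanishing at the identity (so S is coherent, with star as the extending isometry). Then there is a single integer m such that star χ k - χ k = m * χ 1 / e for every χ in S and every non-identity element k of K, where e is the index of K in N. -/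
theorem result {G : Type*} [Group G] [Fintype G] (K : Subgroup G) (hTI : ∀ g : G, g ∉ Subgroup.normalizer (K : Set G) → ∀ k ∈ K, g * k * g⁻¹ ∈ K → k = 1) (hlt : K < Subgroup.normalizer (K : Set G)) (hC : ∀ k ∈ K, k ≠ 1 → Subgroup.centralizer ({k} : Set G) ≤ K) [Fintype ↥(Subgroup.normalizer (K : Set G))] (S : Set (↥(Subgroup.normalizer (K : Set G)) → ℂ)) (hS : S = {χ : ↥(Subgroup.normalizer (K : Set G)) → ℂ | Cfsg.IsIrrCharacter ↥(Subgroup.normalizer (K : Set G)) χ ∧ ∃ k : ↥(Subgroup.normalizer (K : Set G)), (k : G) ∈ K ∧ χ k ≠ χ 1}) (htwo : ∃ χ ∈ S, ∃ ξ ∈ S, χ ≠ ξ) (star : (↥(Subgroup.normalizer (K : Set G)) → ℂ) → (G → ℂ)) (hstar : Cfsg.IsLinearIsometryOn (Cfsg.zspan S) star) (hext : ∀ α ∈ Cfsg.zspanOn S ({1}ᶜ : Set ↥(Subgroup.normalizer (K : Set G))), star α = Cfsg.indFun (Subgroup.normalizer (K : Set G)) α) : ∃ m : ℤ, ∀ χ ∈ S, ∀ k : ↥(Subgroup.normalizer (K : Set G)), (k : G) ∈ K → k ≠ 1 → star χ k - χ k = (m : ℂ) * χ 1 / ((K.subgroupOf (Subgroup.normalizer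 (K : Set G))).index : ℂ) := by
  let N := Subgroup.normalizer (K : Set G)
  have hirr : ∀ χ ∈ S, IsIrrCharacter _ χ := fun χ hχ => (hS ▸ hχ).1
  have hmem : ∀ χ ∈ S, χ ∈ zspan S := fun χ hχ => Submodule.subset_span hχ
  have hC' := CL.Char.tifn_centralizer hC N
  have hind : ∀ χ ∈ S, ∃ θ, IsIrrCharacter _ θ ∧ (θ ≠ fun _ => 1) ∧ χ = indFun (K.subgroupOf N) θ :=
    fun χ hχ => CL.Char.frob_exists_eq_indFun hC' (hirr χ hχ) (hS ▸ hχ).2
  have hcomb := fun χ (hχ : χ ∈ S) ξ (hξ : ξ ∈ S) =>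
    CL.Char.isometry_degree_comb hstar hext hχ hξ (hirr χ hχ).isCharacter (hirr ξ hξ).isCharacter
  have hgen : ∀ χ ∈ S, IsGeneralizedCharacter N ((fun x : N => star χ x) - χ) := fun χ hχ =>
    ((hstar.2.2.2 _ (hmem χ hχ)).restrict N).sub (hirr χ hχ).isGeneralizedCharacter
  -- `star χ - χ` is constant on `K - 1`
  have hconst : ∀ χ ∈ S, ∀ a ∈ K.subgroupOf N, ∀ b ∈ K.subgroupOf N, a ≠ 1 → b ≠ 1 →
      star χ a - χ a = star χ b - χ b := by
    intro χ hχ
    refine CL.Char.const_on_of_classInner_proportional (φ := (fun x : N => star χ x) - χ) (hgen χ hχ).isClassFunction fun ξ ζ h1 h2 h3 h4 => ?_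
    have hξ : ξ ∈ S := hS ▸ ⟨h1, h2⟩
    have hζ : ζ ∈ S := hS ▸ ⟨h3, h4⟩
    have e := congrArg (classInner · (star χ)) (hcomb ξ hξ ζ hζ)
    rw [CL.Char.frobenius_reciprocity _ (hstar.2.2.2 _ (hmem χ hχ)).isClassFunction] at e
    simp only [CL.Char.classInner_sub_left, CL.Char.classInner_smul_left] at e
    rw [hstar.2.2.1 _ (hmem ξ hξ) _ (hmem χ hχ), hstar.2.2.1 _ (hmem ζ hζ) _ (hmem χ hχ)] at e
    rw [(hgen χ hχ).classInner_comm h1.isGeneralizedCharacter, (hgen χ hχ).classInner_comm h3.isGeneralizedCharacter,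
      CL.Char.classInner_sub_right, CL.Char.classInner_sub_right]
    linear_combination -e
  have hprop : ∀ χ ∈ S, ∀ ξ ∈ S, ∀ k : N, ξ 1 * (star χ k - χ k) = χ 1 * (star ξ k - ξ k) := by
    intro χ hχ ξ hξ k
    have e := congrFun (hcomb χ hχ ξ hξ) k
    rw [CL.Char.tifn_indFun_eq K hTI hC _ (((hirr χ hχ).isClassFunction.smul _).sub
      ((hirr ξ hξ).isClassFunction.smul _)) (fun x hx => by
        obtain ⟨θ, -, -, rfl⟩ := hind χ hχ
        obtain ⟨θ', -, -, rfl⟩ := hind ξ hξ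
        simp [CL.Char.indFun_eq_zero_of_not_mem (H := K.subgroupOf N) _ hx]) (by simp [mul_comm])] at e
    simp only [Pi.sub_apply, Pi.smul_apply, smul_eq_mul] at e
    linear_combination e
  obtain ⟨χ₀, hχ₀, -⟩ := htwo
  obtain ⟨k₀, hk₀, hk₀'⟩ := (hS ▸ hχ₀).2
  have hk1 : k₀ ≠ 1 := fun e => hk₀' (by rw [e])
  have hnt : Nontrivial (K.subgroupOf N) := ⟨⟨⟨k₀, hk₀⟩, 1, fun e => hk1 (congrArg Subtype.val e)⟩⟩
  have hint : ∀ χ ∈ S, ∃ n : ℤ, star χ k₀ - χ k₀ = n := by
    intro χ hχ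
    obtain ⟨n, -, hn, -⟩ := CL.Char.exists_int_of_const_on ((hgen χ hχ).restrict (K.subgroupOf N))
      (c := star χ k₀ - χ k₀) fun k hk => hconst χ hχ k k.2 k₀ hk₀ (fun e => hk (Subtype.ext e)) hk1
    exact ⟨n, hn⟩
  have he : ((K.subgroupOf N).index : ℂ) ≠ 0 := by exact_mod_cast Subgroup.index_ne_zero_of_finite
  have h0 := (hirr χ₀ hχ₀).one_ne_zero
  obtain ⟨m, hm⟩ := CL.Char.exists_int_of_mul_degree (K := K.subgroupOf N)
    ((star χ₀ k₀ - χ₀ k₀) / χ₀ 1 * (K.subgroupOf N).index) fun θ hθ hθ1 => by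
      have hθS : indFun (K.subgroupOf N) θ ∈ S :=
        hS ▸ ⟨CL.Char.frob_isIrrCharacter_indFun hC' hθ hθ1, CL.Char.exists_indFun_ne_one hθ hθ1⟩
      obtain ⟨n, hn⟩ := hint _ hθS
      refine ⟨n, ?_⟩
      have := hprop χ₀ hχ₀ _ hθS k₀
      rw [hn, CL.Char.indFun_one] at this
      field_simp
      linear_combination this
  refine ⟨m, fun χ hχ k hk hk' => ?_⟩
  rw [hconst χ hχ k hk k₀ hk₀ hk' hk1, ← hm]
  have := hprop χ hχ χ₀ hχ₀ k₀
  change _ = _ / ((K.subgroupOf N).index : ℂ)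
  field_simp
  linear_combination this

end Cfsg.Agent.S0853
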