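import Cfsg.Statements.S0855
import Cfsg.Agent.Char.LinGrp1

set_option autoImplicit false
open Cfsg

namespace Cfsg.Agent.S0855

universe u

theorem aux (p : ℕ) (hp : p.Prime) (n : ℕ) : ∀ (G : Type u) [Group G] [Finite G], Nat.card G = n →
    (∀ χ : Cfsg.IrrCharacter G, ∃ k : ℕ, (χ : G → ℂ) 1 = (p : ℂ) ^ k) →
    ∃ A : Subgroup G, A.Normal ∧ (∀ a ∈ A, ∀ b ∈ A, a * b = b * a) ∧ Nat.Coprime (Nat.card A) p ∧
      ∃ k : ℕ, A.index = p ^ k := by
  induction n using Nat.strong_induction_on with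
  | _ n ih =>
  intro G _ _ hn h
  have h' : ∀ χ, IsIrrCharacter G χ → ∃ k, charDegree χ = p ^ k := fun χ hχ => by
    obtain ⟨k, hk⟩ := h ⟨χ, hχ⟩
    exact ⟨k, CL.Char.charDegree_eq_of_eq (by rw [show χ 1 = _ from hk]; push_cast; rfl)⟩
  have hd : ∀ χ, IsIrrCharacter G χ → χ 1 ≠ 1 → p ∣ charDegree χ := fun χ hχ h1 => by
    obtain ⟨k, hk⟩ := h' χ hχ
    rw [hk]
    refine dvd_pow_self p ?_
    rintro rfl
    exact h1 (hχ.isCharacter.charDegree_eq_one_iff.mp (by simpa using hk))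
  by_cases hpG : p ∣ Nat.card G
  · obtain ⟨N, hN, -, hNi⟩ := CL.Char.exists_normal_index_eq_prime_of_dvd hp
      (CL.Char.dvd_index_commutator_of_dvd_degrees hpG hd)
    have hlt : Nat.card N < n := by
      rw [← hn, ← N.card_mul_index, hNi]
      have := hp.one_lt
      have : 0 < Nat.card N := Nat.card_pos
      nlinarith
    obtain ⟨A, hA, hab, hcop, k, hk⟩ := ih _ hlt N rfl fun θ => by
      obtain ⟨χ, hχ, hdvd⟩ := CL.Char.exists_irr_degree_dvd_of_normal N θ.2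
      obtain ⟨k, hk⟩ := h' χ hχ
      rw [hk] at hdvd
      obtain ⟨j, -, hj⟩ := (Nat.dvd_prime_pow hp).mp hdvd
      exact ⟨j, by rw [← θ.2.cast_charDegree, hj]; push_cast; rfl⟩
    refine ⟨A.map N.subtype, CL.Char.normal_map_subtype_of_coprime A
      (by rw [hk]; exact hcop.pow_right k), ?_, ?_, k + 1, ?_⟩
    · rintro _ ⟨a, ha, rfl⟩ _ ⟨b, hb, rfl⟩
      rw [← map_mul, ← map_mul, hab a ha b hb]
    · rwa [Subgroup.card_map_of_injective N.subtype_injective]
    · rw [Subgroup.index_map_subtype, hk, hNi, pow_succ]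
  · refine ⟨⊤, inferInstance, fun a _ b _ => ?_, ?_, 0, by simp⟩
    · refine CL.Char.comm_iff_forall_irr_one_eq_one.mpr (fun χ => ?_) a b
      by_contra h1
      exact hpG ((hd χ χ.2 h1).trans (CL.Char.isIrr_degree_dvd_card χ.2 χ.2.cast_charDegree.symm))
    · rw [Subgroup.card_top]
      exact ((Nat.Prime.coprime_iff_not_dvd hp).mpr hpG).symm

/-- For a finite group G and a prime p: every irreducible character of G has degree a power of p if and only if G has an abelian normal subgroup whose order is prime to p and whose index is a power of p. -/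
theorem result {G : Type*} [Group G] [Finite G] (p : ℕ) (hp : p.Prime) : (∀ χ : Cfsg.IrrCharacter G, ∃ k : ℕ, (χ : G → ℂ) 1 = (p : ℂ) ^ k) ↔ ∃ A : Subgroup G, A.Normal ∧ (∀ a ∈ A, ∀ b ∈ A, a * b = b * a) ∧ Nat.Coprime (Nat.card A) p ∧ ∃ k : ℕ, A.index = p ^ k := by
  refine ⟨aux p hp _ G rfl, ?_⟩
  rintro ⟨A, hA, hab, -, k, hk⟩ χ
  have h1 := CL.Char.isIrr_degree_dvd_index_of_abelian_normal χ.2 χ.2.cast_charDegree.symm A hab
  rw [hk] at h1
  obtain ⟨j, -, hj⟩ := (Nat.dvd_prime_pow hp).mp h1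
  exact ⟨j, by rw [← χ.2.cast_charDegree, hj]; push_cast; rfl⟩

end Cfsg.Agent.S0855
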