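import Cfsg.Statements.S0857
import Cfsg.Agent.Char.GoingDown

set_option autoImplicit false
open Cfsg

namespace Cfsg.Agent.S0857

/-- Let L < K be normal subgroups of the finite group G with no normal subgroup of G strictly between them and with K / L abelian (the commutator subgroup of K lies in L). Let ϑ be an irreducible character of K invariant under conjugation by G. Then the restriction of ϑ to L is irreducible; or it equals e times an irreducible character of L with e ^ 2 equal to the index of L in K; or it is the sum of a family of pairwise distinct irreducible characters of L indexed by a set whose size is the index of L in K. -/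
theorem result {G : Type*} [Group G] [Fintype G] (K L : Subgroup G) [hK : K.Normal] [L.Normal] (hLK : L < K) (hchief : ∀ M : Subgroup G, M.Normal → L ≤ M → M ≤ K → M = L ∨ M = K) (hab : ⁅K, K⁆ ≤ L) (ϑ : K → ℂ) (hϑ : Cfsg.IsIrrCharacter K ϑ) (hinv : ∀ (g : G) (n : K), ϑ ⟨g * n * g⁻¹, hK.conj_mem (n : G) n.2 g⟩ = ϑ n) : Cfsg.IsIrrCharacter L (fun x : L => ϑ ⟨(x : G), hLK.le x.2⟩) ∨ (∃ (φ : L → ℂ) (e : ℕ), Cfsg.IsIrrCharacter L φ ∧ (fun x : L => ϑ ⟨(x : G), hLK.le x.2⟩) = (e : ℂ) • φ ∧ e ^ 2 = L.relIndex K) ∨ (∃ F : Finset (L → ℂ), (∀ φ ∈ F, Cfsg.IsIrrCharacter L φ) ∧ F.card = L.relIndex K ∧ (fun x : L => ϑ ⟨(x : G), hLK.le x.2⟩) = ∑ φ ∈ F, φ) := by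
  classical
  have := Fintype.ofFinite K
  have := Fintype.ofFinite L
  obtain ⟨φ, hφ, h⟩ := CL.Char.exists_irr_constituent_comp hϑ (Subgroup.inclusion hLK.le)
  rcases CL.Char.going_down hLK.le hchief hab hϑ hinv hφ h with h1 | ⟨e, h1, h2⟩ | ⟨h1, h2⟩
  · exact Or.inl (h1 ▸ hφ)
  · exact Or.inr (Or.inl ⟨φ, e, hφ, h1, h2⟩)
  · have hφ' := CL.Char.isIrrCharacter_subgroupOf hLK.le hφ
    have h3 : CL.Char.inertia (L.subgroupOf K) (fun x => φ ⟨(x : K), Subgroup.mem_subgroupOf.mp x.2⟩) =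
        L.subgroupOf K := by
      rw [CL.Char.inertia_subgroupOf hLK.le, ← Subgroup.inf_subgroupOf_left, h1]
    have h4 := CL.Char.res_indFun_normal_eq_orbit hφ'.isClassFunction
    rw [h2, h3, Subgroup.relIndex_self, Nat.cast_one, one_smul] at h4
    let e : (L.subgroupOf K → ℂ) ↪ (L → ℂ) := ⟨fun ψ n => ψ ⟨⟨n, hLK.le n.2⟩, n.2⟩, fun ψ η he => by
      ext x
      exact congrFun he ⟨(x : K), Subgroup.mem_subgroupOf.mp x.2⟩⟩
    refine Or.inr (Or.inr ⟨(CL.Char.conjOrbit (L.subgroupOf K)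
      (fun x => φ ⟨(x : K), Subgroup.mem_subgroupOf.mp x.2⟩)).map e, ?_, ?_, ?_⟩)
    · intro ψ hψ
      obtain ⟨η, hη, rfl⟩ := Finset.mem_map.1 hψ
      exact CL.Char.isIrrCharacter_of_subgroupOf hLK.le (CL.Char.isIrrCharacter_of_mem_conjOrbit hφ' hη)
    · rw [Finset.card_map, CL.Char.card_conjOrbit, h3]
      rfl
    · ext n
      rw [Finset.sum_map, Finset.sum_apply]
      exact (congrFun h4 ⟨⟨n, hLK.le n.2⟩, n.2⟩).trans (Finset.sum_apply _ _ _)

end Cfsg.Agent.S0857
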