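import Cfsg.Statements.S0858
import Cfsg.Agent.Char.GoingDown2

set_option autoImplicit false
open Cfsg

namespace Cfsg.Agent.S0858

/-- Let N be a normal subgroup of the finite group G with G / N solvable, and suppose that for every subgroup H containing N and all subgroups L < K between N and H that are normal in H with no subgroup normal in H strictly between them, the index of L in K is not a perfect square. Then every irreducible character χ of G is induced from an irreducible character ψ of some subgroup H containing N such that the restriction of ψ to N is irreducible. -/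
theorem result {G : Type*} [Group G] [Fintype G] (N : Subgroup G) [N.Normal] (hsolv : Group.IsSolvable (G ⧸ N)) (hchief : ∀ (H K L : Subgroup G), N ≤ L → L < K → K ≤ H → (∀ h ∈ H, ∀ k ∈ K, h * k * h⁻¹ ∈ K) → (∀ h ∈ H, ∀ l ∈ L, h * l * h⁻¹ ∈ L) → (∀ M : Subgroup G, L ≤ M → M ≤ K → (∀ h ∈ H, ∀ m ∈ M, h * m * h⁻¹ ∈ M) → M = L ∨ M = K) → ¬ IsSquare (L.relIndex K)) (χ : G → ℂ) (hχ : Cfsg.IsIrrCharacter G χ) : ∃ (H : Subgroup G) (hNH : N ≤ H) (ψ : H → ℂ), Cfsg.IsIrrCharacter H ψ ∧ Cfsg.indFun H ψ = χ ∧ Cfsg.IsIrrCharacter N (fun n : N => ψ ⟨(n : G), hNH n.2⟩) := by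
  obtain ⟨H, ψ, hNH, h1, h2, h3⟩ := CL.Char.exists_induced_homogeneous N hχ
  have := CL.Char.isSolvable_quotient_subgroupOf N H
  refine ⟨H, hNH, ψ, h1, h2, CL.Char.isIrrCharacter_of_subgroupOf hNH
    (CL.Char.isIrrCharacter_res_of_homogeneous (N := N.subgroupOf H) ?_ h1 h3)⟩
  intro K L hK hL h4 h5 h6
  have hi := H.subtype_injective
  rw [← Subgroup.relIndex_map_map_of_injective L K hi]
  refine hchief H _ _ (fun n hn => ⟨⟨n, hNH hn⟩, h4 hn, rfl⟩)
    ((Subgroup.map_lt_map_iff_of_injective hi).2 h5) (Subgroup.map_subtype_le K) ?_ ?_ ?_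
  · rintro h hh _ ⟨k, hk, rfl⟩
    exact ⟨_, hK.conj_mem k hk ⟨h, hh⟩, rfl⟩
  · rintro h hh _ ⟨k, hk, rfl⟩
    exact ⟨_, hL.conj_mem k hk ⟨h, hh⟩, rfl⟩
  · intro M h7 h8 h9
    have h10 : M ≤ H := h8.trans (Subgroup.map_subtype_le K)
    rw [← Subgroup.map_subgroupOf_eq_of_le h10]
    rcases h6 (M.subgroupOf H) ⟨fun m hm h => h9 h h.2 m hm⟩ (Subgroup.map_le_iff_le_comap.1 h7)
      (fun m hm => (Subgroup.mem_map_iff_mem hi).1 (h8 hm)) with h | h
    · exact Or.inl (by rw [h])
    · exact Or.inr (by rw [h])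

end Cfsg.Agent.S0858
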