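import Cfsg.Statements.S0859
import Cfsg.Agent.Char.GoingDown2

set_option autoImplicit false
open Cfsg

namespace Cfsg.Agent.S0859

/-- Let G be a finite solvable group and N a normal subgroup such that for every prime p every Sylow p-subgroup of N is abelian. Suppose every irreducible character of G is induced from an irreducible character of some subgroup containing N whose restriction to N is irreducible. Then every irreducible character of G is induced from a character of degree 1 of some subgroup. -/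
theorem result {G : Type*} [Group G] [Fintype G] [Group.IsSolvable G] (N : Subgroup G) [N.Normal] (hab : ∀ (p : ℕ) [Fact p.Prime] (P : Sylow p N), ∀ a ∈ P, ∀ b ∈ P, a * b = b * a) (hrel : ∀ χ : G → ℂ, Cfsg.IsIrrCharacter G χ → ∃ (H : Subgroup G) (hNH : N ≤ H) (ψ : H → ℂ), Cfsg.IsIrrCharacter H ψ ∧ Cfsg.indFun H ψ = χ ∧ Cfsg.IsIrrCharacter N (fun n : N => ψ ⟨(n : G), hNH n.2⟩)) (χ : G → ℂ) (hχ : Cfsg.IsIrrCharacter G χ) : ∃ (U : Subgroup G) (lam : U → ℂ), Cfsg.IsCharacter U lam ∧ lam 1 = 1 ∧ Cfsg.indFun U lam = χ := by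
  obtain ⟨H, hNH, ψ, h1, h2, h3⟩ := hrel χ hχ
  have := Fintype.ofFinite H
  obtain ⟨U, θ, -, h4, h5, h6⟩ := CL.Char.exists_induced_homogeneous ⊥ h1
  have h7 := CL.Char.isIrrCharacter_inf_of_indFun_res_irr (N := N.subgroupOf H) h4.isCharacter
    (by rw [h5]; exact CL.Char.isIrrCharacter_subgroupOf hNH h3)
  have h8 : (N.subgroupOf H).subgroupOf U ≤ CL.Char.charCenter θ := by
    refine CL.Char.le_charCenter_of_quasiprimitive ?_ h4 fun B hB => h6 B hB (by simp)
    intro p _ S hS hp
    let f : S →* N := ((H.subtype.comp U.subtype).comp S.subtype).codRestrict N fun x => hS x.2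
    obtain ⟨P, hP⟩ := (hp.of_surjective f.rangeRestrict f.rangeRestrict_surjective).exists_le_sylow
    rw [Subgroup.commutator_eq_bot_iff_le_centralizer]
    intro a ha b hb
    have := congrArg Subtype.val (hab p P (f ⟨b, hb⟩) (hP ⟨_, rfl⟩) (f ⟨a, ha⟩) (hP ⟨_, rfl⟩))
    exact Subtype.ext (Subtype.ext this)
  have h9 : θ 1 = 1 := by
    have h10 : (⊤ : Subgroup ((N.subgroupOf H).subgroupOf U)) ≤
        CL.Char.charCenter (fun x : (N.subgroupOf H).subgroupOf U => θ x) := fun x _ =>
      h7.isCharacter.mem_charCenter.2 (h4.isCharacter.mem_charCenter.1 (h8 x.2))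
    have h11 := (h7.charDegree_sq_le_index h10).1
    have h12 := h7.charDegree_pos
    rw [Subgroup.index_top] at h11
    exact h7.isCharacter.charDegree_eq_one_iff.1 (by nlinarith)
  refine ⟨U.map H.subtype, _, h4.isCharacter.comp
    (U.equivMapOfInjective H.subtype H.subtype_injective).symm.toMonoidHom, by simpa using h9, ?_⟩
  rw [← h2, ← h5, CL.Char.indFun_trans_map]
  rfl

end Cfsg.Agent.S0859
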