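import Cfsg.Statements.S0861
import Cfsg.Agent.Char.Congruence
import Cfsg.Agent.Char.Ito
import Cfsg.Agent.Char.Orth2
import Cfsg.Agent.Char.Linear

set_option autoImplicit false
open Cfsg

namespace Cfsg.Agent.S0861

/-- Let P be a normal abelian Sylow p-subgroup of the finite group G and suppose some element g of P has centralizer exactly P. Then the number of irreducible characters of G is at most the order of P, and if equality holds then G / P is abelian (the commutator subgroup lies in P). -/
theorem result {G : Type*} [Group G] [Finite G] (p : ℕ) [Fact p.Prime] (P : Sylow p G) [(P : Subgroup G).Normal] (hab : ∀ a ∈ P, ∀ b ∈ P, a * b = b * a) (g : G) (hg : g ∈ P) (hC : Subgroup.centralizer ({g} : Set G) = P) : Nat.card (Cfsg.IrrCharacter G) ≤ Nat.card P ∧ (Nat.card (Cfsg.IrrCharacter G) = Nat.card P → commutator G ≤ P) := by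
  classical
  obtain ⟨k, hk⟩ := P.isPGroup' ⟨g, hg⟩
  have hgk : g ^ p ^ k = 1 := congrArg Subtype.val hk
  have h0 : ∀ χ ∈ (Finset.univ : Finset (IrrCharacter G)), (χ : G → ℂ) g ≠ 0 := by
    intro χ _
    obtain ⟨n, -, hn⟩ := χ.2.exists_nat_one
    refine CL.Char.apply_ne_zero_of_not_dvd_degree χ.2.isGeneralizedCharacter Fact.out hgk hn ?_
    exact fun h => P.not_dvd_index
      (h.trans (CL.Char.isIrr_degree_dvd_index_of_abelian_normal χ.2 hn P hab))
  have h1 := CL.Char.sum_irr_norm_sq g
  rw [hC] at h1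
  have h2 := CL.Char.card_le_sum_irr_norm_sq Finset.univ (fun _ _ _ => Finset.mem_univ _) g h0
  rw [h1, Finset.card_univ, ← Nat.card_eq_fintype_card] at h2
  refine ⟨by exact_mod_cast h2, fun heq => ?_⟩
  have h3 := CL.Char.eq_one_of_one_le_prod_of_sum_le Finset.univ _ (fun _ _ => by positivity)
    (CL.Char.one_le_prod_irr_norm_sq Finset.univ (fun _ _ _ => Finset.mem_univ _) g h0)
    (by rw [h1, Finset.card_univ, ← Nat.card_eq_fintype_card, heq])
  intro x hx
  by_contra hxP
  obtain ⟨χ, hχ, hP, hx'⟩ := CL.Char.exists_irr_le_charKer_not_mem (P : Subgroup G) hxP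
  apply hx'
  refine hχ.one_eq_one_iff.mp ?_ hx
  have h4 := h3 ⟨χ, hχ⟩ (Finset.mem_univ _)
  obtain ⟨n, -, hn⟩ := hχ.exists_nat_one
  simp only at h4
  rw [hχ.mem_charKer.mp (hP hg), hn, Complex.norm_natCast] at h4
  have h5 : n = 1 := by
    have : n ^ 2 = 1 := by exact_mod_cast h4
    simpa using this
  rw [hn, h5, Nat.cast_one]

end Cfsg.Agent.S0861
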