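import Cfsg.Statements.S0869
import Cfsg.Agent.Char.QuasiElem

set_option autoImplicit false
open Cfsg

namespace Cfsg.Agent.S0869

/-- Let S be a nonempty finite type and R an additive subgroup of the integer-valued functions on S that is closed under pointwise multiplication. If the constant function 1 is not in R, then there exist a point x of S and a prime p such that p divides f x for every f in R. -/
theorem result {S : Type*} [Finite S] [Nonempty S] (R : AddSubgroup (S → ℤ)) (hmul : ∀ f ∈ R, ∀ g ∈ R, f * g ∈ R) (h1 : (1 : S → ℤ) ∉ R) : ∃ (x : S) (p : ℕ), p.Prime ∧ ∀ f ∈ R, (p : ℤ) ∣ f x := by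
  classical
  have : Fintype S := Fintype.ofFinite S
  by_contra hcon
  push Not at hcon
  apply h1
  have key : ∀ x : S, ∃ f ∈ R, f x = 1 := by
    intro x
    let I : AddSubgroup ℤ := R.map (Pi.evalAddMonoidHom (fun _ : S => ℤ) x)
    obtain ⟨d, hd⟩ := Int.subgroup_cyclic I
    have hdvd : ∀ f ∈ R, d ∣ f x := by
      intro f hf
      have : f x ∈ I := ⟨f, hf, rfl⟩
      rw [hd, AddSubgroup.mem_closure_singleton] at this
      obtain ⟨n, hn⟩ := this
      exact ⟨n, by rw [← hn]; simp [mul_comm]⟩
    by_cases h : d.natAbs = 1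
    · have hdI : d ∈ I := hd ▸ AddSubgroup.mem_closure_singleton_self d
      obtain ⟨f, hf, hfx⟩ := hdI
      have hfx' : f x = d := hfx
      rcases Int.natAbs_eq_iff.mp h with h | h
      · exact ⟨f, hf, by rw [hfx', h]; rfl⟩
      · exact ⟨-f, neg_mem hf, by simp [hfx', h]⟩
    · obtain ⟨p, hp, hpd⟩ := Nat.exists_prime_and_dvd h
      obtain ⟨f, hf, hfx⟩ := hcon x p hp
      exact absurd ((Int.natCast_dvd.mpr hpd).trans (hdvd f hf)) hfx
  choose f hf hfx using key
  have := CL.Char.const_prod_mem_of_mul_mem R hmul f (fun _ => 1) hf (fun x => by simpa using hfx x)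
  simp only [Finset.prod_const_one, Int.cast_one] at this
  exact this

end Cfsg.Agent.S0869
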