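import Cfsg.Statements.S0870
import Cfsg.Agent.Char.Mackey

set_option autoImplicit false
open Cfsg

namespace Cfsg.Agent.S0870

/-- For subgroups H and K of a finite group G, the pointwise product of the functions induced from the constant function 1 on H and on K is a sum, over subgroups U of H with natural-number coefficients, of the functions induced from the constant function 1 on U. -/
theorem result {G : Type*} [Group G] [Fintype G] (H K : Subgroup G) : ∃ a : Subgroup G → ℕ, (∀ U, a U ≠ 0 → U ≤ H) ∧ Cfsg.indFun H (fun _ => 1) * Cfsg.indFun K (fun _ => 1) = ∑ U : Subgroup G, (a U : ℂ) • Cfsg.indFun U (fun _ => 1) := by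
  classical
  obtain ⟨T, -, hT⟩ := CL.Char.exists_isDoubleCosetReps H K
  rw [CL.Char.indFun_one_mul_indFun_one hT]
  let f : G → Subgroup G := fun t => K.map (MulAut.conj t).toMonoidHom ⊓ H
  refine ⟨fun U => (T.filter fun t => f t = U).card, ?_, ?_⟩
  · intro U hU
    obtain ⟨t, ht⟩ := Finset.card_pos.mp (Nat.pos_of_ne_zero hU)
    rw [← (Finset.mem_filter.mp ht).2]
    exact inf_le_right
  · rw [← Finset.sum_fiberwise_of_maps_to (s := T) (t := Finset.univ) (g := f)
      (fun _ _ => Finset.mem_univ _)]
    refine Finset.sum_congr rfl fun U _ => ?_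
    rw [Finset.sum_congr rfl (g := fun _ => Cfsg.indFun U (fun _ => 1)), Finset.sum_const,
      Nat.cast_smul_eq_nsmul]
    intro t ht
    rw [← (Finset.mem_filter.mp ht).2]

end Cfsg.Agent.S0870
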