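import Cfsg.Statements.S0875
import Cfsg.Agent.Char.PiSection2

set_option autoImplicit false
open Cfsg

namespace Cfsg.Agent.S0875

/-- Let G be a finite group of order m * n with m and n coprime, and g an element whose order is coprime to m. Every x in G factors uniquely as x = u * v with u, v commuting, the order of u coprime to n and the order of v coprime to m; let ϑ be the function on G equal to n at those x whose factor v is conjugate to g and equal to 0 elsewhere. Then ϑ is a linear combination of the irreducible characters of G with algebraic-integer coefficients. -/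
theorem result {G : Type*} [Group G] [Fintype G] (m n : ℕ) (hmn : Nat.card G = m * n) (hcop : Nat.Coprime m n) (g : G) (hg : Nat.Coprime (orderOf g) m) (ϑ : G → ℂ) (hϑ1 : ∀ x : G, (∃ v : G, IsConj v g ∧ (∃ u : G, x = u * v ∧ Commute u v ∧ Nat.Coprime (orderOf u) n ∧ Nat.Coprime (orderOf v) m)) → ϑ x = n) (hϑ0 : ∀ x : G, (¬ ∃ v : G, IsConj v g ∧ (∃ u : G, x = u * v ∧ Commute u v ∧ Nat.Coprime (orderOf u) n ∧ Nat.Coprime (orderOf v) m)) → ϑ x = 0) : ∃ c : Cfsg.IrrCharacter G → ℂ, (∀ χ, c χ ∈ Cfsg.AlgInt) ∧ ϑ = ∑ᶠ χ : Cfsg.IrrCharacter G, c χ • (χ : G → ℂ) := by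
  classical
  let σ : Set ℕ := {q | ¬ q ∣ m}
  have hσ : ∀ x : G, CL.Fgs.IsPiElt σ x ↔ Nat.Coprime (orderOf x) m := fun x =>
    ⟨fun h => Nat.coprime_of_dvd fun q hq h1 => h q hq h1,
      fun h q hq h1 h2 => hq.one_lt.ne' (Nat.eq_one_of_dvd_coprimes h h1 h2)⟩
  have hσ' : ∀ x : G, CL.Fgs.IsPiElt σᶜ x ↔ Nat.Coprime (orderOf x) n := by
    intro x
    constructor
    · intro h
      refine Nat.coprime_of_dvd fun q hq h1 h2 => ?_
      have h3 : q ∣ m := not_not.mp (h q hq h1)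
      exact hq.one_lt.ne' (Nat.eq_one_of_dvd_coprimes hcop h3 h2)
    · intro h q hq h1 h2
      have h3 : q ∣ m * n := hmn ▸ h1.trans (orderOf_dvd_natCard x)
      rcases (Nat.Prime.dvd_mul hq).mp h3 with h4 | h4
      · exact h2 h4
      · exact hq.one_lt.ne' (Nat.eq_one_of_dvd_coprimes h h1 h4)
  have hn0 : n ≠ 0 := by
    rintro rfl
    exact (Nat.card_pos (α := G)).ne' (hmn.trans (mul_zero m))
  have key : ∀ x : G, (∃ v : G, IsConj v g ∧ (∃ u : G, x = u * v ∧ Commute u v ∧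
      Nat.Coprime (orderOf u) n ∧ Nat.Coprime (orderOf v) m)) ↔ IsConj g (CL.Fgs.piPart σ x) := by
    intro x
    constructor
    · rintro ⟨v, hv, u, rfl, huv, hu, hv'⟩
      rw [huv.eq, CL.Fgs.piPart_mul_eq huv.symm ((hσ v).mpr hv') ((hσ' u).mpr hu)]
      exact hv.symm
    · intro h
      exact ⟨_, h.symm, CL.Fgs.piPart σᶜ x, (CL.Fgs.piPart_compl_mul_piPart σ x).symm,
        CL.Fgs.commute_piPart_piPart (Commute.refl x), (hσ' _).mp (CL.Fgs.isPiElt_piPart _ _),
        (hσ _).mp (CL.Fgs.isPiElt_piPart _ _)⟩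
  have hϑ : ϑ = CL.Char.sectionInd σ n g := by
    funext x
    by_cases h : IsConj g (CL.Fgs.piPart σ x)
    · rw [hϑ1 x ((key x).mpr h), CL.Char.sectionInd_of_isConj n h]
    · rw [hϑ0 x ((key x).not.mpr h), CL.Char.sectionInd_of_not_isConj n h]
  refine ⟨fun χ => Cfsg.classInner ϑ χ, fun χ => ?_, ?_⟩
  · rw [hϑ]
    refine CL.Char.isIntegral_classInner_sectionInd σ hn0 (fun d hd hdG => ?_) g
      χ.2.isGeneralizedCharacter
    have h1 : d.Coprime m := Nat.coprime_of_dvd fun q hq h1 => hd q hq h1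
    exact h1.dvd_of_dvd_mul_left (hmn ▸ hdG)
  · rw [CL.Char.finsum_irr_eq_sum]
    exact (hϑ ▸ CL.Char.isClassFunction_sectionInd σ n g : Cfsg.IsClassFunction G ϑ).eq_sum_irr

end Cfsg.Agent.S0875
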