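import Cfsg.Statements.S0876
import Cfsg.Agent.Char.PiSection2

set_option autoImplicit false
open Cfsg

namespace Cfsg.Agent.S0876

/-- Let G be a finite group, p a prime and M a maximal ideal of the ring of algebraic integers containing p. Let x, y be elements with p-parts a and b (so a⁻¹ * x and b⁻¹ * y are their p-regular parts). Then a⁻¹ * x and b⁻¹ * y are conjugate in G if and only if, for every irreducible character χ, the difference χ x - χ y lies in the local ideal at M. -/
theorem result {G : Type*} [Group G] [Finite G] (p : ℕ) (M : Ideal Cfsg.AlgInt) (hM : Cfsg.IsPModular p M) (x y a b : G) (ha : Cfsg.IsPPart p x a) (hb : Cfsg.IsPPart p y b) : IsConj (a⁻¹ * x) (b⁻¹ * y) ↔ ∀ χ : Cfsg.IrrCharacter G, Cfsg.MemLocalIdeal M ((χ : G → ℂ) x - (χ : G → ℂ) y) := by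
  rw [← (CL.Char.piPart_eq_of_isPPart hM.1 ha).2, ← (CL.Char.piPart_eq_of_isPPart hM.1 hb).2,
    CL.Char.isConj_piPart_iff_val hM]
  refine forall_congr' fun χ => (CL.Blk.memLocalIdeal_iff hM ?_).symm
  exact CL.Blk.isAlgebraic_of_isIntegral
    ((CL.Char.isChar_isIntegral χ.2.isCharacter x).sub (CL.Char.isChar_isIntegral χ.2.isCharacter y))

end Cfsg.Agent.S0876
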