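import Cfsg.Statements.S0878
import Cfsg.Agent.Perm.ZassKernel

set_option autoImplicit false
open Cfsg

namespace Cfsg.Agent.S0878

/-- Let G be a Zassenhaus group on the finite set Ω, a a point, and let H be the subgroup of the stabilizer of a consisting of the identity and the elements fixing no point other than a (given here as a subgroup of the stabilizer of order one less than the number of points whose non-identity elements fix only a; it is the Frobenius kernel of the stabilizer). Then an element outside the stabilizer of a conjugates no non-identity element of H into H, and the normalizer of H is exactly the stabilizer of a. -/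
theorem result {G Ω : Type*} [Group G] [Finite G] [MulAction G Ω] [Fintype Ω] (hZ : Cfsg.IsZassenhausGroup G Ω) (a : Ω) (H : Subgroup G) (hHa : H ≤ MulAction.stabilizer G a) (hHcard : Nat.card H + 1 = Fintype.card Ω) (hHfix : ∀ u ∈ H, u ≠ 1 → ∀ c : Ω, u • c = c → c = a) : (∀ g : G, g ∉ MulAction.stabilizer G a → ∀ u ∈ H, g * u * g⁻¹ ∈ H → u = 1) ∧ Subgroup.normalizer (H : Set G) = MulAction.stabilizer G a := by
  have h := CL.Perm.isZ_of_zassenhaus hZ
  have hF := h.isKer_of_card hHa (by rw [hHcard, Nat.card_eq_fintype_card]) hHfix
  have key : ∀ g : G, g ∉ MulAction.stabilizer G a → ∀ u ∈ H, g * u * g⁻¹ ∈ H → u = 1 := by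
    intro g hg u hu hgu
    by_contra hu1
    exact hg (hF.fix_of_conj_mem hu hu1 hgu)
  refine ⟨key, le_antisymm ?_ ?_⟩
  · intro g hg
    obtain ⟨u, hu, hu1⟩ := hF.exists_ne_one h
    exact hF.fix_of_conj_mem hu hu1 ((Subgroup.mem_normalizer_iff.1 hg _).1 hu)
  · intro g hg
    rw [Subgroup.mem_normalizer_iff]
    intro x
    refine ⟨fun hx => hF.conj_mem hg hx, fun hx => ?_⟩
    have := hF.conj_mem ((MulAction.stabilizer G a).inv_mem hg) hx
    simpa [mul_assoc] using this

end Cfsg.Agent.S0878
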