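import Cfsg.Statements.S0879
import Cfsg.Agent.Perm.ZassBasic

set_option autoImplicit false
open Cfsg

namespace Cfsg.Agent.S0879

/-- Let G be a Zassenhaus group on the finite set Ω and E the stabilizer of two distinct points a, b. Then an element outside the normalizer of E conjugates no non-identity element of E into E, and E has index 2 in its normalizer. -/
theorem result {G Ω : Type*} [Group G] [Finite G] [MulAction G Ω] [Fintype Ω] (hZ : Cfsg.IsZassenhausGroup G Ω) {a b : Ω} (hab : a ≠ b) : (∀ g : G, g ∉ Subgroup.normalizer ((MulAction.stabilizer G a ⊓ MulAction.stabilizer G b : Subgroup G) : Set G) → ∀ x ∈ (MulAction.stabilizer G a ⊓ MulAction.stabilizer G b : Subgroup G), g * x * g⁻¹ ∈ (MulAction.stabilizer G a ⊓ MulAction.stabilizer G b : Subgroup G) → x = 1) ∧ ((MulAction.stabilizer G a ⊓ MulAction.stabilizer G b : Subgroup G).subgroupOf (Subgroup.normalizer ((MulAction.stabilizer G a ⊓ MulAction.stabilizer G b : Subgroup G) : Set G))).index = 2 := by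
  have h := CL.Perm.isZ_of_zassenhaus hZ
  obtain ⟨-, -, -, ⟨t, ht1, c, d, hcd, htc, htd⟩, -⟩ := hZ
  have hN : Subgroup.normalizer ((CL.Perm.stab2 G a b : Subgroup G) : Set G) = CL.Perm.pairStab G a b := by
    apply le_antisymm
    · intro g hg
      obtain ⟨k, rfl, rfl⟩ := h.trans hcd hab
      have hx : k * t * k⁻¹ ∈ CL.Perm.stab2 G (k • c) (k • d) :=
        ⟨CL.Perm.conj_smul_fix htc, CL.Perm.conj_smul_fix htd⟩
      exact h.mem_pairStab_of_conj hab hx (by simpa using ht1) ((Subgroup.mem_normalizer_iff.1 hg _).1 hx)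
    · intro g hg
      rw [Subgroup.mem_normalizer_iff]
      intro x
      refine ⟨fun hx => CL.Perm.conj_mem_stab2 hg hx, fun hx => ?_⟩
      have := CL.Perm.conj_mem_stab2 ((CL.Perm.pairStab G a b).inv_mem hg) hx
      simpa [mul_assoc] using this
  refine ⟨fun g hg x hx hgx => ?_, ?_⟩
  · by_contra hx1
    exact hg (hN ▸ h.mem_pairStab_of_conj hab hx hx1 hgx)
  · have := h.relIndex_pairStab hab
    rw [← hN] at this
    exact this

end Cfsg.Agent.S0879
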