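import Cfsg.Statements.S0882
import Cfsg.Agent.Perm.ZassInvol

set_option autoImplicit false
open Cfsg

namespace Cfsg.Agent.S0882

/-- Let G be a finite simple Zassenhaus group on Ω with n = h + 1 points whose two-point stabilizer E has odd order e with 2e < h - 1. Then any two involutions of G are conjugate, and the number of involutions is e * (h + 1) if h is even and e * h if h is odd. -/
theorem result {G Ω : Type*} [Group G] [Finite G] [MulAction G Ω] [Fintype Ω] (hZ : Cfsg.IsZassenhausGroup G Ω) {a b : Ω} (hab : a ≠ b) [IsSimpleGroup G] (h e : ℕ) (hh : Fintype.card Ω = h + 1) (he : Nat.card ↥(MulAction.stabilizer G a ⊓ MulAction.stabilizer G b : Subgroup G) = e) (hodd : Odd e) (hlt : 2 * e < h - 1) : (∀ x y : G, orderOf x = 2 → orderOf y = 2 → IsConj x y) ∧ Nat.card {x : G // orderOf x = 2} = (if Even h then e * (h + 1) else e * h) := by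
  have hz := CL.Perm.isZ_of_zassenhaus hZ
  obtain ⟨s, hs1, hs2⟩ := hz.exists_swap hab
  subst he
  have hinv := fun y hy => hz.inverts_of_simple hab hodd hs1 hs2 (y := y) hy
  constructor
  · intro x y hx hy
    rw [CL.Perm.orderOf_eq_two_iff'] at hx hy
    exact (hz.isConj_invol hab hodd hs1 hs2 hinv hx.1 hx.2).symm.trans
      (hz.isConj_invol hab hodd hs1 hs2 hinv hy.1 hy.2)
  · have h1 := hz.ncard_invol hab hodd hs1 hs2 hinv
    simp only [← CL.Perm.orderOf_eq_two_iff'] at h1
    rw [Nat.card_eq_fintype_card (α := Ω), hh, Nat.add_sub_cancel] at h1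
    refine Eq.trans h1 ?_
    by_cases he : Even h
    · rw [if_neg (by rw [Nat.even_add_one]; exact not_not.mpr he), if_pos he, mul_comm]
    · rw [if_pos (Nat.even_add_one.mpr he), if_neg he, mul_comm]

end Cfsg.Agent.S0882
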