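import Cfsg.Statements.S0893
import Cfsg.Agent.Char.ExtraspecialChar

set_option autoImplicit false
open Cfsg

namespace Cfsg.Agent.S0893

/-- Let P be an extraspecial p-group of order p ^ (2 * n + 1), A an abelian subgroup of order p ^ (n + 1), and λ a character of A of degree 1 that is not identically 1 on the elements of A lying in the centre of P. Then the function induced from λ to P is an irreducible character of P and vanishes at every element outside the centre. -/
theorem result {P : Type*} [Group P] [Fintype P] (p n : ℕ) [Fact p.Prime] (hP : Cfsg.IsExtraspecial p P) (hcard : Nat.card P = p ^ (2 * n + 1)) (A : Subgroup P) (hab : ∀ a ∈ A, ∀ b ∈ A, a * b = b * a) (hA : Nat.card A = p ^ (n + 1)) (lam : A → ℂ) (hlam : Cfsg.IsCharacter A lam ∧ lam 1 = 1) (hZ : ∃ a : A, (a : P) ∈ Subgroup.center P ∧ lam a ≠ 1) : Cfsg.IsIrrCharacter P (Cfsg.indFun A lam) ∧ ∀ x : P, x ∉ Subgroup.center P → Cfsg.indFun A lam x = 0 := by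
  classical
  have hp : p.Prime := Fact.out
  have hidx : A.index = p ^ n := by
    have := A.card_mul_index
    rw [hA, hcard, show 2 * n + 1 = (n + 1) + n by ring, pow_add p (n + 1) n] at this
    exact Nat.eq_of_mul_eq_mul_left (pow_pos hp.pos _) this
  have hch := CL.Char.isCharacter_indFun hlam.1
  have hdeg : indFun A lam 1 = (p : ℂ) ^ n := by
    rw [CL.Char.indFun_one, hidx, hlam.2, mul_one]; push_cast; rfl
  obtain ⟨χ, hχ, hne⟩ := CL.Char.exists_irr_constituent hch (fun h => by
    rw [h] at hdeg
    exact pow_ne_zero n (by exact_mod_cast hp.ne_zero : (p : ℂ) ≠ 0) hdeg.symm)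
  have hZ' : ¬ Subgroup.center P ≤ CL.Char.charKer χ := by
    intro hle
    obtain ⟨a, ha, ha1⟩ := hZ
    apply ha1
    rw [CL.Char.frobenius_reciprocity _ hχ.isClassFunction] at hne
    have hne' : classInner (fun h : A => χ h) lam ≠ 0 := by
      rwa [(hχ.isCharacter.restrict A).classInner_comm hlam.1]
    have h1 := (hχ.isCharacter.restrict A).charKer_le_of_classInner_ne_zero
      (hlam.1.isIrrCharacter_of_one_eq_one hlam.2) hne'
    have h2 : a ∈ CL.Char.charKer (fun h : A => χ h) :=
      (hχ.isCharacter.restrict A).mem_charKer.mpr (hχ.mem_charKer.mp (hle ha))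
    rw [← hlam.2]
    exact hlam.1.mem_charKer.mp (h1 h2)
  have heq : indFun A lam = χ := CL.Char.eq_of_classInner_ne_zero_of_one_eq hch hχ hne
    (by rw [hdeg, CL.Char.extraspecial_irr_degree hP hcard hχ hZ'])
  rw [heq]
  exact ⟨hχ, fun x hx => CL.Char.extraspecial_irr_eq_zero hP hχ hZ' hx⟩

end Cfsg.Agent.S0893
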