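import Cfsg.Statements.S0894
import Cfsg.Agent.Char.ExtraspecialChar

set_option autoImplicit false
open Cfsg

namespace Cfsg.Agent.S0894

/-- Let P be an extraspecial p-group of order p ^ (2 * n + 1). Then every irreducible character of P has degree 1 or p ^ n, and exactly p - 1 of them have degree p ^ n. -/
theorem result {P : Type*} [Group P] [Finite P] (p n : ℕ) [Fact p.Prime] (hP : Cfsg.IsExtraspecial p P) (hcard : Nat.card P = p ^ (2 * n + 1)) : (∀ χ : Cfsg.IrrCharacter P, (χ : P → ℂ) 1 = 1 ∨ (χ : P → ℂ) 1 = (p : ℂ) ^ n) ∧ Nat.card {χ : Cfsg.IrrCharacter P // (χ : P → ℂ) 1 = (p : ℂ) ^ n} = p - 1 := by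
  refine ⟨fun χ => ?_, CL.Char.extraspecial_card_nonlinear hP hcard⟩
  by_cases h : Subgroup.center P ≤ CL.Char.charKer (χ : P → ℂ)
  · exact Or.inl ((CL.Char.extraspecial_irr_one_eq_one_iff hP χ.2).mpr h)
  · exact Or.inr (CL.Char.extraspecial_irr_degree hP hcard χ.2 h)

end Cfsg.Agent.S0894
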