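import Cfsg.Statements.S0897
import Cfsg.Agent.Char.DadeElem

set_option autoImplicit false
open Cfsg

namespace Cfsg.Agent.S0897

/-- Let N be a normal subgroup of the finite group G with the index of N a power of the prime p, and P a Sylow p-subgroup of G such that P ⊓ N lies in the centre of P and every character of degree 1 of P ⊓ N is the restriction of a character of degree 1 of P. Then every irreducible character of N invariant under conjugation by G is the restriction of an irreducible character of G. -/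
theorem result {G : Type*} [Group G] [Fintype G] (p : ℕ) [Fact p.Prime] (N : Subgroup G) [hN : N.Normal] (hind : ∃ k : ℕ, N.index = p ^ k) (P : Sylow p G) (hcent : ∀ x ∈ (P : Subgroup G) ⊓ N, ∀ y ∈ (P : Subgroup G), x * y = y * x) (hlin : ∀ lam : ↥((P : Subgroup G) ⊓ N) → ℂ, Cfsg.IsCharacter ↥((P : Subgroup G) ⊓ N) lam → lam 1 = 1 → ∃ μ : ↥(P : Subgroup G) → ℂ, Cfsg.IsCharacter ↥(P : Subgroup G) μ ∧ μ 1 = 1 ∧ ∀ x : ↥((P : Subgroup G) ⊓ N), μ ⟨(x : G), x.2.1⟩ = lam x) (ϑ : N → ℂ) (hϑ : Cfsg.IsIrrCharacter N ϑ) (hinv : ∀ (g : G) (n : N), ϑ ⟨g * n * g⁻¹, hN.conj_mem (n : G) n.2 g⟩ = ϑ n) : ∃ χ : G → ℂ, Cfsg.IsIrrCharacter G χ ∧ ∀ n : N, χ n = ϑ n := by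
  classical
  obtain ⟨k, hk⟩ := hind
  refine CL.Char.dade_exists_extension hk P ?_ hϑ hinv
  rw [eq_bot_iff]
  rintro x ⟨hx, hxN⟩
  have hxP : x ∈ (P : Subgroup G) := (Subgroup.commutator_le.2 fun a ha b hb =>
    (P : Subgroup G).mul_mem ((P : Subgroup G).mul_mem ((P : Subgroup G).mul_mem ha hb) ((P : Subgroup G).inv_mem ha))
      ((P : Subgroup G).inv_mem hb)) hx
  by_contra hne
  have hcomm : ∀ a b : ↥((P : Subgroup G) ⊓ N), a * b = b * a := fun a b =>
    Subtype.ext (hcent a a.2 b b.2.1)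
  have h1 : commutator ↥((P : Subgroup G) ⊓ N) ≤ ⊥ := by
    rw [le_bot_iff, commutator_eq_bot_iff_center_eq_top, Subgroup.eq_top_iff']
    intro x
    exact Subgroup.mem_center_iff.2 fun g => hcomm g x
  obtain ⟨lam, -, hlam⟩ := CL.Char.exists_monoidHom_of_not_mem h1 (g := ⟨x, hxP, hxN⟩)
    (fun h => hne (congrArg Subtype.val (Subgroup.mem_bot.1 h)))
  obtain ⟨μ, hμ, hμ1, hμl⟩ := hlin (fun g => (lam g : ℂ)) (CL.Char.isCharacter_unitsHom lam) (by simp)
  have h2 : (⟨x, hxP⟩ : (P : Subgroup G)) ∈ commutator (P : Subgroup G) := by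
    have : ⁅(P : Subgroup G), (P : Subgroup G)⁆ = (commutator (P : Subgroup G)).map (P : Subgroup G).subtype := by
      rw [commutator, Subgroup.map_commutator, ← MonoidHom.range_eq_map, Subgroup.range_subtype]
    rw [this] at hx
    obtain ⟨y, hy, rfl⟩ := hx
    exact hy
  have h3 := hμ.mem_charKer.1 (CL.Char.commutator_le_charKer_of_one_eq_one hμ hμ1 h2)
  have h4 := hμl ⟨x, hxP, hxN⟩
  apply hlam
  apply Units.ext
  rw [← h4, h3, hμ1, Units.val_one]

end Cfsg.Agent.S0897
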