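import Cfsg.Statements.S0898
import Cfsg.Agent.Char.BrauerTI

set_option autoImplicit false
open Cfsg

namespace Cfsg.Agent.S0898

/-- Let H be an abelian subgroup of the finite group G meeting the centre of G trivially, such that for every non-central g the centralizer of g has nontrivial intersection with at most one conjugate of H. Let χ be an irreducible character of G with χ h ≠ χ 1 for some h in H, and let c be the inner product of the restriction of χ to H with the principal character. Then χ(1)² > (order of H)·c²; and if in addition χ 1 ≠ 1 and no proper normal subgroup of G contains H, then (1 + χ 1)² > order of H (both sides read as real numbers). -/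
theorem result {G : Type*} [Group G] [Fintype G] (H : Subgroup G) [Fintype H] (hab : ∀ a ∈ H, ∀ b ∈ H, a * b = b * a) (hZ : H ⊓ Subgroup.center G = ⊥) (hone : ∀ g : G, g ∉ Subgroup.center G → ∀ a b : G, Subgroup.centralizer ({g} : Set G) ⊓ H.map (MulAut.conj a).toMonoidHom ≠ ⊥ → Subgroup.centralizer ({g} : Set G) ⊓ H.map (MulAut.conj b).toMonoidHom ≠ ⊥ → H.map (MulAut.conj a).toMonoidHom = H.map (MulAut.conj b).toMonoidHom) (χ : G → ℂ) (hχ : Cfsg.IsIrrCharacter G χ) (hker : ∃ h ∈ H, χ h ≠ χ 1) : (χ 1).re ^ 2 > (Nat.card H : ℝ) * (Cfsg.classInner (fun h : H => χ h) (fun _ => 1)).re ^ 2 ∧ (χ 1 ≠ 1 → (∀ M : Subgroup G, M.Normal → H ≤ M → M = ⊤) → (1 + (χ 1).re) ^ 2 > (Nat.card H : ℝ)) := by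
  have key : ∀ (g a h : G), h ∈ H → h ≠ 1 → (a * h * a⁻¹) * g = g * (a * h * a⁻¹) →
      Subgroup.centralizer ({g} : Set G) ⊓ H.map (MulAut.conj a).toMonoidHom ≠ ⊥ := by
    intro g a h hh h1 hc e
    have : a * h * a⁻¹ ∈ Subgroup.centralizer ({g} : Set G) ⊓ H.map (MulAut.conj a).toMonoidHom :=
      ⟨Subgroup.mem_centralizer_singleton_iff.mpr hc, h, hh, rfl⟩
    rw [e, Subgroup.mem_bot, conj_eq_one_iff] at this
    exact h1 this
  have hone' : ∀ g : G, g ∉ Subgroup.center G → ∀ a : G, (∃ h ∈ H, h ≠ 1 ∧ h * g = g * h) →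
      (∃ h ∈ H, h ≠ 1 ∧ (a * h * a⁻¹) * g = g * (a * h * a⁻¹)) →
        a ∈ Subgroup.normalizer (H : Set G) := by
    rintro g hg a ⟨h, hh, h1, hc⟩ ⟨k, hk, k1, kc⟩
    have := hone g hg a 1 (key g a k hk k1 kc) (key g 1 h hh h1 (by simpa using hc))
    rw [← CL.Grp.conj_smul_eq_map, ← CL.Grp.conj_smul_eq_map, map_one, one_smul] at this
    exact (CL.Grp.conj_smul_eq_self_iff a H).mp this
  exact ⟨CL.Char.brauer_TI_ineq H hab hZ hone' hχ hker,
    fun h1 hM => CL.Char.brauer_TI_card_lt H hab hZ hone' hχ h1 hM⟩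

end Cfsg.Agent.S0898
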