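import Cfsg.Statements.S0901
import Cfsg.Agent.Base

set_option autoImplicit false
open Cfsg

namespace Cfsg.Agent.S0901

theorem eq_one_of_sub_mem {p : ℕ} {M : Ideal Cfsg.AlgInt} (hM : Cfsg.IsPModular p M)
    (η : Cfsg.AlgInt) {m : ℕ} (hm : ¬ p ∣ m) (h1 : η ^ m = 1) (h : η - 1 ∈ M) : η = 1 := by
  by_contra hne
  have hs : ∑ i ∈ Finset.range m, η ^ i = 0 := by
    have := mul_geom_sum η m
    rw [h1, sub_self] at this
    exact (mul_eq_zero.1 this).resolve_left (sub_ne_zero.2 hne)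
  have hmM : (m : Cfsg.AlgInt) ∈ M := by
    rw [← Ideal.Quotient.eq_zero_iff_mem]
    have h2 : Ideal.Quotient.mk M η = 1 := by
      rw [← map_one (Ideal.Quotient.mk M), Ideal.Quotient.eq]; exact h
    have := congrArg (Ideal.Quotient.mk M) hs
    simpa [h2] using this
  have hcop : IsCoprime (p : Cfsg.AlgInt) (m : Cfsg.AlgInt) :=
    Nat.Coprime.cast ((Nat.Prime.coprime_iff_not_dvd hM.1).2 hm)
  obtain ⟨a, b, hab⟩ := hcop
  apply hM.2.1.ne_top
  rw [Ideal.eq_top_iff_one, ← hab]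
  exact M.add_mem (M.mul_mem_left _ hM.2.2) (M.mul_mem_left _ hmM)

/-- Let M be a maximal ideal of the ring of algebraic integers containing the prime p, and let U be the set of complex roots of unity of order prime to p. Then reduction modulo M is injective on U, and every algebraic integer not in M is congruent modulo M to an element of U (so U maps bijectively onto the nonzero residues). -/
theorem result (p : ℕ) [Fact p.Prime] (M : Ideal Cfsg.AlgInt) (hM : Cfsg.IsPModular p M) : (∀ ε₁ ε₂ : Cfsg.AlgInt, (∃ m : ℕ, ¬ p ∣ m ∧ (ε₁ : ℂ) ^ m = 1) → (∃ m : ℕ, ¬ p ∣ m ∧ (ε₂ : ℂ) ^ m = 1) → ε₁ - ε₂ ∈ M → ε₁ = ε₂) ∧ (∀ a : Cfsg.AlgInt, a ∉ M → ∃ ε : Cfsg.AlgInt, (∃ m : ℕ, ¬ p ∣ m ∧ (ε : ℂ) ^ m = 1) ∧ a - ε ∈ M) := by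
  have hp : p.Prime := hM.1
  constructor
  · rintro ε₁ ε₂ ⟨m₁, hm₁, h₁⟩ ⟨m₂, hm₂, h₂⟩ hsub
    have h₁' : ε₁ ^ m₁ = 1 := Subtype.ext (by simpa using h₁)
    have h₂' : ε₂ ^ m₂ = 1 := Subtype.ext (by simpa using h₂)
    have hm₂0 : m₂ ≠ 0 := by rintro rfl; exact hm₂ (dvd_zero p)
    obtain ⟨j, rfl⟩ := Nat.exists_eq_succ_of_ne_zero hm₂0
    have hinv : ε₂ * ε₂ ^ j = 1 := by rw [← pow_succ', h₂']
    have key : ε₁ * ε₂ ^ j = 1 := by
      refine eq_one_of_sub_mem hM _ (m := m₁ * (j + 1)) (fun h => (hp.dvd_mul.1 h).elim hm₁ hm₂) ?_ ?_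
      · rw [mul_pow, pow_mul, h₁', one_pow, one_mul, ← pow_mul,
          show j * (m₁ * (j + 1)) = (j + 1) * (j * m₁) by ring, pow_mul, h₂', one_pow]
      · rw [← hinv, ← sub_mul]; exact M.mul_mem_right _ hsub
    calc ε₁ = ε₁ * (ε₂ * ε₂ ^ j) := by rw [hinv, mul_one]
      _ = ε₂ * (ε₁ * ε₂ ^ j) := by ring
      _ = ε₂ := by rw [key, mul_one]
  · intro a ha
    have hmax := hM.2.1
    let _ : Field (Cfsg.AlgInt ⧸ M) := Ideal.Quotient.field M
    have hchar : CharP (Cfsg.AlgInt ⧸ M) p := by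
      refine (CharP.charP_iff_prime_eq_zero hp).2 ?_
      rw [← map_natCast (Ideal.Quotient.mk M), Ideal.Quotient.eq_zero_iff_mem]; exact hM.2.2
    let _ : Algebra (ZMod p) (Cfsg.AlgInt ⧸ M) := ZMod.algebra _ p
    set x : Cfsg.AlgInt ⧸ M := Ideal.Quotient.mk M a with hx
    have hx0 : x ≠ 0 := by rwa [hx, Ne, Ideal.Quotient.eq_zero_iff_mem]
    have hint : IsIntegral (ZMod p) x := by
      have h1 : IsIntegral ℤ a := integralClosure.isIntegral a
      have h2 : IsIntegral ℤ x := h1.map (Ideal.Quotient.mk M).toIntAlgHom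
      exact h2.tower_top
    let K := IntermediateField.adjoin (ZMod p) {x}
    have hfd : FiniteDimensional (ZMod p) K := IntermediateField.adjoin.finiteDimensional hint
    have hfin : Finite K := Module.finite_of_finite (ZMod p)
    have := Fintype.ofFinite K
    let y : K := ⟨x, IntermediateField.mem_adjoin_simple_self _ x⟩
    have hy0 : y ≠ 0 := fun h => hx0 (congrArg Subtype.val h)
    have hy := FiniteField.pow_card_sub_one_eq_one y hy0
    have hchK : CharP K p := inferInstance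
    obtain ⟨n, -, hn⟩ := FiniteField.card K p
    set m := Fintype.card K - 1 with hm
    have hxm : x ^ m = 1 := by simpa [y] using congrArg Subtype.val hy
    have hpm : ¬ p ∣ m := by
      intro h
      have h1 : p ∣ Fintype.card K := by rw [hn]; exact dvd_pow_self p n.ne_zero
      have h2 : 1 ≤ Fintype.card K := Fintype.card_pos
      have : p ∣ 1 := by
        have := Nat.dvd_sub h1 h
        rwa [hm, Nat.sub_sub_self h2] at this
      exact hp.one_lt.ne' (Nat.dvd_one.1 this)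
    have hm0 : 0 < m := Nat.pos_of_ne_zero (by rintro h; exact hpm (h ▸ dvd_zero p))
    have hζ := Complex.isPrimitiveRoot_exp m hm0.ne'
    set ζ := Complex.exp (2 * Real.pi * Complex.I / m)
    let z : Cfsg.AlgInt := ⟨ζ, hζ.isIntegral hm0⟩
    have hz : IsPrimitiveRoot z m := IsPrimitiveRoot.of_map_of_injective (f := (Cfsg.AlgInt).val) hζ
      Subtype.val_injective
    have hprod : a ^ m - 1 = ∏ i ∈ Finset.range m, (a - z ^ i) := by
      have := congrArg (Polynomial.eval a) (X_pow_sub_C_eq_prod hz hm0 (one_pow m))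
      simpa [Polynomial.eval_prod] using this
    have hmem : a ^ m - 1 ∈ M := by
      rw [← Ideal.Quotient.eq_zero_iff_mem, map_sub, map_pow, map_one, ← hx, hxm, sub_self]
    rw [hprod] at hmem
    obtain ⟨i, -, hi⟩ := (Ideal.IsPrime.prod_mem_iff (hp := hmax.isPrime)).1 hmem
    refine ⟨z ^ i, ⟨m, hpm, ?_⟩, hi⟩
    simp only [SubmonoidClass.coe_pow, z]
    rw [← pow_mul, mul_comm, pow_mul, hζ.pow_eq_one, one_pow]

end Cfsg.Agent.S0901
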