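import Cfsg.Statements.S0903
import Cfsg.Agent.Blk.BrauerMap

set_option autoImplicit false
open Cfsg

namespace Cfsg.Agent.S0903

/-- Let P be a p-subgroup of the finite group G, let c centralize P and let g, h ∈ G. The number of pairs (x, y) with x conjugate to g, y conjugate to h and x * y = c is congruent modulo p to the number of such pairs in which x and y both centralize P. (This is why the Brauer map on class sums is multiplicative.) -/
theorem result {G : Type*} [Group G] [Finite G] (p : ℕ) [Fact p.Prime] (P : Subgroup G) (hP : IsPGroup p P) (c : G) (hc : c ∈ Subgroup.centralizer (P : Set G)) (g h : G) : Nat.card {xy : G × G // IsConj g xy.1 ∧ IsConj h xy.2 ∧ xy.1 * xy.2 = c} ≡ Nat.card {xy : G × G // IsConj g xy.1 ∧ IsConj h xy.2 ∧ xy.1 * xy.2 = c ∧ xy.1 ∈ Subgroup.centralizer (P : Set G) ∧ xy.2 ∈ Subgroup.centralizer (P : Set G)} [MOD p] := by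
  classical
  have := Fintype.ofFinite G
  let s : Finset G := Finset.univ.filter fun x => IsConj g x ∧ IsConj h (x⁻¹ * c)
  have hc' : ∀ x ∈ P, x * c * x⁻¹ = c := fun x hx => by
    rw [mul_inv_eq_iff_eq_mul]; exact hc x hx
  obtain ⟨t, -, ht⟩ := CL.Blk.exists_sum_eq_sum_centralizer_add (A := ℕ) hP s (by
    intro x hx a ha
    simp only [s, Finset.mem_filter, Finset.mem_univ, true_and] at ha ⊢
    refine ⟨ha.1.trans (isConj_iff.2 ⟨x, rfl⟩), ha.2.trans (isConj_iff.2 ⟨x, ?_⟩)⟩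
    conv_rhs => rw [← hc' x hx]
    group) (fun _ => 1) (fun _ _ _ _ => rfl) ⊤ (fun _ _ => trivial)
  simp only [Finset.sum_const, smul_eq_mul, mul_one] at ht
  have h1 : Nat.card {xy : G × G // IsConj g xy.1 ∧ IsConj h xy.2 ∧ xy.1 * xy.2 = c} = s.card := by
    rw [← Nat.card_eq_finsetCard]
    refine Nat.card_congr ⟨fun xy => ⟨xy.1.1, ?_⟩, fun x => ⟨(x.1, x.1⁻¹ * c), ?_⟩, ?_, ?_⟩
    · obtain ⟨⟨x, y⟩, h1, h2, h3⟩ := xy
      simp only [s, Finset.mem_filter, Finset.mem_univ, true_and, Set.mem_setOf_eq]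
      refine ⟨h1, ?_⟩
      rw [← h3]; simpa using h2
    · obtain ⟨x, hx⟩ := x
      simp only [s, Finset.mem_filter, Finset.mem_univ, true_and, Set.mem_setOf_eq] at hx
      exact ⟨hx.1, hx.2, by simp⟩
    · rintro ⟨⟨x, y⟩, h1, h2, h3⟩
      simp only at h3
      simp [← h3]
    · rintro ⟨x, hx⟩; rfl
  have h2 : Nat.card {xy : G × G // IsConj g xy.1 ∧ IsConj h xy.2 ∧ xy.1 * xy.2 = c ∧ xy.1 ∈ Subgroup.centralizer (P : Set G) ∧ xy.2 ∈ Subgroup.centralizer (P : Set G)} = (s.filter (· ∈ Subgroup.centralizer (P : Set G))).card := by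
    rw [← Nat.card_eq_finsetCard]
    refine Nat.card_congr ⟨fun xy => ⟨xy.1.1, ?_⟩, fun x => ⟨(x.1, x.1⁻¹ * c), ?_⟩, ?_, ?_⟩
    · obtain ⟨⟨x, y⟩, h1, h2, h3, h4, h5⟩ := xy
      simp only [s, Finset.mem_filter, Finset.mem_univ, true_and, Set.mem_setOf_eq]
      refine ⟨⟨h1, ?_⟩, h4⟩
      rw [← h3]; simpa using h2
    · obtain ⟨x, hx⟩ := x
      simp only [s, Finset.mem_filter, Finset.mem_univ, true_and, Set.mem_setOf_eq] at hx
      exact ⟨hx.1.1, hx.1.2, by simp, hx.2, mul_mem (inv_mem hx.2) hc⟩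
    · rintro ⟨⟨x, y⟩, h1, h2, h3, h4⟩
      simp only at h3
      simp [← h3]
    · rintro ⟨x, hx⟩; rfl
  rw [h1, h2, ht]
  simp [Nat.ModEq]

end Cfsg.Agent.S0903
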