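import Cfsg.Statements.S0905
import Cfsg.Agent.Blk.BrauerNil
import Cfsg.Agent.Grp.Cores

set_option autoImplicit false
open Cfsg

namespace Cfsg.Agent.S0905

/-- Let F be a field of characteristic p and let g be an element of the finite group G no conjugate of which centralizes O_p(G). Then the class sum of g is a nilpotent element of the group algebra F[G]. -/
theorem result {G : Type*} [Group G] [Finite G] (p : ℕ) [Fact p.Prime] (F : Type*) [Field F] [CharP F p] (g : G) (hg : ∀ x : G, IsConj g x → x ∉ Subgroup.centralizer (Cfsg.pCore p G : Set G)) : IsNilpotent (∑ᶠ x ∈ ConjClasses.carrier (ConjClasses.mk g), MonoidAlgebra.single x (1 : F) : MonoidAlgebra F G) := by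
  classical
  have := Fintype.ofFinite G
  have hco : ∀ y : G, (∑ᶠ x ∈ ConjClasses.carrier (ConjClasses.mk g), MonoidAlgebra.single x (1 : F) : MonoidAlgebra F G).coeff y = if IsConj g y then 1 else 0 := by
    intro y
    rw [finsum_mem_eq_finite_toFinset_sum _ (Set.toFinite _), MonoidAlgebra.coeff_sum, Finsupp.finset_sum_apply]
    simp only [MonoidAlgebra.coeff_single, Finsupp.single_apply, Finset.sum_ite_eq', Set.Finite.mem_toFinset,
      ConjClasses.mem_carrier_iff_mk_eq, ConjClasses.mk_eq_mk_iff_isConj]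
    exact if_congr isConj_comm rfl rfl
  refine CL.Blk.isNilpotent_of_trunc_eq_zero (CL.Grp.pCore_isPGroup p G) ?_ ?_
  · rw [CL.Blk.mem_fixedAlg]
    intro x _ y
    rw [hco, hco]
    exact if_congr ⟨fun h => h.trans (isConj_iff.2 ⟨x, rfl⟩).symm, fun h => h.trans (isConj_iff.2 ⟨x, rfl⟩)⟩ rfl rfl
  · intro c hc
    rw [hco, if_neg fun h => hg c h hc]

end Cfsg.Agent.S0905
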