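import Cfsg.Statements.S0910
import Cfsg.Agent.Blk.Defect2

set_option autoImplicit false
open Cfsg

namespace Cfsg.Agent.S0910

/-- Let G be a non-abelian finite simple group and p a prime. If an irreducible character χ lies in the principal block (relative to a maximal ideal of the algebraic integers containing p) and χ 1 is a power of p, then χ is the principal character. -/
theorem result {G : Type*} [Group G] [Finite G] (p : ℕ) [Fact p.Prime] (M : Ideal Cfsg.AlgInt) (hM : Cfsg.IsPModular p M) [IsSimpleGroup G] (hna : ∃ a b : G, a * b ≠ b * a) (χ : Cfsg.IrrCharacter G) (hχ : χ ∈ Cfsg.principalBlock M G) (k : ℕ) (hdeg : (χ : G → ℂ) 1 = (p : ℂ) ^ k) : (χ : G → ℂ) = fun _ => 1 := by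
  by_contra h1
  have hker := χ.2.charKer_eq_bot_of_simple h1
  have hZ : Subgroup.center G = ⊥ := by
    rcases (inferInstance : (Subgroup.center G).Normal).eq_bot_or_eq_top with h | h
    · exact h
    · obtain ⟨a, b, hab⟩ := hna
      exact absurd (Subgroup.mem_center_iff.mp (h ▸ Subgroup.mem_top b) a) hab
  have hcen := χ.2.charCenter_eq_center hker
  have hd : Cfsg.charDegree (χ : G → ℂ) = p ^ k := CL.Blk.charDegree_eq_of_one_eq (by rw [hdeg]; simp)
  obtain ⟨P⟩ := (inferInstance : Nonempty (Sylow p G))
  by_cases hP : (P : Subgroup G) = ⊥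
  · have h2 : ¬ p ∣ Nat.card G := by
      have := P.not_dvd_index
      rwa [hP, Subgroup.index_bot] at this
    have hk : k = 0 := by
      by_contra hk
      exact h2 ((dvd_pow_self p hk).trans (hd ▸ CL.Blk.irr_charDegree_dvd_card χ))
    obtain ⟨a, b, hab⟩ := hna
    obtain ⟨lam, hlam⟩ := χ.2.isCharacter.exists_monoidHom_of_one (by rw [hdeg, hk, pow_zero])
    apply hab
    rw [← commutatorElement_eq_one_iff_mul_comm, ← Subgroup.mem_bot, ← hker, χ.2.mem_charKer, hlam]
    simp [commutatorElement_def, mul_comm, mul_left_comm]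
  · have : Nontrivial (P : Subgroup G) := (Subgroup.nontrivial_iff_ne_bot _).mpr hP
    have := P.isPGroup'.center_nontrivial
    have hle : (Subgroup.center (P : Subgroup G)).map (P : Subgroup G).subtype ≤
        Subgroup.centralizer ((P : Subgroup G) : Set G) := by
      rintro _ ⟨z, hz, rfl⟩ u hu
      exact congrArg Subtype.val (Subgroup.mem_center_iff.mp hz ⟨u, hu⟩)
    have h2 := CL.Blk.factorization_card_le_minExp_of_vanish hM CL.Blk.tr_isPBlock_principalBlock P hle hχ
      fun z hz hz1 => (CL.Blk.irr_eq_zero_or_mem_charCenter_of_coprime χ (by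
        rw [hd]
        exact Nat.Coprime.pow_left _ ((Nat.Prime.coprime_iff_not_dvd hM.1).mpr
          (CL.Blk.not_dvd_index_centralizer_of_mem_center_sylow P (hle hz))))).resolve_right
          (by rw [hcen, hZ]; exact hz1)
    rw [(CL.Blk.blockDefect_eq_full_iff ⟨χ, hχ⟩).mp (CL.Blk.blockDefect_principal hM),
      CL.Grp.card_map_subtype] at h2
    obtain ⟨n, hn0, hn⟩ := (IsPGroup.nontrivial_iff_card (P.isPGroup'.to_subgroup
      (Subgroup.center (P : Subgroup G)))).mp this
    rw [hn, Nat.Prime.factorization_pow hM.1, Finsupp.single_eq_same] at h2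
    omega

end Cfsg.Agent.S0910
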