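import Cfsg.Statements.S0911
import Cfsg.Agent.Blk.Defect

set_option autoImplicit false
open Cfsg

namespace Cfsg.Agent.S0911

/-- The min–max Theorem for defect classes. Let B be a block of the finite group G relative to a maximal ideal M of the algebraic integers containing the prime p, let g represent a defect class of B and let D be a Sylow p-subgroup of the centralizer of g (viewed in G). For any h: (a) if the idempotent coefficient of B at h is a local integer outside the local ideal, then some conjugate of D contains a Sylow p-subgroup of the centralizer of h; (b) if the central character of some member of B at h is outside the local ideal, then some conjugate of D is contained in a Sylow p-subgroup of the centralizer of h. -/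
theorem result {G : Type*} [Group G] [Finite G] (p : ℕ) [Fact p.Prime] (M : Ideal Cfsg.AlgInt) (hM : Cfsg.IsPModular p M) (B : Set (Cfsg.IrrCharacter G)) (hB : Cfsg.IsPBlock M B) (g : G) (hg : Cfsg.IsDefectClass M B g) (D : Sylow p (Subgroup.centralizer ({g} : Set G))) (h : G) : (Cfsg.MemLocalRing M (Cfsg.blockCoeff B h) → ¬ Cfsg.MemLocalIdeal M (Cfsg.blockCoeff B h) → ∃ (x : G) (Q : Sylow p (Subgroup.centralizer ({h} : Set G))), (Q : Subgroup (Subgroup.centralizer ({h} : Set G))).map (Subgroup.centralizer ({h} : Set G)).subtype ≤ ((D : Subgroup (Subgroup.centralizer ({g} : Set G))).map (Subgroup.centralizer ({g} : Set G)).subtype).map (MulAut.conj x).toMonoidHom) ∧ ((∃ χ ∈ B, ¬ Cfsg.MemLocalIdeal M (Cfsg.centralChar (χ : G → ℂ) h)) → ∃ (x : G) (Q : Sylow p (Subgroup.centralizer ({h} : Set G))), ((D : Subgroup (Subgroup.centralizer ({g} : Set G))).map (Subgroup.centralizer ({g} : Set G)).subtype).map (MulAut.conj x).toMonoidHom ≤ (Q : Subgroup (Subgroup.centralizer ({h} : Set G))).map (Subgroup.centralizer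 ({h} : Set G)).subtype) := by
  have hD : Cfsg.IsDefectGroup p M B _ := ⟨g, hg, D, rfl⟩
  constructor
  · intro h1 h2
    obtain ⟨Q⟩ := (inferInstance : Nonempty (Sylow p (Subgroup.centralizer ({h} : Set G))))
    have hQ := CL.Grp.isSylowIn_map_subtype Q
    have h3 : (CL.Blk.eBlk M B).coeff h ≠ 0 := by
      rw [CL.Blk.coeff_eBlk]
      exact fun h0 => h2 ((CL.Blk.memLocalIdeal_iff_red hM h1).mpr h0)
    obtain ⟨x, hx⟩ := CL.Blk.exists_conj_le_defectGroup hM hB hD h3 hQ.isPGroup hQ.le
    refine ⟨x⁻¹, Q, fun q hq => ?_⟩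
    rw [← CL.Grp.conj_smul_eq_map, CL.Grp.mem_conj_smul_iff, inv_inv]
    exact hx (CL.Grp.conj_mem_conj_smul x hq)
  · rintro ⟨χ, hχ, h1⟩
    have h2 : CL.Blk.lam M χ (CL.Blk.classSum (CL.Blk.resField M) h) ≠ 0 := by
      rw [CL.Blk.lam_classSum]
      exact fun h0 => h1 ((CL.Blk.memLocalIdeal_iff_red hM (CL.Blk.memLocalRing_centralChar hM χ h)).mpr h0)
    obtain ⟨x, hx⟩ := CL.Blk.exists_conj_le_centralizer_of_lam_ne_zero hM hB hD hχ h2
    obtain ⟨S, hS, hle⟩ := CL.Grp.exists_isSylowIn_ge
      (CL.Grp.IsPGroup.conj_smul (CL.Blk.tr_isPGroup_of_isDefectGroup hD) x) hx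
    obtain ⟨Q, rfl⟩ := CL.Grp.isSylowIn_iff_exists.mp hS
    exact ⟨x, Q, hle⟩

end Cfsg.Agent.S0911
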