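import Cfsg.Statements.S4487
import Cfsg.Agent.Blk.Quot

set_option autoImplicit false
open Cfsg

namespace Cfsg.Agent.S4487

/-- Let G be a finite group and p a prime such that G has no non-trivial normal subgroup of order prime to p and C_G(O_p(G)) ≤ O_p(G). Then G has a single p-block: any two irreducible characters lie in the same block relative to every maximal ideal M of the algebraic integers containing p. -/
theorem result {G : Type*} [Group G] [Finite G] (p : ℕ) [Fact p.Prime] (M : Ideal Cfsg.AlgInt) (hM : Cfsg.IsPModular p M) (hcore : Cfsg.pPrimeCore p G = ⊥) (hconstr : Subgroup.centralizer ((Cfsg.pCore p G) : Set G) ≤ Cfsg.pCore p G) (χ ψ : Cfsg.IrrCharacter G) : Cfsg.SameBlock M (χ : G → ℂ) (ψ : G → ℂ) := by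
  have hB := CL.Blk.tr_isPBlock_blockOf (M := M) χ
  have hP := CL.Grp.pCore_isPGroup p G
  have h1 : CL.Blk.eBlk M (blockOf M (χ : G → ℂ)) = algebraMap (CL.Blk.resField M) _
      ((CL.Blk.eBlk M (blockOf M (χ : G → ℂ))).coeff 1) := by
    refine CL.Blk.grpAlg_ext fun g => ?_
    rw [Algebra.algebraMap_eq_smul_one, CL.Blk.coeff_smul_mul, CL.Blk.coeff_one_ite]
    split_ifs with hg
    · rw [hg, mul_one]
    · rw [mul_zero]
      by_contra h0
      have h2 : g ∈ pCore p G := by
        by_contra h2
        exact h0 (CL.Blk.cv_coeff_eBlk_eq_zero_of_notMem_centralizer hM hB hP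
          fun h3 => h2 (hconstr h3))
      obtain ⟨k, hk⟩ := CL.Blk.exists_orderOf_eq_of_mem hP h2
      have h3 := CL.Blk.not_dvd_orderOf_of_coeff_eBlk_ne_zero hM hB h0
      rw [hk] at h3
      cases k with
      | zero => exact hg (orderOf_eq_one_iff.1 (by simpa using hk))
      | succ k => exact h3 (dvd_pow_self p k.succ_ne_zero)
  have h2 := CL.Blk.lam_eBlk_of_mem hM hB (CL.Blk.tr_mem_blockOf_self hM χ)
  rw [h1, CL.Blk.lam_algebraMap] at h2
  refine (CL.Blk.lam_eBlk_eq_one_iff hM hB (χ := ψ)).1 ?_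
  rw [h1, CL.Blk.lam_algebraMap, h2]

end Cfsg.Agent.S4487
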