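import Cfsg.Statements.S0918
import Cfsg.Agent.Blk.First

set_option autoImplicit false
open Cfsg

namespace Cfsg.Agent.S0918

/-- Let P be a p-subgroup of the finite group G and H a subgroup with P·C_G(P) ≤ H ≤ N_G(P); let b be a block of H and B a block of G relative to a maximal ideal M of the algebraic integers containing p. Then b induces B if and only if, for every g ∈ G, every ξ ∈ b and every χ ∈ B, the central character of χ at g is congruent modulo the local ideal at M to the sum of ξ h / ξ 1 over the elements h of H conjugate in G to g and centralizing P. -/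
theorem result {G : Type*} [Group G] [Finite G] (p : ℕ) [Fact p.Prime] (M : Ideal Cfsg.AlgInt) (hM : Cfsg.IsPModular p M) (P H : Subgroup G) (hP : IsPGroup p P) (hPH : P ≤ H) (hCH : Subgroup.centralizer (P : Set G) ≤ H) (hHN : H ≤ Subgroup.normalizer (P : Set G)) (b : Set (Cfsg.IrrCharacter H)) (hb : Cfsg.IsPBlock M b) (B : Set (Cfsg.IrrCharacter G)) (hB : Cfsg.IsPBlock M B) : Cfsg.IsInducedBlock M H b B ↔ ∀ ξ ∈ b, ∀ χ ∈ B, ∀ g : G, Cfsg.MemLocalIdeal M (Cfsg.brauerCentralChar P H (ξ : H → ℂ) g - Cfsg.centralChar (χ : G → ℂ) g) := by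
  have key : ∀ (ξ : Cfsg.IrrCharacter H) (χ : Cfsg.IrrCharacter G) (g : G),
      Cfsg.MemLocalIdeal M (Cfsg.brauerCentralChar P H (ξ : H → ℂ) g - Cfsg.centralChar (χ : G → ℂ) g) ↔
      Cfsg.MemLocalIdeal M (Cfsg.inducedCentralChar H (ξ : H → ℂ) g - Cfsg.centralChar (χ : G → ℂ) g) := by
    intro ξ χ g
    have hc : CL.Blk.brTo P H (CL.Blk.classSum ℂ g) ∈ Subalgebra.center ℂ (MonoidAlgebra ℂ H) :=
      CL.Blk.brTo_mem_center hHN (CL.Blk.center_le_fixedAlg H (CL.Blk.classSum_mem_center g))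
    have hO : CL.Blk.brTo P H (CL.Blk.classSum ℂ g) ∈ CL.Blk.OG M H :=
      CL.Blk.trunc_mem_OG _ (CL.Blk.incl_mem_OG _ (CL.Blk.trunc_mem_OG _ (CL.Blk.classSum_mem_OG g)))
    have halg : IsAlgebraic ℚ (CL.Blk.omega (ξ : H → ℂ) (CL.Blk.brTo P H (CL.Blk.classSum ℂ g))) := by
      refine CL.Blk.isAlgebraic_omega ξ fun h => ?_
      by_cases hh : (h : G) ∈ Subgroup.centralizer (P : Set G)
      · rw [CL.Blk.coeff_brTo_of_mem _ _ _ hh]; exact CL.Blk.isAlgebraic_coeff_classSum g h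
      · rw [CL.Blk.coeff_brTo_of_notMem _ _ _ hh]; exact isAlgebraic_zero
    rw [CL.Blk.memLocalIdeal_induced_sub_iff hM, CL.Blk.lam_trunc_eq_lam_brTo hM hP hPH hHN ξ
      (CL.Blk.center_le_fixedAlg H (CL.Blk.classSum_mem_center g)), CL.Blk.brauerCentralChar_eq_omega,
      ← CL.Blk.brTo_apply, CL.Blk.memLocalIdeal_iff hM (halg.sub (CL.Blk.isAlgebraic_centralChar χ g)),
      ← CL.Blk.red_eq_iff (CL.Blk.omega_mem_valRing ξ hc hO) (CL.Blk.irr_centralChar_mem_valRing χ g),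
      ← CL.Blk.lam_redG ξ hc hO, CL.Blk.lam_classSum, CL.Blk.brTo_apply, CL.Blk.brTo_apply,
      CL.Blk.redG_trunc, CL.Blk.redG_incl, CL.Blk.redG_trunc, CL.Blk.redG_classSum]
  simp only [key]
  exact ⟨fun h => h.2.2, fun h => ⟨hb, hB, h⟩⟩

end Cfsg.Agent.S0918
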