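import Cfsg.Statements.S0926
import Cfsg.Agent.Blk.Principal

set_option autoImplicit false
open Cfsg

namespace Cfsg.Agent.S0926

/-- Let B be a block of the finite group G with defect group D (relative to a maximal ideal M of the algebraic integers containing p), let χ ∈ B have height zero, and let x be a p-element. Then some conjugate of x lies in D if and only if χ does not vanish on the whole p-section of x (the elements whose p-part is conjugate to x). -/
theorem result {G : Type*} [Group G] [Finite G] (p : ℕ) [Fact p.Prime] (M : Ideal Cfsg.AlgInt) (hM : Cfsg.IsPModular p M) (B : Set (Cfsg.IrrCharacter G)) (hB : Cfsg.IsPBlock M B) (D : Subgroup G) (hD : Cfsg.IsDefectGroup p M B D) (χ : Cfsg.IrrCharacter G) (hχ : χ ∈ B) (h0 : Cfsg.blockHeight p B (χ : G → ℂ) = 0) (x : G) (hx : ∃ k : ℕ, orderOf x = p ^ k) : (∃ g : G, g * x * g⁻¹ ∈ D) ↔ ∃ u : G, (∃ z : G, Cfsg.IsPPart p u z ∧ IsConj x z) ∧ (χ : G → ℂ) u ≠ 0 := by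
  constructor
  · rintro ⟨g, hg⟩
    obtain ⟨y, hyD, hy, -⟩ := CL.Blk.exists_defectClass_of_isDefectGroup hD
    have hx' : ∃ k : ℕ, orderOf (g * x * g⁻¹) = p ^ k := by
      rwa [CL.Blk.orderOf_conj']
    have hc : Commute (g * x * g⁻¹) y := Subgroup.mem_centralizer_iff.1 hyD _ hg
    refine ⟨g * x * g⁻¹ * y, ⟨g * x * g⁻¹, CL.Blk.isPPart_mul hc hx'
      (CL.Blk.not_dvd_orderOf_of_isDefectClass hM hB hy), isConj_iff.2 ⟨g, rfl⟩⟩, fun h => ?_⟩
    have h1 := CL.Blk.val_irr_mul_eq_one_of_isDefectClass hM hB hy hχ h0 hc hx'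
    rw [h, map_zero] at h1
    exact zero_ne_one h1
  · rintro ⟨u, ⟨z, hz, hxz⟩, hu⟩
    obtain ⟨a, ha⟩ := CL.Blk.exists_conj_mem_defectGroup_of_ne_zero hM hB hD hχ hz hu
    obtain ⟨c, rfl⟩ := isConj_iff.1 hxz
    exact ⟨a * c, by simpa [mul_assoc] using ha⟩

end Cfsg.Agent.S0926
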