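import Cfsg.Statements.S0927
import Cfsg.Agent.Blk.Principal

set_option autoImplicit false
open Cfsg

namespace Cfsg.Agent.S0927

/-- Let B be a block of the finite group G relative to a maximal ideal M of the algebraic integers containing p, let y represent a defect class of B and let P be a Sylow p-subgroup of the centralizer of y. (a) If x ∈ P and χ ∈ B has height zero, then χ (x * y) is not in the local ideal at M. (b) If x lies in the centre of P, then for every χ ∈ B the central character of χ at x * y is not in the local ideal at M. -/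
theorem result {G : Type*} [Group G] [Finite G] (p : ℕ) [Fact p.Prime] (M : Ideal Cfsg.AlgInt) (hM : Cfsg.IsPModular p M) (B : Set (Cfsg.IrrCharacter G)) (hB : Cfsg.IsPBlock M B) (y : G) (hy : Cfsg.IsDefectClass M B y) (P : Sylow p (Subgroup.centralizer ({y} : Set G))) (x : Subgroup.centralizer ({y} : Set G)) (hx : x ∈ (P : Subgroup (Subgroup.centralizer ({y} : Set G)))) : (∀ χ ∈ B, Cfsg.blockHeight p B (χ : G → ℂ) = 0 → ¬ Cfsg.MemLocalIdeal M ((χ : G → ℂ) ((x : G) * y))) ∧ ((∀ w ∈ (P : Subgroup (Subgroup.centralizer ({y} : Set G))), x * w = w * x) → ∀ χ ∈ B, ¬ Cfsg.MemLocalIdeal M (Cfsg.centralChar (χ : G → ℂ) ((x : G) * y))) := by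
  have hxp : ∃ k : ℕ, orderOf (x : G) = p ^ k := by
    rw [Subgroup.orderOf_coe]
    exact CL.Blk.exists_orderOf_eq_of_mem P.isPGroup' hx
  have hc : Commute (x : G) y := Subgroup.mem_centralizer_singleton_iff.1 x.2
  have hyp := CL.Blk.not_dvd_orderOf_of_isDefectClass hM hB hy
  refine ⟨fun χ hχ h0 h => ?_, fun hw χ hχ h => ?_⟩
  · have h1 := CL.Blk.val_irr_mul_eq_one_of_isDefectClass hM hB hy hχ h0 hc hxp
    exact (CL.Blk.val_lt_one_of_memLocalIdeal hM.2.1 h).ne h1
  · obtain ⟨ψ, hψ, h0⟩ := CL.Blk.exists_height_zero (p := p) (CL.Blk.pblock_nonempty hM hB)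
    have h1 := CL.Blk.val_irr_mul_eq_one_of_isDefectClass hM hB hy hψ h0 hc hxp
    have h2 := (CL.Blk.sameBlock_iff_val hM).1 (CL.Blk.pblock_sameBlock hM hB hψ hχ) (x * y)
    have h3 := CL.Blk.val_lt_one_of_sub_lt (CL.Blk.val_lt_one_of_memLocalIdeal hM.2.1 h) h2
    have h4 := CL.Blk.val_centralChar_mul hM ψ (x * y)
    have h5 := CL.Blk.factorization_centralizer_of_isDefectClass hM hB hy
    have h6 := CL.Blk.factorization_charDegree_add_blockDefect (p := p) hψ
    have h7 := CL.Blk.factorization_card_eq_add p (Subgroup.centralizer ({(x : G) * y} : Set G))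
    have h8 : (P : Subgroup (Subgroup.centralizer ({y} : Set G))).map (Subgroup.subtype _) ≤
        Subgroup.centralizer ({(x : G) * y} : Set G) := by
      rintro _ ⟨w, hwP, rfl⟩
      rw [Subgroup.mem_centralizer_singleton_iff]
      have e1 : Commute (w : G) x := congrArg Subtype.val (hw w hwP).symm
      have e2 : Commute (w : G) y := Subgroup.mem_centralizer_singleton_iff.1 w.2
      exact (e1.mul_right e2).eq
    have h9 := Subgroup.card_dvd_of_le h8
    rw [Subgroup.card_map_of_injective (Subgroup.subtype_injective _), P.card_eq_multiplicity,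
      (Nat.Prime.pow_dvd_iff_le_factorization hM.1 Nat.card_pos.ne'), h5] at h9
    rw [h1, mul_one] at h4
    have h10 : CL.Blk.val M (p : ℂ) ^
        (Subgroup.centralizer ({(x : G) * y} : Set G)).index.factorization p <
        CL.Blk.val M (p : ℂ) ^ (charDegree (ψ : G → ℂ)).factorization p := by
      rw [← h4]
      exact mul_lt_of_lt_one_left (pow_pos (CL.Blk.val_prime_pos hM) _) h3
    rw [CL.Blk.val_prime_pow_lt_iff hM] at h10
    omega

end Cfsg.Agent.S0927
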