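import Cfsg.Statements.S0928
import Cfsg.Agent.Blk.Deficiency

set_option autoImplicit false
open Cfsg

namespace Cfsg.Agent.S0928

open scoped MonoidAlgebra
open CL.Blk CL.Char Subgroup

open scoped Classical in
/-- The sum of all solutions of `x ^ p = 1`. -/
noncomputable def omegaSum (R : Type*) [CommRing R] (G : Type*) [Group G] [Finite G] (p : ℕ) :
    R[G] := ofFun fun g => if g ^ p = 1 then 1 else 0

theorem omegaSum_mem_center (R : Type*) [CommRing R] (G : Type*) [Group G] [Finite G] (p : ℕ) :
    omegaSum R G p ∈ Subalgebra.center R R[G] := by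
  classical
  rw [mem_center_iff_coeff]
  intro x g
  have h : (x * g * x⁻¹) ^ p = 1 ↔ g ^ p = 1 := by rw [conj_pow, mul_inv_eq_one, mul_eq_left]
  simp only [omegaSum, coeff_ofFun]
  exact if_congr h rfl rfl

theorem lam_omegaSum_eq_zero {G : Type*} [Group G] [Finite G] {p : ℕ} [Fact p.Prime]
    {M : Ideal AlgInt} (hM : IsPModular p M) (χ : IrrCharacter G)
    (hd : blockDefect p (blockOf M (χ : G → ℂ)) ≠ 0) :
    lam M χ (omegaSum (resField M) G p) = 0 := by
  classical
  have hB : IsPBlock M (blockOf M (χ : G → ℂ)) := ⟨χ, rfl⟩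
  obtain ⟨D, hD⟩ := exists_isDefectGroup hM hB
  obtain ⟨y, hy⟩ := exists_prime_orderOf_dvd_card' (G := D) p (by
    rw [card_defectGroup hM hB hD]; exact dvd_pow_self p hd)
  rw [← orderOf_coe] at hy
  have hne := indSet_nonempty_of_mem_defectGroup hM hB hD y.2
  set C := centralizer ({(y : G)} : Set G) with hC
  obtain ⟨ξ, hξ⟩ := hne
  have hyC : (y : G) ∈ C := mem_centralizer_singleton_iff.2 rfl
  set Z : Subgroup C := zpowers ⟨y, hyC⟩ with hZ
  have hZc : Nat.card Z = p := by rw [hZ, Nat.card_zpowers, ← orderOf_coe, hy]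
  have hZtop : ∀ z ∈ Z, ∀ g : C, g * z = z * g := fun z hz g => by
    obtain ⟨k, rfl⟩ := mem_zpowers_iff.1 hz
    exact (Commute.zpow_right (Subtype.ext (mem_centralizer_singleton_iff.1 g.2)) k).eq
  have hZn : Z.Normal := ⟨fun n hn g => by rwa [hZtop n hn g, mul_inv_cancel_right]⟩
  have hind : IsInducedBlock M C (blockOf M (ξ : C → ℂ)) _ := hξ
  obtain ⟨ζ, hζ⟩ := preimage_inflIrr_nonempty (N := Z) hM
    (IsPGroup.of_card (n := 1) (by rw [hZc, pow_one])) hind.1
  have hc : trunc C (omegaSum (resField M) G p) = omegaSum (resField M) C p := by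
    ext g
    simp only [omegaSum, coeff_trunc, coeff_ofFun]
    congr 1
    exact propext ⟨fun h => Subtype.ext h, fun h => congrArg Subtype.val h⟩
  rw [← IsInducedBlock_lam_trunc hM hind hζ (self_mem_blockOf hM χ) (omegaSum_mem_center _ _ _),
    hc, lam_inflIrr _ (omegaSum_mem_center _ _ _)]
  have h0 : quotAlg (resField M) Z (omegaSum (resField M) C p) = 0 := by
    have _ := Fintype.ofFinite Z
    have := charP_resField hM
    ext q
    obtain ⟨g, rfl⟩ := QuotientGroup.mk_surjective q
    rw [coeff_quotAlg_mk, Finset.sum_congr rfl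
      (g := fun _ => (omegaSum (resField M) C p).coeff g) fun u _ => ?_]
    · rw [Finset.sum_const, Finset.card_univ, ← Nat.card_eq_fintype_card, hZc, nsmul_eq_mul,
        CharP.cast_eq_zero, zero_mul]
      rfl
    · have h1 : (u : C) ^ p = 1 := by
        rw [← hZc]
        exact congrArg Subtype.val (pow_card_eq_one' (x := u))
      simp only [omegaSum, coeff_ofFun]
      rw [Commute.mul_pow (hZtop u u.2 g), h1, mul_one]
  rw [h0, map_zero]

/-- Let χ be an irreducible character of the finite group G and p a prime. If χ g = 0 for every element g of order p, then the exponent of p in the degree χ(1) equals the exponent of p in the order of G (χ has p-defect zero). -/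
theorem result {G : Type*} [Group G] [Finite G] (p : ℕ) [Fact p.Prime] (χ : Cfsg.IrrCharacter G) (hvan : ∀ g : G, orderOf g = p → (χ : G → ℂ) g = 0) : (Cfsg.charDegree (χ : G → ℂ)).factorization p = (Nat.card G).factorization p := by
  classical
  obtain ⟨M, hM⟩ := exists_isPModular' (Fact.out : p.Prime)
  have hB : IsPBlock M (blockOf M (χ : G → ℂ)) := ⟨χ, rfl⟩
  rw [← blockDefect_eq_zero_iff_of_mem hM hB (self_mem_blockOf hM χ)]
  by_contra hd
  have h1 := lam_omegaSum_eq_zero hM χ hd
  have hO : omegaSum ℂ G p ∈ OG M G := by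
    rw [OG, mem_coeffSubring]
    intro g
    simp only [omegaSum, coeff_ofFun]
    split_ifs
    · exact one_mem _
    · exact zero_mem _
  have h2 : redG M (omegaSum ℂ G p) = omegaSum (resField M) G p := by
    ext g
    simp only [omegaSum, coeff_redG, coeff_ofFun]
    split_ifs
    · exact red_one
    · exact red_zero
  have _ := Fintype.ofFinite G
  rw [← h2, lam_redG χ (omegaSum_mem_center _ _ _) hO, omega_eq_sum,
    Finset.sum_eq_single (1 : G)] at h1
  · simp only [omegaSum, coeff_ofFun, one_pow, if_true, one_mul, div_self (irr_one_ne_zero χ),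
      red_one] at h1
    exact one_ne_zero h1
  · intro g _ hg
    simp only [omegaSum, coeff_ofFun]
    split_ifs with h
    · rw [hvan g (orderOf_eq_prime h hg), mul_zero, zero_div]
    · rw [zero_mul, zero_div]
  · simp

end Cfsg.Agent.S0928
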