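import Cfsg.Statements.S0940
import Cfsg.Agent.Blk.PrincCrit2
import Cfsg.Agent.Char.PiSection2

set_option autoImplicit false
open Cfsg

namespace Cfsg.Agent.S0940

open CL.Blk Cfsg in
theorem pSum_div_mem {G : Type*} [Group G] [Fintype G] {p : ℕ} {M : Ideal Cfsg.AlgInt}
    (hM : Cfsg.IsPModular p M) [DecidablePred fun x : G => ∃ k : ℕ, orderOf x = p ^ k]
    (χ : IrrCharacter G) :
    (Nat.card G : ℂ)⁻¹ * ∑ x : G with (∃ k : ℕ, orderOf x = p ^ k), (χ : G → ℂ) x ∈ valRing M := by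
  have hp := hM.1
  have hG : Nat.card G ≠ 0 := Nat.card_pos.ne'
  have hn : ¬ p ∣ ordCompl[p] (Nat.card G) := Nat.not_dvd_ordCompl hp hG
  have h := CL.Char.isIntegral_classInner_sectionInd (G := G) ({p}ᶜ : Set ℕ)
    (n := ordCompl[p] (Nat.card G)) (Nat.ordCompl_pos p hG).ne' (fun d hd hdG => by
      rw [CL.Fgs.isPiNum_compl_singleton_iff hp] at hd
      rw [← Nat.ordProj_mul_ordCompl_eq_self (Nat.card G) p] at hdG
      exact (Nat.Coprime.pow_right _ (hp.coprime_iff_not_dvd.2 hd).symm).dvd_of_dvd_mul_left hdG)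
    1 χ.2.isGeneralizedCharacter.conj
  have e : classInner (CL.Char.sectionInd ({p}ᶜ : Set ℕ) (ordCompl[p] (Nat.card G)) (1 : G))
      (fun g => (starRingEnd ℂ) ((χ : G → ℂ) g)) = ((ordCompl[p] (Nat.card G) : ℕ) : ℂ) *
        ((Nat.card G : ℂ)⁻¹ * ∑ x : G with (∃ k : ℕ, orderOf x = p ^ k), (χ : G → ℂ) x) := by
    rw [CL.Char.classInner_def, mul_left_comm, Finset.sum_filter, Finset.mul_sum (a := ((_ : ℕ) : ℂ))]
    congr 1
    refine Finset.sum_congr rfl fun x _ => ?_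
    obtain ⟨a, ha⟩ := exists_isPPart hp x
    have h1 := (CL.Char.piPart_eq_of_isPPart hp ha).2
    split_ifs with hx
    · rw [CL.Char.sectionInd_of_isConj, Complex.conj_conj]
      rw [h1, isPPart_unique hp ha (isPPart_self hp hx), inv_mul_cancel]
    · rw [CL.Char.sectionInd_of_not_isConj, zero_mul, mul_zero]
      rw [h1, isConj_one_right, inv_mul_eq_one]
      rintro rfl
      exact hx (isPPart_orderOf ha)
  rw [e] at h
  have h2 := mul_mem (inv_natCast_mem_valRing hM hn) (mem_valRing_of_isIntegral M h)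
  rwa [inv_mul_cancel_left₀ (Nat.cast_ne_zero.2 (Nat.ordCompl_pos p hG).ne')] at h2

/-- Let G be a finite group and M a maximal ideal of the algebraic integers containing the prime p. For every p-regular g, the idempotent coefficient of the principal block at g (the inverse of the group order times the sum over χ in the principal block of χ 1 * conj (χ g)) is congruent modulo the local ideal at M to N / R, where N is the number of pairs (x, y) with x of p-power order, y of order prime to p and x * y = g, and R is the number of elements of G of order prime to p. -/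
theorem result {G : Type*} [Group G] [Finite G] (p : ℕ) [Fact p.Prime] (M : Ideal Cfsg.AlgInt) (hM : Cfsg.IsPModular p M) (g : G) (hg : ¬ p ∣ orderOf g) : Cfsg.MemLocalIdeal M (Cfsg.blockCoeff (Cfsg.principalBlock M G) g - (Nat.card {xy : G × G // (∃ k : ℕ, orderOf xy.1 = p ^ k) ∧ ¬ p ∣ orderOf xy.2 ∧ xy.1 * xy.2 = g} : ℂ) / (Nat.card {y : G // ¬ p ∣ orderOf y} : ℂ)) := by
  classical
  have := Fintype.ofFinite G
  have hp := hM.1
  set A : Cfsg.IrrCharacter G → ℂ := fun χ =>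
    ∑ x : G with (∃ k : ℕ, orderOf x = p ^ k), (χ : G → ℂ) x with hA
  set R : ℂ := (Nat.card {y : G // ¬ p ∣ orderOf y} : ℂ) with hR
  have hR1 : CL.Blk.val M R = 1 := CL.Blk.val_card_pRegular hM
  have hR0 : R ≠ 0 := fun h => by simp [h] at hR1
  have h1 : Cfsg.blockCoeff (Cfsg.principalBlock M G) g = (Nat.card G : ℂ)⁻¹ *
      ∑ χ : Cfsg.IrrCharacter G with χ ∈ Cfsg.principalBlock M G,
        A χ * (starRingEnd ℂ) ((χ : G → ℂ) g) := by
    rw [CL.Blk.blockCoeff_eq_sum]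
    congr 1
    simp only [hA, Finset.sum_mul]
    rw [Finset.sum_comm, Finset.sum_eq_single (1 : G)]
    · intro x hx hx1
      simp only [Finset.mem_filter, Finset.mem_univ, true_and] at hx
      simp only [CL.Blk.irr_conj]
      exact CL.Blk.block_orth hM (CL.Blk.isPBlock_principal M) (CL.Blk.isPPart_self hp hx)
        (CL.Blk.isPPart_one hg) (by simpa using hx1)
    · intro h
      exact absurd (by simpa using ⟨0, by simp⟩) h
  let a : MonoidAlgebra ℂ G := CL.Blk.ofFun fun x => if ∃ k : ℕ, orderOf x = p ^ k then 1 else 0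
  let r : MonoidAlgebra ℂ G := CL.Blk.ofFun (Cfsg.pRegularPart p fun _ => 1)
  have ha : a ∈ Subalgebra.center ℂ (MonoidAlgebra ℂ G) :=
    CL.Blk.ofFun_mem_center fun x y => by simp only [CL.Blk.orderOf_conj']
  have hr : r ∈ Subalgebra.center ℂ (MonoidAlgebra ℂ G) :=
    CL.Blk.ofFun_mem_center fun x y =>
      CL.Blk.pRegularPart_isClassFunction (CL.Char.isClassFunction_const 1) y x
  have h2 : (Nat.card {xy : G × G // (∃ k : ℕ, orderOf xy.1 = p ^ k) ∧ ¬ p ∣ orderOf xy.2 ∧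
      xy.1 * xy.2 = g} : ℂ) = (a * r).coeff g := by
    have e : {xy : G × G // (∃ k : ℕ, orderOf xy.1 = p ^ k) ∧ ¬ p ∣ orderOf xy.2 ∧ xy.1 * xy.2 = g} ≃
        {x : G // (∃ k : ℕ, orderOf x = p ^ k) ∧ ¬ p ∣ orderOf (x⁻¹ * g)} :=
      { toFun := fun xy => ⟨xy.1.1, xy.2.1, by
          rw [inv_mul_eq_iff_eq_mul.2 xy.2.2.2.symm]; exact xy.2.2.1⟩
        invFun := fun x => ⟨(x.1, x.1⁻¹ * g), x.2.1, x.2.2, mul_inv_cancel_left _ _⟩
        left_inv := fun xy => Subtype.ext (Prod.ext rfl (inv_mul_eq_iff_eq_mul.2 xy.2.2.2.symm))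
        right_inv := fun _ => rfl }
    rw [Nat.card_congr e, CL.Blk.coeff_mul_sum, Nat.card_eq_fintype_card, Fintype.card_subtype,
      Finset.card_filter]
    push_cast
    refine Finset.sum_congr rfl fun x _ => ?_
    simp only [a, r, CL.Blk.coeff_ofFun, CL.Blk.pRegularPart_apply]
    by_cases h1 : ∃ k : ℕ, orderOf x = p ^ k <;> by_cases h2 : p ∣ orderOf (x⁻¹ * g) <;> simp [h1, h2]
  have h3 : (a * r).coeff g = (Nat.card G : ℂ)⁻¹ *
      ∑ χ : Cfsg.IrrCharacter G with χ ∈ Cfsg.principalBlock M G,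
        A χ * (starRingEnd ℂ) ((χ : G → ℂ) g) * (CL.Blk.regSum p (χ : G → ℂ) / (χ : G → ℂ) 1) := by
    rw [CL.Blk.coeff_center_eq_sum (mul_mem ha hr), Finset.sum_filter]
    congr 1
    refine Finset.sum_congr rfl fun χ _ => ?_
    have e1 : CL.Blk.omega (χ : G → ℂ) r = CL.Blk.regSum p (χ : G → ℂ) / (χ : G → ℂ) 1 := by
      rw [CL.Blk.regSum_div_eq_omegaF, ← CL.Blk.omegaF_eq_omega]; rfl
    have e2 : CL.Blk.omega (χ : G → ℂ) a = A χ / (χ : G → ℂ) 1 := by
      rw [CL.Blk.omega_apply, CL.Blk.evalFun_apply, hA]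
      simp only [Finset.sum_filter, a, CL.Blk.coeff_ofFun, ite_mul, one_mul, zero_mul]
    rw [CL.Blk.omega_center_mul χ.2 ha, e1, e2]
    have := CL.Blk.irr_one_ne_zero χ
    split_ifs with hχ
    · field_simp
    · rw [CL.Blk.regSum_eq_zero_of_notMem_principal hM hχ]; simp
  refine CL.Blk.memLocalIdeal_of_val_lt_one hM ((CL.Blk.isAlgebraic_blockCoeff _ g).sub
    (CL.Blk.isAlgebraic_div (isAlgebraic_natCast _) (isAlgebraic_natCast _))) ?_
  rw [h1, h2, h3, mul_div_assoc, Finset.sum_div, ← mul_sub, ← Finset.sum_sub_distrib, Finset.mul_sum]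
  refine CL.Blk.val_sum_lt_one _ _ fun χ hχ => ?_
  simp only [Finset.mem_filter, Finset.mem_univ, true_and] at hχ
  have e : (Nat.card G : ℂ)⁻¹ * (A χ * (starRingEnd ℂ) ((χ : G → ℂ) g) -
      A χ * (starRingEnd ℂ) ((χ : G → ℂ) g) * (CL.Blk.regSum p (χ : G → ℂ) / (χ : G → ℂ) 1) / R) =
      -((Nat.card G : ℂ)⁻¹ * A χ * (starRingEnd ℂ) ((χ : G → ℂ) g) * R⁻¹) *
        (CL.Blk.regSum p (χ : G → ℂ) / (χ : G → ℂ) 1 - R) := by
    field_simp
    ring
  rw [e]
  exact CL.Blk.val_mul_lt_one_right (neg_mem (mul_mem (mul_mem (pSum_div_mem hM χ)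
    (CL.Blk.irr_conj_mem_valRing χ g)) (CL.Blk.inv_mem_valRing_of_val_eq_one hR1)))
    (CL.Blk.val_regSum_div_sub_lt_one hM hχ)

end Cfsg.Agent.S0940
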