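import Cfsg.Statements.S0944
import Cfsg.Agent.Blk.Center
import Cfsg.Agent.Char.Values

set_option autoImplicit false
open Cfsg

namespace Cfsg.Agent.S0944

/-- Let χ be an irreducible character of the finite group G and u an involution. Then χ u is a rational integer n with n ≡ χ 1 (mod 2). -/
theorem result {G : Type*} [Group G] [Finite G] (χ : Cfsg.IrrCharacter G) (u : G) (hu : orderOf u = 2) : ∃ n : ℤ, (χ : G → ℂ) u = (n : ℂ) ∧ (2 : ℤ) ∣ (Cfsg.charDegree (χ : G → ℂ) : ℤ) - n := by
  classical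
  obtain ⟨n, μ, h1, hμ, h⟩ := CL.Char.isChar_exists_eigenvalues (CL.Char.isChar_of_isIrr χ.2) u
  have h2 := h 1
  rw [pow_one] at h2
  refine ⟨∑ i, if μ i = 1 then 1 else -1, ?_, ?_⟩
  · rw [h2]
    push_cast
    refine Finset.sum_congr rfl fun i _ => ?_
    have h3 := hμ i
    rw [hu, sq, mul_self_eq_one_iff] at h3
    split_ifs with h4
    · rw [pow_one, h4]
    · rw [pow_one, h3.resolve_left h4]
  · rw [CL.Blk.charDegree_eq_of_one_eq h1]
    have : (n : ℤ) = ∑ _i : Fin n, 1 := by simp
    rw [this, ← Finset.sum_sub_distrib]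
    refine Finset.dvd_sum fun i _ => ?_
    split_ifs <;> norm_num

end Cfsg.Agent.S0944
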