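import Cfsg.Statements.S0947
import Cfsg.Agent.Blk.Principal

set_option autoImplicit false
open Cfsg

namespace Cfsg.Agent.S0947

/-- Let z ≠ 1 be a p-element of the finite group G with centralizer H, and fix a maximal ideal M of the algebraic integers containing p. (i) For every y ∈ H of order prime to p, the sum over ζ in the principal block of G of |ζ (z * y)|² equals the sum over χ in the principal block of H of |χ y|². (ii) If moreover H has a normal p-complement (its largest normal subgroup of order prime to p has p-power index), that common value is the largest power of p dividing the order of H. -/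
theorem result {G : Type*} [Group G] [Finite G] (p : ℕ) [Fact p.Prime] (M : Ideal Cfsg.AlgInt) (hM : Cfsg.IsPModular p M) (z : G) (hz : ∃ k : ℕ, orderOf z = p ^ k) (hz1 : z ≠ 1) (y : Subgroup.centralizer ({z} : Set G)) (hy : ¬ p ∣ orderOf y) : (∑ᶠ ζ ∈ Cfsg.principalBlock M G, ‖(ζ : G → ℂ) (z * (y : G))‖ ^ 2 = ∑ᶠ χ ∈ Cfsg.principalBlock M (Subgroup.centralizer ({z} : Set G)), ‖(χ : Subgroup.centralizer ({z} : Set G) → ℂ) y‖ ^ 2) ∧ ((∃ k : ℕ, (Cfsg.pPrimeCore p (Subgroup.centralizer ({z} : Set G))).index = p ^ k) → ∑ᶠ ζ ∈ Cfsg.principalBlock M G, ‖(ζ : G → ℂ) (z * (y : G))‖ ^ 2 = ((p ^ (Nat.card (Subgroup.centralizer ({z} : Set G))).factorization p : ℕ) : ℝ)) := by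
  classical
  constructor
  · have h := CL.Blk.sum_principal_section_eq hM hz hy hy
    simp only [CL.Blk.irr_mul_inv_eq_normSq] at h
    rw [CL.Blk.finsum_mem_irr_eq_sum, CL.Blk.finsum_mem_irr_eq_sum]
    exact_mod_cast h
  · intro hi
    have hN := CL.Grp.not_dvd_card_pPrimeCore p (Subgroup.centralizer ({z} : Set G))
    have h := CL.Blk.sum_principal_section_of_complement hM hz hN hi hy hy
    simp only [CL.Blk.irr_mul_inv_eq_normSq] at h
    rw [CL.Blk.finsum_mem_irr_eq_sum, ← CL.Blk.index_eq_pPart_of_complement hM.1 hN hi]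
    exact_mod_cast h

end Cfsg.Agent.S0947
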