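import Cfsg.Statements.S0950
import Cfsg.Agent.Inv.BSQ8a

set_option autoImplicit false
open Cfsg

namespace Cfsg.Agent.S0950

/-- Let S be a Sylow 2-subgroup of the finite group G that is isomorphic to the quaternion group of order 8, and suppose S has no normal complement in G. Then any two subgroups of order 4 of S are conjugate by an element of the normalizer of S. -/
theorem result {G : Type*} [Group G] [Finite G] (S : Sylow 2 G) (e : (S : Subgroup G) ≃* QuaternionGroup 2) (hnc : ∀ N : Subgroup G, N.Normal → ¬ Subgroup.IsComplement' N (S : Subgroup G)) (A B : Subgroup G) (hA : A ≤ S) (hB : B ≤ S) (hA4 : Nat.card A = 4) (hB4 : Nat.card B = 4) : ∃ n ∈ Subgroup.normalizer ((S : Subgroup G) : Set G), B = A.map (MulAut.conj n).toMonoidHom := by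
  have hn : ¬ HasNormalPComplement 2 G := by
    rw [CL.Grp.hasNormalPComplement_iff_sylow S]
    rintro ⟨N, hN, hc⟩
    exact hnc N hN hc
  obtain ⟨a, haS, ha4, rfl⟩ := CL.Inv.q8_exists_eq_zpowers_of_card e hA hA4
  obtain ⟨b, hbS, hb4, rfl⟩ := CL.Inv.q8_exists_eq_zpowers_of_card e hB hB4
  obtain ⟨n, hn, hab⟩ := CL.Inv.q8_exists_conj_normalizer S e hn haS hbS ha4 hb4
  refine ⟨n, hn, ?_⟩
  rw [MonoidHom.map_zpowers, ← hab]
  rfl

end Cfsg.Agent.S0950
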