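import Cfsg.Statements.S0951
import Cfsg.Agent.Inv.BSQ8d

set_option autoImplicit false
open Cfsg

namespace Cfsg.Agent.S0951

/-- Let S be a Sylow 2-subgroup of the finite group G isomorphic to the quaternion group of order 8. Suppose G has no nontrivial normal subgroup of odd order and G ≠ S. Then, relative to any maximal ideal M of the algebraic integers containing 2, the principal block of G consists of exactly 7 irreducible characters. -/
theorem result {G : Type*} [Group G] [Finite G] (M : Ideal Cfsg.AlgInt) (hM : Cfsg.IsPModular 2 M) (S : Sylow 2 G) (e : (S : Subgroup G) ≃* QuaternionGroup 2) (hO : ∀ N : Subgroup G, N.Normal → Odd (Nat.card N) → N = ⊥) (hG : (S : Subgroup G) ≠ ⊤) : Nat.card (Cfsg.principalBlock M G) = 7 := by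
  have := Fintype.ofFinite G
  have hn : ¬ HasNormalPComplement 2 G := by
    rw [CL.Grp.hasNormalPComplement_iff_sylow S]
    rintro ⟨N, hN, hc⟩
    have h1 : N = ⊥ := by
      refine hO N hN (Nat.odd_iff.2 (Nat.two_dvd_ne_zero.1 ?_))
      rw [← hc.index_eq_card]
      exact S.not_dvd_index
    apply hG
    have := hc.sup_eq_top
    rwa [h1, bot_sup_eq] at this
  obtain ⟨x, y, h⟩ := CL.Char.exists_bsData (n := 0) e
  have hz := CL.Inv.brauer_suzuki_mem_center S (n := 0) e hO h.orderOf_z
  have ht : CL.Inv.Q8Inv (x ^ 2 ^ (0 + 2 - 1)) := ⟨h.orderOf_z, fun g => (Subgroup.mem_center_iff.1 hz g).symm,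
    fun u hu => h.eq_of_commute hu h.orderOf_z (Subgroup.mem_center_iff.1 hz u)⟩
  obtain ⟨ζ, s, hT⟩ := CL.Inv.q8_exists_tab (@Cfsg.Agent.S0948.result) hM S e hn ht
  exact hT.card_principal hM

end Cfsg.Agent.S0951
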