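import Cfsg.Statements.S0952
import Cfsg.Agent.Blk.Second

set_option autoImplicit false
open scoped ComplexConjugate
open Cfsg

namespace Cfsg.Agent.S0952

/-- Let χ and ψ be irreducible characters of the finite group G lying in different blocks relative to a maximal ideal M of the algebraic integers containing the prime p. Then the sum of χ x * conj (ψ x) over the elements x of order prime to p is zero. -/
theorem result {G : Type*} [Group G] [Finite G] (p : ℕ) [Fact p.Prime] (M : Ideal Cfsg.AlgInt) (hM : Cfsg.IsPModular p M) (χ ψ : Cfsg.IrrCharacter G) (h : ¬ Cfsg.SameBlock M (χ : G → ℂ) (ψ : G → ℂ)) : ∑ᶠ x ∈ {x : G | ¬ p ∣ orderOf x}, (χ : G → ℂ) x * conj ((ψ : G → ℂ) x) = 0 := by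
  classical
  have := Fintype.ofFinite G
  have h1 := CL.Blk.classInner_indicator_eq_zero hM
    (CL.Blk.blockIdem_mem_OG hM (CL.Blk.tr_isPBlock_blockOf χ)) {x : G | ¬ p ∣ orderOf x}
    (fun u v x y hx hy hxy hu => by
      have := CL.Blk.isPPart_eq_one hM.1 hx hu
      subst this
      rw [isConj_one_right.1 hxy] at hy
      exact CL.Blk.isPPart_one_iff.1 hy)
    (CL.Blk.tr_mem_blockOf_self hM χ) (ψ := ψ) h
  rw [CL.Char.classInner_def, mul_eq_zero] at h1
  have h2 := h1.resolve_left (inv_ne_zero CL.Char.natCard_ne_zero)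
  rw [finsum_mem_def, finsum_eq_sum_of_fintype, ← h2]
  refine Finset.sum_congr rfl fun x _ => ?_
  by_cases hx : x ∈ {x : G | ¬ p ∣ orderOf x}
  · rw [Set.indicator_of_mem hx, Set.indicator_of_mem hx]
  · rw [Set.indicator_of_notMem hx, Set.indicator_of_notMem hx, zero_mul]

end Cfsg.Agent.S0952
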