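import Cfsg.Statements.S0953
import Cfsg.Agent.Blk.Robinson

set_option autoImplicit false
open Cfsg

namespace Cfsg.Agent.S0953

open Subgroup CL.Grp CL.Blk in
theorem aux {G : Type*} [Group G] [Finite G] {p : ℕ} [Fact p.Prime] {M : Ideal Cfsg.AlgInt}
    (hM : Cfsg.IsPModular p M) (S : Sylow p G) [hS : (S : Subgroup G).Normal] :
    Nat.card {B : Set (Cfsg.IrrCharacter G) //
      Cfsg.IsPBlock M B ∧ Cfsg.IsDefectGroup p M B (S : Subgroup G)} =
    Nat.card {C : ConjClasses G // ∀ n : G, ConjClasses.mk n = C →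
      ¬ p ∣ orderOf n ∧ n ∈ centralizer ((S : Subgroup G) : Set G)} := by
  classical
  have hp : p.Prime := Fact.out
  set ι := {C : ConjClasses G // ∀ n : G, ConjClasses.mk n = C →
      ¬ p ∣ orderOf n ∧ n ∈ centralizer ((S : Subgroup G) : Set G)}
  letI : Fintype ι := Fintype.ofFinite ι
  have hx : ∀ i j : ι, IsConj (Quotient.out i.1 : G) (Quotient.out j.1) → i = j :=
    fun i j h => Subtype.ext (by rw [(isConj_out_iff _ _).1 h, mk_out])
  have hmem : ∀ (i : ι) (y : G), IsConj (Quotient.out i.1 : G) y →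
      ¬ p ∣ orderOf y ∧ y ∈ centralizer ((S : Subgroup G) : Set G) :=
    fun i y h => i.2 y ((isConj_out_iff _ _).1 h).symm
  have hxD : ∀ i : ι, IsSylowIn p (S : Subgroup G) (centralizer {(Quotient.out i.1 : G)}) :=
    fun i => isSylowIn_of_le S (le_centralizer_singleton_iff.2 (hmem i _ (IsConj.refl _)).2)
  refine le_antisymm ?_ ?_
  · rw [← rank_pairCount_eq_card hM S S.isPGroup' _ hx hxD fun g h1 h2 =>
      ⟨⟨ConjClasses.mk g, fun n hn => ?_⟩, isConj_out g⟩, Nat.card_eq_fintype_card (α := ι)]
    · exact Matrix.rank_le_card_width _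
    · obtain ⟨c, rfl⟩ := isConj_iff.1 (ConjClasses.mk_eq_mk_iff_isConj.1 hn).symm
      exact ⟨by rwa [orderOf_conj'], (inferInstance : (centralizer ((S : Subgroup G) : Set G)).Normal).conj_mem _
        (le_centralizer_singleton_iff.1 h2.le) c⟩
  · obtain ⟨B, h1, h2, -⟩ := exists_blocks_det_ne_zero hM _ hx hxD S fun i j y z hy hz h => by
      have h3 : Commute (z * y⁻¹) y := (hmem i y hy).2 _ h
      have h4 : Commute z y⁻¹ := by
        have := (h3.mul_left (Commute.refl y)).inv_right
        rwa [inv_mul_cancel_right] at this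
      have h5 := h4.orderOf_mul_dvd_mul_orderOf
      obtain ⟨k, hk⟩ := exists_orderOf_eq_of_mem S.isPGroup' h
      rcases k with _ | k
      · exact orderOf_eq_one_iff.1 (by simpa using hk)
      · rw [hk, orderOf_inv] at h5
        rcases hp.dvd_mul.1 ((dvd_pow_self p k.succ_ne_zero).trans h5) with h6 | h6
        · exact absurd h6 (hmem j z hz).1
        · exact absurd h6 (hmem i y hy).1
    exact Nat.card_le_card_of_injective (fun i => (⟨B i, h2 i⟩ : {B : Set (Cfsg.IrrCharacter G) //
      Cfsg.IsPBlock M B ∧ Cfsg.IsDefectGroup p M B (S : Subgroup G)}))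
      fun i j h => h1 (congrArg Subtype.val h)

/-- Let P be a Sylow p-subgroup of the finite group G with normalizer N, and fix a maximal ideal M of the algebraic integers containing p. The number of blocks of G having P as a defect group equals the number of conjugacy classes of N consisting of elements of order prime to p that centralize P. -/
theorem result {G : Type*} [Group G] [Finite G] (p : ℕ) [Fact p.Prime] (M : Ideal Cfsg.AlgInt) (hM : Cfsg.IsPModular p M) (P : Sylow p G) : Nat.card {B : Set (Cfsg.IrrCharacter G) // Cfsg.IsPBlock M B ∧ Cfsg.IsDefectGroup p M B (P : Subgroup G)} = Nat.card {C : ConjClasses (Subgroup.normalizer ((P : Subgroup G) : Set G)) // ∀ n : Subgroup.normalizer ((P : Subgroup G) : Set G), ConjClasses.mk n = C → ¬ p ∣ orderOf n ∧ (n : G) ∈ Subgroup.centralizer ((P : Subgroup G) : Set G)} := by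
  haveI : ((P.subtype (Subgroup.le_normalizer (H := (P : Subgroup G))) : Sylow p _) :
    Subgroup (Subgroup.normalizer ((P : Subgroup G) : Set G))).Normal :=
    Subgroup.normal_in_normalizer
  have h1 := aux hM (P.subtype (Subgroup.le_normalizer (H := (P : Subgroup G))))
  refine Eq.trans ?_ (h1.trans (Nat.card_congr (Equiv.subtypeEquivRight fun C =>
    forall_congr' fun n => imp_congr_right fun _ => and_congr_right fun _ => ?_)))
  · choose f hf hf' using fun B : {B : Set (Cfsg.IrrCharacter G) // Cfsg.IsPBlock M B ∧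
      Cfsg.IsDefectGroup p M B (P : Subgroup G)} =>
      CL.Blk.existsUnique_isInducedBlock_normalizer hM B.2.1 B.2.2
    refine Nat.card_eq_of_bijective (fun B => ⟨f B, (hf B).1,
      (CL.Blk.isDefectGroup_iff_of_isInducedBlock_normalizer hM (hf B) P.isPGroup').2 B.2.2⟩)
      ⟨fun B B' h => Subtype.ext (CL.Blk.isInducedBlock_unique hM (hf B)
        ((show f B = f B' from congrArg Subtype.val h) ▸ hf B')), fun b => ?_⟩
    obtain ⟨B, hB⟩ := CL.Blk.inducedBlockDefined_of_le_normalizer hM P.isPGroup'
      Subgroup.le_normalizer (Subgroup.centralizer_le_normalizer _) le_rfl b.2.1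
    exact ⟨⟨B, hB.2.1, (CL.Blk.isDefectGroup_iff_of_isInducedBlock_normalizer hM hB
      P.isPGroup').1 b.2.2⟩, Subtype.ext (hf' _ _ hB).symm⟩
  · exact ⟨fun h x hx => congrArg Subtype.val (h ⟨x, Subgroup.le_normalizer hx⟩ hx),
      fun h x hx => Subtype.ext (h x hx)⟩

end Cfsg.Agent.S0953
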