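import Cfsg.Statements.S0957
import Cfsg.Agent.Blk.Robinson

set_option autoImplicit false
open Cfsg

namespace Cfsg.Agent.S0957

/-- Let P be a Sylow p-subgroup of the finite group G, let g, h ∈ G and let p ^ d be the order of a Sylow p-subgroup of the centralizer of g. Then the number of pairs (y, z) with y conjugate to g, z conjugate to h and z * y⁻¹ ∈ P is divisible by the order of P divided by p ^ d. -/
theorem result {G : Type*} [Group G] [Finite G] (p : ℕ) [Fact p.Prime] (P : Sylow p G) (g h : G) (S : Sylow p (Subgroup.centralizer ({g} : Set G))) : Nat.card P / Nat.card S ∣ Nat.card {yz : G × G // IsConj g yz.1 ∧ IsConj h yz.2 ∧ yz.2 * yz.1⁻¹ ∈ (P : Subgroup G)} := by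
  have h1 := CL.Grp.isSylowIn_map_subtype S
  have h2 : Nat.card ((S : Subgroup _).map (Subgroup.centralizer ({g} : Set G)).subtype) =
      Nat.card S := Subgroup.card_map_of_injective (Subgroup.subtype_injective _)
  rw [← h2]
  refine CL.Blk.card_div_dvd_pairCount P.isPGroup' h h1 ?_
  obtain ⟨k, hk⟩ := IsPGroup.iff_card.1 h1.isPGroup
  rw [hk, P.card_eq_multiplicity]
  exact pow_dvd_pow _ ((Fact.out : p.Prime).pow_dvd_iff_le_factorization Nat.card_pos.ne' |>.1
    (hk ▸ Subgroup.card_subgroup_dvd_card _))

end Cfsg.Agent.S0957
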