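import Cfsg.Statements.S0965
import Cfsg.Agent.Blk.Cover

set_option autoImplicit false
open Cfsg

namespace Cfsg.Agent.S0965

/-- Let N be a normal subgroup of the finite group G and let B, b be blocks of G and of N relative to a maximal ideal M of the algebraic integers containing the prime p. Then some χ ∈ B has a constituent in b on restriction to N if and only if, for all χ ∈ B, θ ∈ b and n ∈ N, the central character of χ at n is congruent modulo the local ideal at M to the sum of θ m / θ 1 over the elements m ∈ N conjugate in G to n. -/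
theorem result {G : Type*} [Group G] [Fintype G] (p : ℕ) [Fact p.Prime] (M : Ideal Cfsg.AlgInt) (hM : Cfsg.IsPModular p M) (N : Subgroup G) [N.Normal] [Fintype N] (B : Set (Cfsg.IrrCharacter G)) (hB : Cfsg.IsPBlock M B) (b : Set (Cfsg.IrrCharacter N)) (hb : Cfsg.IsPBlock M b) : (∃ χ ∈ B, ∃ θ ∈ b, Cfsg.classInner (fun n : N => (χ : G → ℂ) n) (θ : N → ℂ) ≠ 0) ↔ ∀ χ ∈ B, ∀ θ ∈ b, ∀ n : N, Cfsg.MemLocalIdeal M (Cfsg.centralChar (χ : G → ℂ) (n : G) - Cfsg.inducedCentralChar N (θ : N → ℂ) (n : G)) := by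
  rw [← CL.Blk.covers_iff]
  constructor
  · intro h χ hχ θ hθ n
    rw [CL.Blk.memLocalIdeal_sub_comm hM, CL.Blk.memLocalIdeal_induced_sub_iff hM]
    exact (h.lam_classSum hM hB hb hχ hθ n.2).symm
  · intro h
    obtain ⟨χ, hχ⟩ := CL.Blk.tr_nonempty hM hB
    obtain ⟨θ, hθ⟩ := CL.Blk.tr_nonempty hM hb
    refine (CL.Blk.covers_iff_lam hM hB hb hχ hθ).2 fun g hg => ?_
    have := h χ hχ θ hθ ⟨g, hg⟩
    rw [CL.Blk.memLocalIdeal_sub_comm hM, CL.Blk.memLocalIdeal_induced_sub_iff hM] at this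
    exact this.symm

end Cfsg.Agent.S0965
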