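import Cfsg.Statements.S0971
import Cfsg.Agent.Blk.Cover

set_option autoImplicit false
open Cfsg

namespace Cfsg.Agent.S0971

/-- Let Q be a normal p-subgroup of the finite group G, let N = Q ⊔ C_G(Q) (a normal subgroup) and let b be a block of N relative to a maximal ideal M of the algebraic integers containing p. Then b induces some block of G, and every block B of G containing a character whose restriction to N has a constituent in b is induced by b. -/
theorem result {G : Type*} [Group G] [Fintype G] (p : ℕ) [Fact p.Prime] (M : Ideal Cfsg.AlgInt) (hM : Cfsg.IsPModular p M) (Q : Subgroup G) [Q.Normal] (hQ : IsPGroup p Q) [Fintype ↥(Q ⊔ Subgroup.centralizer (Q : Set G))] (b : Set (Cfsg.IrrCharacter ↥(Q ⊔ Subgroup.centralizer (Q : Set G)))) (hb : Cfsg.IsPBlock M b) : Cfsg.InducedBlockDefined M (Q ⊔ Subgroup.centralizer (Q : Set G)) b ∧ ∀ B : Set (Cfsg.IrrCharacter G), Cfsg.IsPBlock M B → (∃ χ ∈ B, ∃ θ ∈ b, Cfsg.classInner (fun n : ↥(Q ⊔ Subgroup.centralizer (Q : Set G)) =>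 (χ : G → ℂ) n) (θ : ↥(Q ⊔ Subgroup.centralizer (Q : Set G)) → ℂ) ≠ 0) → Cfsg.IsInducedBlock M (Q ⊔ Subgroup.centralizer (Q : Set G)) b B := by
  have key : ∀ B : Set (IrrCharacter G), IsPBlock M B →
      CL.Blk.Covers (Q ⊔ Subgroup.centralizer (Q : Set G)) B b →
      IsInducedBlock M (Q ⊔ Subgroup.centralizer (Q : Set G)) b B := by
    intro B hB h
    obtain ⟨χ, hχ⟩ := CL.Blk.tr_nonempty hM hB
    refine h.isInducedBlock hM hB hb hχ fun g hg => ?_
    exact CL.Blk.lam_classSum_eq_zero_of_notMem_centralizer hM χ hQ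
      fun h' => hg (Subgroup.mem_sup_right h')
  refine ⟨?_, fun B hB h => key B hB (CL.Blk.covers_iff.2 h)⟩
  obtain ⟨B, hB, h⟩ := CL.Blk.exists_covering hM hb
  exact ⟨B, key B hB h⟩

end Cfsg.Agent.S0971
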