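import Cfsg.Statements.S0973
import Cfsg.Agent.Blk.First2

set_option autoImplicit false
open Cfsg

namespace Cfsg.Agent.S0973

/-- Let B be a block of the finite group G with defect group P (relative to a maximal ideal M of the algebraic integers containing p), and let L = P ⊔ C_G(P). Then (i) some block b of L with defect group P (viewed in L) induces B, and (ii) if b and b' are blocks of L both inducing B, there is n ∈ N_G(P) carrying b to b': for every θ ∈ b there is θ' ∈ b' with θ' x = θ (n x n⁻¹) for all x ∈ L. -/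
theorem result {G : Type*} [Group G] [Finite G] (p : ℕ) [Fact p.Prime] (M : Ideal Cfsg.AlgInt) (hM : Cfsg.IsPModular p M) (B : Set (Cfsg.IrrCharacter G)) (hB : Cfsg.IsPBlock M B) (P : Subgroup G) (hP : Cfsg.IsDefectGroup p M B P) : (∃ b : Set (Cfsg.IrrCharacter ↥(P ⊔ Subgroup.centralizer (P : Set G))), Cfsg.IsDefectGroup p M b (P.subgroupOf (P ⊔ Subgroup.centralizer (P : Set G))) ∧ Cfsg.IsInducedBlock M (P ⊔ Subgroup.centralizer (P : Set G)) b B) ∧ ∀ b b' : Set (Cfsg.IrrCharacter ↥(P ⊔ Subgroup.centralizer (P : Set G))), Cfsg.IsInducedBlock M (P ⊔ Subgroup.centralizer (P : Set G)) b B → Cfsg.IsInducedBlock M (P ⊔ Subgroup.centralizer (P : Set G)) b' B → ∃ n ∈ Subgroup.normalizer (P : Set G), ∀ θ ∈ b, ∃ θ' ∈ b', ∀ x : ↥(P ⊔ Subgroup.centralizer (P : Set G)), ∀ hx : n * (x : G) * n⁻¹ ∈ P ⊔ Subgroup.centralizer (P : Set G), (θ' : ↥(P ⊔ Subgroup.centralizer (P : Set G)) → ℂ) x = (θ : ↥(P ⊔ Subgroup.centralizer (P : Set G))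 → ℂ) ⟨n * (x : G) * n⁻¹, hx⟩ := by
  have hPp := CL.Blk.tr_isPGroup_of_isDefectGroup hP
  have hHN := CL.Blk.sup_centralizer_le_normalizer P
  refine ⟨?_, fun b b' hb hb' => ?_⟩
  · obtain ⟨b, hb⟩ := (CL.Blk.exists_isInducedBlock_iff hM hPp le_sup_left le_sup_right hHN hB).2
      (CL.Blk.trunc_eBlk_ne_zero_of_isDefectGroup hM hB hP)
    exact ⟨b, CL.Blk.isDefectGroup_subgroupOf_of_isInducedBlock hM le_sup_left hHN hb hP, hb⟩
  · obtain ⟨n, hn, h⟩ := CL.Blk.exists_cj_hat_eq_of_isInducedBlock hM rfl hP hb hb'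
    have h1 := CL.Blk.image_conjEquiv_eq_of_cj_hat_eq hM (CL.Blk.cjs_sup_centralizer_eq rfl hn)
      hb.1 hb'.1 h
    refine ⟨n⁻¹, inv_mem hn, fun θ hθ => ⟨_, h1 ▸ Set.mem_image_of_mem _ hθ, fun x hx => ?_⟩⟩
    rw [CL.Blk.irrEquiv_apply]
    refine congrArg θ.1 (Subtype.ext ?_)
    simp only [CL.Blk.Pair.coe_conjEquiv, inv_inv]

end Cfsg.Agent.S0973
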