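import Cfsg.Statements.S0986
import Cfsg.Agent.Grp.SylowIn
import Cfsg.Agent.Grp.MinNormal

set_option autoImplicit false
open Cfsg

namespace Cfsg.Agent.S0986

open Subgroup CL.Grp


/-- Let P and Q be distinct Sylow p-subgroups of a finite group G chosen so that the order of P ∩ Q is as large as possible among intersections of two distinct Sylow p-subgroups, and let N be the normalizer of P ∩ Q. Then N has more than one Sylow p-subgroup, any two distinct Sylow p-subgroups of N intersect exactly in P ∩ Q, and each Sylow p-subgroup of N lies in exactly one Sylow p-subgroup of G. -/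
theorem result {G : Type*} [Group G] [Finite G] (p : ℕ) [Fact p.Prime] (P Q : Sylow p G) (hPQ : P ≠ Q) (hmax : ∀ P' Q' : Sylow p G, P' ≠ Q' → Nat.card ↥((P' : Subgroup G) ⊓ (Q' : Subgroup G)) ≤ Nat.card ↥((P : Subgroup G) ⊓ (Q : Subgroup G))) : 1 < Nat.card (Sylow p ↥(Subgroup.normalizer (((P : Subgroup G) ⊓ (Q : Subgroup G) : Subgroup G) : Set G))) ∧ (∀ S T : Sylow p ↥(Subgroup.normalizer (((P : Subgroup G) ⊓ (Q : Subgroup G) : Subgroup G) : Set G)), S ≠ T → (S : Subgroup _) ⊓ (T : Subgroup _) = ((P : Subgroup G) ⊓ (Q : Subgroup G)).subgroupOf (Subgroup.normalizer (((P : Subgroup G) ⊓ (Q : Subgroup G) : Subgroup G) : Set G))) ∧ ∀ S : Sylow p ↥(Subgroup.normalizer (((P : Subgroup G) ⊓ (Q : Subgroup G) : Subgroup G) : Set G)), ∃! T : Sylow p G, (S : Subgroup _).map (Subgroup.normalizer (((P : Subgroup G) ⊓ (Q : Subgroup G) : Subgroup G) : Set G)).subtype ≤ (T : Subgroup G) := by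
  set D := (P : Subgroup G) ⊓ Q with hD
  set N := normalizer (D : Set G) with hN
  have hDp : IsPGroup p D := P.isPGroup'.to_le inf_le_left
  have key : ∀ (U : Subgroup G) (T T' : Sylow p G), D < U → U ≤ T → U ≤ T' → T = T' :=
    fun U T T' h h1 h2 => by
    by_contra e
    exact (card_lt_card_of_lt (h.trans_le (le_inf h1 h2))).not_ge (hmax T T' e)
  have hP : D < (P : Subgroup G) ⊓ N := lt_inf_normalizer_of_isPGroup P.isPGroup'
    (lt_of_le_of_ne inf_le_left fun e => hPQ (Sylow.ext
      (Q.is_maximal' P.isPGroup' (eq_of_le_of_card_ge (e ▸ inf_le_right)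
        (by rw [Sylow.card_eq_multiplicity, Sylow.card_eq_multiplicity])).ge)))
  have hQ : D < (Q : Subgroup G) ⊓ N := lt_inf_normalizer_of_isPGroup Q.isPGroup'
    (lt_of_le_of_ne inf_le_right fun e => hPQ (Sylow.ext
      (P.is_maximal' Q.isPGroup' (eq_of_le_of_card_ge (e ▸ inf_le_left)
        (by rw [Sylow.card_eq_multiplicity, Sylow.card_eq_multiplicity])).ge).symm))
  have hS : ∀ S : Sylow p N, D < (S : Subgroup N).map N.subtype := fun S => by
    have h1 := isSylowIn_map_subtype S
    refine lt_of_le_of_ne (h1.le_of_normalized hDp le_normalizer le_rfl) fun e => ?_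
    exact (card_lt_card_of_lt hP).not_ge
      (e ▸ h1.card_le (P.isPGroup'.to_le inf_le_left) inf_le_right)
  refine ⟨?_, fun S T hST => ?_, fun S => ?_⟩
  · by_contra e
    haveI : Subsingleton (Sylow p N) := Finite.card_le_one_iff_subsingleton.1 (not_lt.1 e)
    obtain ⟨S, h1, h2⟩ := exists_isSylowIn_ge (P.isPGroup'.to_le inf_le_left) (inf_le_right (b := N))
    obtain ⟨T, h3, h4⟩ := exists_isSylowIn_ge (Q.isPGroup'.to_le inf_le_left) (inf_le_right (b := N))
    have h5 : S = T := by
      rw [← h1.map_toSylow, ← h3.map_toSylow, Subsingleton.elim h1.toSylow h3.toSylow]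
    obtain ⟨R, hR⟩ := h1.isPGroup.exists_le_sylow
    exact hPQ ((key _ P R hP inf_le_left (h2.trans hR)).trans
      (key _ Q R hQ inf_le_left (h4.trans (h5 ▸ hR))).symm)
  · by_contra e
    obtain ⟨S', hS'⟩ := (isSylowIn_map_subtype S).isPGroup.exists_le_sylow
    obtain ⟨T', hT'⟩ := (isSylowIn_map_subtype T).isPGroup.exists_le_sylow
    have h1 : D < (S : Subgroup N).map N.subtype ⊓ (T : Subgroup N).map N.subtype :=
      lt_of_le_of_ne (le_inf (hS S).le (hS T).le) fun e' => e (by
        rw [e', ← map_inf _ _ _ N.subtype_injective]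
        exact (comap_map_eq_self_of_injective N.subtype_injective _).symm)
    obtain rfl := key _ S' T' h1 (inf_le_left.trans hS') (inf_le_right.trans hT')
    refine hST (Sylow.ext (map_injective N.subtype_injective ?_))
    rw [← (isSylowIn_map_subtype S).eq_of_le (S'.isPGroup'.to_le inf_le_left)
      (le_inf hS' (map_subtype_le _)) inf_le_right, (isSylowIn_map_subtype T).eq_of_le
      (S'.isPGroup'.to_le inf_le_left) (le_inf hT' (map_subtype_le _)) inf_le_right]
  · obtain ⟨T, hT⟩ := (isSylowIn_map_subtype S).isPGroup.exists_le_sylow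
    exact ⟨T, hT, fun T' hT' => key _ T' T (hS S) hT' hT⟩

end Cfsg.Agent.S0986
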