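import Cfsg.Statements.S0987
import Cfsg.Agent.Inv.Small1

set_option autoImplicit false
open Cfsg

namespace Cfsg.Agent.S0987

/-- If a finite group has order pqr for primes p < q < r, then its Sylow r-subgroups are normal. -/
theorem result {G : Type*} [Group G] [Finite G] (p q r : ℕ) (hp : p.Prime) (hq : q.Prime) [Fact r.Prime] (hpq : p < q) (hqr : q < r) (hG : Nat.card G = p * q * r) (R : Sylow r G) : (R : Subgroup G).Normal := by
  have hr : r.Prime := Fact.out
  have := Fact.mk hp
  obtain ⟨P⟩ : Nonempty (Sylow p G) := inferInstance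
  have hqr' : ¬ p ∣ q * r := fun h => by
    rcases (Nat.Prime.dvd_mul hp).1 h with h | h
    · exact hpq.ne ((Nat.prime_dvd_prime_iff_eq hp hq).1 h)
    · exact (hpq.trans hqr).ne ((Nat.prime_dvd_prime_iff_eq hp hr).1 h)
  have hP : Nat.card P = p :=
    (CL.Inv.card_sylow_subgroup_eq (a := 1) (by rw [hG, pow_one, mul_assoc]) hqr' P).trans (pow_one p)
  have hmin : (Nat.card G).minFac = p := by
    refine le_antisymm (Nat.minFac_le_of_dvd hp.two_le (by rw [hG, mul_assoc]; exact Dvd.intro _ rfl)) ?_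
    have h1 : Nat.card G ≠ 1 := fun h => hr.one_lt.ne' (Nat.eq_one_of_mul_eq_one_left (hG ▸ h))
    have h2 := Nat.minFac_prime h1
    have h3 := Nat.minFac_dvd (Nat.card G)
    generalize (Nat.card G).minFac = m at *
    rw [hG, h2.dvd_mul, h2.dvd_mul, Nat.prime_dvd_prime_iff_eq h2 hp, Nat.prime_dvd_prime_iff_eq h2 hq,
      Nat.prime_dvd_prime_iff_eq h2 hr] at h3
    omega
  have hc := (isCyclic_of_prime_card hP).isComplement' hmin
  set N := (MonoidHom.transferSylow P _).ker
  have hN : Nat.card N = r ^ 1 * q := by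
    refine Nat.eq_of_mul_eq_mul_right hp.pos ?_
    rw [← hP, hc.card_mul_card, hG, hP]; ring
  have hrq : ¬ r ∣ q := fun h => (Nat.le_of_dvd hq.pos h).not_gt hqr
  have h1 : Nat.card (Sylow r N) = 1 := by
    rcases (Nat.dvd_prime hq).1 (CL.Inv.card_sylow_dvd_of_card hN hrq) with h | h
    · exact h
    · have h2 := card_sylow_modEq_one r N
      rw [h, Nat.ModEq, Nat.mod_eq_of_lt hqr, Nat.mod_eq_of_lt hr.one_lt] at h2
      exact absurd h2 hq.one_lt.ne'
  obtain ⟨Q⟩ : Nonempty (Sylow r N) := inferInstance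
  have hQ : (Q : Subgroup N).Normal := Subgroup.normalizer_eq_top_iff.1 (Subgroup.index_eq_one.1
    ((CL.Inv.card_sylow_eq_index Q).symm.trans h1))
  have := Q.characteristic_of_normal hQ
  have hK : ((Q : Subgroup N).map N.subtype).Normal := inferInstance
  have hrpq : ¬ r ∣ p * q := fun h => by
    rcases (Nat.Prime.dvd_mul hr).1 h with h | h
    · exact (Nat.le_of_dvd hp.pos h).not_gt (hpq.trans hqr)
    · exact hrq h
  rwa [← Subgroup.eq_of_le_of_card_ge ((Q.isPGroup'.map N.subtype).le_sylow_of_normal R) (by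
    rw [Subgroup.card_map_of_injective N.subtype_injective, CL.Inv.card_sylow_subgroup_eq hN hrq,
      CL.Inv.card_sylow_subgroup_eq (a := 1) (m := p * q) (by rw [hG]; ring) hrpq])]

end Cfsg.Agent.S0987
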