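import Cfsg.Statements.S0990
import Cfsg.Agent.Base

set_option autoImplicit false
open Cfsg

namespace Cfsg.Agent.S0990

/-- Let p be an odd prime and P a Sylow p-subgroup of the symmetric group on a finite set with at least two elements. Then P is contained in the alternating group, and twice the order of the normalizer of P inside the alternating group equals the order of the normalizer of P in the symmetric group. -/
theorem result {α : Type*} [Fintype α] [DecidableEq α] (hα : 2 ≤ Fintype.card α) (p : ℕ) [Fact p.Prime] (hp : p ≠ 2) (P : Sylow p (Equiv.Perm α)) : (P : Subgroup (Equiv.Perm α)) ≤ alternatingGroup α ∧ 2 * Nat.card ↥(Subgroup.normalizer ((((P : Subgroup (Equiv.Perm α)).subgroupOf (alternatingGroup α) : Subgroup ↥(alternatingGroup α)) : Set ↥(alternatingGroup α)))) = Nat.card ↥(Subgroup.normalizer ((P : Subgroup (Equiv.Perm α)) : Set (Equiv.Perm α))) := by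
  have : Nontrivial α := Fintype.one_lt_card_iff_nontrivial.1 hα
  have hP : (P : Subgroup (Equiv.Perm α)) ≤ alternatingGroup α := by
    intro x hx
    obtain ⟨k, hk⟩ := P.2 ⟨x, hx⟩
    have h1 : Equiv.Perm.sign x ^ p ^ k = 1 := by
      rw [← map_pow, show x ^ p ^ k = 1 from congrArg Subtype.val hk, map_one]
    rcases Int.units_eq_one_or (Equiv.Perm.sign x) with h | h
    · exact h
    · rw [h, (((Fact.out : p.Prime).odd_of_ne_two hp).pow).neg_one_pow] at h1
      exact absurd h1 (by decide)
  refine ⟨hP, ?_⟩
  have h1 := Sylow.normalizer_sup_eq_top' P hP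
  have h2 : (alternatingGroup α).relIndex
      (Subgroup.normalizer ((P : Subgroup (Equiv.Perm α)) : Set (Equiv.Perm α))) = 2 := by
    rw [← Subgroup.relIndex_sup_right, ← alternatingGroup.index_eq_two (α := α),
      ← Subgroup.relIndex_top_right]
    congr 1
  rw [← Subgroup.subgroupOf_normalizer_eq hP, ← h2, Subgroup.relIndex,
    ← Subgroup.index_mul_card ((alternatingGroup α).subgroupOf _)]
  congr 1
  rw [← Subgroup.inf_subgroupOf_right (alternatingGroup α),
    ← Subgroup.inf_subgroupOf_left _ (alternatingGroup α),
    Nat.card_congr (Subgroup.subgroupOfEquivOfLe inf_le_right).toEquiv,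
    Nat.card_congr (Subgroup.subgroupOfEquivOfLe inf_le_left).toEquiv]

end Cfsg.Agent.S0990
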