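import Cfsg.Statements.S1007
import Cfsg.Agent.Loc.S168

set_option autoImplicit false
open Cfsg

namespace Cfsg.Agent.S1007

/-- Let G be a simple group of order 168 and T a Sylow 2-subgroup. Then T contains exactly two subgroups that are Klein four-groups; they are not conjugate in G; and the normalizer of every Klein four-subgroup of G is isomorphic to the symmetric group of degree 4. -/
theorem result {G : Type*} [Group G] [Finite G] [IsSimpleGroup G] (h : Nat.card G = 168) (T : Sylow 2 G) : Nat.card {U : Subgroup G // U ≤ (T : Subgroup G) ∧ IsKleinFour ↥U} = 2 ∧ (∀ U W : Subgroup G, U ≤ (T : Subgroup G) → W ≤ (T : Subgroup G) → IsKleinFour ↥U → IsKleinFour ↥W → U ≠ W → ∀ g : G, U.map (MulAut.conj g).toMonoidHom ≠ W) ∧ ∀ U : Subgroup G, IsKleinFour ↥U → Nonempty (↥(Subgroup.normalizer (U : Set G)) ≃* Equiv.Perm (Fin 4)) := by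
  obtain ⟨U, W, hne, hUW⟩ := CL.Loc.S168.exists_two_fours h (CL.Loc.S168.card2 h T)
  refine ⟨?_, fun U W hU hW hU4 _ hne g => CL.Loc.S168.not_conj_fours h T hU hW hU4.card_four hne g,
    fun U hU => CL.Loc.S168.perm_of_card h (CL.Loc.S168.cardN4 h hU)⟩
  exact (Nat.card_congr (Equiv.subtypeEquivRight hUW)).trans
    ((Nat.card_coe_set_eq ({U, W} : Set (Subgroup G))).trans (Set.ncard_pair hne))

end Cfsg.Agent.S1007
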