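import Cfsg.Statements.S1010
import Cfsg.Agent.Fgs.SylSmall2
import Cfsg.Agent.Grp.Primitive

set_option autoImplicit false
open Cfsg
open scoped Pointwise

namespace Cfsg.Agent.S1010

open CL.Fgs CL.Grp MulAction

theorem exists_conj_of_involutions {G : Type*} [Group G] {u g : G} (hu : u * u = 1) (m : ℕ) :
    ∃ h : G, u * (u * (g * u * g⁻¹)) ^ m = h * u * h⁻¹ := by
  have key : u * (u * (g * u * g⁻¹)) = (u * (g * u * g⁻¹))⁻¹ * u := by
    have h1 : u⁻¹ = u := inv_eq_of_mul_eq_one_right hu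
    rw [← mul_assoc, hu, mul_inv_rev, h1, mul_assoc _ u u, hu]
    simp [mul_assoc, h1]
  induction m using Nat.twoStepInduction with
  | zero => exact ⟨1, by simp⟩
  | one => exact ⟨g, by rw [pow_one, ← mul_assoc, hu, one_mul]⟩
  | more n ih _ =>
    obtain ⟨h, hh⟩ := ih
    refine ⟨(u * (g * u * g⁻¹))⁻¹ * h, ?_⟩
    generalize u * (g * u * g⁻¹) = y at *
    rw [pow_succ, pow_succ', ← mul_assoc, ← mul_assoc, key, mul_assoc _ u, hh]
    group

theorem not_simple {S : Type*} [Group S] [Finite S] [IsSimpleGroup S]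
    (hn : Nat.card (Sylow 5 S) = 21) : False := by
  haveI : Fact (Nat.Prime 2) := ⟨by norm_num⟩
  haveI : Fact (Nat.Prime 5) := ⟨by norm_num⟩
  haveI : Fact (Nat.Prime 7) := ⟨by norm_num⟩
  have hne : Nat.card (Sylow 5 S) ≠ 1 := by omega
  have hna := not_isMulCommutative_of_card_sylow_ne_one hne
  have hG := CL.Inv.commutator_eq_top_of_simple hna
  haveI := faithfulSMul_sylow hne
  have hall5 : ∀ P : Sylow 5 S, Nat.card P = 5 := card_sylow_eq_of_lt_sq hne (by omega)
  obtain ⟨P⟩ : Nonempty (Sylow 5 S) := inferInstance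
  have hP := hall5 P
  obtain ⟨c, e, he, he1, hcard, hall⟩ := exists_prime_sylow_data hG hP
  have he' : e = 2 ∨ e = 4 := by
    have : e ≤ 4 := Nat.le_of_dvd (by norm_num) he
    interval_cases e <;> omega
  have hgen : ∀ Q : Sylow 5 S, ∃ y : S, orderOf y = 5 ∧ (Q : Subgroup S) = Subgroup.zpowers y :=
    fun Q => exists_sylow_eq_zpowers (hall5 Q)
  have hlt : ∀ z : S, (orderOf z).Prime → (fixedBy (Sylow 5 S) z).ncard < 21 := fun z hz =>
    hn ▸ ncard_fixedBy_lt_card (fun e => by simp [e] at hz; exact Nat.not_prime_one hz)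
  have hdvd : ∀ z : S, (orderOf z).Prime → orderOf z ∣ 21 - (fixedBy (Sylow 5 S) z).ncard :=
    fun z hz => hn ▸ dvd_card_sub_ncard_fixedBy hz
  have hfour : ∀ z : S, orderOf z = 2 → 4 ∣ 21 - (fixedBy (Sylow 5 S) z).ncard :=
    fun z hz => hn ▸ four_dvd_card_sub_ncard_fixedBy hG (hz ▸ pow_orderOf_eq_one z)
  have hfix : ∀ y z : S, orderOf y = 5 → Commute z y → (orderOf z).Prime →
      orderOf z = 5 ∨ (orderOf z = 2 ∧ (fixedBy (Sylow 5 S) z).ncard = 1) ∨
        (orderOf z = 3 ∧ (fixedBy (Sylow 5 S) z).ncard = 6) := by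
    intro y z hy hz hzp
    obtain ⟨Q, hQ⟩ := exists_sylow_eq_zpowers_of_orderOf hP hy
    have h1 := ncard_fixedBy_modEq_one hy hQ hz
    have h2 := hlt z hzp
    have h3 := hdvd z hzp
    have h4 := hfour z
    unfold Nat.ModEq at h1
    generalize (fixedBy (Sylow 5 S) z).ncard = f at *
    generalize orderOf z = r at *
    have h5 : r ≤ 20 := (Nat.le_of_dvd (by omega) h3).trans (by omega)
    interval_cases r <;> first | omega | (exfalso; revert hzp; norm_num)
  have htwo : ∀ (z : S) (A B : Sylow 5 S), A ≠ B → z • A = A → z • B = B →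
      2 ≤ (fixedBy (Sylow 5 S) z).ncard := fun z A B hAB hA hB =>
    (Set.one_lt_ncard (Set.toFinite _)).2 ⟨A, hA, B, hB, hAB⟩
  have hfive : ∀ z : S, orderOf z = 5 → (fixedBy (Sylow 5 S) z).ncard = 1 := by
    intro z hz
    obtain ⟨Q, hQ⟩ := exists_sylow_eq_zpowers_of_orderOf hP hz
    rw [fixedBy_sylow_eq_singleton hz hQ, Set.ncard_singleton]
  have hstab : ∀ (H : Subgroup S) (A B : Sylow 5 S), A ≠ B → H ≤ stabilizer S A → 20 < Nat.card H →
      ∃ z ∈ H, (orderOf z).Prime ∧ z • B = B := by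
    intro H A B hAB hH h20
    have h1 := (stabilizer H B).card_mul_index
    have h2 : (stabilizer H B).index ≤ 20 := by
      rw [index_stabilizer]
      have h3 : orbit H B ⊆ {A}ᶜ := by
        rintro _ ⟨g, rfl⟩ h
        exact hAB (smul_left_cancel (g : S) ((hH g.2).trans (Eq.symm h)))
      have h4 := Set.ncard_le_ncard h3
      have h5 := Set.ncard_add_ncard_compl ({A} : Set (Sylow 5 S))
      rw [Set.ncard_singleton] at h5
      omega
    have h3 : Nat.card (stabilizer H B) ≠ 1 := fun h => by rw [h] at h1; omega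
    obtain ⟨z, hz, hzo⟩ := exists_mem_prime_order (Nat.minFac_prime h3) (Nat.minFac_dvd _)
    exact ⟨z, z.2, by rw [Subgroup.orderOf_coe, hzo]; exact Nat.minFac_prime h3, hz⟩
  have hc20 : c ≤ 20 := by
    by_contra h20
    have hZ : ∀ (A B : Sylow 5 S) (y : S), A ≠ B → orderOf y = 5 →
        (A : Subgroup S) = Subgroup.zpowers y → ∃ z : S, orderOf z = 3 ∧ Commute z y ∧ z • B = B := by
      intro A B y hAB hy hA
      obtain ⟨z, hz, hzp, hzB⟩ := hstab (Subgroup.centralizer {y}) A B hAB
        (fun x hx => smul_sylow_eq_of_commute hA (Subgroup.mem_centralizer_singleton_iff.1 hx))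
        (by rw [(hall A y hy hA).1]; omega)
      have hc : Commute z y := Subgroup.mem_centralizer_singleton_iff.1 hz
      have h1 := htwo z A B hAB (smul_sylow_eq_of_commute hA hc) hzB
      have h2 := hfive z
      refine ⟨z, ?_, hc, hzB⟩
      rcases hfix y z hy hc hzp with h | h | h <;> omega
    have hL : ∀ (z : S) (A B : Sylow 5 S), orderOf z = 3 → A ≠ B → z • A = A → z • B = B →
        fixedBy (Sylow 5 S) z = insert A (orbit (A : Subgroup S) B) ∧
          (fixedBy (Sylow 5 S) z).ncard = 6 := by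
      intro z A B hz hAB hA hB
      obtain ⟨y, hy, hAy⟩ := hgen A
      have hc : Commute z y := (hall A y hy hAy).2.2 z hA (by
        rw [hz]; rcases he' with rfl | rfl <;> norm_num)
      have h1 : (fixedBy (Sylow 5 S) z).ncard = 6 := by
        rcases hfix y z hy hc (hz ▸ Nat.prime_three) with h | h | h <;> omega
      refine ⟨(Set.eq_of_subset_of_ncard_le ?_ ?_).symm, h1⟩
      · rintro _ (rfl | ⟨⟨a, ha⟩, rfl⟩)
        · exact hA
        · rw [hAy] at ha
          obtain ⟨k, rfl⟩ := ha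
          change z • y ^ k • B = y ^ k • B
          rw [smul_smul, (hc.zpow_right k).eq, mul_smul, hB]
      · rw [h1, Set.ncard_insert_of_notMem, ← index_stabilizer, index_stabilizer_sylow]
        · have h2 : (B : Subgroup S).relIndex A ∣ 5 := (Subgroup.relIndex_dvd_card _ _).trans (hall5 A).dvd
          have h3 := mt (relIndex_sylow_eq_one_iff A B).1 hAB
          rcases (Nat.dvd_prime Nat.prime_five).1 h2 with h | h <;> omega
        · rintro ⟨g, hg⟩
          have h2 : (g : S) • A = A := (sylow_smul_eq_iff _ _).2 (Subgroup.le_normalizer g.2)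
          exact hAB (smul_left_cancel (g : S) (h2.trans (Eq.symm hg)))
    obtain ⟨B₀, hB₀⟩ : ∃ B : Sylow 5 S, P ≠ B := by
      by_contra hc
      push Not at hc
      exact hne (Nat.card_eq_one_iff_unique.2 ⟨⟨fun A B => (hc A).symm.trans (hc B)⟩, ⟨P⟩⟩)
    obtain ⟨y₀, hy₀, hPy₀⟩ := hgen P
    obtain ⟨z₀, hz₀, hzy₀, hzB₀⟩ := hZ P B₀ y₀ hB₀ hy₀ hPy₀
    have h6 := (hL z₀ P B₀ hz₀ hB₀ (smul_sylow_eq_of_commute hPy₀ hzy₀) hzB₀).2
    obtain ⟨Q, hQ⟩ : ∃ Q, Q ∉ fixedBy (Sylow 5 S) z₀ := by
      by_contra hc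
      push Not at hc
      rw [Set.eq_univ_of_forall hc, Set.ncard_univ] at h6
      omega
    obtain ⟨y, hy, hQy⟩ := hgen Q
    let f : ↥(Q : Subgroup S) × ↥(fixedBy (Sylow 5 S) z₀) → Sylow 5 S :=
      fun a => (a.1 : S) • (a.2 : Sylow 5 S)
    have hf : Function.Injective f := by
      rintro ⟨a, A⟩ ⟨b, B⟩ hab
      have h1 : ((b⁻¹ * a : (Q : Subgroup S)) : S) • (A : Sylow 5 S) = B := by
        rw [Subgroup.coe_mul, mul_smul, Subgroup.coe_inv, inv_smul_eq_iff]
        exact hab
      have hmem : ((b⁻¹ * a : (Q : Subgroup S)) : S) ∈ Subgroup.zpowers y := hQy ▸ (b⁻¹ * a).2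
      have hQA : Q ≠ A := fun h => hQ (h ▸ A.2)
      obtain rfl : A = B := by
        by_contra hAB
        have hAB' : (A : Sylow 5 S) ≠ B := fun h => hAB (Subtype.ext h)
        obtain ⟨z, hz, hzy, hzA⟩ := hZ Q A y hQA hy hQy
        have hzB : z • (B : Sylow 5 S) = B := by
          obtain ⟨k, hk⟩ := hmem
          simp only at hk
          rw [← h1, ← hk, smul_smul, (hzy.zpow_right k).eq, mul_smul, hzA]
        apply hQ
        rw [(hL z₀ A B hz₀ hAB' A.2 B.2).1, ← (hL z A B hz hAB' hzA hzB).1]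
        exact smul_sylow_eq_of_commute hQy hzy
      have h2 := eq_one_of_mem_zpowers_of_smul_eq Nat.prime_five hy hmem (fun h => hQA (by
        have : (A : Sylow 5 S) ∈ fixedBy (Sylow 5 S) y := h
        rw [fixedBy_sylow_eq_singleton hy hQy] at this
        exact this.symm)) h1
      rw [(inv_mul_eq_one.1 (Subtype.ext h2 : b⁻¹ * a = 1))]
    have h1 := Nat.card_le_card_of_injective f hf
    rw [Nat.card_prod, Nat.card_coe_set_eq, h6, hn, show Nat.card (Q : Subgroup S) = 5 from hall5 Q] at h1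
    omega
  obtain ⟨y, hy, hPy⟩ := hgen P
  obtain ⟨hc, hN, -⟩ := hall P y hy hPy
  have h5c : 5 ∣ c := by
    rw [← hc, ← hy]
    exact Subgroup.orderOf_dvd_natCard _ (Subgroup.mem_centralizer_singleton_iff.2 rfl)
  have h2c : 2 ∣ c := by
    by_contra h
    refine not_two_dvd_card_of_prime_sylow hG hP (by omega) (fun y' hy' => ?_) ?_
    · obtain ⟨Q, hQ⟩ := exists_sylow_eq_zpowers_of_orderOf hP hy'
      rwa [(hall Q y' hy' hQ).1]
    · rw [hcard, hn]
      rcases he' with rfl | rfl <;> omega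
  have hc0 : 0 < c := hc ▸ Nat.card_pos
  rw [hn] at hcard
  by_cases h420 : c * e = 20
  · have h1 : Nat.card S = 7 ^ 1 * 60 := by rw [hcard, h420]; norm_num
    have h2 := CL.Inv.card_sylow_dvd_of_card h1 (by norm_num)
    have h3 := card_sylow_modEq_one 7 S
    have h4 := CL.Inv.card_sylow_ne_one_of_simple (p := 7) hna (by rw [h1]; norm_num)
    have h5 := card_sylow_seven_ne_fifteen S
    generalize Nat.card (Sylow 7 S) = a at *
    have : a ≤ 60 := Nat.le_of_dvd (by norm_num) h2
    unfold Nat.ModEq at h3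
    interval_cases a <;> omega
  have hce : c * e = 40 ∨ c * e = 80 := by
    rcases he' with rfl | rfl <;> omega
  obtain ⟨u, hu2, huy, huN⟩ : ∃ u : S, orderOf u = 2 ∧ Commute u y ∧
      ∀ n : S, n • P = P → Commute n u := by
    obtain ⟨T, hT⟩ := exists_isSylowIn 2 (stabilizer S P)
    have hNC : stabilizer S P ≤ Subgroup.normalizer (Subgroup.centralizer ({y} : Set S) : Set S) := by
      rw [← centralizer_sylow_eq hPy]
      exact le_normalizer_centralizer' fun g hg => (sylow_smul_eq_iff g P).1 hg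
    have hCN : Subgroup.centralizer ({y} : Set S) ≤ stabilizer S P := fun x hx =>
      smul_sylow_eq_of_commute hPy (Subgroup.mem_centralizer_singleton_iff.1 hx)
    have hK := hT.inf_of_normalized hCN hNC
    have hK0 : 2 ∣ Nat.card (T ⊓ Subgroup.centralizer ({y} : Set S) : Subgroup S) := by
      have h1 := card_mul_relIndex hK.le
      rw [hc] at h1
      exact ((Nat.Prime.dvd_mul Nat.prime_two).1 (h1 ▸ h2c)).resolve_right hK.not_dvd
    have h1 := inf_centralizer_ne_bot_of_isPGroup hT.isPGroup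
      (le_normalizer_inf' Subgroup.le_normalizer (hT.le.trans hNC)) hK0
    have h2 : Nat.card (T ⊓ Subgroup.centralizer ({y} : Set S) ⊓
        Subgroup.centralizer (T : Set S) : Subgroup S) ≠ 1 := by rwa [Ne, Subgroup.card_eq_one]
    obtain ⟨u, hu, huo⟩ := exists_mem_prime_order (Nat.minFac_prime h2) (Nat.minFac_dvd _)
    obtain ⟨k, hk⟩ := exists_orderOf_eq_pow_of_mem hT.isPGroup hu.1.1
    have hu2 : orderOf u = 2 := (Nat.prime_dvd_prime_iff_eq (huo ▸ Nat.minFac_prime h2)
      Nat.prime_two).1 ((huo ▸ Nat.minFac_prime h2 : (orderOf u).Prime).dvd_of_dvd_pow hk.dvd)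
    have huy : Commute u y := Subgroup.mem_centralizer_singleton_iff.1 hu.1.2
    refine ⟨u, hu2, huy, fun n hn' => ?_⟩
    let M := Subgroup.centralizer ({u} : Set S) ⊓ stabilizer S P
    have hTM : T ≤ M := le_inf (fun t ht => Subgroup.mem_centralizer_singleton_iff.2
      (hu.2 t ht)) hT.le
    have h3 := hT.not_dvd_relIndex_of_le hTM inf_le_right
    have h4 := card_mul_relIndex (inf_le_right : M ≤ stabilizer S P)
    have h5 : 5 ∣ Nat.card M := by
      rw [← hy]
      exact Subgroup.orderOf_dvd_natCard _ ⟨Subgroup.mem_centralizer_singleton_iff.2 huy.symm,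
        smul_sylow_eq_of_commute hPy rfl⟩
    rw [hN] at h4
    have h6 : M.relIndex (stabilizer S P) = 1 := by
      generalize M.relIndex (stabilizer S P) = a at *
      obtain ⟨b, hb⟩ := h5
      rw [hb] at h4
      have h7 : a ∣ 16 := by
        rcases hce with h | h <;> rw [h] at h4
        · exact ⟨2 * b, by linarith⟩
        · exact ⟨b, by linarith⟩
      have : a ≤ 16 := Nat.le_of_dvd (by norm_num) h7
      interval_cases a <;> omega
    exact Subgroup.mem_centralizer_singleton_iff.1 (Subgroup.relIndex_eq_one.1 h6 hn').1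
  have hfu : fixedBy (Sylow 5 S) u = {P} := by
    have h1 : (fixedBy (Sylow 5 S) u).ncard = 1 := by
      rcases hfix y u hy huy (hu2 ▸ Nat.prime_two) with h | h | h <;> omega
    obtain ⟨A, hA⟩ := Set.ncard_eq_one.1 h1
    have h4 : P ∈ fixedBy (Sylow 5 S) u := smul_sylow_eq_of_commute hPy huy
    rw [hA] at h4 ⊢
    rw [h4]
  have huu : u * u = 1 := by rw [← pow_two, ← hu2, pow_orderOf_eq_one]
  have hu1 : u ≠ 1 := fun h => by simp [h] at hu2
  obtain ⟨g, hg⟩ : ∃ g : S, u * (g * u * g⁻¹) ≠ 1 := by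
    by_contra hc
    push Not at hc
    have : u ∈ Subgroup.center S := Subgroup.mem_center_iff.2 fun g => by
      have h1 := (mul_left_cancel ((hc g).trans huu.symm))
      rwa [mul_inv_eq_iff_eq_mul] at h1
    rw [CL.Inv.center_eq_bot_of_simple hna] at this
    exact hu1 this
  obtain ⟨r, m, hr, hx⟩ := exists_prime_order_pow hg
  obtain ⟨h, hh⟩ := exists_conj_of_involutions (g := g) huu m
  generalize (u * (g * u * g⁻¹)) ^ m = x at hx hh
  have hx1 : x ≠ 1 := fun h => by simp [h] at hx; exact hr.ne_one hx.symm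
  have hfv : fixedBy (Sylow 5 S) (u * x) = {h • P} := by
    rw [hh, ← smul_fixedBy, hfu, Set.smul_set_singleton]
  have hPQ : P ≠ h • P := fun e => hx1 (by
    rw [(huN h e.symm).eq, mul_inv_cancel_right] at hh
    exact mul_left_cancel (hh.trans (mul_one u).symm))
  obtain ⟨w, hwP, hwp, hwQ⟩ := hstab (stabilizer S P) P (h • P) hPQ le_rfl (by omega)
  have hw2' := htwo w P _ hPQ hwP hwQ
  have hw2 : orderOf w = 2 := by
    have h1 := Subgroup.orderOf_dvd_natCard _ hwP
    have h2 : orderOf w ∣ 2 ^ 4 * 5 := by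
      rw [hN] at h1
      rcases hce with h | h <;> rw [h] at h1
      · exact h1.trans (by norm_num)
      · exact h1
    rcases (Nat.Prime.dvd_mul hwp).1 h2 with h3 | h3
    · exact (Nat.prime_dvd_prime_iff_eq hwp Nat.prime_two).1 (hwp.dvd_of_dvd_pow h3)
    · have := hfive w ((Nat.prime_dvd_prime_iff_eq hwp Nat.prime_five).1 h3)
      omega
  have hwC : ∀ y' : S, orderOf y' = 5 → ¬ Commute w y' := fun y' hy' h => by
    rcases hfix y' w hy' h hwp with h | h | h <;> omega
  have hfw : (fixedBy (Sylow 5 S) w).ncard = 5 := by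
    have h1 := mul_ncard_fixedBy_le hy hPy hwP (hwC y hy)
    have h2 := hfour w hw2
    omega
  have hwx : Commute w x := by
    have h1 : Commute w u := huN w hwP
    have h2 : Commute (h⁻¹ * w * h) u := huN _ (by rw [mul_smul, mul_smul, hwQ, inv_smul_smul])
    have h3 : Commute w (u * x) := by
      rw [hh]
      have := h2.eq
      calc w * (h * u * h⁻¹) = h * (h⁻¹ * w * h * u) * h⁻¹ := by group
        _ = h * u * h⁻¹ * w := by rw [this]; group
    have := h1.inv_right.mul_right h3
    rwa [inv_mul_cancel_left] at this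
  by_cases hr2 : r = 2
  · have hxx : x * x = 1 := by rw [← pow_two, ← hr2, ← hx, pow_orderOf_eq_one]
    have h1 : (u * x) * (u * x) = 1 := by
      rw [hh]
      calc h * u * h⁻¹ * (h * u * h⁻¹) = h * (u * u) * h⁻¹ := by group
        _ = 1 := by rw [huu]; group
    have h2 : x * u = u * x := by
      calc x * u = (u * u) * x * u * (x * x) := by rw [huu, hxx]; group
        _ = u * (u * x * (u * x)) * x := by group
        _ = u * x := by rw [h1, mul_one]
    have h3 : x • P ∈ fixedBy (Sylow 5 S) u := by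
      change u • x • P = x • P
      rw [smul_smul, ← h2, mul_smul, smul_sylow_eq_of_commute hPy huy]
    rw [hfu] at h3
    have h4 : P ∈ fixedBy (Sylow 5 S) (u * x) := by
      change (u * x) • P = P
      rw [mul_smul, h3, smul_sylow_eq_of_commute hPy huy]
    rw [hfv] at h4
    exact hPQ h4
  by_cases hr5 : r = 5
  · exact hwC x (hx.trans hr5) hwx
  have hfx : fixedBy (Sylow 5 S) x = ∅ := by
    rw [Set.eq_empty_iff_forall_notMem]
    intro Q hQ
    obtain ⟨y', hy', hQy⟩ := hgen Q
    have h1 := Subgroup.orderOf_dvd_natCard (stabilizer S Q) hQ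
    rw [(hall Q y' hy' hQy).2.1, hx] at h1
    have h2 : r ∣ 2 ^ 4 * 5 := by
      rcases hce with h | h <;> rw [h] at h1
      · exact h1.trans (by norm_num)
      · exact h1
    rcases (Nat.Prime.dvd_mul hr).1 h2 with h3 | h3
    · exact hr2 ((Nat.prime_dvd_prime_iff_eq hr Nat.prime_two).1 (hr.dvd_of_dvd_pow h3))
    · exact hr5 ((Nat.prime_dvd_prime_iff_eq hr Nat.prime_five).1 h3)
  have h1 := ncard_fixedBy_modEq_of_commute (Ω := Sylow 5 S) hr hx hwx
  rw [hfx, Set.inter_empty, Set.ncard_empty, hfw] at h1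
  exact hr5 ((Nat.prime_dvd_prime_iff_eq hr Nat.prime_five).1 ((Nat.modEq_zero_iff_dvd).1 h1))

/-- No finite group has exactly twenty-one Sylow 5-subgroups. -/
theorem result {G : Type*} [Group G] [Finite G] : Nat.card (Sylow 5 G) ≠ 21 := by
  intro h
  haveI : Fact (Nat.Prime 5) := ⟨by norm_num⟩
  obtain ⟨S, _, _, hS, hn⟩ := exists_simple_card_sylow (p := 5) (n := 21) (by norm_num)
    (prime_pow_ne_of_two_primes (a := 3) (b := 7) (by norm_num) (by norm_num) (by norm_num)
      (by norm_num) (by norm_num)) (fun a b ha hb hab => by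
        have : a ≤ 21 := Nat.le_of_dvd (by norm_num) ⟨b, hab.symm⟩
        unfold Nat.ModEq at ha hb
        interval_cases a <;> omega) G h
  exact not_simple hn

end Cfsg.Agent.S1010
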