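import Cfsg.Statements.S1013
import Cfsg.Agent.Perm.PrimeDegree3

set_option autoImplicit false
open Cfsg

namespace Cfsg.Agent.S1013

open CL.Perm

/-- Let G be a transitive permutation group of prime degree p having more than one Sylow p-subgroup, and suppose a Sylow p-subgroup P has prime index in its normalizer. Then G is simple. -/
theorem result {α : Type*} [Fintype α] [DecidableEq α] {p : ℕ} [Fact p.Prime] (hα : Fintype.card α = p) (G : Subgroup (Equiv.Perm α)) [MulAction.IsPretransitive ↥G α] (P : Sylow p ↥G) (hn : 1 < Nat.card (Sylow p ↥G)) (ht : (((P : Subgroup ↥G).subgroupOf (Subgroup.normalizer ((P : Subgroup ↥G) : Set ↥G))).index).Prime) : IsSimpleGroup ↥G := by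
  have hα' : Nat.card α = p := by rw [Nat.card_eq_fintype_card, hα]
  refine isSimpleGroup_of_prime_degree hα' P hn ht ?_
  rw [← Subgroup.card_mul_index ((P : Subgroup ↥G).subgroupOf _),
    Nat.card_congr (Subgroup.subgroupOfEquivOfLe Subgroup.le_normalizer).toEquiv,
    card_sylow_of_prime_degree hα' P]

end Cfsg.Agent.S1013
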