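import Cfsg.Statements.S1014
import Cfsg.Agent.Loc.SCPrime

set_option autoImplicit false
open Cfsg

namespace Cfsg.Agent.S1014

/-- No finite simple group has order 1104 = 2^4 * 3 * 23. -/
theorem result {G : Type*} [Group G] [Finite G] [IsSimpleGroup G] : Nat.card G ≠ 1104 := by
  intro h
  have := Fintype.ofFinite G
  have hG := CL.Inv.not_isMulCommutative_of_not_prime (G := G) (by rw [h]; norm_num)
  obtain ⟨e, n, h1, h2, h3, h4, ⟨D⟩⟩ := CL.Loc.exists_scData_three (G := G) (p := 2) (q := 3) (r := 23)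
    (a := 4) (b := 1) (by norm_num) (by norm_num) (by norm_num) (by norm_num) (by norm_num)
    (by rw [h]; norm_num) hG
  have h5 := Nat.le_of_dvd (by norm_num) h1
  unfold Nat.ModEq at h3
  obtain rfl : e = 2 := by interval_cases e <;> omega
  obtain ⟨c, d, c1, d1, c2, d2, c3, h6, h7⟩ := D.two hG (by norm_num)
  rw [h] at c2 d2 c3 h7
  have c4 : c < 34 := by nlinarith
  rcases h6 with ⟨h6, rfl⟩ | ⟨h6, rfl⟩
  · interval_cases c <;> omega
  · have : d < 62 := by omega
    interval_cases d <;> omega

end Cfsg.Agent.S1014
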