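import Cfsg.Statements.S1017
import Cfsg.Agent.Loc.SCPrime

set_option autoImplicit false
open Cfsg

namespace Cfsg.Agent.S1017

/-- No finite simple group has order 2016 = 2^5 * 3^2 * 7. -/
theorem result {G : Type*} [Group G] [Finite G] [IsSimpleGroup G] : Nat.card G ≠ 2016 := by
  intro h
  have := Fintype.ofFinite G
  have hG := CL.Inv.not_isMulCommutative_of_not_prime (G := G) (by rw [h]; norm_num)
  obtain ⟨e, n, h1, h2, h3, h4, ⟨D⟩⟩ := CL.Loc.exists_scData_three (G := G) (p := 2) (q := 3) (r := 7)
    (a := 5) (b := 2) (by norm_num) (by norm_num) (by norm_num) (by norm_num) (by norm_num)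
    (by rw [h]; norm_num) hG
  have h5 := Nat.le_of_dvd (by norm_num) h1
  unfold Nat.ModEq at h3
  interval_cases e <;> omega

end Cfsg.Agent.S1017
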