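import Cfsg.Statements.S1018
import Cfsg.Agent.Fgs.SylSmall2

set_option autoImplicit false
open Cfsg

namespace Cfsg.Agent.S1018

/-- Let P be a Sylow p-subgroup of order p of a finite group G, and consider the action of G on the left cosets of the normalizer N of P. Then every element of order p fixes exactly one coset, and an element of N that does not centralize P fixes at most as many cosets as there are orbits of P. -/
theorem result {G : Type*} [Group G] [Finite G] (p : ℕ) [Fact p.Prime] (P : Sylow p G) (hP : Nat.card ↥(P : Subgroup G) = p) : (∀ y : G, orderOf y = p → Nat.card (MulAction.fixedBy (G ⧸ Subgroup.normalizer ((P : Subgroup G) : Set G)) y) = 1) ∧ ∀ x : G, x ∈ Subgroup.normalizer ((P : Subgroup G) : Set G) → x ∉ Subgroup.centralizer ((P : Subgroup G) : Set G) → Nat.card (MulAction.fixedBy (G ⧸ Subgroup.normalizer ((P : Subgroup G) : Set G)) x) ≤ Nat.card (MulAction.orbitRel.Quotient ↥(P : Subgroup G) (G ⧸ Subgroup.normalizer ((P : Subgroup G) : Set G))) := by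
  refine ⟨fun y hy => ?_, fun x hx hxc => ?_⟩
  · obtain ⟨Q, hQ⟩ := CL.Fgs.exists_sylow_eq_zpowers_of_orderOf hP hy
    have h1 := CL.Fgs.fixedBy_sylow_eq_singleton hy hQ
    obtain ⟨c, rfl⟩ := MulAction.exists_smul_eq G P Q
    rw [Nat.card_coe_set_eq, Set.ncard_eq_one]
    refine ⟨c, Set.ext fun g => ?_⟩
    obtain ⟨g, rfl⟩ := QuotientGroup.mk_surjective g
    have h2 := Set.ext_iff.1 h1 (g • P)
    have h3 : ∀ a b : G, a • P = b • P ↔ a⁻¹ * b ∈ Subgroup.normalizer ((P : Subgroup G) : Set G) := by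
      intro a b
      rw [← CL.Fgs.sylow_smul_eq_iff, mul_smul, inv_smul_eq_iff, eq_comm]
    rw [MulAction.mem_fixedBy, Set.mem_singleton_iff, ← mul_smul, h3, h3] at h2
    rw [MulAction.mem_fixedBy, Set.mem_singleton_iff, MulAction.Quotient.smul_mk, QuotientGroup.eq,
      QuotientGroup.eq, smul_eq_mul, h2]
  · refine Nat.card_le_card_of_injective (fun ω => Quotient.mk _ ω.1) ?_
    rintro ⟨ω', h'⟩ ⟨ω, h⟩ e
    obtain ⟨⟨v, hv⟩, rfl⟩ := Quotient.exact e
    refine Subtype.ext ?_
    have hgen : ∀ c ∈ (P : Subgroup G), c ≠ 1 → (P : Subgroup G) = Subgroup.zpowers c := fun c hc h1 =>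
      CL.Fgs.sylow_eq_zpowers_of_mem hP (orderOf_eq_prime (by
        rw [← hP]; exact congrArg Subtype.val (pow_card_eq_one' (x := (⟨c, hc⟩ : (P : Subgroup G))))) h1) hc
    change v • ω = ω
    change x • v • ω = v • ω at h'
    change x • ω = ω at h
    by_cases hv1 : v = 1
    · rw [hv1, one_smul]
    have hc : v⁻¹ * (x * v * x⁻¹) ∈ (P : Subgroup G) :=
      mul_mem (inv_mem hv) ((Subgroup.mem_normalizer_iff.1 hx v).1 hv)
    have h2 : Subgroup.zpowers (v⁻¹ * (x * v * x⁻¹)) ≤ MulAction.stabilizer G ω := by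
      rw [Subgroup.zpowers_le, MulAction.mem_stabilizer_iff, mul_smul, mul_smul, mul_smul,
        inv_smul_eq_iff.2 h.symm, h', inv_smul_smul]
    refine h2 ((hgen _ hc fun h3 => hxc ?_).le hv)
    rw [CL.Fgs.centralizer_sylow_eq (hgen v hv hv1), Subgroup.mem_centralizer_singleton_iff,
      ← mul_inv_eq_iff_eq_mul, ← inv_mul_eq_one.1 h3]

end Cfsg.Agent.S1018
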