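import Cfsg.Statements.S1019
import Cfsg.Agent.Char.Orth2

set_option autoImplicit false
open Cfsg

namespace Cfsg.Agent.S1019

/-- Let H be a subgroup of a finite group G and x an element of H. In the action of G on the left cosets of H, the number of cosets fixed by x, multiplied by the size of the conjugacy class of x, equals the index of H multiplied by the number of conjugates of x that lie in H. -/
theorem result {G : Type*} [Group G] [Finite G] (H : Subgroup G) (x : G) (hx : x ∈ H) : Nat.card (MulAction.fixedBy (G ⧸ H) x) * Nat.card {g : G // IsConj x g} = H.index * Nat.card {g : G // IsConj x g ∧ g ∈ H} := by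
  classical
  have h1 : Nat.card {g : G // g⁻¹ * x * g ∈ H} = Nat.card (MulAction.fixedBy (G ⧸ H) x) * Nat.card H := by
    rw [← Nat.card_prod]
    refine Nat.card_congr ((Equiv.subtypeEquiv (Subgroup.groupEquivQuotientProdSubgroup (s := H))
      (q := fun y => y.1 ∈ MulAction.fixedBy (G ⧸ H) x) fun g => ?_).trans
      ⟨fun y => (⟨y.1.1, y.2⟩, y.1.2), fun y => ⟨(y.1.1, y.2), y.1.2⟩, fun _ => rfl, fun _ => rfl⟩)
    change _ ↔ x • (g : G ⧸ H) = g
    rw [MulAction.Quotient.smul_mk, eq_comm, QuotientGroup.eq, smul_eq_mul, mul_assoc]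
  have h2 : Nat.card {g : G // g⁻¹ * x * g ∈ H} = Nat.card {g : G // IsConj x g ∧ g ∈ H} *
      Nat.card (Subgroup.centralizer ({x} : Set G)) := by
    have := Fintype.ofFinite G
    let f : {g : G // g⁻¹ * x * g ∈ H} → {g : G // IsConj x g ∧ g ∈ H} :=
      fun g => ⟨g.1⁻¹ * x * g.1, isConj_iff.2 ⟨g.1⁻¹, by simp⟩, g.2⟩
    suffices h5 : ∀ y, Nat.card {g // f g = y} = Nat.card (Subgroup.centralizer ({x} : Set G)) by
      rw [← Nat.card_congr (Equiv.sigmaFiberEquiv f), Nat.card_sigma, Finset.sum_congr rfl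
        fun y _ => h5 y, Finset.sum_const, Finset.card_univ, smul_eq_mul, ← Nat.card_eq_fintype_card]
    intro y
    rw [← CL.Char.card_conjugators_of_isConj y.2.1]
    exact Nat.card_congr ⟨fun g => ⟨g.1.1⁻¹, by rw [inv_inv]; exact congrArg Subtype.val g.2⟩,
      fun g => ⟨⟨g.1⁻¹, by rw [inv_inv, g.2]; exact y.2.2⟩, Subtype.ext (by simpa [f] using g.2)⟩,
      fun g => by simp, fun g => by simp⟩
  have h3 := CL.Char.card_isConj_mul_card_centralizer x
  have h4 := H.index_mul_card
  refine Nat.eq_of_mul_eq_mul_right (Nat.card_pos (α := Subgroup.centralizer ({x} : Set G))) ?_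
  rw [mul_assoc, h3, mul_assoc, ← h2, h1, ← h4]
  ring

end Cfsg.Agent.S1019
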