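import Cfsg.Statements.S1022
import Cfsg.Agent.Blk.CrossPO

set_option autoImplicit false
open Cfsg

namespace Cfsg.Agent.S1022

open Finset CL.Blk CL.Char CL.Inv CL.Inv.PO CL.Blk.Cross Subgroup
open scoped Classical

theorem degX : ∀ d ∈ Nat.divisors 6048, d ≠ 1 → d ^ 2 ≤ 459648 →
    (d % 19 = 1 → d = 96) ∧ (d % 19 = 18 → d + 1 ≠ 19 → d = 56 ∨ d = 189) := by decide +kernel

theorem degμ : ∀ d ∈ Nat.divisors 6048, (d % 7 = 1 ∨ d % 7 = 6) →
    (d % 19 = 3 → ¬ d ∣ 3024) ∧ d % 19 ≠ 16 ∧ d % 19 ≠ 13 ∧ (d % 19 = 6 → d = 6 ∨ d = 6048) := by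
  decide +kernel

theorem idx : ∀ d ∈ Nat.divisors 24192, d % 19 = 1 → d = 1 ∨ d = 96 ∨ d = 1008 := by
  decide +kernel

theorem f_cases {p f : ℕ} (h : f ∣ p - 1) (h2 : 2 ≤ f) :
    (p = 7 → f = 2 ∨ f = 3 ∨ f = 6) ∧ (p = 19 → f = 2 ∨ f = 3 ∨ f = 6 ∨ f = 9 ∨ f = 18) := by
  constructor <;> rintro rfl
  · have := Nat.le_of_dvd (by norm_num) h
    interval_cases f <;> simp_all
  · have := Nat.le_of_dvd (by norm_num) h
    interval_cases f <;> simp_all

theorem local19 {G : Type*} [Group G] [Fintype G] [IsSimpleGroup G] [Fact (Nat.Prime 19)]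
    (hG : Nat.card G = 459648) (hperf : commutator G = ⊤) {x : G} {C : Subgroup G}
    (K : Ctx 19 x C) : (K.f = 2 ∨ K.f = 3 ∨ K.f = 6) ∧ K.f * Nat.card C = 456 := by
  have hN := K.card_N
  have hi := (Nz x).card_mul_index
  obtain ⟨c, hc⟩ := exists_card_C K
  obtain ⟨n, hn⟩ := K.exists_index_N
  have hf := (f_cases K.f_dvd (K.two_le_f hperf)).2 rfl
  have hm : K.f * c * (Nz x).index = 24192 := by
    rw [hN, hc, hG] at hi
    linarith
  rcases idx _ (Nat.mem_divisors.2 ⟨Dvd.intro_left _ hm, by norm_num⟩) (by omega) with e | e | e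
  · have := K.f_eq_one_of_index hperf e
    omega
  · have := le_index_of_dvd K hperf (q := 7) (by norm_num) (by norm_num) (by
      rw [e] at hm
      rw [hc]
      rcases hf with h | h | h | h | h <;> rw [h] at hm <;> omega)
    omega
  · rw [e] at hm
    rw [hc]
    rcases hf with h | h | h | h | h <;> rw [h] at hm ⊢ <;> omega

/-- No finite simple group has order 459648 = 2^7 * 3^3 * 7 * 19. -/
theorem result {G : Type*} [Group G] [Finite G] [IsSimpleGroup G] : Nat.card G ≠ 459648 := by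
  intro hG
  have := Fintype.ofFinite G
  have : Fact (Nat.Prime 19) := ⟨by norm_num⟩
  have : Fact (Nat.Prime 7) := ⟨by norm_num⟩
  have hnc : ¬ IsMulCommutative G := not_isMulCommutative_of_not_prime (by rw [hG]; norm_num)
  have hperf := commutator_eq_top_of_simple hnc
  obtain ⟨x, ⟨K⟩⟩ := exists_ctx_of_dvd (G := G) (p := 19) (by rw [hG]; norm_num)
    (by rw [hG]; norm_num)
  obtain ⟨y, ⟨K'⟩⟩ := exists_ctx_of_dvd (G := G) (p := 7) (by rw [hG]; norm_num)
    (by rw [hG]; norm_num)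
  generalize centralizer ({x} : Set G) = C at K
  generalize centralizer ({y} : Set G) = C' at K'
  obtain ⟨hf, hC⟩ := local19 hG hperf K
  have hf' := (f_cases K'.f_dvd (K'.two_le_f hperf)).1 rfl
  obtain ⟨M, hM⟩ := exists_isPModular' (Fact.out : Nat.Prime 19)
  obtain ⟨M', hM'⟩ := exists_isPModular' (Fact.out : Nat.Prime 7)
  obtain ⟨D, h1, hs1⟩ := K.exists_data_principal hM
  obtain ⟨D', h1', hs1'⟩ := K'.exists_data_principal hM'
  have h2 : 2 ∣ Nat.card C := by rcases hf with h | h | h <;> rw [h] at hC <;> omega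
  have h7 : ¬ 7 ∣ Nat.card C := by rcases hf with h | h | h <;> rw [h] at hC <;> omega
  have hi0 : C.index = K.f * 1008 := by
    refine Nat.eq_of_mul_eq_mul_left (Nat.card_pos (α := C)) ?_
    rw [C.card_mul_index, hG, ← mul_assoc, mul_comm _ K.f, hC]
    norm_num
  have hi : C.index ∣ 6048 := by
    rw [hi0]
    rcases hf with h | h | h <;> rw [h] <;> norm_num
  have hX : ∀ χ ∈ D.X, χ ≠ irrOne G → (D.s χ = 1 ∧ charDegree (χ : G → ℂ) = 96) ∨
      (D.s χ = -1 ∧ (charDegree (χ : G → ℂ) = 56 ∨ charDegree (χ : G → ℂ) = 189)) := by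
    intro χ hχ hχ1
    have h3 := degX _ (Nat.mem_divisors.2 ⟨(D.deg_X_dvd hχ).trans hi, by norm_num⟩)
      (fun h => hχ1 (eq_irrOne_of_perfect hperf h)) (hG ▸ CL.Spor.degree_sq_le_card χ)
    have hmod := D.deg_X_one hχ
    unfold Int.ModEq at hmod
    rcases D.hs χ hχ with e | e <;> rw [e] at hmod
    · exact .inl ⟨e, h3.1 (by omega)⟩
    · exact .inr ⟨e, h3.2 (by omega) (deg_X_ne D (q := 2) (by norm_num) (by norm_num) h2 hχ e)⟩
  have hX' : ∀ χ ∈ D'.X, charDegree (χ : G → ℂ) % 7 = 1 ∨ charDegree (χ : G → ℂ) % 7 = 6 := by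
    intro χ hχ
    have hmod := D'.deg_X_one hχ
    unfold Int.ModEq at hmod
    rcases D'.hs χ hχ with e | e <;> rw [e] at hmod <;> omega
  obtain ⟨k, hk, hk'⟩ : ∃ k, D.μ k ∉ D'.X ∧ D.μ k ≠ D'.μ 1 := by
    by_contra! hc
    have hY := D.card_Y
    have hE := K.index_E_one
    rw [← hY] at hE
    rcases hf with h | h
    · have : D.Y ⊆ insert (D'.μ 1) D'.X := fun χ hχ => by
        obtain ⟨k, rfl⟩ := D.mem_Y.1 hχ
        rw [mem_insert]
        exact (em _).symm.imp (hc k) id
      have h3 := (card_le_card this).trans (card_insert_le _ _)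
      rw [D'.card_X_one] at h3
      rw [h] at hE
      omega
    · have : D.Y ⊆ {D'.μ 1} := fun χ hχ => by
        obtain ⟨k, rfl⟩ := D.mem_Y.1 hχ
        refine mem_singleton.2 (hc k fun hk => ?_)
        have h5 := D.deg_μ_dvd k
        have h3 := degμ _ (Nat.mem_divisors.2 ⟨h5.trans hi, by norm_num⟩) (hX' _ hk)
        have hmod := D.deg_μ_one k
        have h6 := hX' _ hk
        unfold Int.ModEq at hmod
        rcases D.hε with e | e
        · have h4 := deg_μ_ne D (q := 2) (by norm_num) (by norm_num) h2 k e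
          rcases h with h | h <;> rw [e, h] at hmod
          · rw [hi0, h] at h5
            exact h3.1 (by omega) h5
          · omega
        · rcases h with h | h <;> rw [e, h] at hmod <;> omega
      have h3 := card_le_card this
      rw [card_singleton] at h3
      rcases h with h | h <;> rw [h] at hE <;> omega
  have hc := Cross.cross D D' (fun g => not_dvd_orderOf K h7) k 1
  have hle : ∑ χ ∈ D.X.erase (irrOne G), D.s χ * mult D' 1 χ ≤ 0 := sum_nonpos fun χ hχ => by
    have h3 := hX χ (mem_of_mem_erase hχ) (ne_of_mem_erase hχ)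
    have h4 : χ ∉ D'.X := fun h => by
      have := hX' χ h
      omega
    rw [mult, if_neg h4]
    split_ifs with h
    · have hmod := D'.deg_μ_one 1
      rw [← h] at hmod
      unfold Int.ModEq at hmod
      rcases D'.hε with e | e <;> rcases hf' with e' | e' | e' <;> rw [e, e'] at hmod <;>
        rw [e] <;> omega
    · simp
  rw [← add_sum_erase _ _ h1, hs1, mult, mult, if_neg hk, if_neg hk', if_pos h1', hs1'] at hc
  omega

end Cfsg.Agent.S1022
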