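import Cfsg.Statements.S1024
import Cfsg.Agent.Base

set_option autoImplicit false
open Cfsg

namespace Cfsg.Agent.S1024

open Cfsg.Lie

theorem chainCoeff_pos (D : ChevalleyDatum) (r s u : ℕ) : ∀ km ∈ D.chainCoeff r s u, 0 < km.1 := by
  intro km hkm
  simp only [ChevalleyDatum.chainCoeff, List.mem_flatMap, List.mem_map] at hkm
  obtain ⟨e, -, q, -, rfl⟩ := hkm
  exact Nat.succ_pos _

theorem xMat_zero {F : Type*} [Field F] (D : ChevalleyDatum) (r : Fin D.nroots) :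
    D.xMat F r 0 = 1 := by
  ext row col
  have hsum : ∀ s u : ℕ,
      ((D.chainCoeff r.val s u).map fun km => ((km.2 : ℤ) : F) * (0 : F) ^ km.1).sum = 0 := by
    intro s u
    apply List.sum_eq_zero
    intro x hx
    obtain ⟨km, hkm, rfl⟩ := List.mem_map.1 hx
    rw [zero_pow (chainCoeff_pos D _ _ _ km hkm).ne', mul_zero]
  rcases row with i | u <;> rcases col with j | s
  · simp [ChevalleyDatum.xMat, Matrix.one_apply]
  · simp only [ChevalleyDatum.xMat, Matrix.of_apply, Matrix.one_apply]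
    split_ifs <;> simp_all
  · simp [ChevalleyDatum.xMat, Matrix.one_apply]
  · simp only [ChevalleyDatum.xMat, Matrix.of_apply, Matrix.one_apply, hsum]
    split_ifs <;> simp_all

theorem x_zero {F : Type*} [Field F] (D : ChevalleyDatum) (r : ℕ) : D.x F r 0 = 1 := by
  unfold ChevalleyDatum.x
  split_ifs
  · exact xMat_zero D _
  · rfl

theorem neg_ok (D : Cfsg.Lie.ChevalleyDatum) (hD : D ∈ [Cfsg.Lie.chevG2, Cfsg.Lie.chevB2, Cfsg.Lie.chevD4, Cfsg.Lie.chevF4, Cfsg.Lie.chevE6, Cfsg.Lie.chevE7, Cfsg.Lie.chevE8]) :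
    ∀ r < D.nroots, D.neg r < D.nroots ∧ D.neg r ≠ r := by
  simp only [List.mem_cons, List.not_mem_nil, or_false] at hD
  rcases hD with rfl | rfl | rfl | rfl | rfl | rfl | rfl <;> decide +kernel

/-- `x_r(0) = 1`, and `x_r(t) = 1` forces `t = 0`: the map `t ↦ x_r(t)` is injective. -/
theorem result {F : Type*} [Field F] (D : Cfsg.Lie.ChevalleyDatum) (hD : D ∈ [Cfsg.Lie.chevG2, Cfsg.Lie.chevB2, Cfsg.Lie.chevD4, Cfsg.Lie.chevF4, Cfsg.Lie.chevE6, Cfsg.Lie.chevE7, Cfsg.Lie.chevE8]) (r : ℕ) (hr : r < D.nroots) (t : F) :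
    D.x F r t = 1 ↔ t = 0 := by
  constructor
  · intro h
    obtain ⟨h1, h2⟩ := neg_ok D hD r hr
    have := congrFun (congrFun h (Sum.inr ⟨r, hr⟩)) (Sum.inr ⟨D.neg r, h1⟩)
    rw [ChevalleyDatum.x, dif_pos hr] at this
    have hne : (⟨D.neg r, h1⟩ : Fin D.nroots) ≠ ⟨r, hr⟩ := fun e => h2 (congrArg Fin.val e)
    have hne' : (⟨r, hr⟩ : Fin D.nroots) ≠ ⟨D.neg r, h1⟩ := hne.symm
    simp only [ChevalleyDatum.xMat, Matrix.of_apply, Matrix.one_apply, hne, hne', if_false,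
      Sum.inr.injEq] at this
    rw [if_pos (by rfl)] at this
    simpa using this
  · rintro rfl
    exact x_zero D r

end Cfsg.Agent.S1024
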