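import Cfsg.Statements.S1041
import Cfsg.Agent.Base

set_option autoImplicit false
open Cfsg

namespace Cfsg.Agent.S1041

open Cfsg.Lie

theorem pos_or_neg (D : Cfsg.Lie.ChevalleyDatum) (hD : D ∈ [Cfsg.Lie.chevG2, Cfsg.Lie.chevB2, Cfsg.Lie.chevD4, Cfsg.Lie.chevF4, Cfsg.Lie.chevE6, Cfsg.Lie.chevE7, Cfsg.Lie.chevE8]) :
    ∀ r < D.nroots, D.IsPosRoot r ∨ D.IsNegRoot r := by
  simp only [List.mem_cons, List.not_mem_nil, or_false] at hD
  rcases hD with rfl | rfl | rfl | rfl | rfl | rfl | rfl <;> decide +kernel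

theorem x_val {F : Type*} [Field F] (D : ChevalleyDatum) (r : Fin D.nroots) (t : F) :
    D.x F r.val t = D.xMat F r t := by
  rw [ChevalleyDatum.x, dif_pos r.2]

/-- `U` and `V` generate the whole Chevalley group. -/
theorem result {F : Type*} [Field F] (D : Cfsg.Lie.ChevalleyDatum) (hD : D ∈ [Cfsg.Lie.chevG2, Cfsg.Lie.chevB2, Cfsg.Lie.chevD4, Cfsg.Lie.chevF4, Cfsg.Lie.chevE6, Cfsg.Lie.chevE7, Cfsg.Lie.chevE8]) : D.posUnipotent F ⊔ D.negUnipotent F = D.group F := by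
  apply le_antisymm
  · apply sup_le
    · apply Subgroup.closure_mono
      rintro g ⟨r, t, hr, hg⟩
      exact ⟨⟨r, hr.1⟩, t, by rw [hg, ← x_val]⟩
    · apply Subgroup.closure_mono
      rintro g ⟨r, t, hr, hg⟩
      exact ⟨⟨r, hr.1⟩, t, by rw [hg, ← x_val]⟩
  · rw [ChevalleyDatum.group, Subgroup.closure_le]
    rintro g ⟨r, t, hg⟩
    rcases pos_or_neg D hD r.1 r.2 with h | h
    · exact Subgroup.mem_sup_left (Subgroup.subset_closure ⟨r.1, t, h, by rw [hg, x_val]⟩)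
    · exact Subgroup.mem_sup_right (Subgroup.subset_closure ⟨r.1, t, h, by rw [hg, x_val]⟩)

end Cfsg.Agent.S1041
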