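import Cfsg.Statements.S1043
import Cfsg.Agent.Chev.Tri
import Cfsg.Agent.S1024

set_option autoImplicit false
open Cfsg

namespace Cfsg.Agent.S1043

open CL.Chev

/-- `B ≤ G`, `N ≤ G` and `B ⊔ N = G` for the Chevalley group `G` generated by all root elements. -/
theorem result {F : Type*} [Field F] (D : Cfsg.Lie.ChevalleyDatum) (hD : D ∈ [Cfsg.Lie.chevG2, Cfsg.Lie.chevB2, Cfsg.Lie.chevD4, Cfsg.Lie.chevF4, Cfsg.Lie.chevE6, Cfsg.Lie.chevE7, Cfsg.Lie.chevE8]) :
    D.borelSubgroup F ≤ D.group F ∧ D.monomialSubgroup F ≤ D.group F ∧ D.borelSubgroup F ⊔ D.monomialSubgroup F = D.group F := by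
  have h := triOK D hD
  refine ⟨h.borel_le_group, h.mono_le_group, le_antisymm (sup_le h.borel_le_group h.mono_le_group) ?_⟩
  rw [h.group_eq_closure, Subgroup.closure_le]
  rintro _ ⟨r, hr, t, rfl⟩
  have hB : ∀ s, D.IsPosRoot s → ∀ u : F, xGL D F s u ∈ D.borelSubgroup F ⊔ D.monomialSubgroup F :=
    fun s hs u => Subgroup.mem_sup_left (Subgroup.mem_sup_left (h.xGL_mem_pos hs u))
  rcases h.pos_or_neg hr with h1 | h1
  · exact hB r h1 t
  · by_cases ht : t = 0
    · have : xGL D F r t = 1 := by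
        rw [← Units.val_inj, h.coe_xGL, ht, S1024.x_zero]; rfl
      rw [this]; exact Subgroup.one_mem _
    · have e : xGL D F r t = (xGL D F (D.neg r) (-t⁻¹))⁻¹ * nGL D F (D.neg r) (-t⁻¹) *
          (xGL D F (D.neg r) (-t⁻¹))⁻¹ := by
        simp [nGL, h.neg_neg hr, mul_assoc]
      rw [e]
      have h2 := Subgroup.inv_mem _ (hB _ (h.isPos_neg h1) (-t⁻¹))
      exact Subgroup.mul_mem _ (Subgroup.mul_mem _ h2
        (Subgroup.mem_sup_right (h.nGL_mem_mono (h.neg_lt hr) (by simpa using ht)))) h2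

end Cfsg.Agent.S1043
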