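import Cfsg.Statements.S1045
import Cfsg.Agent.Chev.RealSt
import Cfsg.Agent.Chev.RealAll

set_option autoImplicit false
open Cfsg

namespace Cfsg.Agent.S1045

/-- For a fundamental root `p`, the subgroup `U_p` generated by the `X_s`, `s` positive and `s ≠ p`, is normalised by `X_p` and `X_{-p}`, and `U = U_p ⊔ X_p`. -/
theorem result {F : Type*} [Field F] (D : Cfsg.Lie.ChevalleyDatum) (hD : D ∈ [Cfsg.Lie.chevG2, Cfsg.Lie.chevB2, Cfsg.Lie.chevD4, Cfsg.Lie.chevF4, Cfsg.Lie.chevE6, Cfsg.Lie.chevE7, Cfsg.Lie.chevE8]) (i : ℕ) (hi : i < D.rank) :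
    D.rootSubgroup F (D.simple i) ⊔ D.rootSubgroup F (D.neg (D.simple i)) ≤
        Subgroup.normalizer (Subgroup.closure {g : GL D.Idx F | ∃ (s : ℕ) (t : F), D.IsPosRoot s ∧ s ≠ D.simple i ∧
          (g : Matrix D.Idx D.Idx F) = D.x F s t} : Set (GL D.Idx F)) ∧
      Subgroup.closure {g : GL D.Idx F | ∃ (s : ℕ) (t : F), D.IsPosRoot s ∧ s ≠ D.simple i ∧
          (g : Matrix D.Idx D.Idx F) = D.x F s t} ⊔ D.rootSubgroup F (D.simple i) = D.posUnipotent F := by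
  obtain ⟨E⟩ := CL.Chev.exists_real hD
  have e : Subgroup.closure {g : GL D.Idx F | ∃ (s : ℕ) (t : F), D.IsPosRoot s ∧ s ≠ D.simple i ∧
      (g : Matrix D.Idx D.Idx F) = D.x F s t} = (E.S F).Ui ⟨i, hi⟩ := by
    simp only [← and_assoc]
    rw [E.closure_x_eq, CL.Chev.StSys.Ui]
    simp only [E.isPosRoot_iff, E.simple_mk, ne_eq, Fin.ext_iff]
  rw [e, E.rootSubgroup_simple F hi, E.rootSubgroup_neg_simple F hi, E.posUnipotent_eq]
  exact ⟨sup_le (((E.S F).X_simple_le_U _).trans ((E.S F).U_le_normalizer_Ui _))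
    ((E.S F).X_neg_simple_le_normalizer_Ui _), (E.S F).Ui_sup_X _⟩

end Cfsg.Agent.S1045
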