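import Cfsg.Statements.S1052
import Cfsg.Agent.Chev.RealSt
import Cfsg.Agent.Chev.RealAll

set_option autoImplicit false
open Cfsg

namespace Cfsg.Agent.S1052

/-- `G = G'` for every type G₂, B₂, D₄, F₄, E₆, E₇, E₈ over every field, except G₂ and B₂ over the field with two elements. -/
theorem result {F : Type*} [Field F] (D : Cfsg.Lie.ChevalleyDatum) (hD : D ∈ [Cfsg.Lie.chevG2, Cfsg.Lie.chevB2, Cfsg.Lie.chevD4, Cfsg.Lie.chevF4, Cfsg.Lie.chevE6, Cfsg.Lie.chevE7, Cfsg.Lie.chevE8]) (h2 : D = Cfsg.Lie.chevG2 ∨ D = Cfsg.Lie.chevB2 → ∃ a : F, a ≠ 0 ∧ a ≠ 1) :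
    commutator ↥(D.group F) = ⊤ := by
  obtain ⟨E⟩ := CL.Chev.exists_real hD
  by_cases h : D = Cfsg.Lie.chevG2 ∨ D = Cfsg.Lie.chevB2
  · exact E.commutator_eq_top_of_exists (h2 h)
  · have h3 := CL.Chev.bond_of_mem (D := D) (by simp only [List.mem_cons] at hD ⊢; tauto)
    exact E.commutator_eq_top_of_bond h3.1 h3.2

end Cfsg.Agent.S1052
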