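import Cfsg.Statements.S1058
import Cfsg.Agent.Cls.OChev2
import Cfsg.Agent.Cls.OrthOddEven
import Cfsg.Agent.Cls.PermIso
import Cfsg.Agent.S1060
import Cfsg.Agent.Chev.RealAut

set_option autoImplicit false
open Cfsg

namespace Cfsg.Agent.S1058

open CL.Cls CL.Chev Cfsg.Lie Equiv

theorem exists_hom_of_family {D : ChevalleyDatum} (E : Real D) {K : Type*} [Field K] {G : Type*} [Group G]
    (y : Fin D.nroots → K → G) (add : ∀ r t u, y r (t + u) = y r t * y r u)
    (comm : ∀ (r s : Fin D.nroots) (t u : K), s ≠ r → (s : ℕ) ≠ D.neg r → y s u * y r t = y r t * y s u *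
      ((datT D r s).map fun c => y c.1 ((c.2.1 : K) * (-t) ^ c.2.2.1 * u ^ c.2.2.2)).prod)
    (gen : ∀ H : Subgroup G, (∀ r t, y r t ∈ H) → commutator G ≤ H)
    (hC : ∀ g : G, (∀ x ∈ commutator G, x * g = g * x) → g = 1) : ∃ φ : D.group K →* G, commutator G ≤ φ.range := by
  have hrel := (E.forall_relsAB_iff (FreeGroup.lift fun p : Fin D.nroots × K => y p.1 p.2)).2
    ⟨by simpa using add, fun r s t u h1 h2 => by simpa using comm r s t u h1 (mt (E.eq_neg_iff r s).2 h2)⟩
  let ψ : D.SteinbergCover K →* G := PresentedGroup.toGroup hrel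
  have hψ := gen ψ.range fun r t => ⟨.of (r, t), PresentedGroup.toGroup.of hrel⟩
  have hker : (E.θC K).ker ≤ ψ.ker := fun z hz => hC _ fun x hx => by
    obtain ⟨x, rfl⟩ := hψ hx
    rw [E.θC_ker] at hz
    rw [← map_mul, ← map_mul, Subgroup.mem_center_iff.1 hz x]
  refine ⟨MonoidHom.liftOfSurjective (E.θC K) (E.θC_surjective K) ⟨ψ, hker⟩, fun g hg => ?_⟩
  obtain ⟨x, rfl⟩ := hψ hg
  exact ⟨E.θC K x, MonoidHom.liftOfRightInverse_comp_apply _ _ _ _ x⟩

theorem b2X_comm {F : Type*} [Field F] (r s : Fin chevB2.nroots) (t u : F) (h1 : s ≠ r) (h2 : (s : ℕ) ≠ chevB2.neg r) :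
    b2X s u * b2X r t = b2X r t * b2X s u *
      ((datT chevB2 r s).map fun c => b2X c.1 ((c.2.1 : F) * (-t) ^ c.2.2.1 * u ^ c.2.2.2)).prod := by
  rw [b2X, b2X, EichTab.comm_of_ok polar_b2B qfOdd_b2B (b2_check.1 r) (b2_check.1 s) (b2_check.2 r s h1 h2), List.map_map]
  congr 3
  ext c : 1
  simp only [Function.comp_apply, EichTab.ev, EichTab.val, b2X]
  push_cast
  rw [neg_pow t]
  congr 2
  ring


/-- B₂(2) ≅ S₆. -/
theorem result {F : Type*} [Field F] [Fintype F] (hF : Fintype.card F = 2) :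
    Nonempty (↥(Cfsg.Lie.chevB2.group F) ≃* Equiv.Perm (Fin 6)) := by
  have h2 : (2 : F) = 0 := by simpa [hF] using FiniteField.cast_card_eq_zero F
  have : CharP F 2 := CharTwo.of_one_ne_zero_of_two_eq_zero one_ne_zero h2
  obtain ⟨e₁⟩ := nonempty_OG_qfOdd_equiv_sp (m := 2) (F := F)
  obtain ⟨e₂⟩ := nonempty_Sp4_two hF
  have hA : commutator (Perm (Fin 6)) = alternatingGroup (Fin 6) := alternatingGroup.commutator_perm_eq (by simp)
  obtain ⟨φ, hφ⟩ := exists_hom_of_family realB2 (fun r t => (e₁.trans e₂) (b2X r t))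
    (fun r t u => by rw [← map_mul]; exact congrArg _ (EichTab.val_add polar_b2B qfOdd_b2B (b2_check.1 r).1 (b2_check.1 r).2 t u))
    (fun r s t u h1 h2 => by
      simpa only [map_mul, map_list_prod, List.map_map, Function.comp_def] using congrArg (e₁.trans e₂) (b2X_comm r s t u h1 h2))
    (fun H hH => by
      rw [commutator_def, ← Subgroup.map_top_of_surjective (e₁.trans e₂).toMonoidHom (e₁.trans e₂).surjective,
        ← Subgroup.map_commutator]
      exact Subgroup.map_le_iff_le_comap.2 (commutator_le_of_b2X hH))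
    (fun g hg => (by decide +kernel : ∀ g : Perm (Fin 6), swap 0 1 * swap 1 2 * g = g * (swap 0 1 * swap 1 2) →
      swap 1 2 * swap 2 3 * swap 3 4 * swap 4 5 * g = g * (swap 1 2 * swap 2 3 * swap 3 4 * swap 4 5) → g = 1) g
      (hg _ (by rw [hA, Perm.mem_alternatingGroup]; decide)) (hg _ (by rw [hA, Perm.mem_alternatingGroup]; decide)))
  have hc : Nat.card (chevB2.group F) = 720 := by simpa using Cfsg.Agent.S1060.result hF
  have : Finite (chevB2.group F) := Nat.finite_of_card_ne_zero (by omega)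
  have h3 := Subgroup.card_le_of_le hφ
  have h4 := φ.ker.index_mul_card
  rw [hA, nat_card_alternatingGroup, Nat.card_fin] at h3
  rw [Subgroup.index_ker, hc] at h4
  have h5 : φ.ker = ⊥ := (Subgroup.eq_bot_iff_forall _).2 fun z hz => (realB2.full F).conj_injective (MulEquiv.ext fun g => by
    by_contra h
    have h6 : z ≠ g * z * g⁻¹ := fun e => h (by
      rw [map_one, MulAut.conj_apply, mul_inv_eq_iff_eq_mul]; exact (eq_mul_inv_iff_mul_eq.1 e))
    have h7 : z ≠ 1 := by rintro rfl; simp at h6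
    have : 2 < Nat.card φ.ker := (Set.two_lt_ncard_iff (s := (φ.ker : Set _)) (Set.toFinite _)).2
      ⟨1, z, g * z * g⁻¹, one_mem _, hz, φ.normal_ker.conj_mem z hz g, h7.symm, fun e => h7 (by simpa using e.symm), h6⟩
    have h8 : 360 ≤ Nat.card φ.range := h3
    nlinarith)
  exact ⟨MulEquiv.ofBijective φ ((Nat.bijective_iff_injective_and_card φ).2
    ⟨(MonoidHom.ker_eq_bot_iff φ).1 h5, by rw [hc, Nat.card_perm, Nat.card_fin]; rfl⟩)⟩

end Cfsg.Agent.S1058
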