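import Cfsg.Statements.S1072
import Cfsg.Agent.Chev.TwRealF4

set_option autoImplicit false
open Cfsg

namespace Cfsg.Agent.S1072

/-- ²F₄(2^(2m+1)) is simple for `m ≥ 1`. -/
theorem result {K : Type*} [Field K] [Fintype K] {m : ℕ} (hm : 1 ≤ m) (hK : Fintype.card K = 2 ^ (2 * m + 1)) :
    IsSimpleGroup ↥(Cfsg.Lie.twistedF4 K (2 ^ m)) ∧ ¬ IsMulCommutative ↥(Cfsg.Lie.twistedF4 K (2 ^ m)) := by
  obtain ⟨E⟩ := CL.Chev.exists_real (D := Cfsg.Lie.chevF4) (by simp)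
  exact (CL.Chev.isTwF4 E hK).isSimpleGroup
    (lt_of_lt_of_le (by norm_num) (Nat.pow_le_pow_right two_pos (by omega : 2 ≤ 2 * m + 1)))

end Cfsg.Agent.S1072
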