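import Cfsg.Statements.S1079
import Cfsg.Agent.Known.StbEmb
import Cfsg.Agent.S1035

set_option autoImplicit false
open Cfsg

namespace Cfsg.Agent.S1079

theorem card_E6 (K : Type*) [Field K] [Finite K] :
    Nat.card (CL.Chev.realE6.θS K).ker = Nat.gcd 3 (Nat.card K - 1) := by
  obtain ⟨P, P', Q, Q', d, h1, h2, h3, h4⟩ := Cfsg.Agent.S1035.smithE6
  rw [← h4]
  exact CL.Chev.realE6.card_center_SS (CL.Chev.realE6.SS_torus_injective CL.Chev.realE8 CL.Chev.embE6
    (CL.Chev.ker_torus_E8 _)) h1 h2 h3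

theorem card_E7 (K : Type*) [Field K] [Finite K] :
    Nat.card (CL.Chev.realE7.θS K).ker = Nat.gcd 2 (Nat.card K - 1) := by
  obtain ⟨P, P', Q, Q', d, h1, h2, h3, h4⟩ := Cfsg.Agent.S1035.smithE7
  rw [← h4]
  exact CL.Chev.realE7.card_center_SS (CL.Chev.realE7.SS_torus_injective CL.Chev.realE8 CL.Chev.embE7
    (CL.Chev.ker_torus_E8 _)) h1 h2 h3


/-- `|Z(Ḡ)| = gcd(3, q-1)` for E₆ and `gcd(2, q-1)` for E₇ over a field with `q` elements (the centre is dual to the weight lattice modulo the root lattice). -/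
theorem result {K : Type*} [Field K] [Fintype K] {q : ℕ} (hq : Fintype.card K = q)
    (p : Cfsg.Lie.ChevalleyDatum × ℕ) (hp : p ∈ [(Cfsg.Lie.chevE6, 3), (Cfsg.Lie.chevE7, 2)]) :
    Nat.card (Subgroup.center (p.1.SteinbergGroup K)) = Nat.gcd p.2 (q - 1) := by
  simp only [List.mem_cons, List.not_mem_nil, or_false] at hp
  subst hq
  rw [← Nat.card_eq_fintype_card]
  rcases hp with rfl | rfl
  · rw [← CL.Chev.realE6.θS_ker]; exact card_E6 K
  · rw [← CL.Chev.realE7.θS_ker]; exact card_E7 K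

end Cfsg.Agent.S1079
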