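import Cfsg.Statements.S1095
import Cfsg.Agent.Chev.RealAll

set_option autoImplicit false
open Cfsg

namespace Cfsg.Agent.S1095

/-- `n_p` (p = p_{i+1} fundamental) is the signed monomial matrix `h_{p_j} ↦ h_{p_j} - A_{p_j,p} h_p`, `e_s ↦ η_s e_{w_p(s)}`, with `η_s = ±1`, `η_p = η_{-p} = -1`, `η_s η_{w_p(s)} = (-1)^{A_{p,s}}`, `η_s η_{-s} = 1`. -/
theorem result {F : Type*} [Field F] (D : Cfsg.Lie.ChevalleyDatum) (hD : D ∈ [Cfsg.Lie.chevG2, Cfsg.Lie.chevB2, Cfsg.Lie.chevD4, Cfsg.Lie.chevF4, Cfsg.Lie.chevE6, Cfsg.Lie.chevE7, Cfsg.Lie.chevE8]) (i : ℕ) (hi : i < D.rank) :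
    ∃ η : ℕ → ℤ, (∀ s < D.nroots, η s = 1 ∨ η s = -1) ∧ η (D.simple i) = -1 ∧ η (D.neg (D.simple i)) = -1 ∧
      (∀ s < D.nroots, η s * η (D.reflectRoot i s) = (-1) ^ (D.cartan i s).natAbs ∧ η s * η (D.neg s) = 1) ∧
      D.nMat F (D.simple i) 1 = Matrix.of (fun (row col : D.Idx) =>
        Sum.elim
          (fun j' : Fin D.rank => Sum.elim
            (fun j : Fin D.rank => (if j' = j then (1 : F) else 0) - (if (j' : ℕ) = i then ((D.cartan j (D.simple i) : ℤ) : F) else 0))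
            (fun _ => (0 : F)) col)
          (fun s' : Fin D.nroots => Sum.elim
            (fun _ => (0 : F))
            (fun s : Fin D.nroots => if (s' : ℕ) = D.reflectRoot i s then ((η s : ℤ) : F) else 0) col)
          row) := by
  obtain ⟨E⟩ := CL.Chev.exists_real hD
  set p := E.R.simple ⟨i, hi⟩ with hp
  have hc := E.ok.compat_eta p
  set η := E.R.eta (CL.Chev.datM D) p
  have e0 : ∀ s : Fin D.nroots, (fun s : ℕ => if h : s < D.nroots then η ⟨s, h⟩ else 1) s = η s := fun s => dif_pos s.2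
  have e1 : ∀ s : Fin D.nroots, D.reflectRoot i s = E.R.refl p s := fun s => by
    rw [hp, E.R.refl_simple, E.R.sperm_apply, E.sref_eq]
  have e2 : D.simple i = p := (E.simple_eq ⟨i, hi⟩).symm
  refine ⟨fun s : ℕ => if h : s < D.nroots then η ⟨s, h⟩ else 1, fun s hs => ?_, ?_, ?_, fun s hs => ⟨?_, ?_⟩, ?_⟩
  · rw [e0 ⟨s, hs⟩]; exact hc.sign _
  · rw [e2, e0]; exact E.ok.eta_self p
  · rw [e2, ← E.neg_eq, e0, hc.neg_eq]; exact E.ok.eta_self p
  · rw [e1 ⟨s, hs⟩, e0 ⟨s, hs⟩, e0]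
    have h1 : ((E.S ℚ).n p 1 * (E.S ℚ).n p (-1)).val = 1 := by rw [(E.S ℚ).n_neg, mul_inv_cancel]; rfl
    rw [Units.val_mul, E.n_val, E.n_val, E.nMat_eq p one_ne_zero, E.nMat_eq p (neg_ne_zero.2 one_ne_zero),
      E.R.mono_mul hc.mem, E.R.refl_mul_self, E.R.mono_one_eq_diagonal] at h1
    have h2 := congrFun (congrFun h1 (Sum.inr ⟨s, hs⟩)) (Sum.inr ⟨s, hs⟩)
    simp only [Matrix.diagonal_apply_eq, Sum.elim_inr, Matrix.one_apply_eq, one_zpow, mul_one] at h2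
    rw [hp, E.cartan_eq, ← hp] at h2
    simp only at h2
    have h3 : ((-1 : ℚ) ^ (-D.cartan i s)) * (-1) ^ (D.cartan i s).natAbs = 1 := by
      rcases Int.even_or_odd (D.cartan i s) with h | h
      · rw [h.neg.neg_one_zpow, (Int.natAbs_even.2 h).neg_one_pow, one_mul]
      · rw [h.neg.neg_one_zpow, (Int.natAbs_odd.2 h).neg_one_pow]; norm_num
    have h4 : ((η ⟨s, hs⟩ : ℚ) * η (E.R.refl p ⟨s, hs⟩)) = (-1) ^ (D.cartan i s).natAbs := by
      linear_combination (-1) ^ (D.cartan i s).natAbs * h2 - ((η ⟨s, hs⟩ : ℚ) * η (E.R.refl p ⟨s, hs⟩)) * h3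
    exact_mod_cast h4
  · rw [← E.neg_eq ⟨s, hs⟩, e0 ⟨s, hs⟩, e0, mul_comm]; exact hc.neg _
  · rw [e2, E.nMat_eq p one_ne_zero]
    ext a b
    cases a with
    | inl j' =>
      cases b with
      | inl j =>
        simp only [CL.Chev.RS.mono, Matrix.of_apply, Sum.elim_inl, E.R.coroot_refl, E.cartan_eq, hp, E.R.coroot_simple,
          Pi.sub_apply, Pi.smul_apply, Pi.single_apply, Fin.ext_iff, smul_eq_mul]
        push_cast
        split_ifs <;> simp
      | inr s => rfl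
    | inr u =>
      cases b with
      | inl j => rfl
      | inr s => simp only [CL.Chev.RS.mono, Matrix.of_apply, Sum.elim_inr, e1, e0, Fin.ext_iff, one_zpow, mul_one]; rfl

end Cfsg.Agent.S1095
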