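import Cfsg.Statements.S1097
import Cfsg.Agent.Known.StbPres
import Cfsg.Agent.Chev.RealAll

set_option autoImplicit false
open Cfsg

namespace Cfsg.Agent.S1097

/-- Any homomorphism from the presented group to the Chevalley group with `x̄_r(t) ↦ x_r(t)` has kernel contained in `H̄ = ⟨h̄_p(t) : p fundamental, t ≠ 0⟩`. -/
theorem result {K : Type*} [Field K] (D : Cfsg.Lie.ChevalleyDatum) (hD : D ∈ [Cfsg.Lie.chevG2, Cfsg.Lie.chevB2, Cfsg.Lie.chevD4, Cfsg.Lie.chevF4, Cfsg.Lie.chevE6, Cfsg.Lie.chevE7, Cfsg.Lie.chevE8]) (θ : D.SteinbergGroup K →* ↥(D.group K))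
    (hθ : ∀ (r : ℕ) (t : K), r < D.nroots → ((θ (D.stGen K r t) : GL D.Idx K) : Matrix D.Idx D.Idx K) = D.x K r t) :
    θ.ker ≤ Subgroup.closure {h | ∃ (i : ℕ) (t : K), i < D.rank ∧ t ≠ 0 ∧ h = PresentedGroup.mk (D.steinbergRels K) (D.stH (D.simple i) t)} := by
  obtain ⟨E⟩ := CL.Chev.exists_real hD
  have hθ' : θ = E.θS K := PresentedGroup.ext fun ⟨r, t⟩ => by
    rw [CL.Chev.Real.θS, E.homS_of, ← CL.Chev.Real.stGen_coe]
    exact E.eq_SG (hθ r t r.2)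
  subst hθ'
  intro z hz
  have h := CL.Chev.StSys.mem_H_of_map (S' := E.SS K) (E.SS_map K ▸ E.SG_faithful)
    (E.SS_grp K ▸ Subgroup.mem_top z) hz
  rw [CL.Chev.StSys.H_eq_closure_simple] at h
  refine Subgroup.closure_mono ?_ h
  rintro _ ⟨i, t, ht, rfl⟩
  exact ⟨i, t, i.2, ht, by rw [← E.simple_eq, E.map_stH _ (E.SS K) fun _ _ => rfl]⟩

end Cfsg.Agent.S1097
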