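import Cfsg.Statements.S1100
import Cfsg.Agent.Chev.RealSt
import Cfsg.Agent.Chev.RealAll

set_option autoImplicit false
open Cfsg

namespace Cfsg.Agent.S1100

/-- Canonical form `g = b n_w u` (`b ∈ B`, `u ∈ U_w⁻ = ⟨X_r : r > 0, n_w X_r n_w⁻¹ ≤ V⟩`): such a decomposition exists for every element of the group; the coset `n_w H` is determined by `g`; and for a fixed representative `n_w` the factors `b`, `u` are unique. -/
theorem result {F : Type*} [Field F] (D : Cfsg.Lie.ChevalleyDatum) (hD : D ∈ [Cfsg.Lie.chevG2, Cfsg.Lie.chevB2, Cfsg.Lie.chevD4, Cfsg.Lie.chevF4, Cfsg.Lie.chevE6, Cfsg.Lie.chevE7, Cfsg.Lie.chevE8]) :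
    (∀ g ∈ D.group F, ∃ b ∈ D.borelSubgroup F, ∃ n ∈ D.monomialSubgroup F,
      ∃ u ∈ Subgroup.closure {x : GL D.Idx F | ∃ (r : ℕ) (t : F), D.IsPosRoot r ∧
            (D.rootSubgroup F r).map (MulAut.conj n).toMonoidHom ≤ D.negUnipotent F ∧ (x : Matrix D.Idx D.Idx F) = D.x F r t},
        g = b * n * u) ∧
    (∀ (b b' n n' u u' : GL D.Idx F), b ∈ D.borelSubgroup F → b' ∈ D.borelSubgroup F →
      n ∈ D.monomialSubgroup F → n' ∈ D.monomialSubgroup F →
      u ∈ Subgroup.closure {x : GL D.Idx F | ∃ (r : ℕ) (t : F), D.IsPosRoot r ∧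
            (D.rootSubgroup F r).map (MulAut.conj n).toMonoidHom ≤ D.negUnipotent F ∧ (x : Matrix D.Idx D.Idx F) = D.x F r t} →
      u' ∈ Subgroup.closure {x : GL D.Idx F | ∃ (r : ℕ) (t : F), D.IsPosRoot r ∧
            (D.rootSubgroup F r).map (MulAut.conj n').toMonoidHom ≤ D.negUnipotent F ∧ (x : Matrix D.Idx D.Idx F) = D.x F r t} →
      b * n * u = b' * n' * u' → n⁻¹ * n' ∈ D.diagonalSubgroup F ∧ (n = n' → b = b' ∧ u = u')) := by
  obtain ⟨E⟩ := CL.Chev.exists_real hD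
  have key : ∀ {n : GL D.Idx F} {w}, (E.S F).Induces n w →
      Subgroup.closure {x : GL D.Idx F | ∃ (r : ℕ) (t : F), D.IsPosRoot r ∧
        (D.rootSubgroup F r).map (MulAut.conj n).toMonoidHom ≤ D.negUnipotent F ∧
        (x : Matrix D.Idx D.Idx F) = D.x F r t} = (E.S F).XS (E.R.inv w) := fun {n w} h => by
    simp only [← and_assoc]
    rw [E.closure_x_eq]
    simp only [E.isPosRoot_iff, E.rootSubgroup_eq, E.negUnipotent_eq, h.map_X, (E.faithful F).X_le_V_iff]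
    rfl
  rw [E.group_eq, E.borelSubgroup_eq, E.monomialSubgroup_eq, E.diagonalSubgroup_eq]
  constructor
  · intro g hg
    obtain ⟨n, w, hn, u, hu, u', hu', rfl⟩ := CL.Chev.StSys.exists_bruhat hg
    exact ⟨u, (E.S F).U_le_B hu, n, CL.Chev.StSys.NW_mem_N hn, u', key (CL.Chev.StSys.NW_induces hn) ▸ hu', rfl⟩
  · intro b b' n n' u u' hb hb' hn hn' hu hu' e
    obtain ⟨w, -, hw⟩ := (E.S F).exists_induces_of_mem_N hn
    obtain ⟨w', -, hw'⟩ := (E.S F).exists_induces_of_mem_N hn'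
    refine ⟨?_, ?_⟩
    · rw [key hw] at hu
      rw [key hw'] at hu'
      exact (E.faithful F).inv_mul_mem_H_of_BNB hn hn' hb ((E.S F).U_le_B ((E.S F).XS_mono (fun _ h => h.1) hu)) hb'
        ((E.S F).U_le_B ((E.S F).XS_mono (fun _ h => h.1) hu')) e
    · rintro rfl
      rw [key hw] at hu hu'
      exact (E.faithful F).normal_form_unique hw hb hb' hu hu' e

end Cfsg.Agent.S1100
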