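import Cfsg.Statements.S1116
import Cfsg.Agent.Chev.TwRealG2

set_option autoImplicit false
open Cfsg

namespace Cfsg.Agent.S1116

/-- ²G₂(3^(2m+1)) (m ≥ 1) equals its derived subgroup. -/
theorem result {K : Type*} [Field K] [Fintype K] {m : ℕ} (hK : Fintype.card K = 3 ^ (2 * m + 1)) (hm : 1 ≤ m) : commutator ↥(Cfsg.Lie.twistedG2 K (3 ^ m)) = ⊤ := by
  obtain ⟨E⟩ := CL.Chev.exists_real (D := Cfsg.Lie.chevG2) (by simp)
  exact (CL.Chev.isTwG2 E hK).commutator_eq_top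
    (lt_of_lt_of_le (by norm_num) (Nat.pow_le_pow_right three_pos (by omega : 2 ≤ 2 * m + 1)))

end Cfsg.Agent.S1116
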