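import Cfsg.Statements.S1118
import Cfsg.Agent.Chev.Rank1Invol

set_option autoImplicit false
open Cfsg

namespace Cfsg.Agent.S1118

open CL.Chev.Rank1 MulAction

/-- In the rank-one set-up (`G` finite and doubly transitive on `Ω`, `t` an involution moving `a`, `Q` normal in `G_a` with `G_a = Q D`, `Q ⊓ D = 1` for the two-point stabiliser `D = G_a ⊓ G_{t • a}`, `|Q|` even, `|D|` odd), the normaliser of a subset of `Q` containing a non-identity element lies in `G_a`; consequently `N_G(Q) = N_G(G_a) = G_a`. -/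
theorem result {G Ω : Type*} [Group G] [Finite G] [MulAction G Ω] {a : Ω} {t : G} {Q : Subgroup G}
    (hS : Cfsg.IsRankOneSetup G Ω a t Q) :
    (∀ X : Set G, X ⊆ (Q : Set G) → (∃ x ∈ X, x ≠ 1) → Subgroup.normalizer X ≤ MulAction.stabilizer G a) ∧
      Subgroup.normalizer (Q : Set G) = MulAction.stabilizer G a ∧
      Subgroup.normalizer (MulAction.stabilizer G a : Set G) = MulAction.stabilizer G a := by
  have h1 : ∀ X : Set G, X ⊆ (Q : Set G) → (∃ x ∈ X, x ≠ 1) → Subgroup.normalizer X ≤ stabilizer G a := by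
    rintro X hX ⟨x, hx, hx1⟩ g hg
    exact fix_of_conj_mem hS (hX hx) hx1 (hX ((Subgroup.mem_set_normalizer_iff.1 hg x).1 hx))
  obtain ⟨s, hsQ, hs1, hs2⟩ := exists_invol_Q hS
  refine ⟨h1, le_antisymm (h1 _ subset_rfl ⟨s, hsQ, hs1⟩) ?_, le_antisymm ?_ Subgroup.le_normalizer⟩
  · intro h hh
    rw [Subgroup.mem_normalizer_iff]
    intro x
    refine ⟨hS.conj_mem h hh x, fun hx => ?_⟩
    have := conj_mem' hS hh hx
    simpa only [mul_assoc, inv_mul_cancel_left, inv_mul_cancel, mul_one] using this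
  · intro g hg
    have h2 : g * s * g⁻¹ ∈ stabilizer G a := (Subgroup.mem_normalizer_iff.1 hg s).1 (hS.le hsQ)
    refine fix_of_conj_mem hS hsQ hs1 (invol_mem_Q hS h2 ?_)
    calc g * s * g⁻¹ * (g * s * g⁻¹) = g * (s * s) * g⁻¹ := by group
      _ = 1 := by rw [hs2]; group

end Cfsg.Agent.S1118
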