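import Cfsg.Statements.S1120
import Cfsg.Agent.Chev.Rank1Invol

set_option autoImplicit false
open Cfsg

namespace Cfsg.Agent.S1120

open CL.Chev.Rank1 MulAction

/-- In the rank-one set-up (`G` finite and doubly transitive on `Ω`, `t` an involution moving `a`, `Q` normal in `G_a` with `G_a = Q D`, `Q ⊓ D = 1` for the two-point stabiliser `D = G_a ⊓ G_{t • a}`, `|Q|` even, `|D|` odd), if `G` has 2-rank at least 2 then `O_{2'}(G)` equals the normal core of `G_a`. -/
theorem result {G Ω : Type*} [Group G] [Finite G] [MulAction G Ω] {a : Ω} {t : G} {Q : Subgroup G}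
    (hS : Cfsg.IsRankOneSetup G Ω a t Q)
    (h2 : ∃ x y : G, x ≠ 1 ∧ y ≠ 1 ∧ x ≠ y ∧ x * x = 1 ∧ y * y = 1 ∧ x * y = y * x) :
    Cfsg.pPrimeCore 2 G = (MulAction.stabilizer G a).normalCore := by
  obtain ⟨x, y, hx1, hy1, hxy, hx2, hy2, hc⟩ := h2
  apply le_antisymm
  · refine sSup_le ?_
    rintro N ⟨hN, hodd⟩
    have hodd' : Odd (Nat.card N) := Nat.coprime_two_right.1 hodd
    rw [Subgroup.normal_le_normalCore]
    -- move the pair so that both fix `a`
    obtain ⟨b, hb⟩ := invol_exists_fix hS hx1 hx2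
    obtain ⟨g, rfl⟩ := exists_smul_eq hS a b
    set x' := g⁻¹ * x * g with hx'
    set y' := g⁻¹ * y * g with hy'
    have hx'a : x' • a = a := by rw [hx', mul_smul, mul_smul, hb, inv_smul_smul]
    have conj_ne : ∀ z : G, z ≠ 1 → g⁻¹ * z * g ≠ 1 := fun z hz h => hz (by
      calc z = g * (g⁻¹ * z * g) * g⁻¹ := by group
        _ = 1 := by rw [h]; group)
    have conj_sq : ∀ z g : G, z * z = 1 → g⁻¹ * z * g * (g⁻¹ * z * g) = 1 := fun z g hz => by
      calc g⁻¹ * z * g * (g⁻¹ * z * g) = g⁻¹ * (z * z) * g := by group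
        _ = 1 := by rw [hz]; group
    have hc' : x' * y' = y' * x' := by
      calc x' * y' = g⁻¹ * (x * y) * g := by rw [hx', hy']; group
        _ = _ := by rw [hc, hx', hy']; group
    have hy'a : y' • a = a := fix_of_commute hS (invol_mem_Q hS hx'a (conj_sq x g hx2)) (conj_ne x hx1) hc'
    intro o ho
    by_contra hoa
    have hu : (o⁻¹ * y' * o) • a ≠ a := by
      intro h
      apply hoa
      refine invol_fix_unique hS hy'a (conj_ne y hy1) (conj_sq y g hy2) ?_
      rw [mul_smul, mul_smul, inv_smul_eq_iff] at h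
      exact h
    have hoddm := odd_mul_invol hS hx'a (conj_ne x hx1) (conj_sq x g hx2) hu (conj_sq y' o (conj_sq y g hy2))
    have hsq : x' * y' * (x' * y') = 1 := by
      calc x' * y' * (x' * y') = x' * (y' * x') * y' := by group
        _ = (x' * x') * (y' * y') := by rw [← hc']; group
        _ = 1 := by rw [conj_sq x g hx2, conj_sq y g hy2, mul_one]
    let π := QuotientGroup.mk' N
    have hπ : π (x' * (o⁻¹ * y' * o)) = π (x' * y') := by
      have : π o = 1 := (QuotientGroup.eq_one_iff o).2 ho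
      simp only [map_mul, map_inv, this, inv_one, one_mul, mul_one]
    have h1 : π (x' * y') = 1 := by
      apply eq_one_of_odd_of_sq
      · rw [← hπ]; exact Odd.of_dvd_nat hoddm (orderOf_map_dvd π _)
      · rw [← map_mul, hsq, map_one]
    have h3 : x' * y' = 1 :=
      eq_one_of_odd_of_sq (odd_orderOf_of_mem hodd' ((QuotientGroup.eq_one_iff _).1 h1)) hsq
    apply hxy
    have h4 : x' = y' := by
      have h5 : y'⁻¹ = y' := inv_eq_of_sq (conj_sq y g hy2)
      rw [← h5]
      exact eq_inv_of_mul_eq_one_left h3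
    rw [hx', hy'] at h4
    exact mul_left_cancel (mul_right_cancel h4)
  · refine le_sSup ⟨inferInstance, Nat.coprime_two_right.2 ?_⟩
    refine Odd.of_dvd_nat hS.odd_card (Subgroup.card_dvd_of_le fun x hx => ⟨Subgroup.normalCore_le _ hx, ?_⟩)
    have := hx t⁻¹
    rw [inv_inv, mem_stabilizer_iff, mul_smul, mul_smul, inv_smul_eq_iff] at this
    exact this

end Cfsg.Agent.S1120
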