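import Cfsg.Statements.S1127
import Cfsg.Agent.Chev.Rank1Invol

set_option autoImplicit false
open Cfsg

namespace Cfsg.Agent.S1127

open CL.Chev.Rank1 MulAction

/-- In the rank-one set-up (`G` finite and doubly transitive on `Ω`, `t` an involution moving `a`, `Q` normal in `G_a` with `G_a = Q D`, `Q ⊓ D = 1` for the two-point stabiliser `D = G_a ⊓ G_{t • a}`, `|Q|` even, `|D|` odd): if `s` is an involution of `G_a` and `r ∈ Q` satisfy `t s t = r⁻¹ t r`, then `C_D(t) = C_D(s)`; moreover `C_D(t) ⊓ C_D(K) = C_D(I ∩ G_a)`, where `K` is the set of elements of `D` inverted by `t` and `I ∩ G_a` the set of involutions of `G_a`. -/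
theorem result {G Ω : Type*} [Group G] [Finite G] [MulAction G Ω] {a : Ω} {t : G} {Q : Subgroup G}
    (hS : Cfsg.IsRankOneSetup G Ω a t Q) :
    (∀ s r : G, s ∈ Cfsg.involutionsIn (MulAction.stabilizer G a : Set G) → r ∈ Q → t * s * t = r⁻¹ * t * r →
        (MulAction.stabilizer G a ⊓ MulAction.stabilizer G (t • a)) ⊓ Subgroup.centralizer {t} = (MulAction.stabilizer G a ⊓ MulAction.stabilizer G (t • a)) ⊓ Subgroup.centralizer {s}) ∧
      (MulAction.stabilizer G a ⊓ MulAction.stabilizer G (t • a)) ⊓ Subgroup.centralizer {t} ⊓ Subgroup.centralizer (Cfsg.invertedBy (MulAction.stabilizer G a ⊓ MulAction.stabilizer G (t • a)) t) =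
        (MulAction.stabilizer G a ⊓ MulAction.stabilizer G (t • a)) ⊓ Subgroup.centralizer (Cfsg.involutionsIn (MulAction.stabilizer G a : Set G)) := by
  constructor
  · intro s r hs hr e
    ext d
    simp only [Subgroup.mem_inf (p := D a t), Subgroup.mem_centralizer_singleton_iff]
    exact ⟨fun h => ⟨h.1, (V_commute_structure hS hs hr e h.1 h.2.symm).1.symm⟩,
      fun h => ⟨h.1, (commute_t_of_commute_structure hS hs hr e h.1 h.2.symm).symm⟩⟩
  · obtain ⟨s, hs, r, hr, e⟩ := exists_structure hS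
    ext d
    rw [Subgroup.mem_inf (p := D a t), Subgroup.mem_inf (p := D a t ⊓ _), Subgroup.mem_inf (p := D a t),
      Subgroup.mem_centralizer_singleton_iff, Subgroup.mem_centralizer_iff, Subgroup.mem_centralizer_iff]
    constructor
    · rintro ⟨⟨hd, hdt⟩, hK⟩
      refine ⟨hd, fun s' hs' => ?_⟩
      obtain ⟨k, hk, rfl⟩ := K_conj_surj hS hs hs'
      have h1 := (V_commute_structure hS hs hr e hd hdt.symm).1
      rw [mul_assoc, hK k hk, ← mul_assoc, mul_assoc _ s d, h1, ← mul_assoc, hK _ (inverted_inv hk)]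
      group
    · rintro ⟨hd, hI⟩
      have hdt := commute_t_of_commute_structure hS hs hr e hd (hI s hs)
      refine ⟨⟨hd, hdt.symm⟩, fun k hk => ?_⟩
      have h1 : d⁻¹ * k * d = k := by
        apply K_conj_inj hS hs (inverted_conj hk hd hdt) hk
        have h2 := hI _ (I_conj hs hk.1.1)
        calc (d⁻¹ * k * d)⁻¹ * s * (d⁻¹ * k * d) = d⁻¹ * k⁻¹ * (d * s) * d⁻¹ * k * d := by group
          _ = d⁻¹ * (k⁻¹ * s * k * d) := by rw [← hI s hs]; group
          _ = _ := by rw [h2]; group
      conv_rhs => rw [← h1]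
      group

end Cfsg.Agent.S1127
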