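import Cfsg.Statements.S1139
import Cfsg.Agent.Suz.HigmanExt

set_option autoImplicit false
open Cfsg

namespace Cfsg.Agent.S1139

/-- A Suzuki 2-group `P` with `|P| = |Z(P)|²` is of type A: for some finite field `F` with `|F| = |Z(P)|` and some field automorphism `φ ≠ 1` of odd order, `P` is isomorphic to the group of lower unitriangular matrices with rows `(1,0,0)`, `(x,1,0)`, `(y, φ x, 1)`. -/
theorem result {P : Type*} [Group P] (hP : Cfsg.IsSuzukiTwoGroup P)
    (hcard : Nat.card P = Nat.card (Subgroup.center P) ^ 2) :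
    ∃ (F : Type) (_ : Field F) (_ : Fintype F) (φ : F ≃+* F), Fintype.card F = Nat.card (Subgroup.center P) ∧
      φ ≠ RingEquiv.refl F ∧ Odd (orderOf φ) ∧ Nonempty (P ≃* Cfsg.suzukiTypeA F (φ : F →+* F)) := by
  obtain ⟨ξ, n, -, S, hP'⟩ := CL.Higman.exists_setup_of_suzuki hP
  rw [S.center_eq hP', S.card_Om] at hcard ⊢
  obtain ⟨κ, μ, h⟩ := S.exists_cover_top (S.sq_mem_Om hP') hcard
  obtain ⟨ω, l, hω⟩ := S.exists_omC
  obtain ⟨κ', ω', μ', θ, -, -, -, hθ, -, -, -, e, -⟩ := h.exists_typeA hω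
  obtain ⟨e'⟩ := CL.Higman.nonempty_twProd_equiv_typeA (θ : GaloisField 2 n →+* GaloisField 2 n)
  refine ⟨GaloisField 2 n, inferInstance, Fintype.ofFinite _, θ, Fintype.card_eq_nat_card, ?_, hθ,
    ⟨Subgroup.topEquiv.symm.trans (e.trans e')⟩⟩
  rintro rfl
  refine hP' fun a ha b hb => ?_
  have := CL.Higman.twProd_comm (fun x y => mul_comm x y) (e ⟨a, ha⟩) (e ⟨b, hb⟩)
  rw [← map_mul, ← map_mul] at this
  exact congrArg Subtype.val (e.injective this)

end Cfsg.Agent.S1139
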