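import Cfsg.Statements.S1148
import Cfsg.Agent.Perm.ONan7

set_option autoImplicit false
open Cfsg

namespace Cfsg.Agent.S1148

/-- Let `G` be finite simple with a (B,N)-pair of rank 1, `B = U H` with `U` nilpotent normal in `B`, `H = B ⊓ N`, `U ⊓ H = 1`, where `[G : B] = p^(3n) + 1` for an odd prime `p`, `|U| = p^(3n)` and `H` is cyclic of order `(p^(2n) - 1)/gcd(3, p^n + 1)`. Then `G ≅ PSU₃(p^n)`. -/
theorem result {G : Type*} [Group G] [Finite G] [IsSimpleGroup G]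
    (P : Cfsg.BNPair G) (h1 : P.rank = 1) {p n : ℕ} (hp : p.Prime) (hp2 : p ≠ 2) (hn : 1 ≤ n)
    (U : Subgroup G) (hUB : U ≤ P.B) (hUn : ∀ b ∈ P.B, ∀ u ∈ U, b * u * b⁻¹ ∈ U)
    (hUnil : Group.IsNilpotent U) (hsplit : U ⊔ (P.B ⊓ P.N) = P.B) (hdisj : U ⊓ (P.B ⊓ P.N) = ⊥)
    (hind : P.B.index = p ^ (3 * n) + 1) (hU : Nat.card U = p ^ (3 * n))
    (hHc : IsCyclic ↥(P.B ⊓ P.N))
    (hH : Nat.gcd 3 (p ^ n + 1) * Nat.card ↥(P.B ⊓ P.N) = p ^ (2 * n) - 1) :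
    ∃ (F : Type) (_ : Field F) (_ : Fintype F), Fintype.card F = (p ^ n) ^ 2 ∧
      Nonempty (G ≃* Cfsg.PSU 3 F (p ^ n)) := by
  have hq : 1 < p ^ (3 * n) := Nat.one_lt_pow (by omega) hp.one_lt
  obtain ⟨b, h2, h3⟩ := CL.Perm.exists_splitCyc_of_bn P h1
    ((P.B.normalCore_normal).eq_bot_or_eq_top.resolve_right fun e => by
      have := P.B.normalCore_le
      rw [e, top_le_iff] at this
      rw [this, Subgroup.index_top] at hind
      omega) hUB hUn hsplit (by rw [hind, hU]) hHc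
  have h4 : 1 ≤ p ^ (2 * n) := Nat.one_le_pow _ _ hp.pos
  have h5 : Nat.gcd 3 (p ^ n + 1) ≤ 3 := Nat.gcd_le_left _ (by decide)
  refine CL.Perm.ONan.psu_of_simple (d := Nat.gcd 3 (p ^ n + 1)) ⟨h2, hp, hp2, by omega,
    by rw [hU, ← pow_mul, mul_comm], by rw [h3, hH, ← pow_mul, mul_comm n]; omega,
    Odd.of_dvd_nat (by decide) (Nat.gcd_dvd_left _ _), Nat.gcd_dvd_right _ _⟩ h5

end Cfsg.Agent.S1148
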