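import Cfsg.Statements.S1151
import Cfsg.Agent.Chev.ReeInst
import Cfsg.Agent.Chev.ReeKlein

set_option autoImplicit false
open Cfsg

namespace Cfsg.Agent.S1151

/-- In the small Ree group ²G₂(q), q = 3^(2m+1), realised as G¹ inside the Chevalley group G₂ over the field with q elements (θ the 3^m-th power map), with H¹ = G¹ ∩ H and U¹ = G¹ ∩ U the intersections with the ambient diagonal and positive unipotent subgroups: `H¹` has exactly `(q - 1)/2` elements of odd order, and each non-identity one centralises no non-identity element of `U¹`. -/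
theorem result {K : Type*} [Field K] [Fintype K] {m : ℕ} (hK : Fintype.card K = 3 ^ (2 * m + 1)) :
    2 * Nat.card {h : ↥(Cfsg.Lie.chevG2.diagonalSubgroup K ⊓ Cfsg.Lie.twistedG2 K (3 ^ m)) // Odd (orderOf h)} = 3 ^ (2 * m + 1) - 1 ∧
      ∀ h ∈ (Cfsg.Lie.chevG2.diagonalSubgroup K ⊓ Cfsg.Lie.twistedG2 K (3 ^ m)), h ≠ 1 → Odd (orderOf h) →
        (Cfsg.Lie.chevG2.posUnipotent K ⊓ Cfsg.Lie.twistedG2 K (3 ^ m)) ⊓ Subgroup.centralizer {h} = ⊥ := by
  obtain ⟨M, hU, hH, -⟩ := CL.Chev.Ree.exists_model hK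
  refine ⟨?_, fun h hh h1 ho => eq_bot_iff.2 fun u ⟨hu, hc⟩ => ?_⟩
  · let e : Kˣ ≃* ↥(Lie.chevG2.diagonalSubgroup K ⊓ Lie.twistedG2 K (3 ^ m)) := M.unitsEquivH.trans (MulEquiv.ofBijective
      (((Subgroup.subtype _).comp M.H.subtype).codRestrict _ fun g => Subgroup.mem_inf.2 ⟨(hH _).1 g.2, g.1.2⟩)
      ⟨fun a b h => Subtype.ext (Subtype.ext (by simpa using Subtype.ext_iff.1 h)), fun g => ⟨⟨⟨g, g.2.2⟩, (hH _).2 g.2.1⟩, rfl⟩⟩)
    rw [← Nat.card_congr (e.toEquiv.subtypeEquiv (p := fun k => k ∈ (powMonoidHom 2 : Kˣ →* Kˣ).range) fun k => ?_)]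
    · have h8 := M.toTw.card_mod_eight
      rw [← hK, ← Nat.card_eq_fintype_card, ← Nat.card_units, ← Subgroup.index_mul_card (powMonoidHom 2 : Kˣ →* Kˣ).range,
        IsCyclic.index_powMonoidHom_range, Nat.card_units, Nat.gcd_eq_right (by omega)]
    · have h8 := M.toTw.card_mod_eight
      have h1 := orderOf_dvd_natCard k
      rw [MulEquiv.toEquiv_eq_coe, EquivLike.coe_coe, e.orderOf_eq]
      rw [Nat.card_units] at h1
      refine ⟨?_, fun ⟨j, hj⟩ => ⟨k ^ (j + 1), ?_⟩⟩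
      · rintro ⟨l, rfl⟩
        refine Odd.of_dvd_nat (n := (Nat.card K - 1) / 2) (Nat.odd_iff.2 (by omega)) (orderOf_dvd_of_pow_eq_one ?_)
        rw [powMonoidHom_apply, ← pow_mul, Nat.mul_div_cancel' (by omega), ← Nat.card_units, pow_card_eq_one']
      · rw [powMonoidHom_apply, ← pow_mul, show (j + 1) * 2 = orderOf k + 1 by omega, pow_succ, pow_orderOf_eq_one, one_mul]
  · obtain ⟨k, hk⟩ := M.mem_H.1 ((hH ⟨h, hh.2⟩).2 hh.1)
    obtain rfl : h = M.D k := congrArg Subtype.val hk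
    refine congrArg Subtype.val (M.eq_one_of_comm_D (k := k) ?_ ?_ ((hU ⟨u, hu.2⟩).2 hu.1)
      (Subtype.ext (Subgroup.mem_centralizer_singleton_iff.1 hc).symm))
    · rintro rfl; simp at h1
    · rintro rfl
      rw [Subgroup.orderOf_coe, show orderOf (M.D (-1)) = 2 from M.orderOf_h₀] at ho
      exact absurd ho (by decide)

end Cfsg.Agent.S1151
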