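import Cfsg.Statements.S1165
import Cfsg.Agent.Chev.Rank1Invol

set_option autoImplicit false
open Cfsg

namespace Cfsg.Agent.S1165

open CL.Chev.Rank1 MulAction

/-- In the rank-one set-up (`G` finite and doubly transitive on `Ω`, `t` an involution moving `a`, `Q` normal in `G_a` with `G_a = Q D`, `Q ⊓ D = 1` for the two-point stabiliser `D = G_a ⊓ G_{t • a}`, `|Q|` even, `|D|` odd): every `x ∈ Q`, `x ≠ 1`, determines unique `g, f ∈ Q`, `h ∈ D` with `t x t = g h t f` (a consequence of the canonical form). For these: (H1) the `f`-part of `x⁻¹` is `g⁻¹`; (H2) the `f`-part of `f` is `x`; (H3) for `a ∈ D` the `f`-part of `a⁻¹ x a` is `(t a t)⁻¹ f (t a t)`; (H4) the `h`-part of `a⁻¹ x a` is `(t a t)⁻¹ h a`, that of `x⁻¹` is `t h⁻¹ t`, and that of `f` is `h⁻¹`. -/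
theorem result {G Ω : Type*} [Group G] [Finite G] [MulAction G Ω] {a : Ω} {t : G} {Q : Subgroup G}
    (hS : Cfsg.IsRankOneSetup G Ω a t Q)
    (x g h f : G) (hx : x ∈ Q) (hx1 : x ≠ 1) (hg : g ∈ Q) (hh : h ∈ (MulAction.stabilizer G a ⊓ MulAction.stabilizer G (t • a))) (hf : f ∈ Q)
    (heq : t * x * t = g * h * t * f) :
    (∀ g₁ h₁ f₁ : G, g₁ ∈ Q → h₁ ∈ (MulAction.stabilizer G a ⊓ MulAction.stabilizer G (t • a)) → f₁ ∈ Q → t * x⁻¹ * t = g₁ * h₁ * t * f₁ →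
        f₁ = g⁻¹ ∧ h₁ = t * h⁻¹ * t) ∧
      (∀ g₂ h₂ f₂ : G, g₂ ∈ Q → h₂ ∈ (MulAction.stabilizer G a ⊓ MulAction.stabilizer G (t • a)) → f₂ ∈ Q → t * f * t = g₂ * h₂ * t * f₂ →
        f₂ = x ∧ h₂ = h⁻¹) ∧
      ∀ c ∈ (MulAction.stabilizer G a ⊓ MulAction.stabilizer G (t • a)), ∀ g₃ h₃ f₃ : G, g₃ ∈ Q → h₃ ∈ (MulAction.stabilizer G a ⊓ MulAction.stabilizer G (t • a)) → f₃ ∈ Q →
        t * (c⁻¹ * x * c) * t = g₃ * h₃ * t * f₃ →
          f₃ = (t * c * t)⁻¹ * f * (t * c * t) ∧ h₃ = (t * c * t)⁻¹ * h * c := by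
  have ht := hS.mul_self
  refine ⟨fun g₁ h₁ f₁ hg₁ hh₁ hf₁ e => ?_, fun g₂ h₂ f₂ hg₂ hh₂ hf₂ e => ?_,
    fun c hc g₃ h₃ f₃ hg₃ hh₃ hf₃ e => ?_⟩
  · have e' : t * x⁻¹ * t = f⁻¹ * (t * h⁻¹ * t) * t * g⁻¹ := by
      have := congrArg (·⁻¹) heq
      simp only [mul_inv_rev, t_inv hS] at this
      calc t * x⁻¹ * t = f⁻¹ * (t * h⁻¹) * g⁻¹ := by rw [mul_assoc, this]; group
        _ = f⁻¹ * (t * h⁻¹) * (t * t) * g⁻¹ := by rw [ht, mul_one]
        _ = _ := by group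
    obtain ⟨-, e2, e3⟩ := canon_unique hS hg₁ hh₁ hf₁ (inv_mem hf) (t_conj_mem_D hS (inv_mem hh))
      (inv_mem hg) (e.symm.trans e')
    exact ⟨e3, e2⟩
  · have e' : t * f * t = (h⁻¹ * g⁻¹ * h) * h⁻¹ * t * x := by
      calc t * f * t = (g * h)⁻¹ * (g * h * t * f) * t := by group
        _ = (g * h)⁻¹ * t * x * (t * t) := by rw [← heq]; group
        _ = _ := by rw [ht]; group
    obtain ⟨-, e2, e3⟩ := canon_unique hS hg₂ hh₂ hf₂ (conj_mem' hS hh.1 (inv_mem hg)) (inv_mem hh) hx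
      (e.symm.trans e')
    exact ⟨e3, e2⟩
  · have hc' := t_conj_mem_D hS hc
    have e' : t * (c⁻¹ * x * c) * t = ((t * c * t)⁻¹ * g * (t * c * t)) * ((t * c * t)⁻¹ * h * c) * t *
        ((t * c * t)⁻¹ * f * (t * c * t)) := by
      have h1 : (t * c * t)⁻¹ = t * c⁻¹ * t := by simp only [mul_inv_rev, t_inv hS, mul_assoc]
      calc t * (c⁻¹ * x * c) * t = t * c⁻¹ * (t * t) * x * (t * t) * c * t := by rw [ht]; group
        _ = (t * c⁻¹ * t) * (t * x * t) * (t * c * t) := by group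
        _ = (t * c * t)⁻¹ * g * h * (c * (t * t) * c⁻¹ * t) * f * (t * c * t) := by
            rw [heq, ht, h1]; group
        _ = (t * c * t)⁻¹ * g * h * c * t * (t * c⁻¹ * t) * f * (t * c * t) := by group
        _ = _ := by rw [← h1]; group
    obtain ⟨-, e2, e3⟩ := canon_unique hS hg₃ hh₃ hf₃ (conj_mem' hS hc'.1 hg)
      (mul_mem (mul_mem (inv_mem hc') hh) hc) (conj_mem' hS hc'.1 hf) (e.symm.trans e')
    exact ⟨e3, e2⟩

end Cfsg.Agent.S1165
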