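import Cfsg.Statements.S1167
import Cfsg.Agent.Chev.Rank1Zass

set_option autoImplicit false
open Cfsg

namespace Cfsg.Agent.S1167

open CL.Chev.Rank1 MulAction

/-- Let `G` be a finite simple Zassenhaus group on `Ω`, `U` a normal subgroup of `G_a` regular on `Ω` minus `a` which is an abelian 2-group, and `v` an involution with `v • a ≠ a`. Then there is a unique `u₀ ∈ U`, `u₀ ≠ 1`, with `v u₀ v = u₀ v u₀`. -/
theorem result {G Ω : Type*} [Group G] [Finite G] [MulAction G Ω] [Finite Ω]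
    (hZ : Cfsg.IsZassenhausGroup G Ω) [IsSimpleGroup G] {a : Ω}
    (U : Subgroup G) (hUle : U ≤ MulAction.stabilizer G a)
    (hUn : ∀ h ∈ MulAction.stabilizer G a, ∀ u ∈ U, h * u * h⁻¹ ∈ U)
    (hreg : ∀ c d : Ω, c ≠ a → d ≠ a → ∃! u : U, (u : G) • c = d)
    (hU2 : IsPGroup 2 U) (hUab : ∀ u ∈ U, ∀ u' ∈ U, u * u' = u' * u)
    (v : G) (hv1 : v ≠ 1) (hv2 : v * v = 1) (hva : v • a ≠ a) :
    ∃! u₀ : G, u₀ ∈ U ∧ u₀ ≠ 1 ∧ v * u₀ * v = u₀ * v * u₀ := by
  obtain ⟨hf, h2, h3, ⟨g, hg1, b, c, hbc, hgb, hgc⟩, -⟩ := hZ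
  -- a non-identity element of the two-point stabiliser
  obtain ⟨x, hx1, hx2⟩ := is_two_pretransitive_iff.1 h2 hbc hva.symm
  have hd : x * g * x⁻¹ ∈ D a v := by
    refine ⟨?_, ?_⟩
    · show (x * g * x⁻¹) • a = a
      rw [mul_smul, mul_smul, inv_smul_eq_iff.2 hx1.symm, hgb, hx1]
    · show (x * g * x⁻¹) • v • a = v • a
      rw [mul_smul, mul_smul, inv_smul_eq_iff.2 hx2.symm, hgc, hx2]
  have hd1 : x * g * x⁻¹ ≠ 1 := fun h => hg1 (by
    calc g = x⁻¹ * (x * g * x⁻¹) * x := by group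
      _ = 1 := by rw [h]; group)
  have heven : Even (Nat.card U) := by
    obtain ⟨e, he⟩ : ∃ e : Ω, (x * g * x⁻¹) • e ≠ e := by
      by_contra h
      push Not at h
      exact hd1 (hf.eq_of_smul_eq_smul fun e => by rw [h, one_smul])
    have hea : e ≠ a := fun h => he (by rw [h]; exact hd.1)
    obtain ⟨u, hu, -⟩ := hreg _ _ hva hea
    have hu1 : u ≠ 1 := fun h => he (by rw [← hu, h]; simpa using hd.2)
    have : Fact (Nat.Prime 2) := ⟨Nat.prime_two⟩
    obtain ⟨n, hn⟩ := hU2.exists_card_eq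
    rw [hn, Nat.even_pow]
    refine ⟨even_two, fun h => hu1 ?_⟩
    rw [h, pow_zero] at hn
    exact (Nat.card_eq_one_iff_unique.1 hn).1.elim _ _
  have hS := setup_of_three_fixed h2 h3 hUle hUn hreg heven hv2 hva
  have hK : ∀ d ∈ D a v, d ∈ invertedBy (D a v) v := fun d hd => mem_K_of_three_fixed hS h3 hd
  obtain ⟨s, hs, r, hr, e⟩ := exists_structure hS
  have hrs : r = s := r_eq_s_of_comm hS hs hr e hUab (fun k hk l hl => comm_of_inverted hK hk.1 hl.1)
    (hK _ hd) hd1 (by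
      obtain ⟨j, hj⟩ := hU2 ⟨r, hr⟩
      exact ⟨j, congrArg Subtype.val hj⟩)
  subst hrs
  refine ⟨r, ⟨hr, hs.2.1, by rw [e, inv_eq_of_sq hs.2.2]⟩, ?_⟩
  rintro u ⟨hu, hu1, eu⟩
  have hu2 : u * u = 1 := by
    have h1 : u = v * (u * u) * v * u := by
      calc u = v * (v * u * v) * v := by
            rw [← mul_assoc, ← mul_assoc, hv2, one_mul, mul_assoc, hv2, mul_one]
        _ = v * (u * v * u) * v := by rw [eu]
        _ = v * u * (v * u * v) := by simp only [mul_assoc]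
        _ = _ := by rw [eu]; simp only [mul_assoc]
    have h4 : v * (u * u) * v = 1 := by simpa using h1.symm
    calc u * u = v * (v * (u * u) * v) * v := by
          rw [← mul_assoc, ← mul_assoc, hv2, one_mul, mul_assoc, hv2, mul_one]
      _ = 1 := by rw [h4, mul_one, hv2]
  exact (structure_unique hS ⟨hUle hu, hu1, hu2⟩ hu (by rw [eu, inv_eq_of_sq hu2]) hs hr e).1

end Cfsg.Agent.S1167
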