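import Cfsg.Statements.S1177
import Cfsg.Agent.Inv.WeakCl

set_option autoImplicit false
open Cfsg
open scoped Pointwise

namespace Cfsg.Agent.S1177

/-- Let A be a nontrivial elementary abelian 2-subgroup of a finite group G which is a T.I. set (each conjugate of A meets A trivially or equals A) and which does not commute elementwise with any conjugate of A other than A itself. Then for every a ∈ A, a ≠ 1, every conjugate of A contained in C_G(a) is equal to A (A is weakly closed in C_G(a)). -/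
theorem result {G : Type*} [Group G] [Finite G] (A : Subgroup G) (hA : Cfsg.IsElementaryAbelian 2 A) (hA1 : A ≠ ⊥) (hTI : ∀ g : G, A.map (MulAut.conj g).toMonoidHom ⊓ A = ⊥ ∨ A.map (MulAut.conj g).toMonoidHom = A) (hb : ∀ g : G, (∀ a ∈ A, ∀ b ∈ A.map (MulAut.conj g).toMonoidHom, a * b = b * a) → A.map (MulAut.conj g).toMonoidHom = A) (a : G) (ha : a ∈ A) (ha1 : a ≠ 1) (g : G) (hg : A.map (MulAut.conj g).toMonoidHom ≤ Subgroup.centralizer ({a} : Set G)) : A.map (MulAut.conj g).toMonoidHom = A := by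
  rw [← CL.Grp.conj_smul_eq_map] at hg ⊢
  simp only [← CL.Grp.conj_smul_eq_map] at hTI hb
  set B := MulAut.conj g • A with hB
  have hBea : IsElementaryAbelian 2 B := CL.Loc.ea_conj_smul hA g
  -- the trivial intersection property, for `A` and for `B`
  have hTIA : ∀ x ∈ A, x ≠ 1 → ∀ c : G, c * x = x * c → c ∈ Subgroup.normalizer (A : Set G) := by
    intro x hx hx1 c hc
    rcases hTI c with h | h
    · exfalso
      have : x ∈ MulAut.conj c • A ⊓ A := ⟨by
        have := CL.Grp.conj_mem_conj_smul c hx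
        rwa [hc, mul_inv_cancel_right] at this, hx⟩
      rw [h] at this
      exact hx1 this
    · exact (CL.Grp.conj_smul_eq_self_iff c A).1 h
  have hTIB : ∀ x ∈ B, x ≠ 1 → ∀ c : G, c * x = x * c → c ∈ Subgroup.normalizer (B : Set G) := by
    intro x hx hx1 c hc
    rw [hB, CL.Grp.normalizer_conj_smul, CL.Grp.mem_conj_smul_iff]
    refine hTIA (g⁻¹ * x * g) ((CL.Grp.mem_conj_smul_iff g x A).1 hx) (fun h => hx1 (by
      calc x = g * (g⁻¹ * x * g) * g⁻¹ := by group
        _ = 1 := by rw [h]; group)) _ ?_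
    calc g⁻¹ * c * g * (g⁻¹ * x * g) = g⁻¹ * (c * x) * g := by group
      _ = _ := by rw [hc]; group
  by_contra hne
  have hdisj : B ⊓ A = ⊥ := (hTI g).resolve_right hne
  have hBN : B ≤ Subgroup.normalizer (A : Set G) := fun b hb' =>
    hTIA a ha ha1 b (Subgroup.mem_centralizer_singleton_iff.1 (hg hb'))
  -- an element of `A` commuting with a nontrivial element of `B` commutes with all of `B`
  have hall : ∀ x ∈ A, ∀ b ∈ B, b ≠ 1 → x * b = b * x → ∀ b' ∈ B, x * b' = b' * x := by
    intro x hx b hb' hb1 hxb b' hb''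
    have h1 : x * b' * x⁻¹ * b'⁻¹ ∈ B ⊓ A := by
      refine ⟨B.mul_mem (CL.Loc.conj_mem_of_mem_normalizer (hTIB b hb' hb1 x hxb) hb'') (B.inv_mem hb''), ?_⟩
      have := A.mul_mem hx (CL.Loc.conj_mem_of_mem_normalizer (hBN hb'') (A.inv_mem hx))
      show _ ∈ A
      simpa only [mul_assoc] using this
    rw [hdisj, Subgroup.mem_bot] at h1
    calc x * b' = (x * b' * x⁻¹ * b'⁻¹) * (b' * x) := by group
      _ = _ := by rw [h1, one_mul]
  have hex : ∃ x ∈ A, ∃ b ∈ B, x * b ≠ b * x := by
    by_contra h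
    push Not at h
    exact hne (hb g h)
  obtain ⟨x, hx, b₀, hb₀, hxb₀⟩ := hex
  have hxA : ∀ b ∈ B, b * x * b⁻¹ ∈ A := fun b hb' => CL.Loc.conj_mem_of_mem_normalizer (hBN hb') hx
  have hA0 : ∀ b ∈ B, x * (b * x * b⁻¹) ∈ A ⊓ Subgroup.centralizer (B : Set G) := by
    intro b hb'
    refine ⟨A.mul_mem hx (hxA b hb'), ?_⟩
    by_cases hb1 : b = 1
    · subst hb1
      have : x * x = 1 := by rw [← pow_two]; exact hA.2 x hx
      simp [this]
    · intro b' hb''
      refine (hall _ (A.mul_mem hx (hxA b hb')) b hb' hb1 ?_ b' hb'').symm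
      have hb2 : b * b = 1 := by rw [← pow_two]; exact hBea.2 b hb'
      conv_lhs => rw [CL.Loc.ea_mul_comm hA hx (hxA b hb')]
      rw [CL.Inv.inv_eq_self_of_mul_self hb2]
      calc b * x * b * x * b = b * x * b * x * b * 1 := by rw [mul_one]
        _ = b * x * b * x * b * (b * b) := by rw [hb2]
        _ = b * (x * b * x * (b * b) * b) := by group
        _ = _ := by rw [hb2]; group
  let f : B → ↥(A ⊓ Subgroup.centralizer (B : Set G)) := fun b => ⟨_, hA0 b b.2⟩
  have hf : Function.Injective f := by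
    intro b b' h
    have h1 : (b : G) * x * (b : G)⁻¹ = b' * x * (b' : G)⁻¹ := mul_left_cancel (congrArg Subtype.val h)
    by_contra hbb
    refine hxb₀ (hall x hx ((b' : G)⁻¹ * b) (B.mul_mem (B.inv_mem b'.2) b.2) ?_ ?_ b₀ hb₀)
    · intro h2
      exact hbb (Subtype.ext (inv_mul_eq_one.1 h2).symm)
    · calc x * ((b' : G)⁻¹ * b) = (b' : G)⁻¹ * (b' * x * (b' : G)⁻¹) * b := by group
        _ = _ := by rw [← h1]; group
  have h1 := Nat.card_le_card_of_injective f hf
  rw [hB, CL.Grp.card_conj_smul] at h1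
  have h2 := Subgroup.eq_of_le_of_card_ge inf_le_left h1
  have h3 : x ∈ A ⊓ Subgroup.centralizer (B : Set G) := h2.symm ▸ hx
  exact hxb₀ (h3.2 b₀ hb₀).symm

end Cfsg.Agent.S1177
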