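import Cfsg.Statements.S1183
import Cfsg.Agent.Inv.Isolated
import Cfsg.Agent.Transfer.Basic

set_option autoImplicit false
open Cfsg

namespace Cfsg.Agent.S1183

/-- Let z be an isolated involution of the finite group G and C = C_G(z). Then the subgroup of G generated by its elements of odd order is all of G if and only if the subgroup of C generated by its elements of odd order is all of C. -/
theorem result {G : Type*} [Group G] [Finite G] (z : G) (hz : Cfsg.IsIsolatedInvolution z) : Cfsg.pResidual 2 G = ⊤ ↔ Cfsg.pResidual 2 ↥(Subgroup.centralizer ({z} : Set G)) = ⊤ := by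
  set C := Subgroup.centralizer ({z} : Set G) with hC
  constructor
  · intro hG
    by_contra hne
    haveI := CL.Transfer.pResidual_normal (G := C) 2
    have hQ : IsPGroup 2 (C ⧸ pResidual 2 C) := CL.Transfer.isPGroup_quotient_pResidual 2
    haveI : Nontrivial (C ⧸ pResidual 2 C) := by
      rw [QuotientGroup.nontrivial_iff]; exact hne
    haveI : Group.IsNilpotent (C ⧸ pResidual 2 C) := hQ.isNilpotent
    have hlt := Group.IsSolvable.commutator_lt_top_of_nontrivial (G := C ⧸ pResidual 2 C)
    let ϕ : C →* Abelianization (C ⧸ pResidual 2 C) :=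
      Abelianization.of.comp (QuotientGroup.mk' (pResidual 2 C))
    have hA : IsPGroup 2 (Abelianization (C ⧸ pResidual 2 C)) :=
      hQ.of_surjective Abelianization.of (QuotientGroup.mk'_surjective _)
    obtain ⟨q, -, hq⟩ := SetLike.exists_of_lt hlt
    obtain ⟨x, rfl⟩ := QuotientGroup.mk_surjective q
    have hx : ϕ x ≠ 1 := fun h => hq ((QuotientGroup.eq_one_iff _).1 h)
    have htr : MonoidHom.transfer ϕ (x : G) = ϕ x ^ C.index := by
      apply CL.Transfer.transfer_eq_pow_of_conj
      intro k g h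
      have hxz : Commute ((x : G) ^ k) z := Commute.pow_left (Subgroup.mem_centralizer_singleton_iff.1 x.2) k
      obtain ⟨c, -, hc, hcx⟩ := CL.Inv.isolated_control_fusion hz ⊤ (by rw [Subgroup.normalizer_eq_top]; trivial) hxz (Subgroup.mem_top g⁻¹)
        (by rw [inv_inv]; exact Subgroup.mem_centralizer_singleton_iff.1 h)
      have hcC : c ∈ C := Subgroup.mem_centralizer_singleton_iff.2 hc
      have : (⟨g⁻¹ * (x : G) ^ k * g, h⟩ : C) = ⟨c, hcC⟩ * x ^ k * ⟨c, hcC⟩⁻¹ := by
        apply Subtype.ext
        simp only [Subgroup.coe_mul, SubgroupClass.coe_pow, InvMemClass.coe_inv]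
        rw [hcx, inv_inv]
      rw [this, map_mul, map_mul, map_inv, map_pow, mul_inv_cancel_comm]
    have hker := CL.Transfer.pResidual_le_ker hA (MonoidHom.transfer ϕ)
    rw [hG] at hker
    have h1 : ϕ x ^ C.index = 1 := by rw [← htr]; exact hker (Subgroup.mem_top _)
    obtain ⟨k, hk⟩ := hA (ϕ x)
    have h2 : Nat.Coprime C.index (2 ^ k) :=
      Nat.Coprime.pow_right _ (Nat.coprime_two_right.2 (CL.Inv.isolated_odd_index hz))
    exact hx (pow_gcd_eq_one.2 ⟨h1, hk⟩ |> fun h => by rwa [h2, pow_one] at h)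
  · intro hCtop
    rw [eq_top_iff]
    intro g _
    obtain ⟨m, h1, h2, h3⟩ := CL.Inv.isolated_exists_inverted hz (t := g * z * g⁻¹) (isConj_iff.2 ⟨g, rfl⟩)
    set k := (g * z * g⁻¹ * z) ^ m
    have hk : k ∈ pResidual 2 G := CL.Transfer.mem_pResidual_of_coprime (Nat.coprime_two_right.2 h1)
    have hc : k⁻¹ * g ∈ C := by
      rw [hC, Subgroup.mem_centralizer_singleton_iff]
      calc k⁻¹ * g * z = k⁻¹ * (g * z * g⁻¹) * g := by group
        _ = _ := by rw [← h3]; group
    have hle := CL.Transfer.map_pResidual_le 2 C.subtype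
    rw [hCtop] at hle
    have := (pResidual 2 G).mul_mem hk (hle ⟨⟨_, hc⟩, Subgroup.mem_top _, rfl⟩)
    simpa using this

end Cfsg.Agent.S1183
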