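import Cfsg.Statements.S1184
import Cfsg.Agent.Inv.Isolated

set_option autoImplicit false
open Cfsg

namespace Cfsg.Agent.S1184

/-- Let z be an isolated involution of the finite group G. If s and t are distinct conjugates of z, then st does not commute with z. -/
theorem result {G : Type*} [Group G] [Finite G] (z : G) (hz : Cfsg.IsIsolatedInvolution z) (g h : G) (hne : g * z * g⁻¹ ≠ h * z * h⁻¹) : ¬ Commute (g * z * g⁻¹ * (h * z * h⁻¹)) z := by
  intro hc
  have hs : IsConj z (g * z * g⁻¹) := isConj_iff.2 ⟨g, rfl⟩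
  have ht : IsConj z (h * z * h⁻¹) := isConj_iff.2 ⟨h, rfl⟩
  set s := g * z * g⁻¹
  set t := h * z * h⁻¹
  have hz2 := CL.Inv.isolated_mul_self hz
  have hs2 := CL.Inv.mul_self_of_isConj hz2 hs
  have ht2 := CL.Inv.mul_self_of_isConj hz2 ht
  obtain ⟨m, hm⟩ := CL.Inv.isolated_odd_mul hz hs
  have hinv : (z * s) * (s * t) * (z * s)⁻¹ = (s * t)⁻¹ := by
    calc (z * s) * (s * t) * (z * s)⁻¹ = z * (s * (s * t) * s⁻¹) * z⁻¹ := by group
      _ = z * (s * t)⁻¹ * z⁻¹ := by rw [CL.Inv.left_inverts_mul hs2 ht2]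
      _ = _ := by rw [← hc.inv_left.eq]; group
  have hsq : Commute ((z * s) * (z * s)) (s * t) := by
    have h2 : (z * s) * (s * t)⁻¹ * (z * s)⁻¹ = s * t := by
      calc (z * s) * (s * t)⁻¹ * (z * s)⁻¹ = ((z * s) * (s * t) * (z * s)⁻¹)⁻¹ := by group
        _ = _ := by rw [hinv, inv_inv]
    show (z * s) * (z * s) * (s * t) = (s * t) * ((z * s) * (z * s))
    calc (z * s) * (z * s) * (s * t)
        = (z * s) * ((z * s) * (s * t) * (z * s)⁻¹) * (z * s)⁻¹ * ((z * s) * (z * s)) := by group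
      _ = _ := by rw [hinv, h2]
  have hcom := CL.Inv.commute_of_commute_sq ⟨m, hm⟩ hsq
  rw [hcom.eq, mul_inv_cancel_right] at hinv
  have h1 := CL.Inv.eq_one_of_odd_of_mul_self (mul_eq_one_iff_eq_inv.2 hinv) (CL.Inv.isolated_odd_mul' hz hs ht)
  exact hne (by rw [eq_inv_of_mul_eq_one_left h1, CL.Inv.inv_eq_self_of_mul_self ht2])

end Cfsg.Agent.S1184
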