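import Cfsg.Statements.S1224
import Cfsg.Agent.Inv.StrongEmb

set_option autoImplicit false
open Cfsg
open CL.Inv.SE

namespace Cfsg.Agent.S1224

/-- Let H be a strongly embedded subgroup of the finite group G and x ≠ y two cosets in G/H. Then the number of involutions i of G with i • x = y equals the number of involutions lying in H. -/
theorem result {G : Type*} [Group G] [Finite G] (H : Subgroup G) (hH : Cfsg.IsStronglyEmbedded H) (x y : G ⧸ H) (hxy : x ≠ y) : Nat.card {i : G // orderOf i = 2 ∧ i • x = y} = Nat.card {t : G // orderOf t = 2 ∧ t ∈ H} := by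
  obtain ⟨t, htH, ht⟩ := exists_inv hH
  induction x using QuotientGroup.induction_on with | H a => ?_
  induction y using QuotientGroup.induction_on with | H b => ?_
  rw [(uniqueFix hH).card_swap (inv_conj ht a) ((smul_mk_eq_iff H _ a).2 (by simpa [mul_assoc] using htH))
    hxy]
  refine Nat.card_congr (Equiv.subtypeEquiv (MulAut.conj b⁻¹).toEquiv fun i => ?_)
  rw [smul_mk_eq_iff]
  have : orderOf (MulAut.conj b⁻¹ i) = orderOf i := (MulAut.conj b⁻¹).orderOf_eq i
  change _ ↔ orderOf (MulAut.conj b⁻¹ i) = 2 ∧ _
  rw [this]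
  simp

end Cfsg.Agent.S1224
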