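import Cfsg.Statements.S1228
import Cfsg.Agent.Inv.ElemCent

set_option autoImplicit false
open Cfsg
open CL.Inv.SE

namespace Cfsg.Agent.S1228

/-- Let G be a finite group with a Sylow 2-subgroup T that is neither cyclic nor normal, such that the centralizer of every involution is an elementary abelian 2-group; put H = N_G(T), let u be an involution outside H and D = H ∩ uHu⁻¹. Then N_G(D) = D ⊔ ⟨u⟩, and a coset gH is fixed by every element of D exactly when gH = H or gH = uH. -/
theorem result {G : Type*} [Group G] [Finite G] (T : Sylow 2 G) (hnc : ¬ IsCyclic (T : Subgroup G)) (hnn : ¬ (T : Subgroup G).Normal) (hC : ∀ t : G, orderOf t = 2 → IsMulCommutative (Subgroup.centralizer ({t} : Set G)) ∧ ∀ c ∈ Subgroup.centralizer ({t} : Set G), c ^ 2 = 1) (u : G) (hu : orderOf u = 2) (huH : u ∉ Subgroup.normalizer ((T : Subgroup G) : Set G)) : Subgroup.normalizer ((Subgroup.normalizer ((T : Subgroup G) : Set G) ⊓ (Subgroup.normalizer ((T : Subgroup G) : Set G)).map (MulAut.conj u).toMonoidHom : Subgroup G) : Set G)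 = (Subgroup.normalizer ((T : Subgroup G) : Set G) ⊓ (Subgroup.normalizer ((T : Subgroup G) : Set G)).map (MulAut.conj u).toMonoidHom) ⊔ Subgroup.zpowers u ∧ ∀ g : G, ((∀ d ∈ Subgroup.normalizer ((T : Subgroup G) : Set G) ⊓ (Subgroup.normalizer ((T : Subgroup G) : Set G)).map (MulAut.conj u).toMonoidHom, d • (QuotientGroup.mk g : G ⧸ Subgroup.normalizer ((T : Subgroup G) : Set G)) = QuotientGroup.mk g) ↔ (QuotientGroup.mk g : G ⧸ Subgroup.normalizer ((T : Subgroup G) : Set G)) = QuotientGroup.mk 1 ∨ (QuotientGroup.mk g : G ⧸ Subgroup.normalizer ((T : Subgroup G) : Set G)) = QuotientGroup.mk u) := by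
  have h := ElemCentHyp.elemCent hC T hnc hnn
  set H := Subgroup.normalizer ((T : Subgroup G) : Set G) with hH
  set D := H ⊓ H.map (MulAut.conj u).toMonoidHom with hD
  have hxy := one_ne_mk huH
  have hux := smul_one_eq_mk H u
  have huy := UniqueFix.swap_symm hu hux
  obtain ⟨d, hd1, hdx, hdy⟩ := h.exists_ne_one hxy
  have hdD : d ∈ D := (mem_inf_conj_iff H u d).2 ⟨hdx, hdy⟩
  have key : ∀ z : G ⧸ H, (∀ d ∈ D, d • z = z) ↔ z = ((1 : G) : G ⧸ H) ∨ z = (u : G ⧸ H) := by
    intro z
    constructor
    · intro hz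
      by_contra hcon
      push Not at hcon
      exact hd1 (h.eq_one_of_three hxy hcon.1.symm hcon.2.symm hdx hdy (hz d hdD))
    · rintro (rfl | rfl) e he
      · exact ((mem_inf_conj_iff H u e).1 he).1
      · exact ((mem_inf_conj_iff H u e).1 he).2
  refine ⟨le_antisymm (fun n hn => ?_) (sup_le Subgroup.le_normalizer ?_), fun g => key _⟩
  · have fix : ∀ z : G ⧸ H, (∀ d ∈ D, d • z = z) → ∀ d ∈ D, d • n • z = n • z := by
      intro z hz e he
      have := hz _ ((Subgroup.mem_normalizer_iff.1 (Subgroup.inv_mem _ hn) e).1 he)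
      rw [inv_inv, mul_smul, mul_smul, inv_smul_eq_iff] at this
      exact this
    have h1 := (key _).1 (fix _ ((key _).2 (Or.inl rfl)))
    have h2 := (key _).1 (fix _ ((key _).2 (Or.inr rfl)))
    rcases h1 with h1 | h1
    · rcases h2 with h2 | h2
      · exact absurd (smul_left_cancel n (h1.trans h2.symm)) hxy
      · exact Subgroup.mem_sup_left ((mem_inf_conj_iff H u n).2 ⟨h1, h2⟩)
    · rcases h2 with h2 | h2
      · have : n * u ∈ D := (mem_inf_conj_iff H u _).2
          ⟨by rw [mul_smul, hux, h2], by rw [mul_smul, huy, h1]⟩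
        have h3 := Subgroup.mul_mem_sup this (Subgroup.inv_mem _ (Subgroup.mem_zpowers u))
        simpa using h3
      · exact absurd (smul_left_cancel n (h1.trans h2.symm)) hxy
  · rw [Subgroup.zpowers_le, Subgroup.mem_normalizer_iff]
    intro e
    constructor
    · intro he
      have he' := (mem_inf_conj_iff H u e).1 he
      rw [h.inverts hxy hu hux he'.1 he'.2]
      exact D.inv_mem he
    · intro he
      have he' := (mem_inf_conj_iff H u _).1 he
      have h3 := h.inverts hxy hu hux he'.1 he'.2
      have h4 : u * (u * e * u⁻¹) * u⁻¹ = e := by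
        calc u * (u * e * u⁻¹) * u⁻¹ = (u * u) * e * (u * u)⁻¹ := by group
          _ = e := by rw [mul_self_of_inv hu]; group
      rw [← h4, h3]
      exact D.inv_mem he

end Cfsg.Agent.S1228
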