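import Cfsg.Statements.S1231
import Cfsg.Agent.Inv.StrongEmbNorm

set_option autoImplicit false
open Cfsg
open CL.Inv.SE CL.Grp

namespace Cfsg.Agent.S1231

/-- Let H be a subgroup of the finite group G, p a prime, k ≥ 1, and P a Sylow p-subgroup of H whose p-rank is at least k. Then N_G(X) ≤ H for every subgroup X of P of p-rank at least k if and only if H ∩ gHg⁻¹ has p-rank less than k for every g ∉ H. -/
theorem result {G : Type*} [Group G] [Finite G] {p : ℕ} [Fact p.Prime] (k : ℕ) (hk : 1 ≤ k) (H : Subgroup G) (P : Sylow p ↥H) (hP : ¬ Cfsg.PRankLE p (k - 1) ↥(P : Subgroup ↥H)) : (∀ X : Subgroup G, X ≤ (P : Subgroup ↥H).map H.subtype → ¬ Cfsg.PRankLE p (k - 1) ↥X → Subgroup.normalizer (X : Set G) ≤ H) ↔ (∀ g : G, g ∉ H → Cfsg.PRankLE p (k - 1) ↥(H ⊓ H.map (MulAut.conj g).toMonoidHom)) := by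
  have hP' := isSylowIn_map_subtype P
  constructor
  · intro h g hg
    by_contra hr
    rw [pRankLE_subgroup_iff] at hr
    push Not at hr
    obtain ⟨A, hA, hc, hp, hlt⟩ := hr
    refine hg (mem_of_normalizers_of_sylow hP' (fun X => ¬ PRankLE p (k - 1) X) ?_ ?_ h (A := A) ?_ ?_ hA)
    · exact fun X g hX e => hX (pRankLE_of_conj_smul g e)
    · exact fun X Y hXY hX e => hX (pRankLE_of_le hXY e)
    · exact fun a => ⟨1, Subtype.ext (by simpa using hp a a.2)⟩
    · intro e
      exact hlt.not_ge ((pRankLE_subgroup_iff _ _ _).1 e A le_rfl hc hp)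
  · intro h X hX hr g hg
    by_contra hgH
    refine hr (pRankLE_of_le (le_inf (hX.trans hP'.le) ?_) (h g hgH))
    intro x hx
    rw [mem_map_conj]
    refine hP'.le (hX ?_)
    have := (Subgroup.mem_normalizer_iff.1 (Subgroup.inv_mem _ hg) x).1 hx
    simpa using this

end Cfsg.Agent.S1231
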