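import Cfsg.Statements.S1233
import Cfsg.Agent.Fgs.MacW5

set_option autoImplicit false
open Cfsg

namespace Cfsg.Agent.S1233

open Subgroup CL.Grp CL.Fgs.MacW
open scoped commutatorElement

section

variable {P : Type*} [Group P]

theorem exists_cmod [Finite P] (hP : IsPGroup 2 P) {F K R : Subgroup P}
    (hF : ∀ f ∈ F, ∀ g ∈ R, ⁅f, g⁆ ∈ F) (h : ¬ F ≤ K) : ∃ f ∈ F, f ∉ K ∧ ∀ g ∈ R, ⁅f, g⁆ ∈ K := by
  have : Fact (Nat.Prime 2) := ⟨Nat.prime_two⟩
  have := hP.isNilpotent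
  by_contra! hc
  obtain ⟨f, hf, hfK⟩ := SetLike.not_le_iff_exists.1 h
  obtain ⟨n, hn⟩ := Subgroup.nilpotent_iff_lowerCentralSeries.1 this
  have key : ∀ i, ∃ f ∈ F, f ∉ K ∧ f ∈ (⊤ : Subgroup P).lowerCentralSeries i := fun i => by
    induction i with
    | zero => exact ⟨f, hf, hfK, mem_top _⟩
    | succ i ih =>
      obtain ⟨g, hg, hgK, hi⟩ := ih
      obtain ⟨s, hs, e⟩ := hc g hg hgK
      exact ⟨_, hF g hg s hs, e, commutator_mem_commutator hi (mem_top s)⟩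
  obtain ⟨g, -, hgK, hi⟩ := key n
  rw [hn, mem_bot] at hi
  exact hgK (hi ▸ one_mem K)

theorem key [Finite P] (hP : IsPGroup 2 P) {Q A : Subgroup P} (hZA : centralizer (Q : Set P) ≤ A)
    (hAQ : A ≤ Q) (A2 : ∀ a ∈ A, a * a = 1) (r4 : A.relIndex Q = 4)
    (CA : ∀ q ∈ Q, (∀ a ∈ A, a * q = q * a) → q ∈ A) (sq : ∀ q ∈ Q, q * q ∈ centralizer (Q : Set P))
    (cm : ∀ p ∈ Q, ∀ q ∈ Q, ⁅p, q⁆ ∈ centralizer (Q : Set P))
    (inn : ∀ x : P, (∀ q ∈ Q, ⁅x, q⁆ ∈ centralizer (Q : Set P)) → x ∈ Q)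
    (h : ¬ centralizer (A : Set P) ≤ A) :
    ∃ x : P, (∀ q ∈ Q, ⁅x, q⁆ ∈ Q) ∧ ∀ f ∈ Q, ⁅x, f⁆ ∈ centralizer (Q : Set P) → f ∈ A := by
  obtain ⟨x, hx, hxA, xc⟩ := exists_cmod hP (R := Q) (fun f hf g hg => by
    rw [commutatorElement_def, mul_assoc, mul_assoc, ← mul_assoc g]
    refine mul_mem hf fun a ha => ?_
    have := inv_mem hf _ (mul_mem (hZA (cm _ (inv_mem hg) a (hAQ ha))) ha)
    calc _ = g * (⁅g⁻¹, a⁆ * a * f⁻¹) * g⁻¹ := by rw [commutatorElement_def]; group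
      _ = _ := by rw [this, commutatorElement_def]; group) h
  refine ⟨x, fun q hq => hAQ (xc q hq), fun f hf e => by_contra fun hfA => ?_⟩
  have cm' : ∀ p ∈ Q, ∀ q, ⁅x, q⁆ ∈ centralizer (Q : Set P) → ⁅x, p * q⁆ = ⁅x, p⁆ * ⁅x, q⁆ :=
    fun p hp q e => by rw [comm_mul_right, e p hp, mul_inv_cancel_right]
  let K : Subgroup P :=
    { carrier := {q | q ∈ Q ∧ ⁅x, q⁆ ∈ centralizer (Q : Set P)}
      one_mem' := ⟨one_mem _, by simp⟩
      mul_mem' := fun {a b} ha hb => ⟨mul_mem ha.1 hb.1, by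
        rw [cm' a ha.1 b hb.2]; exact mul_mem ha.2 hb.2⟩
      inv_mem' := fun {a} ha => ⟨inv_mem ha.1, by
        have := cm' _ (inv_mem ha.1) a ha.2
        rw [inv_mul_cancel, commutatorElement_one_right] at this
        rw [eq_inv_of_mul_eq_one_left this.symm]; exact inv_mem ha.2⟩ }
  have AK : A ≤ K := fun a ha => ⟨hAQ ha, by
    rw [commutatorElement_eq_one_iff_mul_comm.2 (hx a ha).symm]; exact one_mem _⟩
  have KQ : K ≤ Q := fun a ha => ha.1
  have nQ : ¬ Q ≤ K := fun e => hxA (CA x (inn x fun q hq => (e hq).2) hx)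
  have K2 : K.relIndex Q = 2 := by
    have e1 := relIndex_mul_relIndex A K Q AK KQ
    have e2 : A.relIndex K ≠ 1 := fun e' => hfA (relIndex_eq_one.1 e' ⟨hf, e⟩)
    have e3 : K.relIndex Q ≠ 1 := fun e' => nQ (relIndex_eq_one.1 e')
    rw [r4] at e1
    have e4 := Nat.le_of_dvd (by norm_num) (Dvd.intro_left _ e1)
    generalize K.relIndex Q = n at *
    interval_cases n <;> omega
  have cv : ∀ v ∈ Q, v * ⁅x, v⁆ = ⁅x, v⁆ * v := fun v hv => by
    have e1 := hx _ (hZA (sq v hv))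
    have e2 := A2 _ (xc v hv)
    generalize ha : ⁅x, v⁆ = a at e2
    have e3 : a * v * (a * v) = v * v := by
      rw [← ha, commutatorElement_def]
      calc _ = x * (v * v) * x⁻¹ := by group
        _ = _ := by rw [← e1, mul_inv_cancel_right]
    calc v * a = (a * a) * v * a := by rw [e2, one_mul]
      _ = a * (a * v * (a * v)) * v⁻¹ := by group
      _ = _ := by rw [e3]; group
  obtain ⟨v, hv, hvK⟩ := SetLike.not_le_iff_exists.1 nQ
  refine hvK ⟨hv, fun q hq => ?_⟩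
  have k : ∀ q ∈ K, q * ⁅x, v⁆ = ⁅x, v⁆ * q := fun q hq => by
    have e1 := cv _ (mul_mem hv hq.1)
    rw [cm' v hv q hq.2, ← mul_assoc, mul_assoc ⁅x, v⁆, ← hq.2 _ (mul_mem hv hq.1), ← mul_assoc,
      mul_left_inj, ← mul_assoc, ← cv v hv, mul_assoc, mul_assoc, mul_right_inj] at e1
    exact e1
  by_cases e : q ∈ K
  · exact k q e
  · have := k _ (mul_mem_two K2 hv hq hvK e)
    rwa [← mul_assoc, ← cv v hv, mul_assoc, mul_assoc, mul_right_inj] at this

end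

abbrev Q8 := QuaternionGroup 2

def cls : Q8 → ZMod 2 × ZMod 2
  | .a n => (n.cast, 0)
  | .xa n => (n.cast, 1)

def tau (b : Bool) (v : ZMod 2 × ZMod 2) : ZMod 2 × ZMod 2 := if b then v else (v.2, v.1 + v.2)

theorem cls_mul : ∀ x y, cls (x * y) = cls x + cls y := by decide
theorem tau_add : ∀ b v w, tau b (v + w) = tau b v + tau b w := by decide

def AA (b : Bool) : Subgroup (Q8 × Q8) where
  carrier := {p | cls p.2 = tau b (cls p.1)}
  one_mem' := by revert b; decide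
  mul_mem' := fun {p q} hp hq => by
    change cls (p.2 * q.2) = tau b (cls (p.1 * q.1))
    rw [cls_mul, cls_mul, tau_add, hp, hq]
  inv_mem' := fun {p} hp => by
    have : ∀ x, cls x⁻¹ = cls x := by decide
    change cls p.2⁻¹ = tau b (cls p.1⁻¹)
    rw [this, this, hp]

instance (b : Bool) : DecidablePred (· ∈ AA b) := fun p =>
  inferInstanceAs (Decidable (cls p.2 = tau b (cls p.1)))

abbrev Kr (p : Q8 × Q8) : Prop := p = 1 ∨ p = (.a 2, .a 2)

theorem d1 : ∀ b, ∀ p ∈ AA b, Kr (p * p) := by decide +kernel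
theorem d2 : ∀ b, Fintype.card (AA b) = 16 := by decide +kernel
theorem d3 : ∀ b p, (∀ a ∈ AA b, Kr ⁅a, p⁆) → p ∈ AA b := by decide +kernel
theorem d4 : ∀ b p, (∀ q : Q8 × Q8, Kr ⁅q, p⁆) → p ∈ AA b ∧ (Kr p ∨ Kr (p * (.a 2, 1))) := by decide +kernel
theorem d5 : ∀ p q : Q8 × Q8, ⁅q, p * p⁆ = 1 := by decide +kernel
theorem d6 : ∀ p ∈ AA true, p ∈ AA false → ∀ q : Q8 × Q8, ⁅q, p⁆ = 1 := by decide +kernel
theorem d7 : ∀ p q : Q8 × Q8, ∃ r, ⁅p, q⁆ = r * r := by decide +kernel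
theorem d8 : ∀ x : Q8, (∀ y, y * x = x * y) → x = 1 ∨ x = .a 2 := by decide
def gen : Fin 4 → Q8 × Q8 := ![(.a 1, 1), (.xa 0, 1), (1, .a 1), (1, .xa 0)]
theorem d9 : ∀ e : Fin 4 → Bool, ∃ p : Q8 × Q8, ∀ i, Kr (⁅p, gen i⁆ * if e i then 1 else (.a 2, 1)) := by
  decide +kernel
theorem d10 : ∀ p : Q8 × Q8, ∃ i j k l : Fin 4, p = gen 0 ^ i.1 * gen 1 ^ j.1 * gen 2 ^ k.1 * gen 3 ^ l.1 := by
  decide +kernel


/-- Let S be a finite 2-group and Q a subgroup of order 32 generated by two elementwise-commuting subgroups Q₁, Q₂ each isomorphic to the quaternion group of order 8 (so Q = Q₁ ∗ Q₂). If C_S(Q) ≤ Q, then every section of S has 2-rank at most 4. -/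
theorem result {S : Type*} [Group S] [Finite S] (hS : IsPGroup 2 S) (Q Q₁ Q₂ : Subgroup S) (e₁ : Q₁ ≃* QuaternionGroup 2) (e₂ : Q₂ ≃* QuaternionGroup 2) (hcomm : ∀ a ∈ Q₁, ∀ b ∈ Q₂, a * b = b * a) (hQ : Q₁ ⊔ Q₂ = Q) (hQ32 : Nat.card Q = 32) (hC : Subgroup.centralizer (Q : Set S) ≤ Q) : Cfsg.SectionalPRankLE 2 4 S := by
  let φ : Q8 × Q8 →* S := MonoidHom.noncommCoprod (Q₁.subtype.comp e₁.symm.toMonoidHom)
    (Q₂.subtype.comp e₂.symm.toMonoidHom) fun a b => hcomm _ (e₁.symm a).2 _ (e₂.symm b).2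
  have hr : φ.range = Q := by
    rw [show φ.range = _ from MonoidHom.noncommCoprod_range _ _ _, MonoidHom.range_comp, MonoidHom.range_comp,
      MonoidHom.range_eq_top.2 e₁.symm.surjective, MonoidHom.range_eq_top.2 e₂.symm.surjective,
      ← MonoidHom.range_eq_map, ← MonoidHom.range_eq_map, range_subtype, range_subtype, hQ]
  have mem : ∀ p, φ p ∈ Q := fun p => hr ▸ ⟨p, rfl⟩
  have sur : ∀ q ∈ Q, ∃ p, φ p = q := fun q hq => by rwa [← hr] at hq
  have k2 : Nat.card φ.ker = 2 := by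
    have := φ.ker.card_mul_index
    rw [index_ker, hr, hQ32, Nat.card_prod, Nat.card_eq_fintype_card (α := Q8), QuaternionGroup.card] at this
    omega
  have k1 : ∀ p, φ p = 1 → Kr p := fun p e => by
    have e0 : ((e₁.symm p.1 : Q₁) : S) * (e₂.symm p.2 : Q₂) = 1 := e
    have c1 := d8 p.1 fun y => e₁.symm.injective (Subtype.ext (by
      rw [map_mul, map_mul, coe_mul, coe_mul, eq_inv_of_mul_eq_one_left e0]
      exact hcomm _ (e₁.symm y).2 _ (inv_mem (e₂.symm p.2).2)))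
    have c2 := d8 p.2 fun y => e₂.symm.injective (Subtype.ext (by
      rw [map_mul, map_mul, coe_mul, coe_mul, eq_inv_of_mul_eq_one_right e0]
      exact (hcomm _ (inv_mem (e₁.symm p.1).2) _ (e₂.symm y).2).symm))
    obtain ⟨x, y⟩ := p
    rcases c1 with rfl | rfl <;> rcases c2 with rfl | rfl
    · exact Or.inl rfl
    · exact absurd (e₂.symm.injective (Subtype.ext (by simpa using e0) :
        e₂.symm (.a 2) = e₂.symm 1)) (by decide)
    · exact absurd (e₁.symm.injective (Subtype.ext (by simpa using e0) :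
        e₁.symm (.a 2) = e₁.symm 1)) (by decide)
    · exact Or.inr rfl
  have k : ∀ p, φ p = 1 ↔ Kr p := fun p => ⟨k1 p, fun e => by
    obtain ⟨x, hx, x1⟩ := exists_mem_notMem (X := ⊥) (Y := φ.ker) (by rw [k2, card_bot]; norm_num)
    rcases e with rfl | rfl
    · exact map_one φ
    · exact ((k1 x hx).resolve_left x1) ▸ hx⟩
  have kc : ∀ p q, φ p * φ q = φ q * φ p ↔ Kr ⁅p, q⁆ := fun p q => by
    rw [← k, map_commutatorElement, commutatorElement_eq_one_iff_mul_comm]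
  have mZ : ∀ p : Q8 × Q8, (∀ q : Q8 × Q8, ⁅q, p⁆ = 1) → φ p ∈ centralizer (Q : Set S) := fun p e q hq => by
    obtain ⟨q, rfl⟩ := sur q hq
    exact (kc q p).2 (Or.inl (e q))
  have hZ : ∀ b, ∀ c ∈ centralizer (Q : Set S), c ∈ (AA b).map φ ∧ (c = 1 ∨ c = φ (.a 2, 1)) :=
    fun b c hc => by
      obtain ⟨p, rfl⟩ := sur c (hC hc)
      obtain ⟨e1, e2⟩ := d4 b p fun q => (kc q p).1 (hc _ (mem q))
      refine ⟨⟨p, e1, rfl⟩, e2.imp (k p).2 fun e => ?_⟩
      rw [eq_inv_of_mul_eq_one_left ((map_mul φ _ _).symm.trans ((k _).2 e)), ← map_inv]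
      rfl
  have A2 : ∀ b, ∀ a ∈ (AA b).map φ, a * a = 1 := by
    rintro b _ ⟨p, hp, rfl⟩
    rw [← map_mul]; exact (k _).2 (d1 b p hp)
  have A8 : ∀ b, Nat.card ((AA b).map φ) = 8 := fun b => by
    have := card_eq_relIndex_mul_card (show φ.ker ≤ AA b from fun p hp => by
      rcases k1 p hp with rfl | rfl
      · exact one_mem _
      · revert b; decide)
    rw [relIndex_ker, k2, Nat.card_eq_fintype_card, d2] at this
    omega
  have AQ : ∀ b, (AA b).map φ ≤ Q := by rintro b _ ⟨p, -, rfl⟩; exact mem p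
  have sq : ∀ q ∈ Q, q * q ∈ centralizer (Q : Set S) := fun q hq => by
    obtain ⟨p, rfl⟩ := sur q hq
    rw [← map_mul]; exact mZ _ (d5 p)
  have cm : ∀ p ∈ Q, ∀ q ∈ Q, ⁅p, q⁆ ∈ centralizer (Q : Set S) := fun p hp q hq => by
    obtain ⟨p, rfl⟩ := sur p hp
    obtain ⟨q, rfl⟩ := sur q hq
    obtain ⟨r, e⟩ := d7 p q
    rw [← map_commutatorElement, e]; exact mZ _ (d5 r)
  have inn : ∀ x : S, (∀ q ∈ Q, ⁅x, q⁆ ∈ centralizer (Q : Set S)) → x ∈ Q := fun x hx => by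
    classical
    obtain ⟨p, hp⟩ := d9 fun i => decide (⁅x, φ (gen i)⁆ = 1)
    have e : ∀ i, Commute (φ (gen i)) ((φ p)⁻¹ * x) := fun i => comm_of_comm_eq (by
      have e1 := (k _).2 (hp i)
      rw [map_mul, map_commutatorElement] at e1
      rw [eq_inv_of_mul_eq_one_left e1, ← map_inv]
      by_cases e2 : ⁅x, φ (gen i)⁆ = 1
      · simp [e2]
      · simp only [e2, decide_false]
        exact (hZ true _ (hx _ (mem _))).2.resolve_left e2)
    refine (mul_mem_cancel_left (inv_mem (mem p))).1 (hC fun q hq => ?_)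
    obtain ⟨q, rfl⟩ := sur q hq
    obtain ⟨i, j, l, m, rfl⟩ := d10 q
    simp only [map_mul, map_pow]
    exact (((((e 0).pow_left _).mul_left ((e 1).pow_left _)).mul_left ((e 2).pow_left _)).mul_left
      ((e 3).pow_left _)).eq
  by_contra hn
  have ex := fun b => key hS (fun c hc => (hZ b c hc).1) (AQ b) (A2 b) (by
    have := card_eq_relIndex_mul_card (AQ b)
    rw [hQ32, A8] at this
    omega) (fun q hq e => by
      obtain ⟨p, rfl⟩ := sur q hq
      exact ⟨p, d3 b p fun a ha => (kc a p).1 (e _ ⟨a, ha, rfl⟩), rfl⟩) sq cm inn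
    fun e => hn (harada_E8 hS (A2 b) (A8 b) fun x hx => e hx)
  choose x x1 x2 using ex
  have nx : ∀ b, x b ∈ normalizer (Q : Set S) := fun b => mem_normalizer_fintype fun q hq => by
    simpa [commutatorElement_def] using mul_mem (x1 b q hq) hq
  obtain ⟨f, hf, hfZ, fc⟩ := exists_cmod hS (F := Q) (K := centralizer (Q : Set S))
    (R := normalizer (Q : Set S)) (fun f hf g hg => by
      rw [commutatorElement_def, mul_assoc, mul_assoc, ← mul_assoc g]
      exact mul_mem hf ((mem_normalizer_iff.1 hg _).1 (inv_mem hf))) fun e => by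
    exact absurd ((kc (gen 0) (gen 1)).1 (e (mem _) _ (mem _))) (by decide)
  have e : ∀ b, f ∈ (AA b).map φ := fun b => x2 b f hf (by
    rw [← commutatorElement_inv]; exact inv_mem (fc _ (nx b)))
  obtain ⟨p, hp, rfl⟩ := e true
  obtain ⟨q, hq, e'⟩ := e false
  refine hfZ (mZ p (d6 p hp ?_))
  have : Kr (q⁻¹ * p) := k1 _ (by rw [map_mul, map_inv, e', inv_mul_cancel])
  refine (mul_mem_cancel_left (inv_mem hq)).1 ?_
  rcases this with e | e <;> rw [e]
  · exact one_mem _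
  · decide

end Cfsg.Agent.S1233
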