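import Cfsg.Statements.S1234
import Cfsg.Agent.Fgs.MacW5

set_option autoImplicit false
open Cfsg

namespace Cfsg.Agent.S1234

open Subgroup CL.Grp CL.Fgs.MacW

/-- Let S be a finite 2-group and Q ≤ S a subgroup of order 32 having an elementary abelian subgroup E of order 16 and an involution s ∉ E whose centralizer in E has order 4 (so Q ≅ (Z₂ × Z₂) ≀ Z₂). If C_S(Z(Q)) = Q, then every section of S has 2-rank at most 4. -/
theorem result {S : Type*} [Group S] [Finite S] (hS : IsPGroup 2 S) (Q E : Subgroup S) (hEQ : E ≤ Q) (hE : Cfsg.IsElementaryAbelian 2 E) (hE16 : Nat.card E = 16) (hQ32 : Nat.card Q = 32) (s : S) (hsQ : s ∈ Q) (hsE : s ∉ E) (hs : orderOf s = 2) (hfix : Nat.card ↥(E ⊓ Subgroup.centralizer ({s} : Set S)) = 4) (hC : Subgroup.centralizer (((Subgroup.center Q).map Q.subtype : Subgroup S) : Set S) = Q) : Cfsg.SectionalPRankLE 2 4 S := by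
  have s2 : s * s = 1 := by rw [← sq, ← hs, pow_orderOf_eq_one]
  have E2 : E.relIndex Q = 2 := relIndex_eq_two_of_card hEQ (by rw [hE16, hQ32])
  have le : E ⊓ centralizer {s} ≤ Q ⊓ centralizer {s} := inf_le_inf_right _ hEQ
  have sA : s ∈ Q ⊓ centralizer {s} := ⟨hsQ, mem_centralizer_singleton_iff.2 rfl⟩
  refine harada_E8 hS (A := Q ⊓ centralizer {s}) (fun a ha => ?_) ?_ fun x hx => ?_
  · by_cases e : a ∈ E
    · exact sq a ▸ hE.2 a e
    · have := hE.2 _ (mul_mem_two E2 hsQ ha.1 hsE e)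
      rwa [sq, mul_assoc, ← mul_assoc a, mem_centralizer_singleton_iff.1 ha.2, mul_assoc, ← mul_assoc,
        s2, one_mul] at this
  · rw [card_eq_relIndex_mul_card le, hfix, relIndex_eq_two_iff.2 ⟨s, sA, fun b hb => ?_⟩]
    by_cases e : b ∈ E
    · exact Or.inr ⟨⟨e, hb.2⟩, fun e' => hsE ((mul_mem_cancel_left e).1 e'.1)⟩
    · exact Or.inl ⟨⟨mul_mem_two E2 hb.1 hsQ e hsE, (mul_mem hb sA).2⟩, fun e' => e e'.1⟩
  · refine ⟨hC ▸ ?_, mem_centralizer_singleton_iff.2 (hx s sA).symm⟩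
    rintro _ ⟨c, hc, rfl⟩
    exact hx c ⟨c.2, mem_centralizer_singleton_iff.2
      (congrArg Subtype.val (mem_center_iff.1 hc ⟨s, hsQ⟩)).symm⟩

end Cfsg.Agent.S1234
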