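import Cfsg.Statements.S1235
import Cfsg.Agent.Fgs.MacW3

set_option autoImplicit false
open Cfsg

namespace Cfsg.Agent.S1235

open Subgroup CL.Grp CL.Fgs CL.Fgs.MacW

theorem struct {D : Type*} [Group D] [Finite D]
    (hD : (∃ m : ℕ, 2 ≤ m ∧ Nonempty (D ≃* DihedralGroup m)) ∨ Cfsg.IsQuasiDihedral D) :
    ∃ c : D, (zpowers c).index = 2 ∧
      (((∀ d : D, d * d = 1) ∧ Nat.card D = 4) ∨ ∃ a b : D, a * b ≠ b * a) := by
  rcases hD with ⟨m, hm, ⟨e⟩⟩ | ⟨n, hn, hc, x, y, hx, -, hxy⟩
  · have : NeZero m := ⟨by omega⟩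
    have hc : Nat.card D = 2 * m := by rw [Nat.card_congr e.toEquiv, DihedralGroup.nat_card]
    refine ⟨e.symm (.r 1), ?_, ?_⟩
    · have := (zpowers (e.symm (.r 1))).card_mul_index
      rw [Nat.card_zpowers, MulEquiv.orderOf_eq, DihedralGroup.orderOf_r_one, hc, mul_comm 2] at this
      exact Nat.eq_of_mul_eq_mul_left (by omega) this
    · rcases hm.eq_or_lt with rfl | hm
      · exact Or.inl ⟨fun d => e.injective (by
          rw [map_mul, map_one]; exact (by decide : ∀ d : DihedralGroup 2, d * d = 1) _), hc⟩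
      · refine Or.inr ⟨e.symm (.r 1), e.symm (.sr 0), fun h => ?_⟩
        rw [← map_mul, ← map_mul] at h
        have := e.symm.injective h
        simp only [DihedralGroup.r_mul_sr, DihedralGroup.sr_mul_r, DihedralGroup.sr.injEq] at this
        have h2 : ((2 : ℕ) : ZMod m) = 0 := by push_cast; linear_combination -this
        have := Nat.le_of_dvd (by norm_num) ((ZMod.natCast_eq_zero_iff 2 m).1 h2)
        omega
  · obtain ⟨k, rfl⟩ : ∃ k, n = k + 3 := ⟨n - 3, by omega⟩
    refine ⟨x, ?_, Or.inr ⟨y, x, fun h => ?_⟩⟩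
    · have := (zpowers x).card_mul_index
      rw [Nat.card_zpowers, hx, hc, pow_succ 2 (k + 3)] at this
      exact Nat.eq_of_mul_eq_mul_left (by positivity) this
    · rw [h, mul_inv_cancel_right, show k + 3 - 1 = k + 2 by omega] at hxy
      have h1 : 2 ^ (k + 2) - 1 = (2 ^ (k + 2) - 2) + 1 := by
        have : 0 < 2 ^ k := by positivity
        rw [pow_add]; omega
      rw [h1, pow_succ, right_eq_mul, ← orderOf_dvd_iff_pow_eq_one, hx] at hxy
      have : 0 < 2 ^ k := by positivity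
      have := Nat.le_of_dvd (by rw [pow_add]; omega) hxy
      rw [pow_add, pow_add] at this
      omega


/-- Let G be a finite group, x an involution and T ≤ G a Sylow 2-subgroup of C_G(x) (T ≤ C_G(x) with |C_G(x) : T| odd) which is the internal direct product of a subgroup D that is dihedral (of order ≥ 4) or quasi-dihedral and a Klein four-subgroup B. Suppose that for every involution b ∈ B, T ≤ C_G(b) with |C_G(b) : T| odd. Then every section of G has 2-rank at most 4. -/
theorem result {G : Type*} [Group G] [Finite G] (x : G) (hx : orderOf x = 2) (T D B : Subgroup G) (hT : IsPGroup 2 T) (hTx : T ≤ Subgroup.centralizer ({x} : Set G)) (hTxi : Odd (T.relIndex (Subgroup.centralizer ({x} : Set G)))) (hprod : Cfsg.IsInternalDirectProduct D B T) (hD : (∃ m : ℕ, 2 ≤ m ∧ Nonempty (D ≃* DihedralGroup m)) ∨ Cfsg.IsQuasiDihedral D) (hB : IsKleinFour B) (hTb : ∀ b ∈ B, orderOf b = 2 → T ≤ Subgroup.centralizer ({b} : Set G) ∧ Odd (T.relIndex (Subgroup.centralizer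 ({b} : Set G)))) : Cfsg.SectionalPRankLE 2 4 G := by
  have : Fact (Nat.Prime 2) := ⟨Nat.prime_two⟩
  obtain ⟨S, hS⟩ := hT.exists_le_sylow
  obtain ⟨hDT, hBT, hcm, hinf, hsup⟩ := hprod
  obtain ⟨c, hc, hD⟩ := struct hD
  have hDS := hDT.trans hS
  have hBS := hBT.trans hS
  have hB2 : ∀ b ∈ B, b * b = 1 := fun b hb =>
    congrArg Subtype.val (IsKleinFour.mul_self (⟨b, hb⟩ : B))
  refine secRank_of_sylow S (harada_db S.2 (T := T.subgroupOf S) (D := D.subgroupOf S)
    (B := B.subgroupOf S) (c := ⟨c, hDS c.2⟩) c.2 ?_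
    ⟨comap_mono hDT, comap_mono hBT, fun a ha b hb => Subtype.ext (hcm _ ha _ hb), ?_, ?_⟩
    (fun b hb => Subtype.ext (hB2 _ hb)) ?_ ?_ fun b hb b1 => ?_)
  · rw [← relIndex_top_right, ← relIndex_map_map_of_injective _ _ D.subtype_injective,
      MonoidHom.map_zpowers, ← MonoidHom.range_eq_map, range_subtype] at hc
    rw [← relIndex_map_map_of_injective _ _ (S : Subgroup G).subtype_injective,
      MonoidHom.map_zpowers, subgroupOf_map_subtype, inf_eq_left.2 hDS]
    exact hc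
  · rw [subgroupOf, subgroupOf, ← comap_inf, hinf]
    exact MonoidHom.comap_bot _ |>.trans (ker_subtype _)
  · rw [← subgroupOf_sup hDS hBS, hsup]
  · rw [Nat.card_congr (subgroupOfEquivOfLe hBS).toEquiv, hB.card_four]
  · rcases hD with ⟨h1, h2⟩ | ⟨a, b, h⟩
    · exact Or.inl ⟨fun d hd => Subtype.ext (congrArg D.subtype (h1 ⟨d, hd⟩) :),
        by rw [Nat.card_congr (subgroupOfEquivOfLe hDS).toEquiv, h2]⟩
    · exact Or.inr ⟨⟨a, hDS a.2⟩, a.2, ⟨b, hDS b.2⟩, b.2,
        fun e => h (Subtype.ext (congrArg (S : Subgroup G).subtype e :))⟩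
  · obtain ⟨h1, h2⟩ := hTb b hb (orderOf_eq_prime (by rw [sq]; exact hB2 _ hb)
      fun e => b1 (Subtype.ext e))
    have h3 := IsSylowIn.eq_of_le (p := 2) ⟨h1, hT, Nat.two_dvd_ne_zero.2 (Nat.odd_iff.1 h2)⟩
      (S.2.to_le (inf_le_left : (S : Subgroup G) ⊓ centralizer {(b : G)} ≤ S)) (le_inf hS h1)
      inf_le_right
    ext y
    rw [mem_subgroupOf, ← h3, mem_centralizer_singleton_iff, mem_inf, mem_centralizer_singleton_iff,
      Subtype.ext_iff]
    exact ⟨fun e => ⟨y.2, e⟩, fun e => e.2⟩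

end Cfsg.Agent.S1235
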