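import Cfsg.Statements.S1236
import Cfsg.Agent.Base

set_option autoImplicit false
open Cfsg

namespace Cfsg.Agent.S1236

/-- Let R be a finite group, t a central involution of R such that R ⧸ ⟨t⟩ is dihedral (of order ≥ 4) or quasi-dihedral, and A ≤ R an elementary abelian subgroup of order 8 containing t. Then C_R(A) = A. -/
theorem result {R : Type*} [Group R] [Finite R] (t : R) (ht : orderOf t = 2) (htz : t ∈ Subgroup.center R) [(Subgroup.zpowers t).Normal] (hq : (∃ m : ℕ, 2 ≤ m ∧ Nonempty (R ⧸ Subgroup.zpowers t ≃* DihedralGroup m)) ∨ Cfsg.IsQuasiDihedral (R ⧸ Subgroup.zpowers t)) (A : Subgroup R) (hA : Cfsg.IsElementaryAbelian 2 A) (hA8 : Nat.card A = 8) (htA : t ∈ A) : Subgroup.centralizer (A : Set R) = A := by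
  have hle : A ≤ Subgroup.centralizer (A : Set R) := fun a ha b hb =>
    congrArg Subtype.val (hA.1.is_comm.comm ⟨b, hb⟩ ⟨a, ha⟩)
  set π := QuotientGroup.mk' (Subgroup.zpowers t)
  have hker : π.ker ≤ A := by rw [QuotientGroup.ker_mk']; exact Subgroup.zpowers_le.2 htA
  have h4 : Nat.card (A.map π) = 4 := by
    have h1 := Subgroup.card_mul_index (π.ker.subgroupOf A)
    rw [Nat.card_congr (Subgroup.subgroupOfEquivOfLe hker).toEquiv, QuotientGroup.ker_mk', Nat.card_zpowers,
      ht, hA8, ← Subgroup.relIndex, ← QuotientGroup.ker_mk' (Subgroup.zpowers t), Subgroup.relIndex_ker] at h1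
    change 2 * Nat.card (A.map π) = 8 at h1
    omega
  obtain ⟨x, hx, hc⟩ : ∃ x : R ⧸ Subgroup.zpowers t, (Subgroup.zpowers x).index = 2 ∧
      ∀ y ∉ Subgroup.zpowers x, ∀ c ∈ Subgroup.zpowers x, y * c = c * y → c ^ 2 = 1 := by
    rcases hq with ⟨m, hm, ⟨e⟩⟩ | ⟨n, hn, hcard, x, y, hx, hy, hxy⟩
    · have : NeZero m := ⟨by omega⟩
      refine ⟨e.symm (.r 1), ?_, fun y hy c hc h => ?_⟩
      · have h1 := (Subgroup.zpowers (e.symm (.r 1))).card_mul_index
        rw [Nat.card_zpowers, e.symm.orderOf_eq, DihedralGroup.orderOf_r_one, Nat.card_congr e.toEquiv,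
          DihedralGroup.nat_card, mul_comm] at h1
        exact Nat.eq_of_mul_eq_mul_right (by omega) h1
      obtain ⟨k, rfl⟩ := Subgroup.mem_zpowers_iff.1 hc
      obtain ⟨y, rfl⟩ := e.symm.surjective y
      rw [← map_zpow, DihedralGroup.r_one_zpow] at h ⊢
      rw [← map_mul, ← map_mul, e.symm.injective.eq_iff] at h
      rcases y with j | j
      · exact absurd ⟨j.val, by simp only [← map_zpow, DihedralGroup.r_one_zpow]; simp⟩ hy
      · rw [DihedralGroup.sr_mul_r, DihedralGroup.r_mul_sr, DihedralGroup.sr.injEq] at h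
        rw [← map_pow, pow_two, DihedralGroup.r_mul_r, show (k : ZMod m) + k = 0 by linear_combination h]
        exact map_one _
    · have hi : (Subgroup.zpowers x).index = 2 := by
        have h1 := (Subgroup.zpowers x).card_mul_index
        rw [Nat.card_zpowers, hx, hcard, pow_succ] at h1
        exact Nat.eq_of_mul_eq_mul_left (by positivity) h1
      obtain ⟨n, rfl⟩ : ∃ k, n = k + 3 := ⟨n - 3, by omega⟩
      have h0 : ∀ c ∈ Subgroup.zpowers x, y * c = c * y → c ^ 2 = 1 := fun c hc h => by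
        obtain ⟨k, rfl⟩ := Subgroup.mem_zpowers_iff.1 hc
        have h1 : 2 ^ (n + 3 - 1) - 1 = 2 * (2 * (2 ^ n - 1) + 1) + 1 := by
          have := Nat.one_le_two_pow (n := n)
          rw [show n + 3 - 1 = n + 2 from rfl, pow_add]
          omega
        have h2 : ((x ^ k) ^ 2) ^ (2 * (2 ^ n - 1) + 1) = 1 := by
          rw [← pow_mul, ← mul_left_inj (x ^ k), ← pow_succ, ← h1, one_mul, ← zpow_natCast, ← zpow_mul,
            mul_comm, zpow_mul, zpow_natCast, ← hxy, conj_zpow, h, mul_inv_cancel_right]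
        have h3 : ((x ^ k) ^ 2) ^ 2 ^ (n + 3) = 1 := by
          rw [← orderOf_dvd_iff_pow_eq_one, ← hx]
          exact orderOf_dvd_of_mem_zpowers (pow_mem hc 2)
        rw [← orderOf_eq_one_iff]
        exact Nat.eq_one_of_dvd_coprimes (Nat.Coprime.pow_right _ (Nat.coprime_two_right.2 (odd_two_mul_add_one _)))
          (orderOf_dvd_of_pow_eq_one h2) (orderOf_dvd_of_pow_eq_one h3)
      have hcm : ∀ a ∈ Subgroup.zpowers x, ∀ b ∈ Subgroup.zpowers x, a * b = b * a := by
        rintro _ ⟨a, rfl⟩ _ ⟨b, rfl⟩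
        exact zpow_mul_comm x a b
      have hy' : y ∉ Subgroup.zpowers x := fun h => by
        have h1 := Nat.le_of_dvd (by norm_num) (orderOf_dvd_of_pow_eq_one
          (h0 x (Subgroup.mem_zpowers x) (hcm _ h _ (Subgroup.mem_zpowers x))))
        have := Nat.one_le_two_pow (n := n)
        rw [hx, pow_add] at h1
        omega
      refine ⟨x, hi, fun w hw c hc h => h0 c hc ?_⟩
      have h1 : w⁻¹ * y ∈ Subgroup.zpowers x :=
        (Subgroup.mul_mem_iff_of_index_two hi).2 (by simp [hw, hy'])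
      calc y * c = w * (w⁻¹ * y * c) := by group
        _ = c * y := by rw [hcm _ h1 c hc, ← mul_assoc, h]; group
  have key : ∀ W : Subgroup (R ⧸ Subgroup.zpowers t), W ≤ Subgroup.zpowers x → (∀ c ∈ W, c ^ 2 = 1) →
      Nat.card W ≤ 2 := fun W hW h => by
    have := Subgroup.isCyclic_of_le hW
    rw [← IsCyclic.exponent_eq_card]
    exact Nat.le_of_dvd (by norm_num) (Monoid.exponent_dvd_of_forall_pow_eq_one fun c => Subtype.ext (h c c.2))
  obtain ⟨y, hy, hy'⟩ : ∃ y ∈ A.map π, y ∉ Subgroup.zpowers x := by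
    by_contra! h
    have := key _ h (by rintro _ ⟨a, ha, rfl⟩; rw [← map_pow, hA.2 a ha, map_one])
    omega
  set C := (Subgroup.centralizer (A : Set R)).map π
  have h1 := key (Subgroup.zpowers x ⊓ C) inf_le_left fun c hc' => hc y hy' c hc'.1 (by
    obtain ⟨a, ha, rfl⟩ := hy
    obtain ⟨b, hb, rfl⟩ := hc'.2
    rw [← map_mul, hb a ha, map_mul])
  have : (Subgroup.zpowers x).Normal := Subgroup.normal_of_index_eq_two hx
  have h2 := Nat.le_of_dvd (by norm_num)
    ((Subgroup.relIndex_dvd_index_of_normal (Subgroup.zpowers x) C).trans hx.dvd)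
  have h3 := Subgroup.card_mul_index ((Subgroup.zpowers x).subgroupOf C)
  rw [← Subgroup.relIndex, ← Subgroup.inf_subgroupOf_right,
    Nat.card_congr (Subgroup.subgroupOfEquivOfLe (H := Subgroup.zpowers x ⊓ C) inf_le_right).toEquiv] at h3
  have h5 : A.map π = C := Subgroup.eq_of_le_of_card_ge (Subgroup.map_mono hle) (by rw [h4]; nlinarith)
  refine le_antisymm ?_ hle
  refine (Subgroup.le_comap_map π _).trans ?_
  change C.comap π ≤ A
  rw [← h5, Subgroup.comap_map_eq_self hker]

end Cfsg.Agent.S1236
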