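import Cfsg.Statements.S1238
import Cfsg.Agent.Inv.Rk2Fus

set_option autoImplicit false
open Cfsg

namespace Cfsg.Agent.S1238

/-- Let G be a finite group of 2-rank 2 (a Klein four-subgroup but no elementary abelian subgroup of order 8) which is fusion simple: G has no subgroup of index 2 and no isolated involution. Let S be a Sylow 2-subgroup. Then S is dihedral, quasi-dihedral, wreathed, isomorphic to Z_{2^n} × Z_{2^n} for some n ≥ 2, or isomorphic to a Sylow 2-subgroup of PSU(3) over the field with 16 elements. -/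
theorem result {G : Type*} [Group G] [Finite G] (h2 : Cfsg.PRankLE 2 2 G) (h1 : ¬ Cfsg.PRankLE 2 1 G) (hidx : ∀ H : Subgroup G, H.index ≠ 2) (hiso : ∀ z : G, ¬ Cfsg.IsIsolatedInvolution z) (S : Sylow 2 G) {F : Type*} [Field F] [Fintype F] (hF : Fintype.card F = 16) (P : Sylow 2 (Cfsg.PSU 3 F 4)) : (∃ m : ℕ, 2 ≤ m ∧ Nonempty ((S : Subgroup G) ≃* DihedralGroup m)) ∨ Cfsg.IsQuasiDihedral (S : Subgroup G) ∨ Cfsg.IsWreathed (S : Subgroup G) ∨ (∃ n : ℕ, 2 ≤ n ∧ Nonempty ((S : Subgroup G) ≃* Multiplicative (ZMod (2 ^ n) × ZMod (2 ^ n)))) ∨ Nonempty ((S : Subgroup G) ≃* (P : Subgroup (Cfsg.PSU 3 F 4))) := by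
  rcases CL.Rk2.group_cases S (CL.Rk2.sylow_ne_bot S h1) h2 hiso with ⟨ξ, -, S₀⟩ | ⟨n, hn, h | h⟩ | h
  · by_cases ha : CL.Higman.IsAb (⊤ : Subgroup (S : Subgroup G))
    · obtain ⟨n, hn, ⟨e⟩⟩ := CL.Rk2.homocyclic S₀ CL.Rk2.card_four ha
      rcases hn.eq_or_lt with rfl | hn
      · have e' : (S : Subgroup G) ≃* Multiplicative (ZMod 2 × ZMod 2) := e
        obtain ⟨e₂⟩ := IsKleinFour.nonempty_mulEquiv (G₁ := Multiplicative (ZMod 2 × ZMod 2))
          (G₂ := DihedralGroup 2)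
        exact Or.inl ⟨2, le_rfl, ⟨e'.trans e₂⟩⟩
      · exact Or.inr (Or.inr (Or.inr (Or.inl ⟨n, hn, ⟨e⟩⟩)))
    · exact Or.inr (Or.inr (Or.inr (Or.inr (CL.Rk2.nonempty_equiv_psu S₀ ha hF P))))
  · exact Or.inl ⟨_, le_trans (by omega) (Nat.lt_two_pow_self (n := n)).le, h⟩
  · exact Or.inr (Or.inl h)
  · exact Or.inr (Or.inr (Or.inl h))

end Cfsg.Agent.S1238
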