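import Cfsg.Statements.S1241
import Cfsg.Agent.Transfer.Control

set_option autoImplicit false
open Cfsg

namespace Cfsg.Agent.S1241

/-- Let G be a finite group, p a prime, H a subgroup of index prime to p, K a subgroup of H normal in H with H/K commutative, and g ∈ H ∖ K an element of p-power order such that for all integers m and all a ∈ G with a g^m a⁻¹ ∈ H one has a g^m a⁻¹ ∈ g^m K. Then g ∉ G'. -/
theorem result {G : Type*} [Group G] [Finite G] {p : ℕ} [Fact p.Prime] (H K : Subgroup G) (hHK : K ≤ H) (hKn : (K.subgroupOf H).Normal) (hab : ∀ x ∈ H, ∀ y ∈ H, x * y * x⁻¹ * y⁻¹ ∈ K) (hidx : Nat.Coprime p H.index) (g : G) (hgH : g ∈ H) (hgK : g ∉ K) (hgp : ∃ k : ℕ, orderOf g = p ^ k) (hctrl : ∀ (m : ℤ) (a : G), a * g ^ m * a⁻¹ ∈ H → (a * g ^ m * a⁻¹) * (g ^ m)⁻¹ ∈ K) : g ∉ commutator G := by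
  intro hg
  let _ : CommGroup (H ⧸ K.subgroupOf H) :=
    { (inferInstance : Group (H ⧸ K.subgroupOf H)) with
      mul_comm := by
        intro a b
        obtain ⟨x, rfl⟩ := QuotientGroup.mk_surjective a
        obtain ⟨y, rfl⟩ := QuotientGroup.mk_surjective b
        rw [← QuotientGroup.mk_mul, ← QuotientGroup.mk_mul, QuotientGroup.eq,
          Subgroup.mem_subgroupOf]
        have := hab _ (H.inv_mem y.2) _ (H.inv_mem x.2)
        simpa [mul_assoc] using this }
  have h1 := CL.Transfer.transfer_eq_pow_of_conj (QuotientGroup.mk' (K.subgroupOf H)) g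
    (QuotientGroup.mk ⟨g, hgH⟩) (by
      intro k a h
      rw [← QuotientGroup.mk_pow, QuotientGroup.mk'_apply, QuotientGroup.eq_iff_div_mem,
        Subgroup.mem_subgroupOf]
      have := hctrl k a⁻¹ (by simpa using h)
      simpa [div_eq_mul_inv] using this)
  have h2 := Abelianization.commutator_subset_ker
    (MonoidHom.transfer (QuotientGroup.mk' (K.subgroupOf H))) hg
  rw [MonoidHom.mem_ker, h1, ← QuotientGroup.mk_pow, QuotientGroup.eq_one_iff,
    Subgroup.mem_subgroupOf] at h2
  obtain ⟨k, hk⟩ := hgp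
  exact hgK (CL.Transfer.mem_of_pow_mem_of_coprime (n := H.index) h2
    (by rw [hk]; exact (hidx.symm.pow_right k)))

end Cfsg.Agent.S1241
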