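import Cfsg.Statements.S1242
import Cfsg.Agent.Transfer.Control

set_option autoImplicit false
open Cfsg

namespace Cfsg.Agent.S1242

/-- Let G be a finite group, p a prime and H a subgroup of index prime to p such that any two elements of H of p-power order that are conjugate in G are conjugate in H. Then (O^p(G)·G') ∩ H = O^p(H)·H', where O^p denotes the subgroup generated by the elements of order prime to p. -/
theorem result {G : Type*} [Group G] [Finite G] {p : ℕ} [Fact p.Prime] (H : Subgroup G) (hidx : Nat.Coprime p H.index) (hfus : ∀ g ∈ H, (∃ k : ℕ, orderOf g = p ^ k) → ∀ a : G, a * g * a⁻¹ ∈ H → ∃ h ∈ H, h * g * h⁻¹ = a * g * a⁻¹) : (Cfsg.pResidual p G ⊔ commutator G) ⊓ H = (Cfsg.pResidual p ↥H ⊔ commutator ↥H).map H.subtype := by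
  have hn1 := CL.Transfer.pResidual_normal (G := H) p
  set K : Subgroup H := Cfsg.pResidual p ↥H ⊔ commutator ↥H with hK
  have hKn : K.Normal := Subgroup.sup_normal _ _
  apply le_antisymm
  · rintro x ⟨hx, hxH⟩
    let _ : CommGroup (H ⧸ K) :=
      { (inferInstance : Group (H ⧸ K)) with
        mul_comm := by
          intro a b
          obtain ⟨x, rfl⟩ := QuotientGroup.mk_surjective a
          obtain ⟨y, rfl⟩ := QuotientGroup.mk_surjective b
          rw [← QuotientGroup.mk_mul, ← QuotientGroup.mk_mul, QuotientGroup.eq]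
          apply Subgroup.mem_sup_right
          have := Subgroup.commutator_mem_commutator (Subgroup.mem_top y⁻¹) (Subgroup.mem_top x⁻¹)
          simpa [commutatorElement_def, mul_assoc, commutator_def] using this }
    have hp : IsPGroup p (H ⧸ K) := by
      intro q
      obtain ⟨g, rfl⟩ := QuotientGroup.mk_surjective q
      obtain ⟨k, hk⟩ := CL.Transfer.exists_pow_mem_pResidual p g
      exact ⟨k, by
        rw [← QuotientGroup.mk_pow, QuotientGroup.eq_one_iff]
        exact Subgroup.mem_sup_left hk⟩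
    have hker : Cfsg.pResidual p G ⊔ commutator G ≤
        (MonoidHom.transfer (QuotientGroup.mk' K)).ker :=
      sup_le (CL.Transfer.pResidual_le_ker hp _) (Abelianization.commutator_subset_ker _)
    -- the `p`-part of `x`
    obtain ⟨k, m, hm, hkm⟩ := Nat.exists_eq_pow_mul_and_not_dvd (orderOf_pos x).ne' p
      (Fact.out : p.Prime).ne_one
    have hy : ∀ j : ℕ, ∃ l : ℕ, orderOf ((x ^ m) ^ j) = p ^ l := by
      intro j
      have : orderOf ((x ^ m) ^ j) ∣ p ^ k := by
        apply orderOf_dvd_of_pow_eq_one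
        rw [← pow_mul, mul_comm j, pow_mul, ← pow_mul x, mul_comm m, ← hkm, pow_orderOf_eq_one,
          one_pow]
      obtain ⟨l, -, hl⟩ := (Nat.dvd_prime_pow Fact.out).1 this
      exact ⟨l, hl⟩
    have h1 := CL.Transfer.transfer_eq_pow_of_conj (QuotientGroup.mk' K) (x ^ m)
      (QuotientGroup.mk ⟨x ^ m, H.pow_mem hxH m⟩) (by
        intro j a h
        obtain ⟨c, hc, hce⟩ := hfus _ (H.pow_mem (H.pow_mem hxH m) j) (hy j) a⁻¹ (by simpa using h)
        have e : (⟨_, h⟩ : H) = ⟨c, hc⟩ * ⟨x ^ m, H.pow_mem hxH m⟩ ^ j * ⟨c, hc⟩⁻¹ := by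
          apply Subtype.ext
          simpa using hce.symm
        rw [e, map_mul, map_mul, map_inv, map_pow, mul_inv_cancel_comm]
        rfl)
    have h2 : MonoidHom.transfer (QuotientGroup.mk' K) (x ^ m) = 1 := hker (pow_mem hx m)
    rw [h1] at h2
    have h3 : (QuotientGroup.mk ⟨x, hxH⟩ : H ⧸ K) ^ (m * H.index) = 1 := by
      rw [pow_mul, ← h2]
      rfl
    have h4 : (QuotientGroup.mk ⟨x, hxH⟩ : H ⧸ K) = 1 := by
      have hc : Nat.Coprime p (m * H.index) :=
        Nat.Coprime.mul_right ((Nat.Prime.coprime_iff_not_dvd Fact.out).2 hm) hidx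
      have := hp.orderOf_coprime hc (QuotientGroup.mk ⟨x, hxH⟩ : H ⧸ K)
      exact orderOf_eq_one_iff.1 (Nat.Coprime.eq_one_of_dvd this (orderOf_dvd_of_pow_eq_one h3))
    exact ⟨⟨x, hxH⟩, (QuotientGroup.eq_one_iff _).1 h4, rfl⟩
  · refine le_inf ?_ (Subgroup.map_subtype_le _)
    rw [hK, Subgroup.map_sup]
    refine sup_le_sup (CL.Transfer.map_pResidual_le p _) ?_
    rw [commutator_def, Subgroup.map_commutator]
    exact Subgroup.commutator_mono le_top le_top

end Cfsg.Agent.S1242
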