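import Cfsg.Statements.S1244
import Cfsg.Agent.Inv.SylowTwo

set_option autoImplicit false
open Cfsg

namespace Cfsg.Agent.S1244

/-- Let G be a finite group with no subgroup of index 2 whose Sylow 2-subgroup S is commutative, and let R ≤ S be a subgroup whose 2-rank is exactly one less than the 2-rank r of S. Then every involution of S is conjugate, by an element of N_G(S), to an element of R. -/
theorem result {G : Type*} [Group G] [Finite G] (hG : ∀ H : Subgroup G, H.index ≠ 2) (S : Sylow 2 G) (hS : IsMulCommutative (S : Subgroup G)) (r : ℕ) (hr1 : 1 ≤ r) (hSr : Cfsg.PRankLE 2 r (S : Subgroup G) ∧ ¬ Cfsg.PRankLE 2 (r - 1) (S : Subgroup G)) (R : Subgroup G) (hRS : R ≤ S) (hRr : Cfsg.PRankLE 2 (r - 1) R ∧ (r = 1 ∨ ¬ Cfsg.PRankLE 2 (r - 2) R)) (t : G) (ht : orderOf t = 2) (htS : t ∈ S) : ∃ n ∈ Subgroup.normalizer ((S : Subgroup G) : Set G), n * t * n⁻¹ ∈ R := by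
  by_contra hcon
  push Not at hcon
  have hSc : (S : Subgroup G) ≤ Subgroup.centralizer ((S : Subgroup G) : Set G) :=
    Subgroup.le_centralizer _
  -- no conjugate of `t` in `S` lies in `R`
  have hnot : ∀ g : G, g * t * g⁻¹ ∈ (S : Subgroup G) → g * t * g⁻¹ ∉ R := by
    intro g hg
    obtain ⟨n, hn, e⟩ := CL.Transfer.fusion_normalizer_of_comm S hS t htS g hg
    rw [← e]
    exact hcon n hn
  set V := omegaOne 2 (S : Subgroup G) with hV
  have hVa : IsElementaryAbelian 2 V := CL.Loc.ea_omegaOne hSc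
  have hVS : V ≤ S := CL.Loc.omegaOne_le _
  have hVc : Nat.card V ≤ 2 ^ r := by
    have h1 := CL.Loc.ea_subgroupOf hVa (S : Subgroup G)
    rw [← Nat.card_congr (Subgroup.subgroupOfEquivOfLe hVS).toEquiv]
    exact hSr.1 _ h1.1 h1.2
  have hUc : 2 ^ (r - 1) ≤ Nat.card (R ⊓ V : Subgroup G) := by
    rcases hRr.2 with h | h
    · rw [h]
      exact Nat.card_pos
    · unfold PRankLE at h
      push Not at h
      obtain ⟨A, hA1, hA2, hA3⟩ := h
      have hA : IsElementaryAbelian 2 (A.map R.subtype) := CL.Loc.ea_map ⟨hA1, hA2⟩ _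
      have h1 : A.map R.subtype ≤ R ⊓ V := le_inf (Subgroup.map_subtype_le _)
        (CL.Loc.le_omegaOne_of_ea hA ((Subgroup.map_subtype_le _).trans hRS))
      refine le_trans ?_ (Subgroup.card_le_of_le h1)
      rw [Subgroup.card_subtype]
      obtain ⟨k, hk⟩ := CL.Loc.ea_card_eq_pow (p := 2) (V := A) ⟨hA1, hA2⟩
      rw [hk] at hA3 ⊢
      have := (Nat.pow_lt_pow_iff_right (by decide)).1 hA3
      exact Nat.pow_le_pow_right two_pos (by omega)
  have ht2 : t ^ 2 = 1 := by rw [← ht, pow_orderOf_eq_one]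
  have htV : t ∈ V := CL.Loc.mem_omegaOne htS ht2
  have htR : t ∉ R := by simpa using hnot 1 (by rw [one_mul, inv_one, mul_one]; exact htS)
  have hidx : R.relIndex V = 2 := by
    have h1 := CL.Grp.card_eq_relIndex_mul_card (inf_le_right : R ⊓ V ≤ V)
    rw [Subgroup.inf_relIndex_right] at h1
    have h2 : R.relIndex V ≠ 1 := fun h => htR (Subgroup.relIndex_eq_one.1 h htV)
    have h3 : R.relIndex V ≠ 0 := Subgroup.index_ne_zero_of_finite
    obtain ⟨s, rfl⟩ : ∃ s, r = s + 1 := ⟨r - 1, by omega⟩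
    simp only [Nat.add_sub_cancel] at hUc
    rw [pow_succ, h1] at hVc
    have h4 : 0 < 2 ^ s := by positivity
    generalize R.relIndex V = a at *
    generalize Nat.card (R ⊓ V : Subgroup G) = b at *
    by_contra h5
    have : 3 ≤ a := by omega
    nlinarith
  have hmul : ∀ u ∈ V, u ∉ R → u * t ∈ R := by
    intro u hu huR
    have := (Subgroup.mul_mem_iff_of_index_two (H := R.subgroupOf V) hidx
      (a := ⟨u, hu⟩) (b := ⟨t, htV⟩)).2 (by simp [Subgroup.mem_subgroupOf, huR, htR])
    exact this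
  have hRn : (R.subgroupOf (S : Subgroup G)).Normal := inferInstance
  let _ : CommGroup ((S : Subgroup G) ⧸ R.subgroupOf (S : Subgroup G)) :=
    { (inferInstance : Group ((S : Subgroup G) ⧸ R.subgroupOf (S : Subgroup G))) with
      mul_comm := by
        intro a b
        obtain ⟨x, rfl⟩ := QuotientGroup.mk_surjective a
        obtain ⟨y, rfl⟩ := QuotientGroup.mk_surjective b
        rw [← QuotientGroup.mk_mul, ← QuotientGroup.mk_mul, hS.is_comm.comm] }
  have ha2 : (QuotientGroup.mk ⟨t, htS⟩ : (S : Subgroup G) ⧸ R.subgroupOf (S : Subgroup G)) ^ 2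
      = 1 := by
    rw [← QuotientGroup.mk_pow]
    congr 1
    exact Subtype.ext ht2
  have h1 := CL.Transfer.transfer_eq_pow_of_conj
    (QuotientGroup.mk' (R.subgroupOf (S : Subgroup G))) t (QuotientGroup.mk ⟨t, htS⟩) (by
      intro k a h
      rcases Nat.even_or_odd' k with ⟨j, rfl | rfl⟩
      · rw [pow_mul (QuotientGroup.mk _), ha2, one_pow, ← map_one (QuotientGroup.mk' _)]
        congr 1
        apply Subtype.ext
        simp [pow_mul, ht2]
      · rw [pow_succ (QuotientGroup.mk _), pow_mul (QuotientGroup.mk _), ha2, one_pow, one_mul,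
          QuotientGroup.mk'_apply, QuotientGroup.eq_iff_div_mem, Subgroup.mem_subgroupOf]
        have e : t ^ (2 * j + 1) = t := by rw [pow_succ, pow_mul, ht2, one_pow, one_mul]
        have h' : a⁻¹ * t * a⁻¹⁻¹ ∈ (S : Subgroup G) := by simpa [e] using h
        have := hmul _ (CL.Loc.mem_omegaOne h' (by rw [conj_pow, ht2]; simp)) (hnot _ h')
        simpa [e, div_eq_mul_inv, CL.Inv.inv_eq_self_of_orderOf_two ht] using this)
  obtain ⟨j, hj⟩ := CL.Transfer.odd_index_sylow_two S
  rw [hj, pow_succ, pow_mul, ha2, one_pow, one_mul] at h1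
  obtain ⟨H, -, hH⟩ := CL.Inv.exists_normal_index_prime_of_hom (S.isPGroup'.to_quotient _)
    (MonoidHom.transfer (QuotientGroup.mk' (R.subgroupOf (S : Subgroup G)))) (x := t) (by
      rw [h1, Ne, QuotientGroup.eq_one_iff, Subgroup.mem_subgroupOf]
      exact htR)
  exact hG H hH

end Cfsg.Agent.S1244
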