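import Cfsg.Statements.S1246
import Cfsg.Agent.Even.ParChar

set_option autoImplicit false
open Cfsg

namespace Cfsg.Agent.S1246

open CL.Even CL.Loc Subgroup


/-- Let V ≤ U be p-subgroups of the finite group G. If the generalized Fitting subgroup of C_G(V) is a p-group, then so is that of C_G(U). -/
theorem result {G : Type*} [Group G] [Finite G] {p : ℕ} [Fact p.Prime] (U V : Subgroup G) (hVU : V ≤ U) (hU : IsPGroup p U) (hV : IsPGroup p ↥(Cfsg.generalizedFittingSubgroup ↥(Subgroup.centralizer (V : Set G)))) : IsPGroup p ↥(Cfsg.generalizedFittingSubgroup ↥(Subgroup.centralizer (U : Set G))) := by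
  have h1 : IsCharP p (centralizer (V : Set G)) :=
    isCharP_iff_fstar.2 (fstar_eq_pCore_iff_isPGroup.2 hV)
  have h2 : IsCharP p (normalizer (V : Set G)) := by
    refine IsCharP.of_inf_cent (hU.to_le hVU) le_normalizer le_rfl ?_
    rwa [inf_eq_right.2 (centralizer_le_normalizer _)]
  exact fstar_eq_pCore_iff_isPGroup.1 (isCharP_iff_fstar.1 (IsCharP.norm_of_le hU hVU h2).cent_of_norm)

end Cfsg.Agent.S1246
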