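import Cfsg.Statements.S1247
import Cfsg.Agent.Loc.Bender
import Cfsg.Agent.Even.Amb

set_option autoImplicit false
open Cfsg

namespace Cfsg.Agent.S1247

open CL.Grp CL.Loc Cfsg Subgroup

section
variable {G : Type*} [Group G] [Finite G] {A S : Subgroup G}

theorem fstarOf_self (hS : SubnIn S (fstarOf A)) : fstarOf S = S := by
  have hSA : SubnIn S A :=
    hS.trans (SubnIn.of_le_normalizer (fstarOf_le A) (le_normalizer_fstarOf A))
  have h1 : fstarOf (S.subgroupOf A) = S.subgroupOf A := by
    refine fstarOf_eq_self_of_subnormal (subnIn_iff.1 hSA).2 ?_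
    intro x hx
    obtain ⟨y, hy, hxy⟩ := hS.le (mem_subgroupOf.1 hx)
    rwa [← Subtype.ext hxy]
  have h2 := map_fstarOf_of_injective A.subtype_injective (S.subgroupOf A)
  rw [h1, subgroupOf_map_subtype, inf_eq_left.2 hSA.le] at h2
  exact h2.symm

omit [Finite G] in
theorem layer_le (hS : SubnIn S (fstarOf A))
    (hC : fstarOf A ⊓ centralizer (S : Set G) ≤ S) : subgroupLayer A ≤ S := by
  have hSA : SubnIn S A :=
    hS.trans (SubnIn.of_le_normalizer (fstarOf_le A) (le_normalizer_fstarOf A))
  rw [subgroupLayer_le_iff']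
  intro L hL
  rcases hL.le_or_commutator_eq_bot hSA with h | h
  · exact h
  · exact le_trans (le_inf (hL.le_subgroupLayer.trans (subgroupLayer_le_fstarOf A))
      (commutator_eq_bot_iff_le_centralizer.1 h)) hC

theorem cent_le (hS : SubnIn S (fstarOf A)) (hC : fstarOf A ⊓ centralizer (S : Set G) ≤ S)
    (r : ℕ) [Fact r.Prime] :
    pCoreOf r A ⊓ centralizer (pCoreOf r S : Set G) ≤ S := by
  have hSA : SubnIn S A :=
    hS.trans (SubnIn.of_le_normalizer (fstarOf_le A) (le_normalizer_fstarOf A))
  refine le_trans (le_inf (inf_le_left.trans ((pCoreOf_le_fittingOf r A).trans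
    (fittingOf_le_fstarOf A))) ?_) hC
  rw [le_centralizer_iff]
  conv_lhs => rw [← fstarOf_self hS, fstarOf_eq]
  refine sup_le ?_ (fittingOf_le_of_forall_pCoreOf_le fun s _ => ?_)
  · rw [le_centralizer_iff]
    refine (inf_le_left.trans (pCoreOf_le_fittingOf r A)).trans
      ((fittingOf_le_centralizer_subgroupLayer A).trans (centralizer_le ?_))
    exact_mod_cast subgroupLayer_mono_of_subnIn hSA
  · by_cases h : s = r
    · subst h
      rw [le_centralizer_iff]; exact inf_le_right
    · rw [← commutator_eq_bot_iff_le_centralizer]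
      exact commutator_eq_bot_of_le_nilpotent h (fittingOf_isNilpotent A) (pCoreOf_isPGroup s S)
        ((pCoreOf_isPGroup r A).to_le inf_le_left)
        ((pCoreOf_mono_of_subnIn hSA).trans (pCoreOf_le_fittingOf s A))
        (inf_le_left.trans (pCoreOf_le_fittingOf r A))

theorem zCore_le (hS : SubnIn S (fstarOf A)) (hC : fstarOf A ⊓ centralizer (S : Set G) ≤ S)
    (r : ℕ) [Fact r.Prime] : zCoreOf r A ≤ S := by
  have hSA : SubnIn S A :=
    hS.trans (SubnIn.of_le_normalizer (fstarOf_le A) (le_normalizer_fstarOf A))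
  refine le_trans (inf_le_inf_left _ (centralizer_le ?_)) (cent_le hS hC r)
  exact_mod_cast pCoreOf_mono_of_subnIn hSA

/-- a `q`-subgroup of `A` normalised by `S` centralises `O_r(A)`, `r ≠ q` -/
theorem core_le_cent (hS : SubnIn S (fstarOf A)) (hC : fstarOf A ⊓ centralizer (S : Set G) ≤ S)
    {q r : ℕ} [Fact q.Prime] [Fact r.Prime] (hqr : q ≠ r) {R : Subgroup G} (hR : IsPGroup q R)
    (hRA : R ≤ A) (hSR : S ≤ normalizer (R : Set G)) : pCoreOf r A ≤ centralizer (R : Set G) := by
  have hSA : SubnIn S A :=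
    hS.trans (SubnIn.of_le_normalizer (fstarOf_le A) (le_normalizer_fstarOf A))
  have h1 : pCoreOf r A ⊓ S ≤ centralizer (R : Set G) := by
    rw [← commutator_eq_bot_iff_le_centralizer, ← le_bot_iff,
      ← (IsPGroup.disjoint_of_ne r q hqr.symm _ _ (pCoreOf_isPGroup r A) hR).eq_bot]
    exact le_inf ((commutator_mono inf_le_left hRA).trans
      (le_normalizer_iff_commutator_le_left.mp (le_normalizer_pCoreOf r A)))
      ((commutator_mono inf_le_right le_rfl).trans (le_normalizer_iff_commutator_le_right.mp hSR))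
  have hSr : pCoreOf r S ≤ pCoreOf r A := pCoreOf_mono_of_subnIn hSA
  rw [le_centralizer_iff]
  exact Cfsg.Agent.S0028.result r (pCoreOf r S) R (pCoreOf r A) (pCoreOf_isPGroup r S)
    (coprime_card_of_isPGroup_ne hR hqr) (pCoreOf_isPGroup r A)
    ((le_inf hSr (pCoreOf_le r S)).trans h1) (hSr.trans le_normalizer)
    (hRA.trans (le_normalizer_pCoreOf r A)) ((le_inf inf_le_left (cent_le hS hC r)).trans h1)

end


/-- Let G be a non-abelian finite simple group, A a maximal subgroup, F = F*(A) its generalized Fitting subgroup (viewed in G), and S ≤ F a subgroup subnormal in F with C_F(S) ≤ S. Let B be any subgroup of G containing S. Then (a) for every prime q not dividing |F(A)|, O_q(B) ∩ A = 1; and (b) for every prime p dividing |F(A)|, O_p(B) commutes elementwise with the subgroup of F generated by its elements of order prime to p. -/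
theorem result {G : Type*} [Group G] [Finite G] [IsSimpleGroup G] (hna : ¬ IsMulCommutative G) (A : Subgroup G) (hA : IsCoatom A) (S : Subgroup G) (hSF : S ≤ (Cfsg.generalizedFittingSubgroup ↥A).map A.subtype) (hSsn : (S.subgroupOf ((Cfsg.generalizedFittingSubgroup ↥A).map A.subtype)).IsSubnormal) (hSC : (Cfsg.generalizedFittingSubgroup ↥A).map A.subtype ⊓ Subgroup.centralizer (S : Set G) ≤ S) (B : Subgroup G) (hSB : S ≤ B) : (∀ q : ℕ, q.Prime → ¬ q ∣ Nat.card (Cfsg.fittingSubgroup ↥A) → (Cfsg.pCore q ↥B).map B.subtype ⊓ A = ⊥) ∧ (∀ p : ℕ, p.Prime → p ∣ Nat.card (Cfsg.fittingSubgroup ↥A) → ∀ x ∈ (Cfsg.pCore p ↥B).map B.subtype, ∀ y ∈ (Cfsg.pResidual p ↥(Cfsg.generalizedFittingSubgroup ↥A)).map ((Cfsg.generalizedFittingSubgroup ↥A).subtype) , x * (A.subtype y) = (A.subtype y) * x) := by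
  have hS : SubnIn S (fstarOf A) := subnIn_iff.2 ⟨hSF, hSsn⟩
  have hE := layer_le hS hSC
  have hM := isPrimitiveSub_of_isCoatom hA
  constructor
  · intro q hq hqF
    haveI : Fact q.Prime := ⟨hq⟩
    have hq0 : pCoreOf q A = ⊥ := by
      by_contra hne
      apply hqF
      have h1 : q ∣ Nat.card (pCoreOf q A) := by
        rcases (pCoreOf_isPGroup q A).card_eq_or_dvd with h | h
        · exact absurd (card_eq_one.1 h) hne
        · exact h
      have h2 := card_dvd_of_le (pCoreOf_le_fittingOf q A)
      rw [fittingOf, card_map_of_injective A.subtype_injective] at h2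
      exact h1.trans h2
    change pCoreOf q B ⊓ A = ⊥
    set R := pCoreOf q B ⊓ A with hR
    have hRq : IsPGroup q R := (pCoreOf_isPGroup q B).to_le inf_le_left
    have hSR : S ≤ normalizer (R : Set G) :=
      le_normalizer_inf (hSB.trans (le_normalizer_pCoreOf q B))
        ((hSF.trans (fstarOf_le A)).trans le_normalizer)
    have h4 : subgroupLayer A ≤ centralizer (R : Set G) := by
      rw [← commutator_eq_bot_iff_le_centralizer]
      exact commutator_subgroupLayer_eq_bot_of_isSolvable inf_le_right (hE.trans hSR)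
        (isSolvable_of_isPGroup hRq)
    have h5 : fittingOf A ≤ centralizer (R : Set G) := by
      refine fittingOf_le_of_forall_pCoreOf_le fun r _ => ?_
      by_cases hqr : q = r
      · subst hqr
        rw [hq0]; exact bot_le
      · exact core_le_cent hS hSC hqr hRq inf_le_right hSR
    rw [← le_bot_iff, ← hq0]
    exact le_pCoreOf_of_le_fittingOf hRq (le_fittingOf_of_centralizes inf_le_right h4 h5)
  · intro p hp hpF
    haveI : Fact p.Prime := ⟨hp⟩
    have hp0 : pCoreOf p A ≠ ⊥ := by
      intro h0
      obtain ⟨x, hx⟩ := exists_prime_orderOf_dvd_card' p hpF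
      have h1 : IsPGroup p (zpowers ((x : A) : G)) :=
        IsPGroup.of_card (n := 1) (by rw [Nat.card_zpowers, orderOf_coe, orderOf_coe, hx, pow_one])
      have h2 : zpowers ((x : A) : G) ≤ fittingOf A := by
        rw [zpowers_le]; exact mem_map_of_mem _ x.2
      have h3 := le_pCoreOf_of_le_fittingOf h1 h2
      rw [h0, le_bot_iff, zpowers_eq_bot, OneMemClass.coe_eq_one, OneMemClass.coe_eq_one] at h3
      rw [h3, orderOf_one] at hx
      exact hp.one_lt.ne hx
    set U := pCoreOf p B with hU
    have hUp : IsPGroup p U := pCoreOf_isPGroup p B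
    have hBU : B ≤ normalizer (U : Set G) := le_normalizer_pCoreOf p B
    have h1 : subgroupLayer A ≤ centralizer (U : Set G) := by
      rw [subgroupLayer_le_iff']
      intro L hL
      have hLB : L ≤ B := hL.le_subgroupLayer.trans (hE.trans hSB)
      refine le_centralizer_of_perfect_PxQ p (zCoreOf_isPGroup p A) hL.commutator_self hUp ?_
        (((zCore_le hS hSC p).trans hSB).trans hBU) (hLB.trans hBU) ?_
      · refine (inf_le_left.trans (pCoreOf_le_fittingOf p A)).trans ?_
        rw [← commutator_eq_bot_iff_le_centralizer, Subgroup.commutator_comm]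
        exact hL.commutator_fittingOf
      · refine le_trans (inf_le_inf_left _ (hM.centralizer_zCoreOf_le hp0)) ?_
        rw [← commutator_eq_bot_iff_le_centralizer, Subgroup.commutator_comm]
        exact hL.commutator_eq_bot_of_isSolvable inf_le_right
          (le_normalizer_inf (hLB.trans hBU) (hL.le.trans le_normalizer))
          (isSolvable_of_isPGroup (hUp.to_le inf_le_left))
    have h2 : ∀ (r : ℕ) [Fact r.Prime], r ≠ p → pCoreOf r A ≤ centralizer (U : Set G) := by
      intro r _ hrp
      by_cases hr0 : pCoreOf r A = ⊥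
      · rw [hr0]; exact bot_le
      have hUA : U ≤ A := pCoreOf_le_of_two_primes hM hrp hr0 hp0
        ((zCore_le hS hSC r).trans hSB) ((zCore_le hS hSC p).trans hSB)
      exact core_le_cent hS hSC hrp.symm hUp hUA (hSB.trans hBU)
    set W : Subgroup G := subgroupLayer A ⊔ ⨆ r : {r : ℕ // r.Prime ∧ r ≠ p}, pCoreOf r.1 A with hW
    have hWU : W ≤ centralizer (U : Set G) := by
      refine sup_le h1 (iSup_le fun r => ?_)
      haveI : Fact r.1.Prime := ⟨r.2.1⟩
      exact h2 r.1 r.2.2
    have hAW : A ≤ normalizer (W : Set G) := by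
      refine le_trans (le_inf (le_normalizer_subgroupLayer A) ?_)
        (normalizer_inf_normalizer_le_normalizer_sup _ _)
      have h0 := iInf_normalizer_le_normalizer_iSup
        (fun r : {r : ℕ // r.Prime ∧ r ≠ p} => pCoreOf r.1 A)
      refine le_trans ?_ h0
      exact le_iInf fun r => le_normalizer_pCoreOf r.1 A
    have hF : fstarOf A ≤ pCoreOf p A ⊔ W := by
      rw [fstarOf_eq]
      refine sup_le (le_sup_of_le_right le_sup_left) (fittingOf_le_of_forall_pCoreOf_le fun r hr => ?_)
      by_cases hrp : r = p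
      · subst hrp; exact le_sup_left
      · exact le_sup_of_le_right (le_sup_of_le_right
          (le_iSup (fun r : {r : ℕ // r.Prime ∧ r ≠ p} => pCoreOf r.1 A) ⟨r, hr.out, hrp⟩))
    have h3 : pResidualOf p (fstarOf A) ≤ centralizer (U : Set G) :=
      ((CL.Even.res_mono hF).trans (CL.Even.res_sup_le_of_isPGroup (pCoreOf_isPGroup p A)
        ((pCoreOf_le p A).trans hAW))).trans hWU
    intro x hx y hy
    have hy' : A.subtype y ∈ pResidualOf p (fstarOf A) :=
      CL.Even.map_res_le A.subtype _ (mem_map_of_mem _ hy)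
    exact mem_centralizer_iff.1 (h3 hy') x hx

end Cfsg.Agent.S1247
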