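import Cfsg.Statements.S1254
import Cfsg.Agent.Inv.DihFusion
import Cfsg.Agent.Grp.PNilpFrob

set_option autoImplicit false
open Cfsg

namespace Cfsg.Agent.S1254

open CL.Inv CL.Grp Subgroup

/-- Let X be a finite group whose Sylow 2-subgroup S is dihedral (of order at least 4). Then X has a normal 2-complement if and only if, for every Klein four-subgroup U ≤ S, the normalizer N_X(U) is generated by C_X(U) and N_S(U). -/
theorem result {X : Type*} [Group X] [Finite X] (S : Sylow 2 X) (m : ℕ) (hm : 2 ≤ m) (eS : (S : Subgroup X) ≃* DihedralGroup m) : Cfsg.HasNormalPComplement 2 X ↔ ∀ U : Subgroup X, U ≤ S → IsKleinFour U → Subgroup.normalizer (U : Set X) = Subgroup.centralizer (U : Set X) ⊔ ((S : Subgroup X) ⊓ Subgroup.normalizer (U : Set X)) := by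
  constructor
  · intro h U hU _
    refine le_antisymm (fun g hg => ?_) (sup_le (centralizer_le_normalizer' U) inf_le_right)
    obtain ⟨u, hu, h1⟩ := HasNormalPComplement.controls_fusion h S g
    have h2 : g * u⁻¹ ∈ centralizer (U : Set X) := by
      intro x hx
      have := h1 x (hU hx) (hU ((mem_normalizer_iff''.1 hg x).1 hx))
      calc x * (g * u⁻¹) = g * (g⁻¹ * x * g) * u⁻¹ := by group
        _ = _ := by rw [this]; group
    have h3 : u ∈ normalizer (U : Set X) := by
      have := mul_mem (inv_mem (centralizer_le_normalizer' U h2)) hg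
      simpa using this
    have := mul_mem (mem_sup_left (T := (S : Subgroup X) ⊓ normalizer (U : Set X)) h2)
      (mem_sup_right (S := centralizer (U : Set X)) ⟨hu, h3⟩)
    simpa using this
  · intro h
    refine hasNormalPComplement_of_no_coprimeAut S fun U hU hc hA => ?_
    have hK : IsKleinFour U := by
      rcases dihedral_sylow_cases S hm eS with hS | ⟨n, ⟨D⟩⟩
      · rwa [eq_of_centric_of_comm (fun a ha b hb => IsKleinFour.comm_of_mem hS ha hb) hU hc]
      · obtain ⟨i, rfl⟩ := D.dih_aut_cases hU hA.not_isPGroup_mulAut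
        exact D.dih_isKleinFour i
    have h1 : IsPGroup 2 ↥((S : Subgroup X) ⊓ normalizer (U : Set X)) := S.2.to_inf_left
    obtain ⟨k, hk⟩ := h1.index ((centralizer (U : Set X)).subgroupOf _)
    refine not_hasCoprimeAut_of_relIndex_eq_pow (n := k) ?_ hA
    have h2 := relIndex_sup_of_le_normalizer
      (inf_le_right.trans (normalizer_le_normalizer_centralizer' U) :
        (S : Subgroup X) ⊓ normalizer (U : Set X) ≤ _)
    rw [sup_comm, ← h U hU hK] at h2
    exact h2.trans hk

end Cfsg.Agent.S1254
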