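import Cfsg.Statements.S1255
import Cfsg.Agent.Inv.DihFusion

set_option autoImplicit false
open Cfsg

namespace Cfsg.Agent.S1255

open CL.Inv CL.Grp Subgroup

/-- Let X be a finite group whose Sylow 2-subgroup S is dihedral of order 2m ≥ 4. Then X has no subgroup of index 2 and no isolated involution if and only if either all involutions of X are conjugate, or for every Klein four-subgroup U ≤ S the index |N_X(U) : C_X(U)| equals 3 when |S| = 4 and equals 6 when |S| > 4. -/
theorem result {X : Type*} [Group X] [Finite X] (S : Sylow 2 X) (m : ℕ) (hm : 2 ≤ m) (eS : (S : Subgroup X) ≃* DihedralGroup m) : ((∀ H : Subgroup X, H.index ≠ 2) ∧ (∀ z : X, ¬ Cfsg.IsIsolatedInvolution z)) ↔ ((∀ a b : X, orderOf a = 2 → orderOf b = 2 → IsConj a b) ∨ (∀ U : Subgroup X, U ≤ S → IsKleinFour U → (Subgroup.centralizer (U : Set X)).relIndex (Subgroup.normalizer (U : Set X)) = (if Nat.card S = 4 then 3 else 6))) := by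
  refine ⟨fun h => Or.inl (dihedral_all_isConj_of_index_ne_two S hm eS h.1), fun h => ?_⟩
  have hall : ∀ a b : X, orderOf a = 2 → orderOf b = 2 → IsConj a b := by
    refine h.elim id fun h => ?_
    rcases dihedral_sylow_cases S hm eS with hS | ⟨n, ⟨D⟩⟩
    · have h1 := h S le_rfl hS
      rw [if_pos hS.card_four] at h1
      exact all_isConj_of_kleinFour_sylow S hS
        (hasCoprimeAut_iff_relIndex.2 fun ⟨k, hk⟩ => three_ne_two_pow k (h1.symm.trans hk))
    · have h4 : ¬ Nat.card S = 4 := by
        intro h4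
        have h1 := card_le_of_le (D.sub_le (zq n) 0)
        rw [D.card_sub_q] at h1
        exact absurd (h1.trans h4.le) (by decide)
      simp only [if_neg h4] at h
      exact D.dih_all_isConj (hasCoprimeAut_of_six (h _ (D.sub_le _ _) (D.dih_isKleinFour _)))
        (hasCoprimeAut_of_six (h _ (D.sub_le _ _) (D.dih_isKleinFour _)))
  obtain ⟨U, hU⟩ : ∃ U : Subgroup X, IsKleinFour U := by
    rcases dihedral_sylow_cases S hm eS with hS | ⟨n, ⟨D⟩⟩
    exacts [⟨_, hS⟩, ⟨_, D.dih_isKleinFour 0⟩]
  obtain ⟨a, ha, b, hb, ha1, hb1, hab⟩ := IsKleinFour.exists_pair hU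
  have hao := IsKleinFour.orderOf_of_mem hU ha ha1
  have hbo := IsKleinFour.orderOf_of_mem hU hb hb1
  constructor
  · intro H hH
    have hN := normal_of_index_eq_two hH
    have hinv : ∃ t ∈ H, orderOf t = 2 := by
      by_cases h1 : a ∈ H
      · exact ⟨a, h1, hao⟩
      by_cases h2 : b ∈ H
      · exact ⟨b, h2, hbo⟩
      refine ⟨a * b, (mul_mem_iff_of_index_two hH).2 (by tauto),
        IsKleinFour.orderOf_of_mem hU (mul_mem ha hb) fun h => hab ?_⟩
      rw [mul_eq_one_iff_eq_inv, inv_eq_self_of_orderOf_two hbo] at h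
      exact h
    obtain ⟨t, ht, hto⟩ := hinv
    have hall' : ∀ u : X, orderOf u = 2 → u ∈ H := fun u hu => by
      obtain ⟨g, rfl⟩ := isConj_iff.1 (hall t u hto hu)
      exact hN.conj_mem t ht g
    have hsr : ∀ i, ((eS.symm (.sr i) : S) : X) ∈ H := fun i => hall' _ (by
      rw [Subgroup.orderOf_coe, eS.symm.orderOf_eq, DihedralGroup.orderOf_sr])
    refine not_le_of_index_two S hH fun s hs => ?_
    obtain ⟨i | i, hi⟩ := eS.symm.surjective ⟨s, hs⟩
    · have := mul_mem (hsr 0) (hsr i)
      rw [← coe_mul, ← map_mul, DihedralGroup.sr_mul_sr, sub_zero, hi] at this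
      exact this
    · have := hsr i
      rwa [hi] at this
  · rintro z ⟨hz, hiso⟩
    obtain ⟨g, rfl⟩ := isConj_iff.1 (hall a z hao hz)
    obtain ⟨k, hk⟩ := isConj_iff.1 (hall (g * a * g⁻¹) (g * b * g⁻¹) hz (by rw [orderOf_conj, hbo]))
    have := hiso k (by
      rw [hk]
      exact (show Commute a b from IsKleinFour.comm_of_mem hU ha hb).map (MulAut.conj g))
    rw [hk] at this
    exact hab (by simpa using this.symm)

end Cfsg.Agent.S1255
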