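import Cfsg.Statements.S1256
import Cfsg.Agent.Inv.DihFusion

set_option autoImplicit false
open Cfsg

namespace Cfsg.Agent.S1256

open CL.Inv CL.Grp Subgroup

/-- Let X be a finite group whose Sylow 2-subgroup S is dihedral of order 2m ≥ 4. If |S| = 4, any two Klein four-subgroups of X are conjugate; if |S| > 4, there are Klein four-subgroups U₁, U₂ of X that are not conjugate, and every Klein four-subgroup of X is conjugate to U₁ or to U₂. -/
theorem result {X : Type*} [Group X] [Finite X] (S : Sylow 2 X) (m : ℕ) (hm : 2 ≤ m) (eS : (S : Subgroup X) ≃* DihedralGroup m) : (Nat.card S = 4 → ∀ U V : Subgroup X, IsKleinFour U → IsKleinFour V → (∃ x : X, U.map (MulAut.conj x).toMonoidHom = V)) ∧ (4 < Nat.card S → ∃ U₁ U₂ : Subgroup X, IsKleinFour U₁ ∧ IsKleinFour U₂ ∧ ¬ (∃ x : X, U₁.map (MulAut.conj x).toMonoidHom = U₂) ∧ ∀ V : Subgroup X, IsKleinFour V → (∃ x : X, V.map (MulAut.conj x).toMonoidHom = U₁) ∨ (∃ x : X, V.map (MulAut.conj x).toMonoidHom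 = U₂)) := by
  constructor
  · intro h4 U V hU hV
    obtain ⟨g, hg⟩ := exists_conj_le_sylow S (IsKleinFour.isPGroup_two hU)
    obtain ⟨k, hk⟩ := exists_conj_le_sylow S (IsKleinFour.isPGroup_two hV)
    have h1 := eq_of_le_of_card_ge hg (by rw [card_conj_smul, hU.card_four]; exact h4.le)
    have h2 := eq_of_le_of_card_ge hk (by rw [card_conj_smul, hV.card_four]; exact h4.le)
    refine ⟨k⁻¹ * g, ?_⟩
    rw [← conj_smul_eq_map, ← conj_smul_conj_smul, h1, ← h2, conj_smul_conj_smul, inv_mul_cancel,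
      map_one, one_smul]
  · intro h4
    rcases dihedral_sylow_cases S hm eS with hS | ⟨n, ⟨D⟩⟩
    · exact absurd hS.card_four h4.ne'
    refine ⟨D.sub (2 * zq n) 0, D.sub (2 * zq n) 1, D.dih_isKleinFour _, D.dih_isKleinFour _,
      fun ⟨g, hg⟩ => D.dih_not_conj_sub g hg, fun V hV => ?_⟩
    obtain ⟨g, hg⟩ := exists_conj_le_sylow S (IsKleinFour.isPGroup_two hV)
    obtain ⟨i, hi, -⟩ := D.kleinFour_cases hg ((isKleinFour_conj_smul_iff g).2 hV)
    rcases D.dih_conj_cases i with ⟨s, -, h, -⟩ | ⟨s, -, h, -⟩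
    · refine Or.inl ⟨s⁻¹ * g, ?_⟩
      rw [← conj_smul_eq_map, ← conj_smul_conj_smul, hi, ← h, conj_smul_conj_smul, inv_mul_cancel,
        map_one, one_smul]
    · refine Or.inr ⟨s⁻¹ * g, ?_⟩
      rw [← conj_smul_eq_map, ← conj_smul_conj_smul, hi, ← h, conj_smul_conj_smul, inv_mul_cancel,
        map_one, one_smul]

end Cfsg.Agent.S1256
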