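import Cfsg.Statements.S1258
import Cfsg.Agent.Loc.Components

set_option autoImplicit false
open Cfsg

namespace Cfsg.Agent.S1258

/-- If the central quotient of a finite group X is non-abelian simple, then X = X' Z(X) and the commutator subgroup X' is quasisimple. -/
theorem result {X : Type*} [Group X] [Finite X] (hs : IsSimpleGroup (X ⧸ Subgroup.center X)) (hna : ¬ IsMulCommutative (X ⧸ Subgroup.center X)) : commutator X ⊔ Subgroup.center X = ⊤ ∧ Cfsg.IsQuasisimple ↥(commutator X) := by
  have hq : Cfsg.IsQuasisimple (X ⧸ Subgroup.center X) := CL.Loc.isQuasisimple_of_isSimpleGroup hna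
  have h1 : Cfsg.IsQuasisimple ((⊤ : Subgroup X).map (QuotientGroup.mk' (Subgroup.center X))) := by
    rw [Subgroup.map_top_of_surjective _ (QuotientGroup.mk'_surjective _)]
    exact CL.Loc.isQuasisimple_top_iff.mpr hq
  have h2 := CL.Loc.isQuasisimple_commutator_of_map _ h1 (by
    rw [QuotientGroup.ker_mk', top_inf_eq, Subgroup.commutator_center_left])
  rw [QuotientGroup.ker_mk', top_inf_eq] at h2
  exact ⟨h2.2.2.symm, h2.1⟩

end Cfsg.Agent.S1258
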