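import Cfsg.Statements.S1264
import Cfsg.Agent.Loc.FStar

set_option autoImplicit false
open Cfsg

namespace Cfsg.Agent.S1264

/-- Let G be finite, C = C_G(F(G)) the centralizer of the Fitting subgroup, and N a solvable subgroup of C normalized by C. Then N ≤ Z(F(G)). -/
theorem result {G : Type*} [Group G] [Finite G] (N : Subgroup G) (hN : N ≤ Subgroup.centralizer (Cfsg.fittingSubgroup G : Set G)) (hnorm : Subgroup.centralizer (Cfsg.fittingSubgroup G : Set G) ≤ Subgroup.normalizer (N : Set G)) (hsolv : Group.IsSolvable ↥N) : N ≤ (Subgroup.center ↥(Cfsg.fittingSubgroup G)).map (Cfsg.fittingSubgroup G).subtype := by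
  rw [CL.Loc.map_center_subtype_eq_inf]
  refine le_inf (CL.Loc.le_fitting_of_subnormal_of_no_component ?_ hN fun L hL => ?_) hN
  · exact (CL.Grp.SubnIn.of_le_normalizer hN hnorm).isSubnormal_of
      (Subgroup.Normal.isSubnormal inferInstance)
  · exact CL.Loc.IsQuasisimple.not_le_of_isSolvable hL.2 hsolv

end Cfsg.Agent.S1264
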