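import Cfsg.Statements.S1269
import Cfsg.Agent.Loc.Bal1

set_option autoImplicit false
open Cfsg

namespace Cfsg.Agent.S1269

/-- Let G be finite with O_{p'}(G) = 1, P a p-subgroup, N = N_G(P), and x an element of the preimage in N of E(N / O_{p'}(N)). Then x normalizes every component L of G. -/
theorem result {G : Type*} [Group G] [Finite G] (p : ℕ) [Fact p.Prime] (hO : Cfsg.pPrimeCore p G = ⊥) (P : Subgroup G) (hP : IsPGroup p ↥P) (L : Subgroup G) (hL : Cfsg.IsComponent L) (x : G) (hx : x ∈ (((Cfsg.layer (↥(Subgroup.normalizer ((P : Subgroup G) : Set G)) ⧸ Cfsg.pPrimeCore p ↥(Subgroup.normalizer ((P : Subgroup G) : Set G)))).comap (QuotientGroup.mk' (Cfsg.pPrimeCore p ↥(Subgroup.normalizer ((P : Subgroup G) : Set G))))).map (Subgroup.normalizer ((P : Subgroup G) : Set G)).subtype)) : L.map (MulAut.conj x).toMonoidHom = L := by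
  have hd := CL.Loc.IsComponent.p_dvd_card hO hL
  refine CL.Even.cj_eq ((?_ : _ ≤ Subgroup.normalizer (L : Set G)) hx)
  rw [CL.Loc.comap_layer_mk', Subgroup.map_sup]
  refine sup_le ?_ ?_
  · change Cfsg.pLayerOf p _ ≤ _
    rw [CL.Loc.pLayerOf_norm_eq hP, CL.Loc.pLayerOf_le_iff]
    exact fun K hK => hK.le_norm_component hL hd hP
  · change CL.Grp.pPrimeCoreOf p _ ≤ _
    rw [CL.Loc.core_norm_eq hP]
    exact CL.Loc.core_cent_le_norm_component hL hd hP

end Cfsg.Agent.S1269
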