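import Cfsg.Statements.S1271
import Cfsg.Agent.Loc.Bal2

set_option autoImplicit false
open Cfsg

namespace Cfsg.Agent.S1271

/-- Let G be finite with O_{p'}(G) = 1. Suppose that for every component L of G and every subgroup H ≥ L in which L is normal, the quotient H / C_H(L) is balanced for the prime p. Then G is balanced for p. -/
theorem result {G : Type*} [Group G] [Finite G] (p : ℕ) [Fact p.Prime] (hO : Cfsg.pPrimeCore p G = ⊥) (h : ∀ L : Subgroup G, Cfsg.IsComponent L → ∀ H : Subgroup G, L ≤ H → (L.subgroupOf H).Normal → ∀ [((Subgroup.centralizer (L : Set G)).subgroupOf H).Normal], Cfsg.IsBalancedFor p (↥H ⧸ (Subgroup.centralizer (L : Set G)).subgroupOf H)) : Cfsg.IsBalancedFor p G := by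
  intro x hx
  have hp : x ^ p = 1 := by rw [← hx, pow_orderOf_eq_one]
  have hp1 : x ^ p ^ 1 = 1 := by rw [pow_one, hp]
  have hP := CL.Even.isPGroup_zpowers hp1
  refine (CL.Loc.eq_bot_of_cent_components hO (CL.Grp.pPrimeCoreOf_coprime p _) ?_
    fun L hL => ?_).le.trans bot_le
  · rw [← CL.Loc.cent_zpowers]
    exact CL.Loc.core_cent_le_cent_pCore hP
  have hd := CL.Loc.IsComponent.p_dvd_card hO hL
  by_cases hc : x ∈ Subgroup.normalizer (L : Set G) → x ∈ Subgroup.centralizer (L : Set G)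
  · exact CL.Loc.core_le_cent_component hL hd hp1 (by rw [hp]; exact one_mem _) hc
  push Not at hc
  have hX : centralizerPPrimeCore p x ≤ Subgroup.normalizer (L : Set G) := by
    rw [CL.Grp.centralizerPPrimeCore_eq, ← CL.Loc.cent_zpowers]
    exact CL.Loc.core_cent_le_norm_component hL hd hP
  have hY : centralizerPPrimeCore p x ⊔ Subgroup.zpowers x ≤ Subgroup.normalizer (L : Set G) :=
    sup_le hX (Subgroup.zpowers_le.mpr hc.1)
  set H := L ⊔ (centralizerPPrimeCore p x ⊔ Subgroup.zpowers x) with hHdef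
  have hH : H ≤ Subgroup.normalizer (L : Set G) := sup_le Subgroup.le_normalizer hY
  have hn : ((Subgroup.centralizer (L : Set G)).subgroupOf H).Normal :=
    CL.Grp.normal_subgroupOf_of_le_normalizer' (CL.Even.le_norm_cent hH)
  have hb := h L hL H le_sup_left (CL.Grp.normal_subgroupOf_of_le_normalizer' hH)
  have hs := QuotientGroup.mk'_surjective ((Subgroup.centralizer (L : Set G)).subgroupOf H)
  obtain ⟨h1, h2⟩ := CL.Loc.component_map_of_ker_eq hL.2 le_sup_left hH hs (QuotientGroup.ker_mk' _)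
  have h3 := CL.Loc.pPrimeCore_eq_bot_of_cent_eq_bot h1 (CL.Loc.not_coprime_map_of_ker_le hL.2 hd
    le_sup_left _ (CL.Loc.IsComponent.ne_bot h1)) h2
  have hxH : x ∈ H := Subgroup.mem_sup_right (Subgroup.mem_sup_right (Subgroup.mem_zpowers x))
  intro d hd
  have h4 := CL.Loc.mem_core_map (CL.Loc.IsComponent.isPGroup_center hO hL) hH ⟨x, hxH⟩ hp1
    (fun g hg => by
      obtain ⟨l, hl, c, hc, e⟩ := (CL.Even.mem_sup_nl hY).mp hg
      refine ⟨l, hl, c, (sup_le (CL.Grp.pPrimeCoreOf_le p _) ?_ :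
        _ ≤ Subgroup.centralizer ({x} : Set G)) hc, e⟩
      exact Subgroup.zpowers_le.mpr (Subgroup.mem_centralizer_singleton_iff.mpr rfl))
    hs (fun g hg => (QuotientGroup.eq_one_iff g).mp hg)
    ⟨d, Subgroup.mem_sup_right (Subgroup.mem_sup_left hd)⟩ hd
  have h5 := hb _ (orderOf_eq_prime ?_ ?_) h4
  · rw [h3, Subgroup.mem_bot] at h5
    exact (QuotientGroup.eq_one_iff (G := H) _).mp h5
  · rw [← map_pow, show (⟨x, hxH⟩ : H) ^ p = 1 from Subtype.ext hp, map_one]
  · exact fun e => hc.2 ((QuotientGroup.eq_one_iff (⟨x, hxH⟩ : H)).mp e)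

end Cfsg.Agent.S1271
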