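import Cfsg.Statements.S1273
import Cfsg.Agent.Loc.PComp

set_option autoImplicit false
open Cfsg

namespace Cfsg.Agent.S1273

/-- Let K be a p-component of the finite group X and N a normal subgroup of K whose index in K is prime to p. Then N = K. -/
theorem result {X : Type*} [Group X] [Finite X] (p : ℕ) [Fact p.Prime] (K : Subgroup X) (hK : Cfsg.IsPComponent p K) (N : Subgroup ↥K) [N.Normal] (hidx : (N.index).Coprime p) : N = ⊤ := by
  have h1 := (CL.Loc.isPQuasi_top_iff.mpr (CL.Loc.isPComponent_iff.mp hK).2).gen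
  rw [eq_top_iff, ← h1]
  refine CL.Loc.pGen_le_of_subnIn (CL.Grp.SubnIn.of_normal le_top) ?_
  rw [Subgroup.relIndex_top_right]
  exact (Fact.out : p.Prime).coprime_iff_not_dvd.mp hidx.symm

end Cfsg.Agent.S1273
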