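import Cfsg.Statements.S1278
import Cfsg.Agent.Loc.PComp

set_option autoImplicit false
open Cfsg

namespace Cfsg.Agent.S1278

/-- Let K ≠ L be 2-components of the finite group X. Then ⁅K, L⁆ ≤ O(K) ⊓ O(L), and if K is quasisimple then ⁅K, L⁆ = 1. -/
theorem result {X : Type*} [Group X] [Finite X] (K L : Subgroup X) (hK : Cfsg.IsPComponent 2 K) (hL : Cfsg.IsPComponent 2 L) (hne : K ≠ L) : ⁅K, L⁆ ≤ ((Cfsg.oddCore ↥K).map K.subtype) ⊓ ((Cfsg.oddCore ↥L).map L.subtype) ∧ (Cfsg.IsQuasisimple ↥K → ⁅K, L⁆ = ⊥) := by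
  have h1 := CL.Loc.isPComponent_iff.mp hK
  have h2 := CL.Loc.isPComponent_iff.mp hL
  refine ⟨h1.commutator_le_of_ne h2 hne, fun hq => ?_⟩
  exact (CL.Loc.IsComponent.le_or_commutator_eq_bot ⟨hK.1, hq⟩ hL.1).resolve_left
    fun hle => hne (h1.eq_of_le h2 hle)

end Cfsg.Agent.S1278
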