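import Cfsg.Statements.S1281
import Cfsg.Agent.Loc.SigBasic

set_option autoImplicit false
open Cfsg CL.Grp CL.Odd CL.Loc
open scoped Pointwise commutatorElement

namespace Cfsg.Agent.S1281

/-- Let θ be a solvable A-signalizer functor on the finite group G (A a noncyclic elementary abelian p-subgroup) and N a normal subgroup of order prime to p. Then for all non-identity a, b ∈ A, the image of θ a in G / N meets the centralizer of the image of b inside the image of θ b. -/
theorem result {G : Type*} [Group G] [Finite G] (p : ℕ) [Fact p.Prime] (A : Subgroup G) (hA : Cfsg.IsElementaryAbelian p A) (hA2 : p ^ 2 ≤ Nat.card ↥A) (θ : G → Subgroup G) (hθ : Cfsg.IsSolvableSignalizerFunctor p A θ) (N : Subgroup G) [N.Normal] (hN : ¬ p ∣ Nat.card ↥N) (a b : G) (ha : a ∈ A) (ha1 : a ≠ 1) (hb : b ∈ A) (hb1 : b ≠ 1) : (θ a).map (QuotientGroup.mk' N) ⊓ Subgroup.centralizer {QuotientGroup.mk' N b} ≤ (θ b).map (QuotientGroup.mk' N) := by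
  have h := SF.of_def Fact.out hA hA2 hθ
  have hz := Subgroup.zpowers_le.2 hb
  rintro _ ⟨⟨x, hx, rfl⟩, hc⟩
  have hn : ∀ K : Subgroup G, K ≤ N[N] := fun K => by rw [norm_eq_top_iff.2 ‹_›]; exact le_top
  have hzn : Subgroup.zpowers b ≤ N[θ a] := hz.trans (h.norm a ha ha1)
  have hN' : θ a ≤ N[θ a ⊓ N] := le_norm_inf (le_norm_self _) (hn _)
  have h1 : ⁅Subgroup.zpowers x, Subgroup.zpowers b⁆ ≤ θ a ⊓ N := by
    refine le_inf ((Subgroup.commutator_mono (Subgroup.zpowers_le.2 hx) le_rfl).trans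
      (comm_le_left hzn)) ?_
    rw [← QuotientGroup.ker_mk' N, ← Subgroup.map_eq_bot_iff, Subgroup.map_commutator,
      MonoidHom.map_zpowers, MonoidHom.map_zpowers, comm_eq_bot_iff, centralizer_zpowers]
    exact Subgroup.zpowers_le.2 hc
  have h2 := coprime_le_sup_cent (U := Subgroup.zpowers x) hzn inf_le_left (le_norm_inf hzn (hn _))
    (h.cop hz fun hd => hN (hd.trans (Subgroup.card_dvd_of_le inf_le_right))) (h.solB hz _)
    (Subgroup.zpowers_le.2 hx) h1
  rw [centralizer_zpowers] at h2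
  obtain ⟨n, hn', y, hy, rfl⟩ := (mem_sup_norm (inf_le_left.trans hN')).1 (h2 (Subgroup.mem_zpowers x))
  refine ⟨y, h.bal a ha ha1 b hb hb1 hy, ?_⟩
  rw [map_mul, (QuotientGroup.eq_one_iff n).2 hn'.2 |> fun e : (n : G ⧸ N) = 1 =>
    show QuotientGroup.mk' N n = 1 from e, one_mul]

end Cfsg.Agent.S1281
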