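import Cfsg.Statements.S1282
import Cfsg.Agent.Loc.SigBasic

set_option autoImplicit false
open Cfsg CL.Grp CL.Odd CL.Loc
open scoped Pointwise commutatorElement

namespace Cfsg.Agent.S1282

/-- Let A be an elementary abelian p-subgroup of rank at least 3 of the finite group G, q ≠ p a prime, and Q₁, Q₂ q-subgroups normalized by A with D = Q₁ ∩ Q₂ different from both. Then there is a non-identity a ∈ A such that, for i = 1 and i = 2, N_{Q_i}(D) ∩ C_G(a) is not contained in D. -/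
theorem result {G : Type*} [Group G] [Finite G] (p : ℕ) [Fact p.Prime] (A : Subgroup G) (hA : Cfsg.IsElementaryAbelian p A) (hA3 : p ^ 3 ≤ Nat.card ↥A) (q : ℕ) [Fact q.Prime] (hqp : q ≠ p) (Q₁ Q₂ : Subgroup G) (h₁ : IsPGroup q ↥Q₁) (h₂ : IsPGroup q ↥Q₂) (hA₁ : A ≤ Subgroup.normalizer (Q₁ : Set G)) (hA₂ : A ≤ Subgroup.normalizer (Q₂ : Set G)) (hD₁ : Q₁ ⊓ Q₂ ≠ Q₁) (hD₂ : Q₁ ⊓ Q₂ ≠ Q₂) : ∃ a ∈ A, a ≠ 1 ∧ ¬ (Subgroup.normalizer ((Q₁ ⊓ Q₂ : Subgroup G) : Set G) ⊓ Q₁ ⊓ Subgroup.centralizer {a} ≤ Q₁ ⊓ Q₂) ∧ ¬ (Subgroup.normalizer ((Q₁ ⊓ Q₂ : Subgroup G) : Set G) ⊓ Q₂ ⊓ Subgroup.centralizer {a} ≤ Q₁ ⊓ Q₂) := by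
  have hp : p.Prime := Fact.out
  have hnd : ∀ Q : Subgroup G, IsPGroup q Q → ¬ p ∣ Nat.card Q := fun Q hQ hd =>
    hqp (eq_of_prime_dvd_card_isPGroup hQ hp hd).symm
  have hD := le_norm_norm (le_norm_inf hA₁ hA₂)
  have k₁ := lt_inf_normalizer_of_isPGroup h₁ (lt_of_le_of_ne inf_le_left hD₁)
  have k₂ := lt_inf_normalizer_of_isPGroup h₂ (lt_of_le_of_ne inf_le_right hD₂)
  rw [inf_comm Q₁ N[Q₁ ⊓ Q₂]] at k₁
  rw [inf_comm Q₂ N[Q₁ ⊓ Q₂]] at k₂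
  exact exists_c1_not_le hp hA hA3 (le_norm_inf hD hA₁) (le_norm_inf hD hA₂)
    (hnd _ h₁.to_inf_right) (hnd _ h₂.to_inf_right) k₁.not_ge k₂.not_ge

end Cfsg.Agent.S1282
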