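import Cfsg.Statements.S1286
import Cfsg.Agent.Base

set_option autoImplicit false
open Cfsg

namespace Cfsg.Agent.S1286
open scoped Pointwise commutatorElement

open Equiv

abbrev P5 := Perm (Fin 5)
def a : P5 := swap 0 1
def b : P5 := swap 2 3
def u : P5 := swap 2 3 * swap 3 4
def v : P5 := swap 0 1 * swap 1 4

def mk (s : Finset P5) (h1 : 1 ∈ s) (hm : ∀ x ∈ s, ∀ y ∈ s, x * y ∈ s) (hi : ∀ x ∈ s, x⁻¹ ∈ s) : Subgroup P5 where
  carrier := s
  one_mem' := h1
  mul_mem' := fun hx hy => hm _ hx _ hy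
  inv_mem' := fun hx => hi _ hx

theorem card_mk (s : Finset P5) (h1 hm hi) : Nat.card (mk s h1 hm hi) = s.card := by
  show Nat.card (s : Set P5) = s.card
  simp

def sA : Finset P5 := {1, a, b, a * b}
def sU : Finset P5 := {1, u, u * u}
def sV : Finset P5 := {1, v, v * v}
def sT (x : P5) : Finset P5 := if x = a then sU else if x = b then sV else {1}

def A : Subgroup P5 := mk sA (by decide +kernel) (by decide +kernel) (by decide +kernel)

theorem hT (x : P5) : 1 ∈ sT x ∧ (∀ y ∈ sT x, ∀ z ∈ sT x, y * z ∈ sT x) ∧ (∀ y ∈ sT x, y⁻¹ ∈ sT x) ∧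
    (∀ y ∈ sT x, ∀ z ∈ sT x, y * z = z * y) := by
  unfold sT
  split_ifs <;> refine ⟨?_, ?_, ?_, ?_⟩ <;> decide +kernel

def θ (x : P5) : Subgroup P5 := mk (sT x) (hT x).1 (hT x).2.1 (hT x).2.2.1

theorem h1 : ∀ x ∈ sA, ∀ y ∈ sT x, x * y = y * x := by decide +kernel
theorem h2 : ∀ x ∈ sA, ¬ 2 ∣ (sT x).card := by decide +kernel
theorem h3 : ∀ x ∈ sA, ∀ c ∈ sA, ∀ y ∈ sT x, c * y * c⁻¹ ∈ sT x := by decide +kernel
theorem h4 : ∀ x ∈ sA, ∀ c ∈ sA, c ≠ 1 → ∀ y ∈ sT x, c * y = y * c → y ∈ sT c := by decide +kernel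
theorem h5 : ∀ x ∈ sA, (∀ y ∈ sA, x * y = y * x) ∧ x ^ 2 = 1 := by decide +kernel


/-- There exist a finite group X, an elementary abelian subgroup A of order 4 and a solvable A-signalizer functor θ on X for the prime 2 which is not complete. -/
theorem result : ∃ (X : Type) (_ : Group X) (_ : Finite X) (A : Subgroup X) (θ : X → Subgroup X), Cfsg.IsElementaryAbelian 2 A ∧ Nat.card ↥A = 4 ∧ Cfsg.IsSolvableSignalizerFunctor 2 A θ ∧ ¬ Cfsg.IsCompleteSignalizerFunctor 2 A θ := by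
  have hsig : Cfsg.IsSignalizerFunctor 2 A θ := by
    refine ⟨fun x hx _ y hy => ?_, fun x hx _ => ?_, fun x hx _ c hc y hy => h3 x hx c hc y hy,
      fun x hx _ c hc hc1 y hy => ?_⟩
    · exact Subgroup.mem_centralizer_singleton_iff.mpr (h1 x hx y hy).symm
    · rw [θ, card_mk]; exact h2 x hx
    · exact h4 x hx c hc hc1 y hy.1 (Subgroup.mem_centralizer_singleton_iff.mp hy.2).symm
  refine ⟨P5, inferInstance, inferInstance, A, θ,
    ⟨⟨⟨fun x y => Subtype.ext ((h5 x.1 x.2).1 y.1 y.2)⟩⟩, fun x hx => (h5 x hx).2⟩, ?_, ⟨hsig, fun x _ _ => ?_⟩, ?_⟩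
  · rw [A, card_mk]; decide +kernel
  · exact Group.isSolvable_of_comm fun y z => Subtype.ext ((hT x).2.2.2 y.1 y.2 z.1 z.2)
  · rintro ⟨-, X, -, hX, h⟩
    have ha : a ∈ A := show a ∈ sA by decide +kernel
    have hb : b ∈ A := show b ∈ sA by decide +kernel
    have hu : u ∈ X := ((h a ha (by decide +kernel)).ge (show u ∈ sT a by decide +kernel)).1
    have hv : v ∈ X := ((h b hb (by decide +kernel)).ge (show v ∈ sT b by decide +kernel)).1
    have hw : u * u * v * u * v ∈ X := mul_mem (mul_mem (mul_mem (mul_mem hu hu) hv) hu) hv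
    apply hX
    have : orderOf (u * u * v * u * v) = 2 := orderOf_eq_prime (by decide +kernel) (by decide +kernel)
    rw [← this]
    exact Subgroup.orderOf_dvd_natCard X hw

end Cfsg.Agent.S1286
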