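import Cfsg.Statements.S1288
import Cfsg.Agent.Loc.SigGen
import Cfsg.Agent.Loc.Chief

set_option autoImplicit false
open Cfsg

namespace Cfsg.Agent.S1288

open Subgroup CL.Grp CL.Loc
open scoped commutatorElement

/-- Let A be a noncyclic elementary abelian p-subgroup of a finite group H normalizing a solvable subgroup K of order prime to p, q a prime dividing |K|, and U ≤ K a subgroup of order prime to q such that ⁅U, C_K(B)⁆ has order prime to q for every subgroup B of index p in A. Then U ≤ O_{q'}(K). -/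
theorem result {H : Type*} [Group H] [Finite H] (p : ℕ) [Fact p.Prime] (A K : Subgroup H) (hA : Cfsg.IsElementaryAbelian p A) (hA2 : p ^ 2 ≤ Nat.card ↥A) (hK : ¬ p ∣ Nat.card ↥K) (hKs : Group.IsSolvable ↥K) (hAK : A ≤ Subgroup.normalizer (K : Set H)) (q : ℕ) [Fact q.Prime] (hqK : q ∣ Nat.card ↥K) (U : Subgroup H) (hU : U ≤ K) (hUq : ¬ q ∣ Nat.card ↥U) (hcomm : ∀ B : Subgroup H, B ≤ A → B.relIndex A = p → ¬ q ∣ Nat.card ↥⁅U, K ⊓ Subgroup.centralizer (B : Set H)⁆) : U ≤ (Cfsg.pPrimeCore q ↥K).map K.subtype := by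
  have hq : q.Prime := Fact.out
  set f := QuotientGroup.mk' (pPrimeCore q K) with hf
  have hone : ∀ x : K, f x ∈ pCore q _ → ∀ L : Subgroup H, ¬ q ∣ Nat.card L → x.1 ∈ L → f x = 1 :=
    fun x hx L hL hxL => eq_one_of_coprime_of_mem (pCore_isPGroup q _) hx
      ((hq.coprime_iff_not_dvd.2 hL).symm.coprime_dvd_left ((orderOf_map_dvd f x).trans
        ((orderOf_coe x).symm.dvd.trans (L.orderOf_dvd_natCard hxL))))
  have h1 : (pPrimePCore q K).map K.subtype ≤
      ((centralizer (((U.subgroupOf K).map f : Subgroup _) : Set _)).comap f).map K.subtype := by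
    refine le_of_forall_hyperplane hA (ne_bot_of_pow_le (by norm_num) hA2)
      (hAK.trans (normalizer_le_normalizer_map_subtype _))
      (fun h => hK (h.trans (card_dvd_of_le (map_subtype_le _)))) fun B hB hBp => ?_
    rintro _ ⟨⟨x, hx, rfl⟩, hxB⟩
    refine ⟨x, ?_, rfl⟩
    rintro _ ⟨u, hu, rfl⟩
    rw [← commutatorElement_eq_one_iff_mul_comm, ← map_commutatorElement]
    refine hone _ ?_ _ (hcomm B hB hBp) (commutator_mem_commutator hu ⟨x.2, hxB⟩)
    rw [map_commutatorElement, commutatorElement_def]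
    exact mul_mem (Normal.conj_mem inferInstance _ hx _) (inv_mem hx)
  rw [map_le_map_iff_of_injective K.subtype_injective, ← map_le_iff_le_comap, map_pPrimePCore_mk',
    le_centralizer_iff] at h1
  have h2 := h1.trans (isPConstrained_iff.1 (isPConstrained_of_isSolvable hKs))
  intro u hu
  exact ⟨⟨u, hU hu⟩, (QuotientGroup.eq_one_iff _).1 (hone _ (h2 (mem_map_of_mem f hu)) U hUq hu), rfl⟩

end Cfsg.Agent.S1288
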