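import Cfsg.Statements.S1289
import Cfsg.Agent.Loc.PComp

set_option autoImplicit false
open Cfsg

namespace Cfsg.Agent.S1289

/-- A p-component K of the finite group X is subnormal, perfect, of order divisible by p, and minimal among the subnormal perfect subgroups of X of order divisible by p. -/
theorem result {X : Type*} [Group X] [Finite X] (p : ℕ) [Fact p.Prime] (K : Subgroup X) (hK : Cfsg.IsPComponent p K) : K.IsSubnormal ∧ ⁅K, K⁆ = K ∧ p ∣ Nat.card ↥K ∧ ∀ H : Subgroup X, H ≤ K → H.IsSubnormal → ⁅H, H⁆ = H → p ∣ Nat.card ↥H → H = K := by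
  have h1 := CL.Loc.isPComponent_iff.mp hK
  refine ⟨hK.1, h1.2.perfect, h1.2.dvd_card, fun H hle hs hp hd => ?_⟩
  refine (h1.2.eq_or_of_subnIn (CL.Grp.subnIn_of_isSubnormal hs hle)).resolve_right fun h => ?_
  have h2 : H ≤ CL.Grp.pPrimeCoreOf p K := hp.ge.trans ((Subgroup.commutator_mono le_rfl hle).trans h)
  exact (Fact.out : p.Prime).coprime_iff_not_dvd.mp
    (CL.Loc.coprime_card_of_le h2 (CL.Grp.pPrimeCoreOf_coprime p K)).symm hd

end Cfsg.Agent.S1289
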