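import Cfsg.Statements.S1297
import Cfsg.Agent.Loc.Bal2

set_option autoImplicit false
open Cfsg

namespace Cfsg.Agent.S1297

/-- Let G be finite. Suppose that for every involution x, writing C = C_G(x), every component K of C / O(C) has K / Z(K) locally balanced. Then G is balanced. -/
theorem result {G : Type*} [Group G] [Finite G] (h : ∀ x : G, orderOf x = 2 → ∀ K : Subgroup (↥(Subgroup.centralizer ({x} : Set G)) ⧸ Cfsg.oddCore ↥(Subgroup.centralizer ({x} : Set G))), Cfsg.IsComponent K → Cfsg.IsLocallyBalanced (↥K ⧸ Subgroup.center ↥K)) : Cfsg.IsBalanced G := by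
  have key : ∀ x y : G, orderOf x = 2 → orderOf y = 2 → x * y = y * x →
      centralizerPPrimeCore 2 x ⊓ Subgroup.centralizer {y} ≤ centralizerPPrimeCore 2 y := by
    intro x y hx hy hxy
    have hx2 : x ^ 2 = 1 := by rw [← hx, pow_orderOf_eq_one]
    refine le_trans (inf_le_inf_right _ fun d hd => CL.Loc.mem_delta_iff.mpr fun a ha h1 => ?_)
      (CL.Loc.delta_inf_le_core (CL.Loc.ea_zpowers hx2) (Subgroup.zpowers_le.mpr
        (Subgroup.mem_centralizer_singleton_iff.mpr hxy)) (k := 1) le_rfl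
        (by rw [Nat.card_zpowers, hx, pow_one]) fun L hL => Or.inr fun H hH A hA hc => ?_)
    · obtain ⟨n, rfl⟩ := Subgroup.mem_zpowers_iff.mp ha
      have : x ^ n = x := by
        rcases Int.even_or_odd' n with ⟨m, rfl | rfl⟩
        · exfalso; apply h1
          rw [zpow_mul, zpow_ofNat, hx2, one_zpow]
        · rw [zpow_add, zpow_mul, zpow_ofNat, hx2, one_zpow, one_mul, zpow_one]
      rwa [this]
    · obtain ⟨a, ha, h1⟩ := CL.Loc.exists_mem_ne_one_of_card le_rfl hc
      rw [← le_bot_iff, ← h y hy L hL H hH a (CL.Loc.ea_orderOf hA ha h1)]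
      exact CL.Loc.delta_le ha h1
  intro x y hx hy hxy
  refine le_antisymm (le_inf (key x y hx hy hxy) ?_) (le_inf (key y x hy hx hxy.symm) ?_)
  · exact inf_le_left.trans (CL.Grp.pPrimeCoreOf_le 2 _)
  · exact inf_le_left.trans (CL.Grp.pPrimeCoreOf_le 2 _)

end Cfsg.Agent.S1297
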