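import Cfsg.Statements.S1300
import Cfsg.Agent.Grp.CoresPi

set_option autoImplicit false
open Cfsg

namespace Cfsg.Agent.S1300
open scoped Pointwise commutatorElement

theorem delta_eq {G : Type*} [Group G] (A : Subgroup G) (hA : Nat.card A = 2) {x : G} (hx : x ∈ A)
    (hx1 : x ≠ 1) : Cfsg.signalizerDelta 2 A = Cfsg.centralizerPPrimeCore 2 x := by
  refine le_antisymm (iInf_le (fun a : {a : G // a ∈ A ∧ a ≠ 1} =>
    Cfsg.centralizerPPrimeCore 2 (a : G)) ⟨x, hx, hx1⟩) (le_iInf fun a => ?_)
  obtain ⟨y, -, hy⟩ := (Nat.card_eq_two_iff' (1 : A)).mp hA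
  have h1 := hy ⟨x, hx⟩ (fun h => hx1 (congrArg Subtype.val h))
  have h2 := hy ⟨a, a.2.1⟩ (fun h => a.2.2 (congrArg Subtype.val h))
  have : (a : G) = x := congrArg Subtype.val (h2.trans h1.symm)
  rw [this]


/-- For a finite group G, balance in the sense of commuting involutions is the same as 1-balance for the prime 2. -/
theorem result {G : Type*} [Group G] [Finite G] : Cfsg.IsBalanced G ↔ Cfsg.IsKBalanced 2 1 G := by
  constructor
  · intro h A hA hc b hb hab
    obtain ⟨x, hx, -⟩ := (Nat.card_eq_two_iff' (1 : A)).mp hc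
    have hx1 : (x : G) ≠ 1 := fun e => hx (Subtype.ext e)
    rw [delta_eq A hc x.2 hx1, h x b (orderOf_eq_prime (hA.2 x x.2) hx1) hb (hab x x.2)]
    exact inf_le_left
  · intro h
    have key : ∀ x y : G, orderOf x = 2 → orderOf y = 2 → x * y = y * x →
        Cfsg.centralizerPPrimeCore 2 x ⊓ Subgroup.centralizer {y} ≤
          Cfsg.centralizerPPrimeCore 2 y ⊓ Subgroup.centralizer {x} := by
      intro x y hx hy hxy
      have hc : Nat.card (Subgroup.zpowers x) = 2 := by rw [Nat.card_zpowers, hx]
      have hx1 : x ≠ 1 := by rintro rfl; simp at hx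
      refine le_inf ?_ (inf_le_left.trans (Subgroup.map_subtype_le _))
      rw [← delta_eq _ hc (Subgroup.mem_zpowers x) hx1]
      refine h _ ⟨inferInstance, fun a ha => ?_⟩ hc y hy fun a ha => ?_
      · have := pow_card_eq_one' (x := (⟨a, ha⟩ : Subgroup.zpowers x))
        rw [hc] at this
        exact congrArg Subtype.val this
      · obtain ⟨k, rfl⟩ := ha
        exact ((show Commute x y from hxy).zpow_left k).eq
    exact fun x y hx hy hxy => le_antisymm (key x y hx hy hxy) (key y x hy hx hxy.symm)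

end Cfsg.Agent.S1300
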