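import Cfsg.Statements.S1302
import Cfsg.Agent.Base
import Cfsg.Agent.Loc.BaerTrick

set_option autoImplicit false
open Cfsg

namespace Cfsg.Agent.S1302

open CL.Grp CL.Loc

theorem aux {X : Type*} [Group X] [Finite X] {p : ℕ} [Fact p.Prime] (hp : p ≠ 2)
    (hX : Subgroup.centralizer (pCore p X : Set X) ≤ pCore p X) {A : Subgroup X}
    (hAp : IsPGroup p A) (hΩ : ∀ x ∈ Subgroup.centralizer (A : Set X), x ^ p = 1 → x ∈ A)
    {Q : Subgroup X} (hQ : (Nat.card Q).Coprime p) (hAQ : A ≤ Subgroup.normalizer (Q : Set X)) :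
    Q = ⊥ := by
  have hbot : pCore p X ⊓ Q = ⊥ := inf_eq_bot_of_isPGroup_of_coprime (pCore_isPGroup p X) hQ
  have h1 : pCore p X ≤ Subgroup.centralizer (Q : Set X) := by
    refine le_centralizer_of_omega_fixed hp hAp hQ hAQ (pCore_isPGroup p X)
      Subgroup.le_normalizer_of_normal Subgroup.le_normalizer_of_normal fun v hv hvp hvA => ?_
    have hvA' := hΩ v hvA hvp
    rw [Subgroup.mem_centralizer_iff]
    intro q hq
    have h2 : v * q⁻¹ * v⁻¹ * q ∈ pCore p X ⊓ Q := by
      refine ⟨?_, Q.mul_mem ((Subgroup.mem_normalizer_iff.mp (hAQ hvA') _).mp (Q.inv_mem hq)) hq⟩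
      have := (pCore p X).mul_mem hv ((inferInstance : (pCore p X).Normal).conj_mem _
        ((pCore p X).inv_mem hv) q⁻¹)
      simpa [mul_assoc] using this
    rw [hbot, Subgroup.mem_bot] at h2
    calc q * v = q * (v * q⁻¹ * v⁻¹ * q) * q⁻¹ * v * q := by group
      _ = v * q := by rw [h2]; group
  rw [← hbot, eq_comm, inf_eq_right]
  exact (Subgroup.le_centralizer_iff.mp h1).trans hX
/-- Let X be a finite p-constrained group, p an odd prime, and A an abelian p-subgroup of X containing every element of order p of C_X(A). Then every subgroup of X of order prime to p that is normalized by A lies in O_{p'}(X). -/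
theorem result {X : Type*} [Group X] [Finite X] (p : ℕ) [Fact p.Prime] (hp : p ≠ 2) (hX : Cfsg.IsPConstrained p X) (A : Subgroup X) (hA : IsMulCommutative ↥A) (hAp : IsPGroup p ↥A) (hΩ : ∀ x ∈ Subgroup.centralizer (A : Set X), orderOf x = p → x ∈ A) (Q : Subgroup X) (hQ : ¬ p ∣ Nat.card ↥Q) (hAQ : A ≤ Subgroup.normalizer (Q : Set X)) : Q ≤ Cfsg.pPrimeCore p X := by
  have hpp : p.Prime := Fact.out
  set N := pPrimeCore p X with hN
  let π := QuotientGroup.mk' N
  have hπ : Function.Surjective π := QuotientGroup.mk'_surjective N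
  have hk : (Nat.card π.ker).Coprime p := by
    rw [QuotientGroup.ker_mk']; exact pPrimeCore_coprime p X
  have hQ' : (Nat.card Q).Coprime p := ((Nat.Prime.coprime_iff_not_dvd hpp).mpr hQ).symm
  have key := aux hp (isPConstrained_iff.mp hX) (A := A.map π) (hAp.map π) ?_ (Q := Q.map π)
    (Nat.Coprime.coprime_dvd_left (Subgroup.card_map_dvd Q π) hQ')
    ((Subgroup.map_mono hAQ).trans (Subgroup.le_normalizer_map π))
  · rwa [Subgroup.map_eq_bot_iff, QuotientGroup.ker_mk'] at key
  intro x hx hxp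
  rw [← map_centralizer_eq_of_coprime_ker hπ hk hAp] at hx
  obtain ⟨y, hy, rfl⟩ := hx
  have h1 : y ^ p ∈ π.ker := by rw [MonoidHom.mem_ker, map_pow, hxp]
  set m := Nat.card π.ker with hm
  have h2 : (y ^ m) ^ p = 1 := by
    have : (⟨y ^ p, h1⟩ : π.ker) ^ m = 1 := pow_card_eq_one'
    rw [← pow_mul, mul_comm, pow_mul]
    exact congrArg Subtype.val this
  have h3 : y ^ m ∈ A := by
    by_cases h4 : y ^ m = 1
    · rw [h4]; exact A.one_mem
    · exact hΩ _ (Subgroup.pow_mem _ hy m) (orderOf_eq_prime h2 h4)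
  have h4 : π y ^ m ∈ A.map π := by rw [← map_pow]; exact Subgroup.mem_map_of_mem π h3
  obtain ⟨k, hk'⟩ := exists_pow_eq_self_of_coprime (x := π y) (n := m)
    (Nat.Coprime.coprime_dvd_right (orderOf_dvd_of_pow_eq_one hxp) hk)
  rw [← hk']
  exact Subgroup.pow_mem _ h4 k

end Cfsg.Agent.S1302
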