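import Cfsg.Statements.S1303
import Cfsg.Agent.Base
import Cfsg.Agent.Loc.PConstr
import Cfsg.Agent.S0061

set_option autoImplicit false
open Cfsg

namespace Cfsg.Agent.S1303

abbrev X := Matrix.SpecialLinearGroup (Fin 2) (ZMod 3)

theorem cardX : Nat.card X = 2 ^ 3 * 3 := by
  rw [Nat.card_eq_fintype_card]; decide +kernel

theorem key1 : ∀ x : X, x ^ 3 = 1 → x ≠ 1 → ∃ g : X, (g * x * g⁻¹ * x⁻¹) ^ 4 = 1 ∧
    g * x * g⁻¹ * x⁻¹ ≠ 1 := by decide +kernel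

theorem key2 : ∀ t : X, t ^ 2 = 1 → ∀ g : X, g * t = t * g := by decide +kernel

theorem key3 : ∃ x : X, x ^ 3 = 1 ∧ x ≠ 1 := by decide +kernel

theorem core_bot : Cfsg.pPrimeCore 2 X = ⊥ := by
  by_contra h
  have h1 := CL.Grp.pPrimeCore_coprime 2 X
  have h2 : Nat.card (Cfsg.pPrimeCore 2 X) ∣ 2 ^ 3 * 3 := cardX ▸ Subgroup.card_subgroup_dvd_card _
  have h3 : Nat.card (Cfsg.pPrimeCore 2 X) ∣ 3 :=
    (Nat.Coprime.pow_right 3 h1).dvd_of_dvd_mul_left h2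
  obtain ⟨⟨x, hx⟩, hx1⟩ := (Subgroup.ne_bot_iff_exists_ne_one).mp h
  have h4 : ∀ y ∈ Cfsg.pPrimeCore 2 X, y ^ 3 = 1 := fun y hy =>
    orderOf_dvd_iff_pow_eq_one.mp (((Cfsg.pPrimeCore 2 X).orderOf_dvd_natCard hy).trans h3)
  obtain ⟨g, hg, hg1⟩ := key1 x (h4 x hx) (fun h => hx1 (Subtype.ext h))
  have h5 := h4 (g * x * g⁻¹ * x⁻¹) (Subgroup.mul_mem _
    ((inferInstance : (Cfsg.pPrimeCore 2 X).Normal).conj_mem x hx g) (Subgroup.inv_mem _ hx))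
  rw [pow_succ, h5, one_mul] at hg
  exact hg1 hg

/-- The group X = SL(2, 3): it is 2-constrained, O_{2'}(X) = 1, its centre A = Z(X) contains every involution of X = C_X(A), and X has a subgroup of order 3 (normalized by A) not contained in O_{2'}(X). -/
theorem result : Cfsg.IsPConstrained 2 (Matrix.SpecialLinearGroup (Fin 2) (ZMod 3)) ∧ Cfsg.pPrimeCore 2 (Matrix.SpecialLinearGroup (Fin 2) (ZMod 3)) = ⊥ ∧ (∀ t : Matrix.SpecialLinearGroup (Fin 2) (ZMod 3), orderOf t = 2 → t ∈ Subgroup.center (Matrix.SpecialLinearGroup (Fin 2) (ZMod 3))) ∧ ∃ Q : Subgroup (Matrix.SpecialLinearGroup (Fin 2) (ZMod 3)), Nat.card ↥Q = 3 ∧ ¬ (Q ≤ Cfsg.pPrimeCore 2 (Matrix.SpecialLinearGroup (Fin 2) (ZMod 3))) := by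
  haveI : Fact (Nat.Prime 3) := ⟨Nat.prime_three⟩
  refine ⟨CL.Loc.isPConstrained_of_isSolvable
    (Cfsg.Agent.S0061.result 2 3 3 Nat.prime_two Nat.prime_three cardX), core_bot, ?_, ?_⟩
  · intro t ht
    exact Subgroup.mem_center_iff.mpr (key2 t (orderOf_dvd_iff_pow_eq_one.mp (dvd_of_eq ht)))
  · obtain ⟨x, hx, hx1⟩ := key3
    refine ⟨Subgroup.zpowers x, by rw [Nat.card_zpowers, orderOf_eq_prime hx hx1], ?_⟩
    rw [core_bot, le_bot_iff, Subgroup.zpowers_eq_bot]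
    exact hx1

end Cfsg.Agent.S1303
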