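import Cfsg.Statements.S1304
import Cfsg.Agent.Loc.Components

set_option autoImplicit false
open Cfsg

namespace Cfsg.Agent.S1304

/-- Let X be a perfect group and α an automorphism of X with α(x) x⁻¹ central for every x. Then α is the identity. -/
theorem result {X : Type*} [Group X] (hperf : commutator X = ⊤) (α : X ≃* X) (h : ∀ x : X, α x * x⁻¹ ∈ Subgroup.center X) : ∀ x : X, α x = x := by
  let f : X →* X := MonoidHom.mk' (fun x => α x * x⁻¹) (by
    intro a b
    have hb := Subgroup.mem_center_iff.mp (h b) a⁻¹
    rw [map_mul, mul_inv_rev, mul_assoc (α a) a⁻¹, hb]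
    group)
  have hk : commutator X ≤ f.ker := by
    rw [commutator_def, Subgroup.commutator_le]
    intro a _ b _
    rw [MonoidHom.mem_ker, map_commutatorElement, commutatorElement_eq_one_iff_mul_comm]
    exact Subgroup.mem_center_iff.mp (h b) _
  intro x
  have hx : f x = 1 := hk (hperf ▸ Subgroup.mem_top x)
  exact mul_inv_eq_one.mp hx

end Cfsg.Agent.S1304
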