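import Cfsg.Statements.S1316
import Cfsg.Agent.Loc.FStar

set_option autoImplicit false
open Cfsg

namespace Cfsg.Agent.S1316

/-- For a finite group X, E(X) equals the intersection of the derived series of F*(X) (its last term). -/
theorem result {X : Type*} [Group X] [Finite X] : (⨅ n : ℕ, (derivedSeries ↥(Cfsg.generalizedFittingSubgroup X) n).map (Cfsg.generalizedFittingSubgroup X).subtype) = Cfsg.layer X := by
  set F := Cfsg.generalizedFittingSubgroup X with hF
  apply le_antisymm
  · have h1 := CL.Grp.fittingSubgroup_isNilpotent X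
    have h2 : Group.IsSolvable ↥((Cfsg.fittingSubgroup X).map (QuotientGroup.mk' (Cfsg.layer X))) :=
      CL.Grp.isSolvable_map_of_isSolvable inferInstance _
    have h3 : F.map (QuotientGroup.mk' (Cfsg.layer X)) =
        (Cfsg.fittingSubgroup X).map (QuotientGroup.mk' (Cfsg.layer X)) := by
      rw [hF, CL.Loc.fstar_def, Subgroup.map_sup, QuotientGroup.map_mk'_self, bot_sup_eq]
    rw [← h3] at h2
    obtain ⟨n, hn⟩ := h2.solvable
    refine (iInf_le _ n).trans ?_
    have h4 := map_derivedSeries_le_derivedSeries
      ((QuotientGroup.mk' (Cfsg.layer X)).subgroupMap F) n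
    rw [hn, le_bot_iff, Subgroup.map_eq_bot_iff] at h4
    rintro _ ⟨x, hx, rfl⟩
    have := congrArg Subtype.val (MonoidHom.mem_ker.mp (h4 hx))
    exact (QuotientGroup.eq_one_iff _).mp this
  · refine le_iInf fun n => ?_
    induction n with
    | zero =>
      rw [derivedSeries_zero, ← MonoidHom.range_eq_map, Subgroup.range_subtype]
      exact CL.Loc.layer_le_fstar
    | succ n ih =>
      rw [derivedSeries_succ, Subgroup.map_commutator, ← CL.Loc.commutator_layer_self]
      exact Subgroup.commutator_mono ih ih

end Cfsg.Agent.S1316
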