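import Cfsg.Statements.S1317
import Cfsg.Agent.Loc.Components

set_option autoImplicit false
open Cfsg

namespace Cfsg.Agent.S1317

/-- For a finite group X, the centre of the layer E(X) is F(X) ∩ E(X). -/
theorem result {X : Type*} [Group X] [Finite X] : (Subgroup.center ↥(Cfsg.layer X)).map (Cfsg.layer X).subtype = Cfsg.fittingSubgroup X ⊓ Cfsg.layer X := by
  rw [CL.Loc.map_center_subtype_eq_inf]
  apply le_antisymm
  · refine le_inf (le_sSup ⟨inferInstance, ?_⟩) inf_le_left
    have : IsMulCommutative ↥(Cfsg.layer X ⊓ Subgroup.centralizer (Cfsg.layer X : Set X)) := by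
      rw [← Subgroup.commutator_self_eq_bot_iff, Subgroup.commutator_eq_bot_iff_le_centralizer]
      exact inf_le_right.trans (Subgroup.centralizer_le (by exact_mod_cast inf_le_left))
    exact ⟨1, by rwa [Subgroup.upperCentralSeries_one_eq_top_iff]⟩
  · refine le_inf inf_le_right (inf_le_left.trans ?_)
    rw [← Subgroup.commutator_eq_bot_iff_le_centralizer, Subgroup.commutator_comm]
    exact CL.Loc.commutator_layer_fitting

end Cfsg.Agent.S1317
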