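import Cfsg.Statements.S1321
import Cfsg.Agent.Loc.FStar

set_option autoImplicit false
open Cfsg

namespace Cfsg.Agent.S1321

/-- Let X be finite and U ≤ X. Then E(X) is generated by C_{E(X)}(U) together with ⁅E(X), U⁆ (indeed it is their product, ⁅E(X), U⁆ being normal in E(X)). -/
theorem result {X : Type*} [Group X] [Finite X] (U : Subgroup X) : Cfsg.layer X = (Cfsg.layer X ⊓ Subgroup.centralizer (U : Set X)) ⊔ ⁅Cfsg.layer X, U⁆ ∧ ⁅Cfsg.layer X, U⁆ ≤ Cfsg.layer X := by
  refine ⟨le_antisymm (CL.Loc.layer_le_iff.mpr fun L hL => ?_)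
    (sup_le inf_le_left (Subgroup.commutator_le_left _ _)), Subgroup.commutator_le_left _ _⟩
  have hLE := CL.Loc.IsComponent.le_layer hL
  rcases CL.Loc.IsComponent.le_or_commutator_eq_bot_of_le_normalizer hL
    (hLE.trans (Subgroup.normalizer_commutator_ge_left (Cfsg.layer X) U)) with h | h
  · exact h.trans le_sup_right
  · refine le_trans (le_inf hLE ?_) le_sup_left
    rw [← Subgroup.commutator_eq_bot_iff_le_centralizer, Subgroup.commutator_comm]
    apply CL.Loc.commutator_eq_bot_of_perfect (CL.Loc.IsComponent.commutator_self hL)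
    rw [Subgroup.commutator_comm, Subgroup.commutator_comm U]
    exact le_bot_iff.mp ((Subgroup.commutator_mono le_rfl
      (Subgroup.commutator_mono hLE le_rfl)).trans h.le)

end Cfsg.Agent.S1321
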