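import Cfsg.Statements.S1328
import Cfsg.Agent.Loc.Bal2
import Cfsg.Agent.Loc.CondGlaub

set_option autoImplicit false
open Cfsg

namespace Cfsg.Agent.S1328
open scoped Pointwise commutatorElement

open Cfsg Subgroup CL.Grp CL.Loc CL.Even

/-- Let G be finite, H ≤ G with O(H) = 1, t an involution of G normalizing H, and Y a nontrivial subgroup of O(C_H(t)). Then some component E of H is normalized by t and by Y and centralized by neither t nor Y. -/
theorem result {G : Type*} [Group G] [Finite G] (H : Subgroup G) (hO : Cfsg.oddCore ↥H = ⊥) (t : G) (ht : orderOf t = 2) (htH : t ∈ Subgroup.normalizer (H : Set G)) (Y : Subgroup G) (hY1 : Y ≠ ⊥) (hY : Y ≤ (Cfsg.oddCore ↥(H ⊓ Subgroup.centralizer ({t} : Set G))).map (H ⊓ Subgroup.centralizer ({t} : Set G)).subtype) : ∃ E : Subgroup ↥H, Cfsg.IsComponent E ∧ (E.map H.subtype).map (MulAut.conj t).toMonoidHom = E.map H.subtype ∧ Y ≤ Subgroup.normalizer ((E.map H.subtype : Subgroup G) : Set G) ∧ ¬ (t ∈ Subgroup.centralizer ((E.map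 H.subtype : Subgroup G) : Set G)) ∧ ¬ (Y ≤ Subgroup.centralizer ((E.map H.subtype : Subgroup G) : Set G)) := by
  have : Fact (Nat.Prime 2) := Nat.fact_prime_two
  have ht2 : t * t = 1 := by rw [← pow_two, ← ht]; exact pow_orderOf_eq_one t
  set X : Subgroup G := H ⊔ zpowers t with hX
  have hzn : zpowers t ≤ 𝒩(H) := zpowers_le.mpr htH
  have hXn : X ≤ 𝒩(H) := sup_le le_normalizer hzn
  have hsq : ∀ x ∈ X, x ^ 2 ∈ H := by
    intro x hx
    obtain ⟨h, hh, z, hz, rfl⟩ := (mem_sup_nl hzn).mp hx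
    rcases eq_one_or_eq_of_mem_zpowers ht2 hz with rfl | rfl
    · simpa using pow_mem hh 2
    · have : (h * z) ^ 2 = h * (z * h * z⁻¹) * (z * z) := by rw [pow_two]; group
      rw [this, ht2, mul_one]
      exact mul_mem hh (conj_mem htH hh)
  have hOX : pPrimeCore 2 X = ⊥ := by
    have h1 : pPrimeCoreOf 2 X ≤ H := fun x hx =>
      mem_of_pow_mem_of_pow_prime_mem (hsq x (pPrimeCoreOf_le 2 X hx)) (i := orderOf x)
        (by rw [pow_orderOf_eq_one]; exact one_mem H)
        ((Nat.Prime.coprime_iff_not_dvd Nat.prime_two).mp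
          (coprime_orderOf_of_mem (pPrimeCoreOf_coprime 2 X) hx).symm)
    have h2 : pPrimeCoreOf 2 X ≤ pPrimeCoreOf 2 H :=
      (le_inf le_rfl h1).trans (pPrimeCoreOf_inf_le le_sup_left)
    have h3 : pPrimeCoreOf 2 H = ⊥ := by
      rw [pPrimeCoreOf, show pPrimeCore 2 H = ⊥ from hO, Subgroup.map_bot]
    rw [h3, le_bot_iff, Subgroup.map_eq_bot_iff_of_injective _ X.subtype_injective] at h2
    exact h2
  let t' : X := ⟨t, mem_sup_right (mem_zpowers t)⟩
  have ht' : t' ^ 2 ^ 1 = 1 := Subtype.ext (by simpa [pow_two] using ht2)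
  have hYH : Y ≤ H := hY.trans ((map_subtype_le _).trans inf_le_left)
  have hYX : Y ≤ X := hYH.trans le_sup_left
  have hY' : Y.subgroupOf X ≤ centralizerPPrimeCore 2 t' := by
    rw [← map_le_map_iff_of_injective X.subtype_injective, map_subgroupOf_eq_of_le hYX,
      centralizerPPrimeCore_eq, map_pPrimeCoreOf_of_injective X.subtype_injective,
      map_subtype_cent_singleton]
    exact hY.trans (pPrimeCoreOf_le_of_le_normalizer (inf_le_inf_right _ le_sup_left)
      (le_norm_inf (inf_le_left.trans hXn) (inf_le_right.trans le_normalizer)))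
  have hP : IsPGroup 2 (zpowers t') := isPGroup_zpowers_of_pow ht'
  have hcore : centralizerPPrimeCore 2 t' = pPrimeCoreOf 2 𝒞(zpowers t') := by
    rw [centralizerPPrimeCore_eq, cent_zpowers]
  have hex : ∃ L : Subgroup X, IsComponent L ∧ ¬ Y.subgroupOf X ≤ 𝒞(L) := by
    by_contra hne
    push Not at hne
    have := eq_bot_of_cent_components hOX (X := Y.subgroupOf X)
      (coprime_card_of_le (hY'.trans hcore.le) (pPrimeCoreOf_coprime 2 _))
      ((hY'.trans hcore.le).trans (core_cent_le_cent_pCore hP)) hne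
    apply hY1
    rw [← map_subgroupOf_eq_of_le hYX, this, Subgroup.map_bot]
  obtain ⟨L, hL, hYL⟩ := hex
  have hd : 2 ∣ Nat.card L := IsComponent.p_dvd_card hOX hL
  have htL : t' ∈ 𝒩(L) ∧ t' ∉ 𝒞(L) := by
    by_contra hne
    refine hYL (hY'.trans (core_le_cent_component hL hd ht' ?_ fun h => ?_))
    · rw [pow_one] at ht'; rw [ht']; exact one_mem _
    · by_contra h2; exact hne ⟨h, h2⟩
  have hYN : Y.subgroupOf X ≤ 𝒩(L) := (hY'.trans hcore.le).trans (core_cent_le_norm_component hL hd hP)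
  have hc : IsCompIn (L.map X.subtype) X := isCompIn_map_subtype_iff.mpr hL
  have hLH : L.map X.subtype ≤ H := by
    refine le_of_perfect_of_le_sup hc.commutator_self hzn ?_ hc.le
    rw [commutator_eq_bot_iff_le_centralizer.mpr (le_centralizer (zpowers t))]
    exact bot_le
  have hcent : ∀ x : X, (x : G) ∈ 𝒞(L.map X.subtype) → x ∈ 𝒞(L) := fun x hx =>
    mem_centralizer_iff.mpr fun y hy => Subtype.ext (mem_centralizer_iff.mp hx y ⟨y, hy, rfl⟩)
  refine ⟨(L.map X.subtype).subgroupOf H, (isCompIn_iff.mp (hc.of_le hLH le_sup_left)).2, ?_⟩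
  rw [map_subgroupOf_eq_of_le hLH]
  refine ⟨?_, ?_, fun h => htL.2 (hcent t' h), fun h => hYL fun y hy => hcent y (h hy)⟩
  · exact cj_eq (le_norm_map X.subtype (le_refl 𝒩(L)) ⟨t', htL.1, rfl⟩)
  · have := le_norm_map X.subtype hYN
    rwa [map_subgroupOf_eq_of_le hYX] at this

end Cfsg.Agent.S1328
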