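import Cfsg.Statements.S1329
import Cfsg.Agent.Loc.GoldGen
import Cfsg.Agent.Odd.FT

set_option autoImplicit false
open Cfsg

namespace Cfsg.Agent.S1329

/-- Let A be an abelian 2-subgroup of the finite group G, B ≤ A, and Y a subgroup of odd order normalized by A with ⁅Y, A⁆ = Y. Then Y ∩ C_G(B) is generated by the subgroups Y ∩ C_G(B) ∩ ⁅Y ∩ C_G(B₀), A⁆, B₀ ranging over the subgroups of B with B / B₀ cyclic. -/
theorem result {G : Type*} [Group G] [Finite G] (A B Y : Subgroup G) (hA2 : IsPGroup 2 ↥A) (hAc : IsMulCommutative ↥A) (hB : B ≤ A) (hYodd : Odd (Nat.card ↥Y)) (hAY : A ≤ Subgroup.normalizer (Y : Set G)) (hYA : ⁅Y, A⁆ = Y) : Y ⊓ Subgroup.centralizer (B : Set G) = ⨆ B₀ : {B₀ : Subgroup G // B₀ ≤ B ∧ ∀ [(B₀.subgroupOf B).Normal], IsCyclic (↥B ⧸ B₀.subgroupOf B)}, Y ⊓ Subgroup.centralizer (B : Set G) ⊓ ⁅Y ⊓ Subgroup.centralizer ((B₀ : Subgroup G) : Set G), A⁆ := by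
  refine le_antisymm ?_ (iSup_le fun _ => inf_le_left)
  have h : CL.Loc.GoldHyp Y A B := ⟨hAc, hB, hAY, by
    obtain ⟨n, hn⟩ := IsPGroup.iff_card.1 hA2
    rw [hn]
    exact (Nat.coprime_two_left.2 hYodd).pow_left n, CL.Odd.feit_thompson hYodd, hYA⟩
  refine h.inf_centralizer_le_cocL.trans (iSup_le fun ⟨B₀, h1, b, hb, e⟩ => ?_)
  refine le_iSup_of_le ⟨B₀, h1, fun [_] => ?_⟩
    (le_inf (le_inf (inf_le_right.trans (h.comm_le inf_le_left)) inf_le_left) inf_le_right)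
  refine isCyclic_iff_exists_zpowers_eq_top.2 ⟨QuotientGroup.mk' _ ⟨b, hb⟩, ?_⟩
  have h2 : B₀.subgroupOf B ⊔ Subgroup.zpowers ⟨b, hb⟩ = ⊤ := by
    apply Subgroup.map_injective B.subtype_injective
    rw [Subgroup.map_sup, Subgroup.map_subgroupOf_eq_of_le h1, MonoidHom.map_zpowers,
      CL.Grp.top_map_subtype]
    exact e
  have h3 := congrArg (Subgroup.map (QuotientGroup.mk' (B₀.subgroupOf B))) h2
  rwa [Subgroup.map_sup, MonoidHom.map_zpowers, (Subgroup.map_eq_bot_iff _).2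
    (QuotientGroup.ker_mk' _).ge, bot_sup_eq,
    Subgroup.map_top_of_surjective _ (QuotientGroup.mk'_surjective _)] at h3

end Cfsg.Agent.S1329
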