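import Cfsg.Statements.S1336
import Cfsg.Agent.Base
import Cfsg.Agent.Loc.KConn
import Cfsg.Agent.Even.StrEmb

set_option autoImplicit false
open Cfsg

namespace Cfsg.Agent.S1336

open CL.Loc CL.Grp CL.Even
open scoped Pointwise

/-- Let G be finite and p prime. Then G has a proper subgroup H with p ∣ |H| and p ∤ |H ∩ gHg⁻¹| for every g ∉ H (a strongly p-embedded subgroup) if and only if G is not 1-connected for p. -/
theorem result {G : Type*} [Group G] [Finite G] (p : ℕ) [Fact p.Prime] : (∃ H : Subgroup G, H ≠ ⊤ ∧ p ∣ Nat.card ↥H ∧ ∀ g : G, g ∉ H → ¬ p ∣ Nat.card ↥(H ⊓ H.map (MulAut.conj g).toMonoidHom)) ↔ ¬ Cfsg.IsKConnected p 1 G := by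
  have hp : p.Prime := Fact.out
  have hz : ∀ x : G, orderOf x = p → IsElementaryAbelian p (Subgroup.zpowers x) ∧
      p ^ 1 ≤ Nat.card (Subgroup.zpowers x) := fun x hx =>
    ⟨ea_zpowers (hx ▸ pow_orderOf_eq_one x), by rw [Nat.card_zpowers, hx, pow_one]⟩
  constructor
  · rintro ⟨H, hH, hpH, hs⟩ hc
    have hS : SpeElt p H := speElt_iff_conj.mpr hs
    obtain ⟨x, hxH, hx⟩ := spe_exists_orderOf_of_dvd_card hpH
    obtain ⟨g, hg⟩ : ∃ g, g ∉ H := by
      by_contra! h; exact hH (eq_top_iff.mpr fun x _ => h x)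
    have hx' : orderOf (g * x * g⁻¹) = p := by rw [spe_orderOf_conj, hx]
    have key : ∀ B : Subgroup G, KConn p 1 (Subgroup.zpowers x) B → B ≤ H := by
      intro B hB
      induction hB with
      | refl => exact Subgroup.zpowers_le.mpr hxH
      | tail _ h ih =>
        rename_i A B _
        have hA : p ∣ Nat.card A := by
          obtain ⟨n, hn⟩ := ea_card_eq_pow h.1
          have h2 := h.2.1
          rw [hn] at h2 ⊢
          exact dvd_pow_self p (by
            rintro rfl
            rw [pow_one, pow_zero] at h2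
            exact absurd hp.one_lt (not_lt.mpr h2))
        exact (h.le_centralizer.trans (Subgroup.centralizer_le_normalizer _)).trans
          (hS.normalizer_le ih hA)
    have := key _ (hc _ _ (hz x hx).1 (hz x hx).2 (hz _ hx').1 (hz _ hx').2)
    exact hg (hS x g hx hxH (this (Subgroup.mem_zpowers _)))
  · intro hc
    rw [isKConnected_iff] at hc
    push Not at hc
    obtain ⟨E, E', hE, hE1, hE', hE1', hn⟩ := hc
    have hEH : E ≤ kConnStab p 1 E :=
      Subgroup.le_normalizer.trans (normalizer_le_kConnStab .refl)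
    refine ⟨kConnStab p 1 E, ?_, ?_, speElt_iff_conj.mp ?_⟩
    · intro htop
      obtain ⟨P, hP⟩ := (ea_isPGroup hE).exists_le_sylow
      obtain ⟨g, hg⟩ := exists_conj_le_sylow P (ea_isPGroup hE')
      have h1 : KConn p 1 E (MulAut.conj g • E') :=
        kConn_one_of_le P.isPGroup' hE hE1 (ea_conj_smul hE' g) (by rwa [card_conj_smul]) hP hg
      have h2 := KConn.conj_smul h1 g⁻¹
      rw [conj_smul_conj_smul, inv_mul_cancel, map_one, one_smul] at h2
      have h3 : g⁻¹ ∈ kConnStab p 1 E := by rw [htop]; trivial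
      exact hn (Relation.ReflTransGen.trans h3 h2)
    · refine Dvd.dvd.trans ?_ (Subgroup.card_dvd_of_le hEH)
      obtain ⟨n, hn⟩ := ea_card_eq_pow hE
      rw [hn] at hE1 ⊢
      exact dvd_pow_self p (by
        rintro rfl
        rw [pow_one, pow_zero] at hE1
        exact absurd hp.one_lt (not_lt.mpr hE1))
    · have key : ∀ x : G, orderOf x = p → x ∈ kConnStab p 1 E → KConn p 1 E (Subgroup.zpowers x) := by
        intro x hx hxH
        obtain ⟨S, hS, hES⟩ := exists_isSylowIn_ge (ea_isPGroup hE) hEH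
        obtain ⟨h, hh, hle⟩ := hS.exists_conj_le (ea_isPGroup (hz x hx).1)
          (Subgroup.zpowers_le.mpr hxH)
        have h1 : KConn p 1 E (MulAut.conj h • Subgroup.zpowers x) :=
          kConn_one_of_le hS.isPGroup hE hE1 (ea_conj_smul (hz x hx).1 h)
            (by rw [card_conj_smul]; exact (hz x hx).2) hES hle
        have h2 := KConn.conj_smul h1 h⁻¹
        rw [conj_smul_conj_smul, inv_mul_cancel, map_one, one_smul] at h2
        exact Relation.ReflTransGen.trans ((kConnStab p 1 E).inv_mem hh) h2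
      intro x g hx hxH hgx
      refine mem_kConnStab_of_conn (key x hx hxH) ?_
      have := key _ (by rw [spe_orderOf_conj, hx]) hgx
      rwa [conj_smul_eq_map, MonoidHom.map_zpowers]

end Cfsg.Agent.S1336
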