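import Cfsg.Statements.S1338
import Cfsg.Agent.Loc.EAChain

set_option autoImplicit false
open Cfsg

namespace Cfsg.Agent.S1338

/-- A finite 3-group of 3-rank at least 4 is 2-connected for the prime 3: its commuting graph on elementary abelian subgroups of order ≥ 9 is connected. -/
theorem result {P : Type*} [Group P] [Finite P] (hP : IsPGroup 3 P) (hrk : ¬ Cfsg.PRankLE 3 3 P) : Cfsg.IsKConnected 3 2 P := by
  have := Fact.mk Nat.prime_three
  obtain ⟨A, hA, h1⟩ := CL.Loc.not_pRankLE_iff.1 hrk
  obtain ⟨B, -, hB, h2⟩ := CL.Loc.exists_ea_le_card_eq hA h1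
  obtain ⟨E, _, hE, h3⟩ := CL.Grp.exists_normal_elementary_pow_four (by norm_num) hP B hB h2
  refine CL.Loc.isKConnected_of_normal hE fun k hk => ?_
  rw [h3]
  interval_cases k <;> norm_num

end Cfsg.Agent.S1338
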