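import Cfsg.Statements.S1343
import Cfsg.Agent.Loc.ExtLayer

set_option autoImplicit false
open Cfsg

namespace Cfsg.Agent.S1343

/-- Let X be finite. Then L*_{2'}(X) = L_{2'}(X) ⊔ F for some subgroup F of odd order normalized by a Sylow 2-subgroup of X. -/
theorem result {X : Type*} [Group X] [Finite X] : ∃ F : Subgroup X, Odd (Nat.card ↥F) ∧ (∃ S : Sylow 2 X, (S : Subgroup X) ≤ Subgroup.normalizer (F : Set X)) ∧ Cfsg.extendedTwoLayer X = Cfsg.pLayer 2 X ⊔ F := by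
  have h1 : (Cfsg.pLayer 2 X).Normal := CL.Loc.pLayer_normal
  obtain ⟨S⟩ : Nonempty (Sylow 2 X) := inferInstance
  have hT := CL.Grp.isSylowIn_inf_normal S (Cfsg.pLayer 2 X ⊔ Cfsg.pPrimePCore 2 X)
  refine ⟨Cfsg.pPrimeCore 2 X ⊔ CL.Grp.pPrimeCoreOf 2 (Subgroup.centralizer
    ((S ⊓ (Cfsg.pLayer 2 X ⊔ Cfsg.pPrimePCore 2 X) : Subgroup X) : Set X)), ?_, ⟨S, ?_⟩, ?_⟩
  · rw [← Nat.coprime_two_right, sup_comm]
    exact CL.Loc.coprime_card_sup Subgroup.le_normalizer_of_normal (CL.Grp.pPrimeCoreOf_coprime 2 _)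
      (CL.Grp.pPrimeCore_coprime 2 X)
  · exact CL.Even.le_norm_sup Subgroup.le_normalizer_of_normal ((CL.Even.le_norm_cent
      (CL.Even.le_norm_inf Subgroup.le_normalizer Subgroup.le_normalizer_of_normal)).trans
        (CL.Grp.normalizer_le_normalizer_pPrimeCoreOf 2 _))
  · rw [CL.Loc.extendedTwoLayer_eq hT, sup_assoc]

end Cfsg.Agent.S1343
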