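import Cfsg.Statements.S1344
import Cfsg.Agent.Loc.ExtLayer

set_option autoImplicit false
open Cfsg

namespace Cfsg.Agent.S1344

/-- Let K be a 2-component of the finite group X. Then K ≤ L*_{2'}(X) and K is normal in L*_{2'}(X). -/
theorem result {X : Type*} [Group X] [Finite X] (K : Subgroup X) (hK : Cfsg.IsPComponent 2 K) : K ≤ Cfsg.extendedTwoLayer X ∧ (K.subgroupOf (Cfsg.extendedTwoLayer X)).Normal := by
  have h1 := CL.Loc.isPComponent_iff.mp hK
  obtain ⟨T, hT⟩ := CL.Grp.exists_isSylowIn (p := 2) (Cfsg.pLayer 2 X ⊔ Cfsg.pPrimePCore 2 X)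
  rw [CL.Loc.extendedTwoLayer_eq hT]
  refine ⟨h1.le_pLayer.trans (le_sup_left.trans le_sup_left),
    CL.Grp.normal_subgroupOf_of_le_normalizer' (sup_le (sup_le ?_ ?_)
      (CL.Loc.core_cent_le_norm_pComp h1 hT.isPGroup))⟩
  · rw [← CL.Loc.pLayerOf_top]; exact h1.pLayerOf_le_norm
  · rw [← CL.Grp.pPrimeCoreOf_top]; exact h1.core_le_norm

end Cfsg.Agent.S1344
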