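import Cfsg.Statements.S1348
import Cfsg.Agent.Fgs.BlockSL

set_option autoImplicit false
open Cfsg

namespace Cfsg.Agent.S1348

open Matrix Subgroup CL.Fgs.Blk

theorem conj_mem_normalizer {G : Type*} [Group G] {L : Subgroup G} {g : G}
    (hg : g ∈ normalizer (L : Set G)) : g ∈ normalizer (centralizer (L : Set G) : Set G) := by
  have key : ∀ g ∈ normalizer (L : Set G), ∀ x ∈ centralizer (L : Set G),
      g * x * g⁻¹ ∈ centralizer (L : Set G) := by
    intro g hg x hx y hy
    have h1 : g⁻¹ * y * g⁻¹⁻¹ ∈ L := (mem_normalizer_iff.1 (inv_mem hg) y).1 hy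
    have h2 := hx _ h1
    calc y * (g * x * g⁻¹) = g * ((g⁻¹ * y * g⁻¹⁻¹) * x) * g⁻¹ := by group
      _ = g * x * g⁻¹ * y := by rw [h2]; group
  refine mem_normalizer_iff.2 fun x => ⟨key g hg x, fun h => ?_⟩
  have := key _ (inv_mem hg) _ h
  simpa [mul_assoc] using this


/-- Let F be a finite field of odd order, n ≥ 7 odd, and t ∈ SL(n, F) the diagonal matrix with entries −1, …, −1, 1. Then E(C(t)) is a standard subgroup of SL(n, F). -/
theorem result {F : Type*} [Field F] [Fintype F] [DecidableEq F] (hF : Odd (Fintype.card F)) (n : ℕ) (hn : 7 ≤ n) (hodd : Odd n) (t : Matrix.SpecialLinearGroup (Fin n) F) (ht : (t : Matrix (Fin n) (Fin n) F) = Matrix.diagonal (fun i : Fin n => if (i : ℕ) + 1 = n then (1 : F) else -1)) : Cfsg.IsStandardSubgroup ((Cfsg.layer ↥(Subgroup.centralizer ({t} : Set (Matrix.SpecialLinearGroup (Fin n) F)))).map (Subgroup.centralizer ({t} : Set (Matrix.SpecialLinearGroup (Fin n) F))).subtype) := by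
  have h2 : (2 : F) ≠ 0 := by
    intro h
    have := FiniteField.even_card_of_char_two (F := F) (by
      have : CharP F 2 := (CharP.charP_iff_prime_eq_zero Nat.prime_two).2 (by exact_mod_cast h)
      exact ringChar.eq F 2)
    rw [Nat.odd_iff] at hF
    omega
  have hne : (-1 : F) ≠ 1 := fun h => h2 (by linear_combination -h)
  let l : Fin n := ⟨n - 1, by omega⟩
  have ht' : t.1 = diagonal fun i => if i = l then (1 : F) else -1 := by
    rw [ht]
    congr 1
    funext i
    refine if_congr ⟨fun h => Fin.ext (by simp only [l]; omega), fun h => ?_⟩ rfl rfl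
    rw [h]; simp only [l]; omega
  let i₁ : Fin n := ⟨1, by omega⟩
  let i₂ : Fin n := ⟨2, by omega⟩
  have h1l : i₁ ≠ l := fun h => by have := congrArg Fin.val h; simp only [i₁, l] at this; omega
  have h2l : i₂ ≠ l := fun h => by have := congrArg Fin.val h; simp only [i₂, l] at this; omega
  have h12 : i₁ ≠ i₂ := by simp [i₁, i₂]
  have : Nontrivial {i // i ≠ l} := ⟨⟨⟨i₁, h1l⟩, ⟨i₂, h2l⟩, fun h => h12 (congrArg Subtype.val h)⟩⟩
  have hcard : Fintype.card {i // i ≠ l} = n - 1 := by
    rw [Fintype.card_subtype_compl, Fintype.card_fin, Fintype.card_subtype_eq]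
  set L := (extSL (F := F) l).range with hLdef
  have hq : IsQuasisimple L := isQuasisimple_range l (Or.inl (by omega))
  set C := centralizer ({t} : Set (SpecialLinearGroup (Fin n) F))
  have hLC : L ≤ C := fun x hx => mem_centralizer_singleton_iff.2
    (Subtype.ext (by
      change x.1 * t.1 = t.1 * x.1
      rw [ht']
      exact comm_diag_of_fix (-1) 1 ((mem_range_extSL l x).1 hx)))
  have hconj : ∀ g ∈ C, ∀ x ∈ L, g * x * g⁻¹ ∈ L := by
    intro g hg x hx
    have h0 : g * t = t * g := mem_centralizer_singleton_iff.1 hg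
    have h1 : g.1 * t.1 = t.1 * g.1 := congrArg Subtype.val h0
    rw [ht'] at h1
    exact (mem_range_extSL l _).2 (conj_fix (comm_single_of_comm hne h1)
      (congrArg Subtype.val (mul_inv_cancel g)) (congrArg Subtype.val (inv_mul_cancel g))
      ((mem_range_extSL l x).1 hx))
  have hCN : C ≤ normalizer (L : Set _) := fun g hg => mem_normalizer_iff.2 fun x =>
    ⟨hconj g hg x, fun h => by simpa [mul_assoc] using hconj _ (inv_mem hg) _ h⟩
  set K := centralizer (L : Set (SpecialLinearGroup (Fin n) F))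
  have hK : ∀ x ∈ K, ∃ a b : F, x.1 = diagonal fun i => if i = l then b else a := fun x hx =>
    diag_of_comm fun y hy => congrArg Subtype.val (hx y hy)
  have hKab : ∀ x ∈ K, ∀ y ∈ K, x * y = y * x := by
    intro x hx y hy
    obtain ⟨a, b, h1⟩ := hK x hx
    obtain ⟨c, d, h2⟩ := hK y hy
    refine Subtype.ext ?_
    change x.1 * y.1 = y.1 * x.1
    rw [h1, h2, diagonal_mul_diagonal, diagonal_mul_diagonal]
    congr 1
    funext i
    exact mul_comm _ _
  have hnq : ∀ M : Subgroup (SpecialLinearGroup (Fin n) F), IsQuasisimple M → ¬ M ≤ K :=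
    fun M hM h => CL.Loc.IsQuasisimple.not_le_centralizer hM fun x hx y hy => hKab y (h hy) x (h hx)
  have htK : t ∈ K := fun x hx => mem_centralizer_singleton_iff.1 (hLC hx)
  have ht2 : orderOf t = 2 := by
    refine orderOf_eq_prime (Subtype.ext ?_) fun h => hne ?_
    · rw [sq]
      change t.1 * t.1 = 1
      rw [ht', diagonal_mul_diagonal, ← diagonal_one]
      congr 1
      funext i
      split_ifs <;> simp
    · have := congrFun (congrFun (congrArg Subtype.val h) i₁) i₁
      rw [ht'] at this
      simpa [h1l] using this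
  have huniq : ∀ x ∈ K, orderOf x = 2 → x = t := by
    intro x hx ho
    obtain ⟨a, b, h1⟩ := hK x hx
    have hx2 : x.1 * x.1 = 1 := congrArg Subtype.val (by rw [← sq, ← ho, pow_orderOf_eq_one] :
      x * x = 1)
    rw [h1, diagonal_mul_diagonal] at hx2
    have ha : a * a = 1 := by simpa [h1l] using congrFun (congrFun hx2 i₁) i₁
    have hdet := x.2
    rw [h1, det_diagonal, Fintype.prod_eq_mul_prod_compl l, if_pos rfl,
      Finset.prod_congr rfl (g := fun _ => a) (fun i hi => if_neg (by simpa using hi)),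
      Finset.prod_const, Finset.card_compl, Fintype.card_fin, Finset.card_singleton] at hdet
    obtain ⟨k, hk⟩ := hodd
    rw [show n - 1 = 2 * k by omega, pow_mul, sq, ha, one_pow, mul_one] at hdet
    rcases mul_self_eq_one_iff.1 ha with h | h
    · exfalso
      have : x = 1 := Subtype.ext (by
        rw [h1, h, hdet]
        change _ = (1 : Matrix (Fin n) (Fin n) F)
        simp)
      rw [this, orderOf_one] at ho
      omega
    · exact Subtype.ext (by rw [h1, ht', h, hdet])
  have hNK : normalizer (K : Set _) ≤ C := fun g hg => by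
    have h1 := huniq _ ((mem_normalizer_iff.1 hg t).1 htK)
      (by rw [← ht2]; exact (MulAut.conj g).orderOf_eq t)
    exact mem_centralizer_singleton_iff.2 (by rw [← mul_inv_eq_iff_eq_mul]; exact h1)
  have hLcomp : IsComponent (L.subgroupOf C) :=
    ⟨((normal_subgroupOf_iff_le_normalizer hLC).2 hCN).isSubnormal,
      (CL.Loc.isQuasisimple_subgroupOf_iff hLC).2 hq⟩
  have hlay : layer C = L.subgroupOf C := by
    refine le_antisymm (sSup_le fun M hM => ?_) (le_sSup hLcomp)
    rcases CL.Loc.IsComponent.eq_or_commutator_eq_bot hM hLcomp with h | h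
    · exact h.le
    · exfalso
      refine hnq (M.map C.subtype) (CL.Loc.IsQuasisimple.map_of_injective hM.2
        C.subtype_injective) ?_
      rintro _ ⟨x, hx, rfl⟩ y hy
      have := (commutator_eq_bot_iff_le_centralizer.1 h) hx ⟨y, hLC hy⟩ hy
      exact congrArg Subtype.val this
  rw [hlay, subgroupOf_map_subtype, inf_eq_left.2 hLC]
  refine ⟨hq, ⟨?_, fun g hg => ?_⟩, fun g _ h => ?_, le_antisymm
    (fun g hg => conj_mem_normalizer hg) (hNK.trans hCN)⟩
  · exact even_iff_two_dvd.2 (ht2 ▸ Subgroup.orderOf_dvd_natCard _ htK)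
  · by_contra h
    rw [Nat.not_odd_iff_even, even_iff_two_dvd] at h
    have : Fact (Nat.Prime 2) := ⟨Nat.prime_two⟩
    obtain ⟨⟨x, hx⟩, ho⟩ := exists_prime_orderOf_dvd_card' 2 h
    rw [Subgroup.orderOf_mk] at ho
    obtain ⟨hx, y, hy, hxy⟩ := hx
    have h1 := huniq x hx ho
    have h2 := huniq y hy (by rw [← ho, ← hxy]; exact ((MulAut.conj g).orderOf_eq y).symm)
    refine hg (conj_mem_normalizer (hCN (mem_centralizer_singleton_iff.2 ?_)))
    rw [h1, h2] at hxy
    rw [← mul_inv_eq_iff_eq_mul]; exact hxy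
  · rw [Subgroup.commutator_comm, commutator_eq_bot_iff_le_centralizer] at h
    exact hnq _ (CL.Loc.IsQuasisimple.map_of_injective hq (MulAut.conj g).injective) h

end Cfsg.Agent.S1348
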