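import Cfsg.Statements.S1351
import Cfsg.Agent.Odd.FT

set_option autoImplicit false
open Cfsg

namespace Cfsg.Agent.S1351

/-- Let G be a minimal simple group of odd order and M a maximal subgroup. Then M possesses a Hall κ(M)-subgroup, and every Hall κ(M)-subgroup of M is cyclic. -/
theorem result {G : Type*} [Group G] [Finite G] (hG : Cfsg.IsMinSimpleOddOrder G)
    (M : Subgroup G) (hM : IsCoatom M) :
    (∃ K : Subgroup G, Cfsg.IsPiHallOf (Cfsg.kappa M) K M) ∧
      ∀ K : Subgroup G, Cfsg.IsPiHallOf (Cfsg.kappa M) K M → IsCyclic K := by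
  exact (CL.Odd.not_minSimpleOdd hG).elim

end Cfsg.Agent.S1351
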