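import Cfsg.Statements.S1352
import Cfsg.Agent.Odd.FT

set_option autoImplicit false
open Cfsg

namespace Cfsg.Agent.S1352

/-- Let G be a minimal simple group of odd order, M a maximal subgroup and K a cyclic Hall κ(M)-subgroup of M. Then there is a subgroup U of M, normalized by K, with U ∩ K M_σ = 1 and M = U K M_σ; moreover U M_σ is normal in M for any such U. -/
theorem result {G : Type*} [Group G] [Finite G] (hG : Cfsg.IsMinSimpleOddOrder G)
    (M : Subgroup G) (hM : IsCoatom M) (K : Subgroup G)
    (hKc : IsCyclic K) (hK : Cfsg.IsPiHallOf (Cfsg.kappa M) K M) :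
    (∃ U : Subgroup G, Cfsg.IsSigmaDecomposition M K U) ∧
      ∀ U : Subgroup G, Cfsg.IsSigmaDecomposition M K U → M ≤ Subgroup.normalizer ((U ⊔ Cfsg.sigmaCore M : Subgroup G) : Set G) := by
  exact (CL.Odd.not_minSimpleOdd hG).elim

end Cfsg.Agent.S1352
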