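import Cfsg.Statements.S1379
import Cfsg.Agent.Odd.FT

set_option autoImplicit false
open Cfsg

namespace Cfsg.Agent.S1379

/-- Let G be a minimal simple group of odd order; for a maximal subgroup M write M̃ for the union of the G-conjugates of the cosets x R(x), x ≠ 1 in M_σ. Then M̃ ∩ Ñ = ∅ for non-conjugate maximal M, N; if every maximal subgroup has κ empty, every g ≠ 1 lies in some M̃; and if M = K U M_σ has K ≠ 1 with Ẑ = K K* − (K ∪ K*), then every g ≠ 1 lies in some Ñ or in a conjugate of Ẑ, and no conjugate of an element of Ẑ lies in any Ñ. -/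
theorem result {G : Type*} [Group G] [Finite G] (hG : Cfsg.IsMinSimpleOddOrder G) :
    (∀ M N : Subgroup G, IsCoatom M → IsCoatom N → (∀ g : G, N ≠ M.map (MulAut.conj g).toMonoidHom) → Cfsg.tildeOf M ((Cfsg.sigmaCore M : Set G) \ {1}) ∩ Cfsg.tildeOf N ((Cfsg.sigmaCore N : Set G) \ {1}) = ∅) ∧
      ((∀ M : Subgroup G, IsCoatom M → Cfsg.kappa M = ∅) →
        ∀ g : G, g ≠ 1 → ∃ M : Subgroup G, IsCoatom M ∧ g ∈ Cfsg.tildeOf M ((Cfsg.sigmaCore M : Set G) \ {1})) ∧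
      ∀ (M K U : Subgroup G), IsCoatom M → Cfsg.IsSigmaDecomposition M K U → K ≠ ⊥ →
        (∀ g : G, g ≠ 1 → (∃ N : Subgroup G, IsCoatom N ∧ g ∈ Cfsg.tildeOf N ((Cfsg.sigmaCore N : Set G) \ {1})) ∨
            ∃ y : G, ∃ z ∈ ((↑(K ⊔ (Cfsg.sigmaCore M ⊓ Subgroup.centralizer (K : Set G))) : Set G) \ ((K : Set G) ∪ ↑(Cfsg.sigmaCore M ⊓ Subgroup.centralizer (K : Set G)))), g = y * z * y⁻¹) ∧
        ∀ N : Subgroup G, IsCoatom N → ∀ y : G, ∀ z ∈ ((↑(K ⊔ (Cfsg.sigmaCore M ⊓ Subgroup.centralizer (K : Set G))) : Set G) \ ((K : Set G) ∪ ↑(Cfsg.sigmaCore M ⊓ Subgroup.centralizer (K : Set G)))), y * z * y⁻¹ ∉ Cfsg.tildeOf N ((Cfsg.sigmaCore N : Set G) \ {1}) := by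
  exact (CL.Odd.not_minSimpleOdd hG).elim

end Cfsg.Agent.S1379
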