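import Cfsg.Statements.S1386
import Cfsg.Agent.Odd.TypePStmt

set_option autoImplicit false
open Cfsg

namespace Cfsg.Agent.S1386

open CL.Odd CL.Odd.T16 CL.Grp in
theorem aux {G : Type*} [Group G] [Finite G] (W₁ W₂ S U W₂' : Subgroup G) (hW : Cfsg.IsSelfNormalizingCyclic W₁ W₂)
    (hW₂S : W₂ ≤ S) (h : OfTypeP S U W₁ W₂') : W₂' = W₂ := by
  have hd := selfNorm_dp hW
  have h1 : W₂ ≤ W₁ ⊔ W₂' := fun w hw => by
    obtain ⟨k, hk, y, hy, rfl⟩ := sdp_mem h.sdpM (hW₂S hw)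
    have hy' : y ∈ C[W₁] := (abelian_iff.mp (abelian_of_cyclic h.W₁_cyclic)) hy
    have hk' : k ∈ C[W₁] := by simpa using Subgroup.mul_mem _ (hd.cent hw) (Subgroup.inv_mem _ hy')
    exact Subgroup.mul_mem _ (Subgroup.mem_sup_right (h.der_cent ▸ Subgroup.mem_inf.mpr ⟨hk, hk'⟩))
      (Subgroup.mem_sup_left hy)
  obtain ⟨x, hx⟩ := (selfNorm_normedTI hW).nonempty
  have h2 : W₁ ⊔ W₂' ≤ W₁ ⊔ W₂ := by
    rw [← selfNorm_c1 hW hx]
    exact (abelian_iff.mp (abelian_of_cyclic h.W_cyclic)).trans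
      (cent_le_c1 (sup_le le_sup_left h1 (mem_cyclicTIset.mp hx).1))
  have h3 : W₁ ⊔ W₂' = W₁ ⊔ W₂ := le_antisymm h2 (sup_le le_sup_left h1)
  have c1 := sdp_card (dp_sdp h.dp)
  have c2 := sdp_card (dp_sdp hd)
  rw [h3, ← c2] at c1
  exact S13.eq_of_card_eq_cyclic h.W_cyclic le_sup_right h1 (Nat.eq_of_mul_eq_mul_left Nat.card_pos c1)


/-- Let G be a finite group, W₁, W₂ subgroups forming a self-normalizing cyclic pair, S a subgroup with W₂ ≤ S and W₁ a complement to S' in S, and (W₁, U, W₂') type-P data for S. Then W₂' = W₂ (that is, C_{S'}(W₁) = W₂). -/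
theorem result {G : Type*} [Group G] [Finite G] (W₁ W₂ S U W₂' : Subgroup G) (hW : Cfsg.IsSelfNormalizingCyclic W₁ W₂)
    (hSW : Cfsg.IsComplIn ⁅S, S⁆ W₁ S) (hW₂S : W₂ ≤ S) (hP : Cfsg.IsTypePWith S W₁ U W₂') :
    W₂' = W₂ := by
  exact aux W₁ W₂ S U W₂' hW hW₂S (CL.Odd.ofTypeP_of_typePWith hP)

end Cfsg.Agent.S1386
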