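import Cfsg.Statements.S1396
import Cfsg.Agent.Odd.BG7b

set_option autoImplicit false
open Cfsg

namespace Cfsg.Agent.S1396

/-- Let G be a minimal simple group of odd order, p a prime dividing the order of G and A an abelian p-subgroup. Suppose either (1) A consists exactly of the elements x of C_G(A) with x^p = 1, and every proper subgroup of G has p-length at most one, or (2) A is normal and self-centralizing in some Sylow p-subgroup of G and has rank at least 2. Then A satisfies the transitivity hypothesis. -/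
theorem result {G : Type*} [Group G] [Finite G] (hG : Cfsg.IsMinSimpleOddOrder G)
    (p : ℕ) [Fact p.Prime] (hp : p ∣ Nat.card G) (A : Subgroup G) (hAp : IsPGroup p A) (hAc : IsMulCommutative A)
    (h : (∀ x ∈ Subgroup.centralizer (A : Set G), x ^ p = 1 ↔ x ∈ A) ∧ (∀ H : Subgroup G, H ≠ ⊤ → Cfsg.PLengthLE p 1 H) ∨
      ∃ P : Sylow p G, Cfsg.IsSCN (P : Subgroup G) A ∧ ¬ Cfsg.PRankLE p 1 A) :
    Cfsg.TransitivityHypothesis A := by
  haveI : CL.Odd.MinOdd G := ⟨hG⟩
  have hp' : p.Prime := Fact.out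
  rcases h with ⟨h1, h2⟩ | ⟨P, hP, hr⟩
  · have hAC : A ≤ Subgroup.centralizer (A : Set G) := CL.Odd.abelian_iff.mp hAc
    refine CL.Odd.plength_1_normed_constrained hp' ?_ (CL.Odd.IsMaxElem.mk' le_top
      ⟨hAc, fun a ha => (h1 a (hAC ha)).mpr ha⟩ fun x _ hx => (h1 x hx).mp) h2
    rintro rfl
    obtain ⟨x, hx⟩ := exists_prime_orderOf_dvd_card' p hp
    have := (h1 x (by rw [CL.Odd.cent_bot]; trivial)).mp (hx ▸ pow_orderOf_eq_one x)
    exact CL.Odd.ne_one_of_orderOf_prime hp' hx (Subgroup.mem_bot.mp this)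
  · exact CL.Odd.SCN_normed_constrained hp' (CL.Grp.isSylowIn_top P) hP
      (le_trans ((CL.Odd.not_pRankLE_iff_prank hp').mp hr) (CL.Odd.prank_le_rank hp' A))

end Cfsg.Agent.S1396
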