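import Cfsg.Statements.S1397
import Cfsg.Agent.Odd.BG8a
import Cfsg.Agent.Odd.BG4b
import Cfsg.Agent.Odd.BG7b
import Cfsg.Agent.Odd.BGBNormal
import Cfsg.Agent.Odd.BGAStable

set_option autoImplicit false
open Cfsg

namespace Cfsg.Agent.S1397

/-- Let G be a minimal simple group of odd order, M a maximal subgroup, p a prime and A₀ an elementary abelian p-subgroup of F(M) of order at least p ^ 3 that is maximal among elementary abelian p-subgroups of F(M). (a) If F(M) is not a p-group, then F(M) ∩ C_G(A₀) lies in exactly one maximal subgroup of G. (b) If F(M) is a p-group and P is a Sylow p-subgroup of M, then p does not divide the index of P in G, and every normal self-centralizing subgroup A of P containing an elementary abelian subgroup of order p ^ 3 is contained in F(M) and lies in exactly one maximal subgroup of G. -/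
theorem result {G : Type*} [Group G] [Finite G] (hG : Cfsg.IsMinSimpleOddOrder G)
    (M : Subgroup G) (hM : IsCoatom M) (p : ℕ) [Fact p.Prime] (A₀ : Subgroup G)
    (hA₀ : A₀ ≤ Cfsg.fittingOf M) (hA₀e : Cfsg.IsElementaryAbelian p A₀) (hA₀3 : p ^ 3 ≤ Nat.card A₀)
    (hA₀max : ∀ B : Subgroup G, B ≤ Cfsg.fittingOf M → Cfsg.IsElementaryAbelian p B → A₀ ≤ B → B = A₀) :
    (¬ IsPGroup p ↥(Cfsg.fittingOf M) → Cfsg.InUniqueMaximal (Cfsg.fittingOf M ⊓ Subgroup.centralizer (A₀ : Set G))) ∧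
      (IsPGroup p ↥(Cfsg.fittingOf M) → ∀ P : Sylow p M,
        ¬ p ∣ ((P : Subgroup M).map M.subtype).index ∧
        ∀ A : Subgroup G, Cfsg.IsSCN ((P : Subgroup M).map M.subtype) A → ¬ Cfsg.PRankLE p 2 ↥A →
          A ≤ Cfsg.fittingOf M ∧ Cfsg.InUniqueMaximal A) := by
  haveI : CL.Odd.MinOdd G := ⟨hG⟩
  have hp : p.Prime := Fact.out
  have h3 : 3 ≤ CL.Odd.prank p A₀ := by
    have := CL.Odd.card_eq_pow_prank hp hA₀e
    rw [this] at hA₀3
    exact (Nat.pow_le_pow_iff_right hp.one_lt).1 hA₀3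
  refine ⟨fun h => CL.Odd.BG8_1.a hp hM h ⟨hA₀, hA₀e, hA₀max⟩ h3, fun h P => ?_⟩
  have sylP := CL.Grp.isSylowIn_map_subtype P
  have hF : 3 ≤ CL.Odd.prank p (Cfsg.fittingOf M) := h3.trans (CL.Odd.prank_mono hp hA₀)
  have key : ∀ A : Subgroup G, Cfsg.IsSCN ((P : Subgroup M).map M.subtype) A → ¬ Cfsg.PRankLE p 2 ↥A → _ :=
    fun A hA hr => CL.Odd.BG8_1.b hp hM h sylP hF hA
      (((CL.Odd.not_pRankLE_iff_prank hp).1 hr).trans_le (CL.Odd.prank_le_rank hp A))
  refine ⟨?_, fun A hA hr => (key A hA hr).2⟩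
  have sFP : Cfsg.fittingOf M ≤ (P : Subgroup M).map M.subtype :=
    sylP.le_of_normalized h (CL.Grp.fittingOf_le M) (CL.Grp.le_normalizer_fittingOf M)
  have h3P : 3 ≤ CL.Odd.prank p ((P : Subgroup M).map M.subtype) := hF.trans (CL.Odd.prank_mono hp sFP)
  generalize (P : Subgroup M).map M.subtype = Q at *
  obtain ⟨A, -, nA, cA, hr⟩ := CL.Odd.exists_scn3_ge
    (CL.Odd.S8.ne_two ((CL.Odd.prank_pos_iff hp).1 (lt_of_lt_of_le (by omega) h3P))) sylP.isPGroup
    ((CL.Odd.not_pRankLE_iff_prank hp).2 h3P) ⊥ CL.Loc.ea_bot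
    (by rw [Subgroup.card_bot]; exact Nat.one_le_pow _ _ hp.pos)
  have hA : Cfsg.IsSCN Q (A.map Q.subtype) := by
    refine ⟨Subgroup.map_subtype_le _, CL.Grp.le_normalizer_map_subtype A, le_antisymm ?_ ?_⟩
    · rintro x ⟨hx, hc⟩
      refine ⟨⟨x, hx⟩, ?_, rfl⟩
      rw [← cA]
      exact Subgroup.mem_centralizer_iff.2 fun a ha => Subtype.ext (hc a ⟨a, ha, rfl⟩)
    · rintro _ ⟨a, ha, rfl⟩
      refine ⟨a.2, ?_⟩
      rintro _ ⟨b, hb, rfl⟩
      rw [← cA] at ha
      exact congrArg Subtype.val (ha b hb)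
  have := (key _ hA (CL.Odd.pRankLE_map_subtype_iff.not.2 hr)).1.not_dvd
  rwa [Subgroup.relIndex_top_right] at this

end Cfsg.Agent.S1397
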