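import Cfsg.Statements.S1398
import Cfsg.Agent.Odd.BG9a
import Cfsg.Agent.Odd.BG8a
import Cfsg.Agent.Odd.BG4I
import Cfsg.Agent.Odd.BG5a
import Cfsg.Agent.Odd.BG7b
import Cfsg.Agent.Odd.BGBNormal
import Cfsg.Agent.Odd.BGAStable

set_option autoImplicit false
open Cfsg

namespace Cfsg.Agent.S1398

/-- Let G be a minimal simple group of odd order, M a maximal subgroup, p a prime, and B a noncyclic elementary abelian p-subgroup of M. If C_G(b) ≤ M for every non-identity b ∈ B, or if every subgroup of G of order coprime to p normalized by B is contained in M, then M is the only maximal subgroup of G containing B. -/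
theorem result {G : Type*} [Group G] [Finite G] (hG : Cfsg.IsMinSimpleOddOrder G)
    (M : Subgroup G) (hM : IsCoatom M) (p : ℕ) [Fact p.Prime] (B : Subgroup G) (hBM : B ≤ M)
    (hBe : Cfsg.IsElementaryAbelian p B) (hBnc : ¬ IsCyclic B)
    (h : (∀ b ∈ B, b ≠ 1 → Subgroup.centralizer ({b} : Set G) ≤ M) ∨
      ∀ Y ∈ Cfsg.invSubgroups ⊤ B (Cfsg.primesNotDvd p), Y ≤ M) :
    Cfsg.InUniqueMaximal B := by
  haveI : CL.Odd.MinOdd G := ⟨hG⟩
  have hp : p.Prime := Fact.out
  rcases h with h | h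
  · exact CL.Odd.BG9_1.a hp hM hBM hBe hBnc h
  · refine CL.Odd.BG9_1.b hp hM hBM hBe hBnc fun Y hY hn => h Y ⟨le_top, fun q hq hqY => ⟨hq, fun hqp => ?_⟩, hn⟩
    rw [(Nat.prime_dvd_prime_iff_eq hq hp).1 hqp] at hqY
    exact hY hqY

end Cfsg.Agent.S1398
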