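import Cfsg.Statements.S1399
import Cfsg.Agent.Odd.BG9a
import Cfsg.Agent.Odd.BG8a
import Cfsg.Agent.Odd.BG4I
import Cfsg.Agent.Odd.BG5a
import Cfsg.Agent.Odd.BG7b
import Cfsg.Agent.Odd.BGBNormal
import Cfsg.Agent.Odd.BGAStable

set_option autoImplicit false
open Cfsg

namespace Cfsg.Agent.S1399

/-- Let G be a minimal simple group of odd order, L a subgroup contained in exactly one maximal subgroup of G, and K a subgroup of C_G(L) having, for some prime p, an elementary abelian subgroup of order p ^ 2. Then K is contained in exactly one maximal subgroup of G. -/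
theorem result {G : Type*} [Group G] [Finite G] (hG : Cfsg.IsMinSimpleOddOrder G)
    (L K : Subgroup G) (hL : Cfsg.InUniqueMaximal L) (hK : K ≤ Subgroup.centralizer (L : Set G)) (hKr : ¬ Cfsg.RankLE 1 K) :
    Cfsg.InUniqueMaximal K := by
  haveI : CL.Odd.MinOdd G := ⟨hG⟩
  exact CL.Odd.BG9_2.out hL hK (CL.Odd.not_rankLE_iff_rank.1 hKr)

end Cfsg.Agent.S1399
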