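import Cfsg.Statements.S1401
import Cfsg.Agent.Odd.BG9a
import Cfsg.Agent.Odd.BG8a
import Cfsg.Agent.Odd.BG4I
import Cfsg.Agent.Odd.BG5a
import Cfsg.Agent.Odd.BG7b
import Cfsg.Agent.Odd.BGBNormal
import Cfsg.Agent.Odd.BGAStable

set_option autoImplicit false
open Cfsg

namespace Cfsg.Agent.S1401

/-- Let G be a minimal simple group of odd order, p a prime, and M a maximal subgroup whose Fitting subgroup contains an elementary abelian subgroup of order p ^ 3. Then every abelian p-subgroup of G containing an elementary abelian subgroup of order p ^ 3 lies in exactly one maximal subgroup of G. -/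
theorem result {G : Type*} [Group G] [Finite G] (hG : Cfsg.IsMinSimpleOddOrder G)
    (M : Subgroup G) (hM : IsCoatom M) (p : ℕ) [Fact p.Prime] (hF : ¬ Cfsg.PRankLE p 2 ↥(Cfsg.fittingOf M))
    (A : Subgroup G) (hAp : IsPGroup p A) (hAc : IsMulCommutative A) (hA3 : ¬ Cfsg.PRankLE p 2 ↥A) :
    Cfsg.InUniqueMaximal A := by
  haveI : CL.Odd.MinOdd G := ⟨hG⟩
  have hp : p.Prime := Fact.out
  exact CL.Odd.any_rank3_Fitting_Uniqueness hp hM ((CL.Odd.not_pRankLE_iff_prank hp).1 hF) hAp
    ((CL.Odd.not_pRankLE_iff_prank hp).1 hA3)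

end Cfsg.Agent.S1401
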