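import Cfsg.Statements.S1432
import Cfsg.Agent.Odd.FT

set_option autoImplicit false
open Cfsg

namespace Cfsg.Agent.S1432

/-- Let G be a minimal simple group of odd order, M a maximal subgroup, x a non-identity element of M_σ and x' a non-identity element of C_M(x) no prime divisor of whose order lies in σ(M). Then either all prime divisors of the order of x' lie in κ(M) and C_G(x) ≤ M; or all of them lie in τ₂(M), they all lie in σ(L) for a single maximal subgroup L, and C_G(x') ≤ M with M the unique maximal subgroup containing C_G(x'). -/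
theorem result {G : Type*} [Group G] [Finite G] (hG : Cfsg.IsMinSimpleOddOrder G)
    (M : Subgroup G) (hM : IsCoatom M) (x : G) (hx : x ∈ Cfsg.sigmaCore M) (hx1 : x ≠ 1) (x' : G) (hx' : x' ∈ M ⊓ Subgroup.centralizer ({x} : Set G)) (hx'1 : x' ≠ 1)
    (hσ : ∀ p : ℕ, p.Prime → p ∣ orderOf x' → p ∉ Cfsg.sigma M) :
    ((∀ p : ℕ, p.Prime → p ∣ orderOf x' → p ∈ Cfsg.kappa M) ∧ Subgroup.centralizer ({x} : Set G) ≤ M) ∨
      ((∀ p : ℕ, p.Prime → p ∣ orderOf x' → p ∈ Cfsg.tau2 M) ∧
        (∃ L : Subgroup G, IsCoatom L ∧ ∀ p : ℕ, p.Prime → p ∣ orderOf x' → p ∈ Cfsg.sigma L) ∧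
        (Subgroup.centralizer ({x'} : Set G) ≤ M ∧ ∀ L : Subgroup G, IsCoatom L → Subgroup.centralizer ({x'} : Set G) ≤ L → L = M)) := by
  exact (CL.Odd.not_minSimpleOdd hG).elim

end Cfsg.Agent.S1432
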