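import Cfsg.Statements.S1451
import Cfsg.Agent.Odd.BG4I

set_option autoImplicit false
open Cfsg

namespace Cfsg.Agent.S1451

/-- Let G be a solvable group of odd order such that G, or its Fitting subgroup, has no elementary abelian subgroup of order q ^ 3 for any prime q. Then G' is nilpotent; for every Sylow subgroup S of G, every characteristic subgroup T of S with T ≤ [S, S] is normal in G; and for every prime p, G has a characteristic subgroup that is a Hall subgroup for the set of primes greater than p. -/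
theorem result {G : Type*} [Group G] [Finite G] [Group.IsSolvable G] (hodd : Odd (Nat.card G)) (hr : Cfsg.RankLE 2 G ∨ Cfsg.RankLE 2 (Cfsg.fittingSubgroup G)) :
    Group.IsNilpotent ↥(commutator G) ∧
      (∀ (q : ℕ) [Fact q.Prime] (S : Sylow q G) (T : Subgroup ↥(S : Subgroup G)), T.Characteristic → T.map (S : Subgroup G).subtype ≤ ⁅(S : Subgroup G), (S : Subgroup G)⁆ →
        (T.map (S : Subgroup G).subtype).Normal) ∧
      ∀ p : ℕ, ∃ N : Subgroup G, N.Characteristic ∧ Cfsg.IsPiHall {q | q.Prime ∧ p < q} N := by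
  have ho : Odd (Nat.card (⊤ : Subgroup G)) := by rwa [Subgroup.card_top]
  have hr' : CL.Odd.rank (fittingOf (⊤ : Subgroup G)) ≤ 2 := by
    rcases hr with hr | hr
    · exact (CL.Odd.rank_mono le_top).trans (CL.Odd.rankLE_iff_rank_top.1 hr)
    · rw [CL.Grp.fittingOf_top]
      exact CL.Odd.rankLE_iff_rank.1 hr
  have hF := CL.Odd.rank_two_der_le_fitting inferInstance ho hr'
  refine ⟨CL.Odd.nil_of_le (CL.Grp.fittingOf_isNilpotent _) hF, fun q _ S T hT hle => ?_, fun p => ?_⟩
  · exact CL.Odd.NormalIn.top_iff.1 (CL.Odd.normalIn_of_char_sylow_of_der_le_fitting Fact.out hF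
      (CL.Grp.isSylowIn_top S) (CL.Grp.normalizer_le_normalizer_map_subtype T) hle)
  · have h1 := CL.Odd.rank_two_ge_hall (p + 1) _ (⊤ : Subgroup G) rfl inferInstance ho hr'
    rw [CL.Grp.piCoreOf_top] at h1
    exact ⟨_, inferInstance, CL.Odd.Hall.top_iff.1
      (CL.Odd.Hall.congr h1 fun q hq _ => ⟨fun h => ⟨hq, h⟩, fun h => h.2⟩)⟩

end Cfsg.Agent.S1451
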