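import Cfsg.Statements.S1453
import Cfsg.Agent.Odd.BG5a

set_option autoImplicit false
open Cfsg

namespace Cfsg.Agent.S1453

/-- Let p be an odd prime and R a finite p-group with an elementary abelian subgroup of order p ^ 3 and an elementary abelian subgroup E of order p ^ 2 contained in no larger elementary abelian subgroup. Let Z₂ be the second centre of R, W the subgroup generated by the elements of Z₂ of order dividing p, and T = C_R(W). Then E is not contained in T; the elements of order dividing p of the centre of R generate a group of order p; W is elementary abelian of order p ^ 2; and T is characteristic in R of index p. -/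
theorem result {R : Type*} [Group R] [Finite R] (p : ℕ) [Fact p.Prime] (hp : p ≠ 2) (hR : IsPGroup p R) (hr : ¬ Cfsg.PRankLE p 2 R)
    (E : Subgroup R) (hE : Cfsg.IsElementaryAbelian p E) (hE2 : Nat.card E = p ^ 2)
    (hEmax : ∀ B : Subgroup R, Cfsg.IsElementaryAbelian p B → E ≤ B → B = E) :
    ¬ E ≤ Subgroup.centralizer ((Subgroup.closure {x : R | x ∈ Subgroup.upperCentralSeries R 2 ∧ x ^ p = 1} : Subgroup R) : Set R) ∧
      Nat.card ↥(Subgroup.closure {x : R | x ∈ Subgroup.center R ∧ x ^ p = 1}) = p ∧
      (Cfsg.IsElementaryAbelian p (Subgroup.closure {x : R | x ∈ Subgroup.upperCentralSeries R 2 ∧ x ^ p = 1}) ∧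
        Nat.card ↥(Subgroup.closure {x : R | x ∈ Subgroup.upperCentralSeries R 2 ∧ x ^ p = 1}) = p ^ 2) ∧
      (Subgroup.centralizer ((Subgroup.closure {x : R | x ∈ Subgroup.upperCentralSeries R 2 ∧ x ^ p = 1} : Subgroup R) : Set R)).Characteristic ∧
      (Subgroup.centralizer ((Subgroup.closure {x : R | x ∈ Subgroup.upperCentralSeries R 2 ∧ x ^ p = 1} : Subgroup R) : Set R)).index = p := by
  have hp' : p.Prime := Fact.out
  have h := CL.Odd.omega_ucn_maxElem hp' hp (hR.to_subgroup ⊤)
    (not_le.1 fun h => hr ((CL.Odd.pRankLE_iff_prank_top hp').2 h)) ⟨le_top, hE, hE2⟩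
    ⟨le_top, hE, fun B _ => hEmax B⟩
  rw [CL.Odd.center2Of_top, top_inf_eq, top_inf_eq, Subgroup.coe_top, Subgroup.centralizer_univ,
    Subgroup.relIndex_top_right] at h
  haveI := CL.Odd.omegaOne_characteristic p (Subgroup.upperCentralSeries R 2)
  exact ⟨h.1, h.2.1, h.2.2.1.2, Subgroup.characteristic_centralizer (H := omegaOne p _), h.2.2.2.2.2⟩

end Cfsg.Agent.S1453
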