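import Cfsg.Statements.S1454
import Cfsg.Agent.Odd.BG5a

set_option autoImplicit false
open Cfsg

namespace Cfsg.Agent.S1454

/-- Let G be a finite group, p an odd prime, R a narrow p-subgroup and A a solvable subgroup of odd order normalizing R with A ∩ C_G(R) = 1. Then [A, A] ≤ O_p(A) and the index of O_p(A) in A is coprime to p; if R has an elementary abelian subgroup of order p ^ 3 then the order of every element of A of order coprime to p divides p − 1; and if the order of A is a prime not dividing p(p − 1), then 2·#A divides p + 1, and if in addition [R, A] = R and R is non-abelian then #R = p ^ 3. -/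
theorem result {G : Type*} [Group G] [Finite G] (p : ℕ) [Fact p.Prime] (hp : p ≠ 2) (R A : Subgroup G) (hR : IsPGroup p R) (hRn : Cfsg.IsNarrow p R)
    (hA : (A ≤ Subgroup.normalizer (R : Set G))) (hAs : Group.IsSolvable A) (hAodd : Odd (Nat.card A)) (hfaith : A ⊓ Subgroup.centralizer (R : Set G) = ⊥) :
    (commutator ↥A ≤ Cfsg.pCore p ↥A ∧ ((Cfsg.pCore p ↥A).index).Coprime p) ∧
      (¬ Cfsg.PRankLE p 2 R → ∀ a ∈ A, (orderOf a).Coprime p → orderOf a ∣ p - 1) ∧
      ((Nat.card A).Prime → ¬ Nat.card A ∣ p * (p - 1) →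
        2 * Nat.card A ∣ p + 1 ∧ (⁅R, A⁆ = R → ¬ IsMulCommutative R → Nat.card R = p ^ 3)) := by
  have hp' : p.Prime := Fact.out
  have hn := (CL.Odd.narrow_iff_isNarrow hp' hp hR).2 hRn
  have h1 : IsPGroup p ↥⁅A, A⁆ := CL.Odd.isPGroup_of_forall_coprime_eq_one hp' fun x hx hxp =>
    CL.Odd.eq_one_of_mem_of_eq_bot hfaith
      ⟨CL.Odd.der_le A hx, CL.Odd.mem_cent_of_der_narrow hp' hp hR hn hA hAodd hx hxp⟩
  have h2 : commutator ↥A ≤ pCore p ↥A := by
    refine CL.Grp.le_pCore ?_
    rw [← CL.Odd.map_subtype_commutator'] at h1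
    exact h1.of_equiv ((commutator A).equivMapOfInjective _ A.subtype_injective).symm
  refine ⟨⟨h2, ?_⟩, fun hr a ha hc => ?_, fun hq hd => ?_⟩
  · obtain ⟨P⟩ := (inferInstance : Nonempty (Sylow p A))
    haveI : (P : Subgroup A).Normal := Subgroup.Normal.of_commutator_le A (h2.trans (CL.Grp.pCore_le_sylow P))
    rw [← CL.Grp.sylow_eq_pCore_of_normal P]
    exact (hp'.coprime_iff_not_dvd.2 P.not_dvd_index).symm
  · exact orderOf_dvd_of_pow_eq_one (CL.Odd.eq_one_of_mem_of_eq_bot hfaith ⟨A.pow_mem ha _,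
      CL.Odd.narrow_pow_pred_mem_cent hp' hp hR hn ((CL.Odd.not_pRankLE_iff_prank hp').1 hr) (hA ha) hc⟩)
  · have h3 := CL.Odd.narrow_prime_aut hp' hp hR hn hA hq (by
      rw [← Subgroup.inf_relIndex_left, hfaith, Subgroup.relIndex_bot_left]) hd
    exact ⟨h3.1, h3.2.2⟩

end Cfsg.Agent.S1454
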