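import Cfsg.Statements.S1458
import Cfsg.Agent.Grp.ZJ
import Cfsg.Agent.Loc.PConstr

set_option autoImplicit false
open Cfsg

namespace Cfsg.Agent.S1458

/-- Let G be a solvable group of odd order, p a prime and S a Sylow p-subgroup of G. Then the subgroup generated by the centre of the Thompson subgroup of S and O_{p'}(G) is normal in G. -/
theorem result {G : Type*} [Group G] [Finite G] [Group.IsSolvable G] (hodd : Odd (Nat.card G)) (p : ℕ) [Fact p.Prime] (S : Sylow p G) :
    (Cfsg.centerThompsonOf p (S : Subgroup G) ⊔ Cfsg.pPrimeCore p G).Normal := by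
  by_cases hp : p = 2
  · subst hp
    have h : (S : Subgroup G) = ⊥ := by
      obtain ⟨k, hk⟩ := IsPGroup.iff_card.mp S.isPGroup'
      have h2 : Odd (2 ^ k) := hk ▸ hodd.of_dvd_nat (Subgroup.card_subgroup_dvd_card _)
      rw [← Subgroup.card_eq_one, hk]
      rcases k with _ | k
      · rfl
      · exact absurd h2 (by simp [Nat.odd_pow_iff])
    rw [le_bot_iff.mp ((CL.Loc.centerThompsonOf_le (p := 2) (S : Subgroup G)).trans h.le), bot_sup_eq]
    infer_instance
  set f := QuotientGroup.mk' (pPrimeCore p G)
  have hf : Function.Surjective f := QuotientGroup.mk'_surjective _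
  have hk : f.ker = pPrimeCore p G := QuotientGroup.ker_mk' _
  have hs : Group.IsSolvable (G ⧸ pPrimeCore p G) := inferInstance
  have h := CL.Grp.zj_characteristic hp (Or.inl rfl)
    (CL.Loc.isPConstrained_iff.mp (CL.Loc.isPConstrained_of_isSolvable (p := p) (G := G) inferInstance))
    (fun B _ hB => CL.Grp.isPStableOn_of_isSolvable hp hs
      (fun _ => CL.Grp.abelianTwo_of_odd (hodd.of_dvd_nat (Subgroup.card_quotient_dvd_card _))) B hB)
    (S.mapSurjective hf)
  rw [Sylow.coe_mapSurjective, ← CL.Loc.map_centerThompsonOf (by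
    rw [hk]; exact CL.Loc.inf_eq_bot_of_isPGroup_of_coprime S.isPGroup' (CL.Grp.pPrimeCore_coprime p G))] at h
  rw [← hk, ← Subgroup.comap_map_eq]
  infer_instance

end Cfsg.Agent.S1458
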