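import Cfsg.Statements.S1464
import Cfsg.Agent.Odd.BGAStable

set_option autoImplicit false
open Cfsg

namespace Cfsg.Agent.S1464

/-- Let p be an odd prime and G a solvable group of odd order, P a p-subgroup with O_{p'}(G)P normal in G, and A a p-subgroup of N_G(P) with [[P, A], A] = 1. Then the image of A in the quotient N_G(P)/C_G(P) is contained in the p-core of that quotient. -/
theorem result {G : Type*} [Group G] [Finite G] [Group.IsSolvable G] (hodd : Odd (Nat.card G)) (p : ℕ) [Fact p.Prime] (hp : p ≠ 2) (P A : Subgroup G) (hP : IsPGroup p P) (hPn : (Cfsg.pPrimeCore p G ⊔ P).Normal)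
    (hA : IsPGroup p A) (hAN : A ≤ Subgroup.normalizer (P : Set G)) (hquad : ⁅⁅P, A⁆, A⁆ = ⊥) :
    (A.subgroupOf (Subgroup.normalizer (P : Set G))).map
        (QuotientGroup.mk' ((Subgroup.centralizer (P : Set G)).subgroupOf (Subgroup.normalizer (P : Set G))))
      ≤ Cfsg.pCore p _ := by
  have hPN : P ≤ Subgroup.normalizer (P : Set G) := Subgroup.le_normalizer
  have hn : (P.subgroupOf (Subgroup.normalizer (P : Set G))).Normal := inferInstance
  have e : (Subgroup.centralizer (P : Set G)).subgroupOf (Subgroup.normalizer (P : Set G)) =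
      Subgroup.centralizer ((P.subgroupOf (Subgroup.normalizer (P : Set G)) : Subgroup _) : Set _) := by
    ext x
    constructor
    · intro hx y hy
      exact Subtype.ext (hx y hy)
    · intro hx y hy
      exact congrArg Subtype.val (hx ⟨y, hPN hy⟩ hy)
  have key := CL.Odd.odd_quadratic_normalClosure (G := Subgroup.normalizer (P : Set G))
    (hodd.of_dvd_nat (Subgroup.card_subgroup_dvd_card _)) (P.subgroupOf _) hP.comap_subtype
    (A.subgroupOf (Subgroup.normalizer (P : Set G)) : Set _) (by
      intro a ha z hz
      apply Subtype.ext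
      have := Subgroup.commutator_mem_commutator (Subgroup.commutator_mem_commutator hz ha :
        _ ∈ ⁅P, A⁆) (ha : (a : G) ∈ A)
      rw [hquad] at this
      simpa [commutatorElement_def] using this)
  refine le_trans (Subgroup.map_mono Subgroup.le_normalClosure) ?_
  have := Subgroup.Normal.map (Subgroup.normalClosure_normal
    (s := (A.subgroupOf (Subgroup.normalizer (P : Set G)) : Set _)))
    (QuotientGroup.mk' ((Subgroup.centralizer (P : Set G)).subgroupOf (Subgroup.normalizer (P : Set G))))
    (QuotientGroup.mk'_surjective _)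
  apply CL.Grp.le_pCore
  apply CL.Odd.isPGroup_map_of_coprime_mem_ker
  intro g hg hgp
  rw [QuotientGroup.ker_mk', e]
  exact key g hg hgp

end Cfsg.Agent.S1464
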