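import Cfsg.Statements.S1466
import Cfsg.Agent.Odd.BGBPuig

set_option autoImplicit false
open Cfsg

namespace Cfsg.Agent.S1466

/-- Let p be a prime and R a nontrivial finite p-group. Then for every i > 0, Z(R) ≤ C_R(L_i(R)) ≤ L_i(R); likewise Z(R) ≤ C_R(L_*(R)) ≤ L_*(R) and Z(R) ≤ C_R(L(R)) ≤ L(R); and L(R) ≠ 1, L_*(R) ≠ 1. -/
theorem result {R : Type*} [Group R] [Finite R] (p : ℕ) [Fact p.Prime] (hR : IsPGroup p R) [Nontrivial R] :
    (∀ i : ℕ, 0 < i → Subgroup.center R ≤ Subgroup.centralizer ((Cfsg.puigSeq R i : Subgroup R) : Set R) ∧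
        Subgroup.centralizer ((Cfsg.puigSeq R i : Subgroup R) : Set R) ≤ Cfsg.puigSeq R i) ∧
      (Subgroup.center R ≤ Subgroup.centralizer ((Cfsg.puigLower R : Subgroup R) : Set R) ∧ Subgroup.centralizer ((Cfsg.puigLower R : Subgroup R) : Set R) ≤ Cfsg.puigLower R) ∧
      (Subgroup.center R ≤ Subgroup.centralizer ((Cfsg.puigSubgroup R : Subgroup R) : Set R) ∧ Subgroup.centralizer ((Cfsg.puigSubgroup R : Subgroup R) : Set R) ≤ Cfsg.puigSubgroup R) ∧
      Cfsg.puigSubgroup R ≠ ⊥ ∧ Cfsg.puigLower R ≠ ⊥ := by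
  have := hR.isNilpotent
  have hc : ∀ X : Subgroup R, Subgroup.center R ≤ Subgroup.centralizer (X : Set R) :=
    fun X => Subgroup.center_le_centralizer _
  have h1 : Subgroup.centralizer ((Cfsg.puigLower R : Subgroup R) : Set R) ≤ Cfsg.puigLower R := by
    rw [← CL.Odd.puigStep_puigSubgroup]; exact CL.Odd.centralizer_puigStep_le _
  have h2 : Subgroup.centralizer ((Cfsg.puigSubgroup R : Subgroup R) : Set R) ≤ Cfsg.puigSubgroup R := by
    rw [← CL.Odd.puigStep_puigLower]; exact CL.Odd.centralizer_puigStep_le _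
  refine ⟨fun i hi => ⟨hc _, ?_⟩, ⟨hc _, h1⟩, ⟨hc _, h2⟩, fun h => ?_, fun h => ?_⟩
  · obtain ⟨j, rfl⟩ := Nat.exists_eq_succ_of_ne_zero hi.ne'
    exact CL.Odd.centralizer_puigStep_le _
  · exact Group.IsNilpotent.center_ne_bot R (le_bot_iff.mp (h ▸ (hc _).trans h2))
  · exact Group.IsNilpotent.center_ne_bot R (le_bot_iff.mp (h ▸ (hc _).trans h1))

end Cfsg.Agent.S1466
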