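import Cfsg.Statements.S1469
import Cfsg.Agent.Odd.BGBNormal

set_option autoImplicit false
open Cfsg

namespace Cfsg.Agent.S1469

/-- Let p be an odd prime, G a solvable group of odd order and S a Sylow p-subgroup, and let Z be the centre of the Puig subgroup L(S), viewed inside G. Then G is generated by O_{p'}(G) and N_G(Z); and if O_{p'}(G) = 1 then Z is normal in G. -/
theorem result {G : Type*} [Group G] [Finite G] [Group.IsSolvable G] (hodd : Odd (Nat.card G)) (p : ℕ) [Fact p.Prime] (hp : p ≠ 2) (S : Sylow p G) :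
    Cfsg.pPrimeCore p G ⊔ Subgroup.normalizer ((((Subgroup.center ↥(Cfsg.puigSubgroup ↥(S : Subgroup G))).map (Cfsg.puigSubgroup ↥(S : Subgroup G)).subtype).map (S : Subgroup G).subtype : Subgroup G) : Set G) = ⊤ ∧
      (Cfsg.pPrimeCore p G = ⊥ → (((Subgroup.center ↥(Cfsg.puigSubgroup ↥(S : Subgroup G))).map (Cfsg.puigSubgroup ↥(S : Subgroup G)).subtype).map (S : Subgroup G).subtype).Normal) := by
  have e : (((Subgroup.center ↥(Cfsg.puigSubgroup ↥(S : Subgroup G))).map (Cfsg.puigSubgroup ↥(S : Subgroup G)).subtype).map (S : Subgroup G).subtype : Subgroup G) =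
      CL.Odd.puigOf (S : Subgroup G) ⊓ Subgroup.centralizer (CL.Odd.puigOf (S : Subgroup G) : Set G) := by
    rw [CL.Odd.map_subtype_center, CL.Odd.map_center_of_injOn _ _ (by simp)]; rfl
  rw [e]
  refine ⟨?_, fun h => CL.Odd.puig_center_normal hodd h S⟩
  rw [eq_top_iff]
  intro g _
  obtain ⟨k, hk, n, hn, rfl⟩ := CL.Odd.puig_factorisation hodd S g
  exact Subgroup.mul_mem_sup hk hn

end Cfsg.Agent.S1469
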