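import Cfsg.Statements.S1474
import Cfsg.Agent.Char.CN2

set_option autoImplicit false
open Cfsg

namespace Cfsg.Agent.S1474

/-- Let G be a finite group in which every non-identity element has nilpotent centralizer, not itself nilpotent, and having a nontrivial normal Sylow p-subgroup for some prime p. Let H be the largest normal nilpotent Hall subgroup of G. Then H is a nontrivial proper normal subgroup with a complement E that is a Frobenius complement in G (no non-identity element of E centralizes a non-identity element of H), and G/H is nilpotent. -/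
theorem result {G : Type*} [Group G] [Finite G] (hCN : Cfsg.IsCNGroup G) (hnn : ¬ Group.IsNilpotent G) (p : ℕ) [Fact p.Prime] (P : Sylow p G)
    (hP1 : (P : Subgroup G) ≠ ⊥) (hPn : (P : Subgroup G).Normal) :
    Cfsg.fittingHall G ≠ ⊥ ∧ Cfsg.fittingHall G ≠ ⊤ ∧
      (∃ E : Subgroup G, Subgroup.IsComplement' (Cfsg.fittingHall G) E ∧ Cfsg.IsFrobeniusComplement E ∧
        ∀ e ∈ E, e ≠ 1 → Cfsg.fittingHall G ⊓ Subgroup.centralizer ({e} : Set G) = ⊥) ∧
      Group.IsNilpotent (G ⧸ Cfsg.fittingHall G) := by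
  haveI := hPn
  have hH := CL.CN.fitting_hall_of_normal_sylow hCN P hP1
  have h1 : fittingSubgroup G ≠ ⊥ := fun h => hP1 (eq_bot_iff.mpr (h ▸ CL.Grp.le_fittingSubgroup P.isPGroup'.isNilpotent))
  have h2 : fittingSubgroup G ≠ ⊤ := fun h => hnn (CL.Grp.fittingSubgroup_eq_top_iff.mp h)
  obtain ⟨E, hE, hEn, hfpf⟩ := CL.CN.exists_compl_of_fitting_hall hCN hH h1
  have heq := CL.CN.fittingHall_eq_fitting hH
  have hE1 : E ≠ ⊥ := by
    rintro rfl
    exact h2 (Subgroup.isComplement'_bot_right.mp hE)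
  refine ⟨heq ▸ h1, heq ▸ h2, ⟨E, heq ▸ hE, CL.Grp.frob_of_fpf hE h1 hE1 hfpf, heq ▸ hfpf⟩, ?_⟩
  exact CL.CN.isNilpotent_quotient_of_isComplement' (E := E) (heq ▸ hE) hEn

end Cfsg.Agent.S1474
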