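import Cfsg.Statements.S1475
import Cfsg.Agent.Char.CN2

set_option autoImplicit false
open Cfsg

namespace Cfsg.Agent.S1475

/-- Let G be a finite solvable group such that the order of every element is a prime power (1 included). Then at most two distinct primes divide the order of G. -/
theorem result {G : Type*} [Group G] [Finite G] [Group.IsSolvable G] (h : ∀ g : G, IsPrimePow (orderOf g) ∨ g = 1) :
    (Nat.card G).primeFactors.card ≤ 2 := by
  -- commuting nontrivial elements have orders that are powers of one prime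
  have key : ∀ x y : G, x ≠ 1 → y ≠ 1 → x * y = y * x → ¬ (orderOf x).Coprime (orderOf y) := by
    intro x y hx hy hc hcop
    have h1 : orderOf (x * y) = orderOf x * orderOf y := Commute.orderOf_mul_eq_mul_orderOf_of_coprime hc hcop
    rcases h (x * y) with h2 | h2
    · rw [h1] at h2
      rcases (Nat.Coprime.isPrimePow_dvd_mul hcop h2).mp dvd_rfl with h3 | h3
      · exact hy (orderOf_eq_one_iff.mp (Nat.dvd_one.mp (Nat.dvd_of_mul_dvd_mul_left (orderOf_pos x) (by rwa [mul_one]))))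
      · exact hx (orderOf_eq_one_iff.mp (Nat.dvd_one.mp (Nat.dvd_of_mul_dvd_mul_right (orderOf_pos y) (by rwa [one_mul]))))
    · rw [h2, orderOf_one] at h1
      exact hx (orderOf_eq_one_iff.mp (Nat.eq_one_of_mul_eq_one_right h1.symm))
  have hcent : ∀ x : G, x ≠ 1 → ∃ q : ℕ, q.Prime ∧ IsPGroup q (Subgroup.centralizer ({x} : Set G)) := by
    intro x hx
    obtain ⟨q, k, hq, hk, hqk⟩ := (isPrimePow_nat_iff _).mp ((h x).resolve_right hx)
    haveI := Fact.mk hq
    refine ⟨q, hq, IsPGroup.iff_orderOf.mpr fun y => ?_⟩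
    by_cases hy : (y : G) = 1
    · exact ⟨0, by rw [← Subgroup.orderOf_coe, hy, orderOf_one, pow_zero]⟩
    obtain ⟨r, l, hr, hl, hrl⟩ := (isPrimePow_nat_iff _).mp ((h y).resolve_right hy)
    by_cases hrq : r = q
    · exact ⟨l, by rw [← Subgroup.orderOf_coe, ← hrl, hrq]⟩
    · refine absurd ?_ (key y x hy hx (Subgroup.mem_centralizer_singleton_iff.mp y.2))
      rw [← hqk, ← hrl]
      exact Nat.coprime_pow_primes _ _ hr hq hrq
  have hCN : IsCNGroup G := fun x hx => by
    obtain ⟨q, hq, h1⟩ := hcent x hx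
    haveI := Fact.mk hq
    exact h1.isNilpotent
  rcases subsingleton_or_nontrivial G with hG | hG
  · rw [Nat.card_of_subsingleton (1 : G)]; simp
  obtain ⟨p, hp, hO⟩ := CL.Grp.exists_pCore_ne_bot G
  haveI := Fact.mk hp
  obtain ⟨A, hA⟩ := CL.Grp.exists_piHall_of_solvable ({p}ᶜ : Set ℕ) G
  obtain ⟨hAp, k, hAk⟩ := (CL.Grp.isPiHall_compl_singleton_iff hp).mp hA
  have hAcop : (Nat.card A).Coprime p := ((Nat.Prime.coprime_iff_not_dvd hp).mpr hAp).symm
  have hcopOA : (Nat.card (pCore p G)).Coprime (Nat.card A) :=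
    CL.Grp.coprime_card_of_isPGroup (CL.Grp.pCore_isPGroup p G) hAcop
  have hfpf : ∀ a ∈ A, a ≠ 1 → pCore p G ⊓ Subgroup.centralizer {a} = ⊥ := by
    intro a ha ha1
    refine CL.CN.fpf_of_eq_one fun x hx hc => ?_
    by_contra hx1
    exact key x a hx1 ha1 hc (CL.CN.coprime_orderOf_of_mem hcopOA hx ha)
  have hAn := CL.CN.isNilpotent_of_fpf hCN hO Subgroup.le_normalizer_of_normal hfpf
  obtain ⟨q, hq, j, hj⟩ : ∃ q : ℕ, q.Prime ∧ ∃ j, Nat.card A = q ^ j := by
    by_cases hA1 : A = ⊥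
    · exact ⟨p, hp, 0, by rw [hA1]; simp⟩
    obtain ⟨z, -, hz1, hz⟩ := CL.CN.exists_center_ne_one hAn hA1
    obtain ⟨q, hq, h1⟩ := hcent z hz1
    haveI := Fact.mk hq
    exact ⟨q, hq, (h1.to_le fun a ha => Subgroup.mem_centralizer_singleton_iff.mpr (hz a ha)).exists_card_eq⟩
  have hsub : (Nat.card G).primeFactors ⊆ {p, q} := by
    intro r hr
    have hr' := Nat.prime_of_mem_primeFactors hr
    have h1 := Nat.dvd_of_mem_primeFactors hr
    rw [← A.card_mul_index, hj, hAk] at h1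
    rcases (Nat.Prime.dvd_mul hr').mp h1 with h2 | h2
    · simp [(Nat.prime_dvd_prime_iff_eq hr' hq).mp (hr'.dvd_of_dvd_pow h2)]
    · simp [(Nat.prime_dvd_prime_iff_eq hr' hp).mp (hr'.dvd_of_dvd_pow h2)]
  exact (Finset.card_le_card hsub).trans Finset.card_le_two

end Cfsg.Agent.S1475
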