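import Cfsg.Statements.S1476
import Cfsg.Agent.Char.CN2

set_option autoImplicit false
open Cfsg

namespace Cfsg.Agent.S1476

/-- Let G be a finite solvable group in which every non-identity element has nilpotent centralizer. Then either G is nilpotent; or G has a normal subgroup K with a Frobenius complement E (K E = G, K ∩ E = 1, E meets its conjugates by outside elements trivially) such that E is cyclic or E is generated by two elementwise-commuting subgroups, one cyclic of odd order and one isomorphic to a generalized quaternion group; or G is a three-step group with respect to some prime p. -/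
theorem result {G : Type*} [Group G] [Finite G] [Group.IsSolvable G] (hCN : Cfsg.IsCNGroup G) :
    Group.IsNilpotent G ∨
      (∃ K E : Subgroup G, K.Normal ∧ Subgroup.IsComplement' K E ∧ Cfsg.IsFrobeniusComplement E ∧
        (IsCyclic E ∨ ∃ C Q : Subgroup G, C ⊔ Q = E ∧ (∀ a ∈ C, ∀ b ∈ Q, a * b = b * a) ∧ IsCyclic C ∧ Odd (Nat.card C) ∧
          ∃ n : ℕ, Nonempty (↥Q ≃* QuaternionGroup (2 ^ n)))) ∨
      ∃ p : ℕ, p.Prime ∧ Cfsg.IsThreeStepGroup p G := by
  by_cases hn : Group.IsNilpotent G
  · exact Or.inl hn
  right
  rcases CL.CN.fitting_hall_or_threeStep hCN with hH | h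
  · left
    haveI : Nontrivial G := by
      by_contra h
      rw [not_nontrivial_iff_subsingleton] at h
      exact hn inferInstance
    have h1 : fittingSubgroup G ≠ ⊥ := CL.Grp.fittingSubgroup_ne_bot G
    have h2 : fittingSubgroup G ≠ ⊤ := fun h => hn (CL.Grp.fittingSubgroup_eq_top_iff.mp h)
    obtain ⟨E, hE, hEn, hfpf⟩ := CL.CN.exists_compl_of_fitting_hall hCN hH h1
    have hE1 : E ≠ ⊥ := by
      rintro rfl
      exact h2 (Subgroup.isComplement'_bot_right.mp hE)
    exact ⟨_, E, inferInstance, hE, CL.Grp.frob_of_fpf hE h1 hE1 hfpf,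
      CL.CN.isCyclic_or_prod_of_fpf h1 Subgroup.le_normalizer_of_normal hfpf hEn⟩
  · exact Or.inr h

end Cfsg.Agent.S1476
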