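import Cfsg.Statements.S1481
import Cfsg.Agent.Odd.BG8Pre
import Cfsg.Agent.Odd.BG7a
import Cfsg.Agent.Odd.RelProd

set_option autoImplicit false
open Cfsg

namespace Cfsg.Agent.S1481

open CL.Odd CL.Odd.S8 CL.Grp
open scoped Pointwise commutatorElement

theorem aux {G : Type*} [Group G] [Finite G] {H : Subgroup G}
    (hHmax : ∀ L : Subgroup G, IsLocalSubgroup L → H ≤ L → L = H)
    (hF2 : 2 ≤ (Nat.card (fittingOf H)).primeFactors.card)
    {A : Subgroup G} (sAF : A ≤ fittingOf H) (hCA : fittingOf H ⊓ C[A] ≤ A)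
    {R : Subgroup G} (hR : Group.IsSolvable R) (hAR : A ≤ N[R]) (hXR : H ⊓ C[fittingOf H] ≤ N[R]) :
    (∀ Y, Y ≤ R → IsPiSubgroup (primesNotDvd (Nat.card (fittingOf H))) Y → Y ≤ C[A] → Y = ⊥) ∧
    (∀ Y, Y ≤ R → IsPiSubgroup (primesNotDvd (Nat.card (fittingOf H))) Y → A ≤ N[Y] →
      Y ≤ piCoreOf (primesNotDvd (Nat.card (fittingOf H))) R) := by
  set F := fittingOf H with hF
  have nilF : Group.IsNilpotent F := fittingOf_isNilpotent H
  have nFM : F ⊴ H := fittingOf_normalIn H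
  set Z : ℕ → Subgroup G := fun q => pCoreOf q H ⊓ C[F] with hZ
  have sZA : ∀ q, q.Prime → Z q ≤ A := fun q hq =>
    (inf_le_inf (pCoreOf_le_fit hq H) (cent_anti sAF)).trans hCA
  have nZM : ∀ q, Z q ⊴ H := fun q => (pCoreOf_normalIn q H).inf_cent' nFM.norm
  have pZ : ∀ q, IsPGroup q (Z q) := fun q => (pCoreOf_isPGroup q H).to_le inf_le_left
  have ntZ : ∀ q, q.Prime → q ∣ Nat.card F → Z q ≠ ⊥ := fun q hq hd => by
    haveI := Fact.mk hq
    refine inf_center_ne_bot_of_nil nilF (pCoreOf_le_fit hq H) (nFM.le.trans (le_normalizer_pCoreOf q H))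
      fun h => pCoreOf_ne_bot_of_isNilpotent nilF hd (le_bot_iff.1 ?_)
    rw [← h]
    exact le_pCoreOf_of_le_fit hq (pCoreOf_isPGroup q _) (pCoreOf_le q _)
  have defNZ : ∀ q, q.Prime → q ∣ Nat.card F → N[Z q] = H := fun q hq hd =>
    hHmax _ ⟨q, Z q, hq, pZ q, ntZ q hq hd, rfl⟩ (nZM q).2
  have sCZM : ∀ q, q.Prime → q ∣ Nat.card F → C[Z q] ≤ H := fun q hq hd =>
    (cent_le_norm _).trans (defNZ q hq hd).le
  have pi_alt : ∀ q : ℕ, ∃ r, r.Prime ∧ r ∣ Nat.card F ∧ r ≠ q := by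
    intro q
    obtain ⟨r, hr, hne⟩ := Finset.exists_mem_ne (s := (Nat.card F).primeFactors) (by omega) q
    exact ⟨r, Nat.prime_of_mem_primeFactors hr, Nat.dvd_of_mem_primeFactors hr, hne⟩
  obtain ⟨p, hp, pF, -⟩ := pi_alt 0
  have sCAM : C[A] ≤ H := (cent_anti (sZA p hp)).trans (sCZM p hp pF)
  have eq_bot_of_le : ∀ Y : Subgroup G, Y ≤ F → IsPiSubgroup (primesNotDvd (Nat.card F)) Y → Y = ⊥ := by
    intro Y hY h
    by_contra hne
    obtain ⟨q, hq, hd⟩ := exists_prime_dvd_card_of_ne_bot hne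
    exact (h q hq hd).2 (hd.trans (Subgroup.card_dvd_of_le hY))
  have hXF : (H ⊓ C[F]) ⊓ R ≤ F := by
    have h1 : fittingOf ((H ⊓ C[F]) ⊓ R) ≤ F :=
      (fittingOf_le_of_le_normalizer inf_le_left (le_norm_inf (le_norm_self _) hXR)).trans
        (fittingOf_le_of_le_normalizer inf_le_left (le_norm_inf (le_norm_self _) (le_norm_cent nFM.2)))
    exact ((le_inf le_rfl ((inf_le_left.trans inf_le_right).trans (cent_anti h1))).trans
      (inf_centralizer_fittingOf_le (sol_of_le hR inf_le_right))).trans h1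
  have piCA : ∀ Y, Y ≤ R → IsPiSubgroup (primesNotDvd (Nat.card F)) Y → Y ≤ C[A] → Y = ⊥ := by
    intro Y hYR h hY
    refine eq_bot_of_le Y (le_trans (le_inf (le_inf (hY.trans sCAM) ?_) hYR) hXF) h
    refine coprime_nil_faithful_cent_stab ((hY.trans sCAM).trans nFM.norm)
      (coprime_of_primesNotDvd h).symm nilF ?_
    exact ((inf_le_inf_left _ (cent_anti (le_inf sAF (cent_symm hY)))).trans hCA).trans (cent_symm hY)
  refine ⟨piCA, fun Y sYR piY nYA => le_piCoreOf_primesNotDvd sYR fun q hq hd => ?_⟩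
  obtain ⟨r, hr, rF, hrq⟩ := pi_alt q
  have solX : Group.IsSolvable ↥(R ⊔ A) := sol_sup hR (sol_of_le (sol_of_nil nilF) sAF) hAR
  have sZO : Z r ≤ piCoreOf {q}ᶜ (R ⊔ A) := by
    refine le_trans ?_ (p'core_norm_le hq solX (pZ q) ((sZA q hq).trans le_sup_right))
    rw [defNZ q hq hd]
    exact le_trans (le_inf (le_piCoreOf_of_le_fit (pi'_of_pgroup hr (pZ r) hrq) ((sZA r hr).trans sAF))
      (le_inf ((sZA r hr).trans le_sup_right) (nZM r).1)) (piCoreOf_inf_le inf_le_right)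
  have co : (Nat.card (Z r)).Coprime (Nat.card Y) :=
    coprime_of_le_left (coprime_of_primesNotDvd piY) ((sZA r hr).trans sAF)
  rw [← coprime_cent_prod ((sZA r hr).trans nYA) co (Or.inr (sol_of_le hR sYR))]
  refine sup_le ((le_inf ((Subgroup.commutator_mono (sYR.trans le_sup_left) sZO).trans
    (comm_le_right (le_normalizer_piCoreOf _ _))) ((comm_le_left ((sZA r hr).trans nYA)).trans sYR)).trans
    (piCoreOf_inf_le le_sup_left)) (le_trans (le_of_eq ?_) bot_le)
  refine piCA _ (inf_le_left.trans sYR) (isPiSubgroup_inf_left piY) (comm_eq_bot_iff.1 (eq_bot_of_le _ ?_ ?_))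
  · exact (Subgroup.commutator_mono (inf_le_right.trans (sCZM r hr rF)) sAF).trans (comm_le_right nFM.norm)
  · exact isPiSubgroup_of_le piY ((Subgroup.commutator_mono inf_le_left le_rfl).trans (comm_le_left nYA))


/-- Let G be a finite group and H a local subgroup (the normalizer of a nontrivial subgroup of prime-power order) not properly contained in any local subgroup; let F = F(H), suppose at least two primes divide #F, put X = H ∩ C_G(F), let M ≤ F with F ∩ C_G(M) ≤ M, and let R be a solvable subgroup normalized by M and by X. Then for every prime q not dividing #F there is exactly one maximal M-invariant q-subgroup of R, and it is a Sylow q-subgroup of the largest normal subgroup of R of order coprime to #F. -/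
theorem result {G : Type*} [Group G] [Finite G] (H : Subgroup G) (hH : Cfsg.IsLocalSubgroup H) (hHmax : ∀ L : Subgroup G, Cfsg.IsLocalSubgroup L → H ≤ L → L = H)
    (hF2 : 2 ≤ (Nat.card (Cfsg.fittingOf H)).primeFactors.card)
    (M : Subgroup G) (hM : M ≤ Cfsg.fittingOf H) (hCM : Cfsg.fittingOf H ⊓ Subgroup.centralizer (M : Set G) ≤ M)
    (R : Subgroup G) (hR : Group.IsSolvable R) (hMR : M ≤ Subgroup.normalizer (R : Set G))
    (hXR : H ⊓ Subgroup.centralizer (Cfsg.fittingOf H : Set G) ≤ Subgroup.normalizer (R : Set G))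
    (q : ℕ) [Fact q.Prime] (hq : ¬ q ∣ Nat.card (Cfsg.fittingOf H)) :
    ∃! Q : Subgroup G, Q ∈ Cfsg.maxInvSubgroups R M {q} ∧
      (∀ Q' : Subgroup G, Q' ∈ Cfsg.maxInvSubgroups R M {q} →
        Q' ≤ Cfsg.piCoreOf (Cfsg.primesNotDvd (Nat.card (Cfsg.fittingOf H))) R ∧
        ¬ q ∣ Q'.relIndex (Cfsg.piCoreOf (Cfsg.primesNotDvd (Nat.card (Cfsg.fittingOf H))) R)) := by
  have hqp : q.Prime := Fact.out
  obtain ⟨h1, h2⟩ := aux hHmax hF2 hM hCM hR hMR hXR
  set K := piCoreOf (primesNotDvd (Nat.card (fittingOf H))) R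
  have hKπ : IsPiSubgroup (primesNotDvd (Nat.card (fittingOf H))) K := piCoreOf_isPiSubgroup _ R
  have hMK : M ≤ N[K] := hMR.trans (normalizer_le_normalizer_piCoreOf _ R)
  have hc : (Nat.card M).Coprime (Nat.card K) := coprime_of_le_left (coprime_of_primesNotDvd hKπ) hM
  have hs : Group.IsSolvable M ∨ Group.IsSolvable K := Or.inr (sol_of_le hR (piCoreOf_le _ R))
  have key : ∀ Q ∈ maxInvSubgroups R M {q}, IsSylowIn q Q K := fun Q hQ => by
    obtain ⟨S, hS, hn, hle⟩ := coprime_Sylow_subset hqp hMK hc hs (maxInv_isPGroup hqp hQ)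
      (h2 Q (maxInv_le hQ) (primesNotDvd_of_singleton hq (maxInv_pi hQ)) (maxInv_norm hQ)) (maxInv_norm hQ)
    rwa [maxInv_eq hQ (isPiSubgroup_singleton_iff.mpr hS.isPGroup) hn (hS.le.trans (piCoreOf_le _ R)) hle] at hS
  obtain ⟨Q, hQ, -⟩ := maxInv_exists (H := R) (A := M) (π := {q}) bot_le isPiSubgroup_bot
    (by rw [norm_bot]; exact le_top)
  refine ⟨Q, ⟨hQ, fun Q' h => ⟨(key Q' h).le, (key Q' h).not_dvd⟩⟩, fun Q' h => ?_⟩
  obtain ⟨c, hc', e⟩ := coprime_Sylow_trans hqp hMK hc hs (key Q hQ) (key Q' h.1) (maxInv_norm hQ) (maxInv_norm h.1)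
  rw [h1 _ (inf_le_left.trans (piCoreOf_le _ R)) (isPiSubgroup_inf_left hKπ) inf_le_right, Subgroup.mem_bot] at hc'
  rw [← e, hc', cj_one]

end Cfsg.Agent.S1481
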