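import Cfsg.Statements.S1483
import Cfsg.Agent.Char.CN4

set_option autoImplicit false
open Cfsg

namespace Cfsg.Agent.S1483

/-- Let G be a minimal simple group of odd order in which every non-identity element has nilpotent centralizer. Then any two nilpotent subgroups each contained in no larger nilpotent subgroup are either conjugate or of coprime orders; and for primes p, q, r: if some elements x, y ≠ 1 of p-power and q-power order commute, and some elements y', z ≠ 1 of q-power and r-power order commute, then some elements of p-power and r-power order, both ≠ 1, commute. -/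
theorem result {G : Type*} [Group G] [Finite G] (hG : Cfsg.IsMinSimpleOddOrder G) (hCN : Cfsg.IsCNGroup G) :
    (∀ H₁ H₂ : Subgroup G, (Group.IsNilpotent ↥H₁ ∧ ∀ L : Subgroup G, Group.IsNilpotent L → H₁ ≤ L → L = H₁) → (Group.IsNilpotent ↥H₂ ∧ ∀ L : Subgroup G, Group.IsNilpotent L → H₂ ≤ L → L = H₂) → (∃ g : G, H₂ = H₁.map (MulAut.conj g).toMonoidHom) ∨ (Nat.card H₁).Coprime (Nat.card H₂)) ∧
      ∀ (p q r : ℕ), p.Prime → q.Prime → r.Prime → ∀ (x y y' z : G), x ≠ 1 → y ≠ 1 → y' ≠ 1 → z ≠ 1 →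
        IsPGroup p (Subgroup.zpowers x) → IsPGroup q (Subgroup.zpowers y) → IsPGroup q (Subgroup.zpowers y') → IsPGroup r (Subgroup.zpowers z) →
        x * y = y * x → y' * z = z * y' →
        ∃ x' z' : G, x' ≠ 1 ∧ z' ≠ 1 ∧ IsPGroup p (Subgroup.zpowers x') ∧ IsPGroup r (Subgroup.zpowers z') ∧ x' * z' = z' * x' := by
  refine ⟨fun H₁ H₂ h₁ h₂ => CL.CN.IsMaxNilp.conj_or_coprime hG hCN h₁ h₂, ?_⟩
  intro p q r hp hq hr x y y' z hx hy hy' hz hxp hyq hyq' hzr hxy hyz
  by_cases hpr : p = r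
  · subst hpr
    exact ⟨x, x, hx, hx, hxp, hxp, rfl⟩
  haveI := Fact.mk hp
  haveI := Fact.mk hq
  haveI := Fact.mk hr
  have key : ∀ a b : G, a * b = b * a → ∃ H : Subgroup G, CL.CN.IsMaxNilp H ∧ a ∈ H ∧ b ∈ H := by
    intro a b hab
    obtain ⟨H, hH, hle⟩ := CL.CN.exists_isMaxNilp_ge
      (CL.CN.isNilpotent_sup_of_commute (CL.CN.isNilpotent_zpowers a) (CL.CN.isNilpotent_zpowers b) (by
        rintro _ ⟨i, rfl⟩ _ ⟨j, rfl⟩
        exact Commute.zpow_zpow hab i j))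
    exact ⟨H, hH, hle (Subgroup.mem_sup_left (Subgroup.mem_zpowers a)),
      hle (Subgroup.mem_sup_right (Subgroup.mem_zpowers b))⟩
  obtain ⟨H₁, h₁, hx₁, hy₁⟩ := key x y hxy
  obtain ⟨H₂, h₂, hy₂, hz₂⟩ := key y' z hyz
  have hd : ∀ (a : G) (H : Subgroup G), a ≠ 1 → IsPGroup q (Subgroup.zpowers a) → a ∈ H → q ∣ Nat.card H :=
    fun a H ha hq haH => (hq.card_eq_or_dvd.resolve_left fun h =>
      Subgroup.zpowers_ne_bot.mpr ha (Subgroup.card_eq_one.mp h)).trans
        (Subgroup.card_dvd_of_le (Subgroup.zpowers_le_of_mem haH))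
  obtain ⟨g, hg⟩ := (h₁.conj_or_coprime hG hCN h₂).resolve_right fun h =>
    hq.ne_one (Nat.eq_one_of_dvd_coprimes h (hd y H₁ hy hyq hy₁) (hd y' H₂ hy' hyq' hy₂))
  have hxp' : IsPGroup p (Subgroup.zpowers (g * x * g⁻¹)) := by
    have := hxp.map (MulAut.conj g).toMonoidHom
    rwa [MonoidHom.map_zpowers] at this
  refine ⟨g * x * g⁻¹, z, fun h => hx (by simpa using h), hz, hxp', hzr, ?_⟩
  refine CL.CN.commute_of_mem_nilpotent h₂.1 (hg ▸ CL.Grp.conj_mem_conj_smul g hx₁) hz₂ ?_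
  exact CL.CN.coprime_orderOf_of_mem (IsPGroup.coprime_card_of_ne p r hpr _ _ hxp' hzr) (Subgroup.mem_zpowers _)
    (Subgroup.mem_zpowers _)

end Cfsg.Agent.S1483
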