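import Cfsg.Statements.S1484
import Cfsg.Agent.Char.CN4

set_option autoImplicit false
open Cfsg

namespace Cfsg.Agent.S1484

/-- Let G be a minimal simple group of odd order in which every non-identity element has nilpotent centralizer, and M₁, …, M_k maximal subgroups, pairwise non-conjugate, such that every maximal subgroup is conjugate to some M_i. Let H_i be the largest normal nilpotent Hall subgroup of M_i. Then the orders of the H_i are pairwise coprime, their product is the order of G, and every element of G is conjugate to an element of some H_i. -/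
theorem result {G : Type*} [Group G] [Finite G] (hG : Cfsg.IsMinSimpleOddOrder G) (hCN : Cfsg.IsCNGroup G) (k : ℕ) (Mrep : Fin k → Subgroup G) (hmax : ∀ i, IsCoatom (Mrep i))
    (hnc : ∀ i j, i ≠ j → ∀ g : G, Mrep j ≠ (Mrep i).map (MulAut.conj g).toMonoidHom) (hall : ∀ M : Subgroup G, IsCoatom M → ∃ i, ∃ g : G, M = (Mrep i).map (MulAut.conj g).toMonoidHom) :
    (∀ i j, i ≠ j → (Nat.card (Cfsg.fittingHallOf (Mrep i))).Coprime (Nat.card (Cfsg.fittingHallOf (Mrep j)))) ∧
      ∏ i, Nat.card (Cfsg.fittingHallOf (Mrep i)) = Nat.card G ∧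
      ∀ x : G, ∃ i, ∃ g : G, g * x * g⁻¹ ∈ Cfsg.fittingHallOf (Mrep i) := by
  have hF : ∀ i, fittingHallOf (Mrep i) = fittingOf (Mrep i) := fun i => CL.CN.fittingHallOf_eq hG hCN (hmax i).1
  have hM := fun i => CL.CN.isMaxNilp_fittingOf_of_isCoatom hG hCN (hmax i)
  simp only [hF]
  have hcop : ∀ i j, i ≠ j → (Nat.card (fittingOf (Mrep i))).Coprime (Nat.card (fittingOf (Mrep j))) := by
    intro i j hij
    refine ((hM i).1.conj_or_coprime hG hCN (hM j).1).resolve_left ?_
    rintro ⟨g, hg⟩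
    refine hnc i j hij g ?_
    rw [← (hM j).2, hg, CL.Grp.normalizer_conj_smul, (hM i).2]
    rfl
  have hcover : ∀ x : G, ∃ i, ∃ g : G, g * x * g⁻¹ ∈ fittingOf (Mrep i) := by
    intro x
    obtain ⟨K, hK, hxK⟩ := CL.CN.exists_isMaxNilp_ge (CL.CN.isNilpotent_zpowers x)
    obtain ⟨i, g, hg⟩ := hall _ (hK.isCoatom_normalizer hG hCN)
    refine ⟨i, g⁻¹, ?_⟩
    have h1 := hxK (Subgroup.mem_zpowers x)
    rw [← hK.fittingOf_normalizer, hg, ← CL.Grp.map_fittingOf_of_injective (MulAut.conj g).injective] at h1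
    obtain ⟨y, hy, hyx⟩ := h1
    rw [← hyx]
    simpa [mul_assoc] using hy
  refine ⟨hcop, Nat.dvd_antisymm ?_ ?_, hcover⟩
  · exact Finset.prod_dvd_of_isRelPrime (fun i _ j _ hij => Nat.coprime_iff_isRelPrime.mp (hcop i j hij))
      fun i _ => Subgroup.card_subgroup_dvd_card _
  · refine (Nat.dvd_iff_prime_pow_dvd_dvd _ _).mpr fun p n hp hpn => ?_
    rcases n with _ | n
    · simp
    haveI := Fact.mk hp
    obtain ⟨y, hy⟩ := exists_prime_orderOf_dvd_card' p ((dvd_pow_self p (Nat.succ_ne_zero n)).trans hpn)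
    obtain ⟨i, g, hg⟩ := hcover y
    have h2 : p ∣ Nat.card (fittingOf (Mrep i)) := by
      have := Subgroup.orderOf_dvd_natCard _ hg
      rwa [← MulAut.conj_apply, MulEquiv.orderOf_eq, hy] at this
    have h3 : (p ^ (n + 1)).Coprime (fittingOf (Mrep i)).index :=
      Nat.Coprime.pow_left _ (Nat.Coprime.coprime_dvd_left h2 ((hM i).1.coprime hCN))
    rw [← (fittingOf (Mrep i)).card_mul_index] at hpn
    exact (h3.dvd_of_dvd_mul_right hpn).trans (Finset.dvd_prod_of_mem _ (Finset.mem_univ i))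

end Cfsg.Agent.S1484
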