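import Cfsg.Statements.S1502
import Cfsg.Agent.Odd.PF3Sub

set_option autoImplicit false
open Cfsg CL.Odd CL.Char

namespace Cfsg.Agent.S1502

/-- Let W₁, W₂ be nontrivial subgroups of the finite group G generating a cyclic subgroup W = W₁ ⊔ W₂ of odd order that is the normaliser of every nonempty set of its elements outside W₁ ∪ W₂. Then there is a family attaching to each linear character ω of W an irreducible character of G up to sign, orthonormal, sending the trivial character to the principal character, with χ ω = ω on W outside W₁ ∪ W₂, and such that inducing (1 − φ)(1 − ψ) to G gives 1 − χ φ − χ ψ + χ (φψ) whenever φ ≠ 1 is trivial on W₂ and ψ ≠ 1 is trivial on W₁. -/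
theorem result {G : Type*} [Group G] [Fintype G] (W₁ W₂ : Subgroup G) (hW : Cfsg.IsSelfNormalizingCyclic W₁ W₂) (hodd : Odd (Nat.card ↥(W₁ ⊔ W₂))) : ∃ χ : (↥(W₁ ⊔ W₂) →* ℂˣ) → (G → ℂ), Cfsg.IsCyclicTIFamily W₁ W₂ χ := by
  classical
  have h := cycTI_of_snc hW hodd
  have hd := snc_disj hW
  have hc := snc_comm hW
  let e := omWEquiv hd hc
  have he : ∀ i j, e.symm (omW hd hc i j) = (i, j) := fun i j => e.symm_apply_apply (i, j)
  refine ⟨fun ω => cycEta W₁.subtype W₂.subtype (e.symm ω).1 (e.symm ω).2,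
    fun ω => h.eta_sirr _ _, fun ω ω' => ?_, ?_, fun ω w h1 h2 => ?_, fun φ ψ _ _ h2 h1 => ?_⟩
  · obtain ⟨i, j, rfl⟩ := exists_omW hd hc ω
    obtain ⟨k, l, rfl⟩ := exists_omW hd hc ω'
    simp only [he, h.inner_eta, omW_inj]
  · rw [← omW_one hd hc, he, h.eta_one_one]
  · obtain ⟨i, j, rfl⟩ := exists_omW hd hc ω
    obtain ⟨⟨a, b⟩, rfl⟩ := (wEquiv hd hc).surjective w
    rw [coe_wEquiv, mul_mem_left_iff hd] at h1
    rw [coe_wEquiv, mul_mem_right_iff hd] at h2
    rw [he, omW_apply]
    exact h.eta_apply i j h2 h1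
  · obtain ⟨i, j, rfl⟩ := exists_omW hd hc φ
    obtain ⟨k, l, rfl⟩ := exists_omW hd hc ψ
    obtain rfl := (omW_triv_right hd hc).1 h2
    obtain rfl := (omW_triv_left hd hc).1 h1
    rw [indFun_alph, omW_mul, mul_one i, one_mul l, he, he, he]
    have := h.indH_alph i l
    rw [h.eta_one_one] at this
    exact this

end Cfsg.Agent.S1502
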