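import Cfsg.Statements.S1504
import Cfsg.Agent.Odd.PF3Sub

set_option autoImplicit false
open Cfsg CL.Odd CL.Char

namespace Cfsg.Agent.S1504

/-- Let W₁, W₂ be subgroups of a finite group with W₁ ⊓ W₂ = ⊥ whose elements commute, and W = W₁ ⊔ W₂. For linear characters φ, ψ of W with φ trivial on W₂ and ψ trivial on W₁, the function (1 − φ)(1 − ψ) vanishes on W₁ ∪ W₂; and the family of these functions, indexed by pairs (φ, ψ) with φ ≠ 1 ≠ ψ, is linearly independent over ℂ. -/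
theorem result {G : Type*} [Group G] [Finite G] (W₁ W₂ : Subgroup G) (hdisj : W₁ ⊓ W₂ = ⊥) (hcomm : ∀ a ∈ W₁, ∀ b ∈ W₂, a * b = b * a) : (∀ φ ψ : ↥(W₁ ⊔ W₂) →* ℂˣ, (∀ w : ↥(W₁ ⊔ W₂), (w : G) ∈ W₂ → φ w = 1) → (∀ w : ↥(W₁ ⊔ W₂), (w : G) ∈ W₁ → ψ w = 1) → ∀ w : ↥(W₁ ⊔ W₂), ((w : G) ∈ W₁ ∨ (w : G) ∈ W₂) → (1 - (φ w : ℂ) - (ψ w : ℂ) + (φ w : ℂ) * (ψ w : ℂ)) = 0) ∧ LinearIndependent ℂ (fun p : {p : (↥(W₁ ⊔ W₂) →* ℂˣ) × (↥(W₁ ⊔ W₂) →* ℂˣ) // p.1 ≠ 1 ∧ p.2 ≠ 1 ∧ (∀ w : ↥(W₁ ⊔ W₂), (w : G) ∈ W₂ → p.1 w = 1) ∧ (∀ w : ↥(W₁ ⊔ W₂), (w : G) ∈ W₁ → p.2 w = 1)} => fun w : ↥(W₁ ⊔ W₂) => 1 - (p.1.1 w : ℂ) - (p.1.2 w : ℂ) + (p.1.1 w : ℂ) * (p.1.2 w : ℂ)) := by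
  classical
  have := Fintype.ofFinite G
  refine ⟨fun φ ψ h2 h1 w hw => ?_, ?_⟩
  · rcases hw with hw | hw
    · rw [h1 w hw]; simp
    · rw [h2 w hw]; simp
  · rw [linearIndependent_iff']
    intro s c hs p hp
    have key := congrArg (fun F : ↥(W₁ ⊔ W₂) → ℂ =>
      classInner F (fun w => ((p.1.1 * p.1.2) w : ℂ))) hs
    simp only [classInner_sum_left, classInner_smul_left, classInner_zero_left] at key
    rw [Finset.sum_eq_single p _ (fun h => absurd hp h)] at key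
    all_goals
      have lin : ∀ φ ψ : ↥(W₁ ⊔ W₂) →* ℂˣ, classInner (fun w => (φ w : ℂ)) (fun w => (ψ w : ℂ)) =
          if φ = ψ then 1 else 0 := fun φ ψ => by
        rw [(isIrrCharacter_linear φ).classInner_eq_ite (isIrrCharacter_linear ψ)]
        refine if_congr ⟨fun h => ?_, fun h => by rw [h]⟩ rfl rfl
        ext w; exact congrFun h w
      have exp : ∀ φ ψ χ : ↥(W₁ ⊔ W₂) →* ℂˣ, classInner
          (fun w => 1 - (φ w : ℂ) - (ψ w : ℂ) + (φ w : ℂ) * (ψ w : ℂ)) (fun w => (χ w : ℂ)) =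
          (if omW hdisj hcomm 1 1 = χ then 1 else 0) - (if φ = χ then 1 else 0) - (if ψ = χ then 1 else 0) +
            (if φ * ψ = χ then 1 else 0) := fun φ ψ χ => by
        rw [← lin, ← lin, ← lin, ← lin, ← classInner_sub_left, ← classInner_sub_left,
          ← classInner_add_left, omW_one]
        rfl
      obtain ⟨⟨φ, ψ⟩, h1, h2, h3, h4⟩ := p
      obtain ⟨i, j, rfl⟩ := exists_omW hdisj hcomm φ
      obtain ⟨k, l, rfl⟩ := exists_omW hdisj hcomm ψ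
      obtain rfl := (omW_triv_right hdisj hcomm).1 h3
      obtain rfl := (omW_triv_left hdisj hcomm).1 h4
      have hi : i ≠ 1 := fun e => h1 (by simp only [e, omW_one])
      have hl : l ≠ 1 := fun e => h2 (by simp only [e, omW_one])
    · rw [exp] at key
      simpa [omW_mul, omW_inj, dual_mul_one, dual_one_mul, hi, hl, hi.symm, hl.symm] using key
    · rintro ⟨⟨φ, ψ⟩, g1, g2, g3, g4⟩ - hne
      obtain ⟨i', j, rfl⟩ := exists_omW hdisj hcomm φ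
      obtain ⟨k, l', rfl⟩ := exists_omW hdisj hcomm ψ
      obtain rfl := (omW_triv_right hdisj hcomm).1 g3
      obtain rfl := (omW_triv_left hdisj hcomm).1 g4
      rw [exp]
      have : ¬ (i' = i ∧ l' = l) := fun e => hne (by obtain ⟨rfl, rfl⟩ := e; rfl)
      simp [omW_mul, omW_inj, dual_mul_one, dual_one_mul, hi, hl, hi.symm, hl.symm, this]

end Cfsg.Agent.S1504
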