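import Cfsg.Statements.S1505
import Cfsg.Agent.Odd.PF3Sub

set_option autoImplicit false
open Cfsg CL.Odd CL.Char

namespace Cfsg.Agent.S1505

open Classical in
/-- Let W₁, W₂ ≤ G form a self-normalising cyclic subgroup W = W₁ ⊔ W₂. For nontrivial linear characters φ, φ' of W trivial on W₂ and ψ, ψ' trivial on W₁, put α = (1 − φ)(1 − ψ) and α' = (1 − φ')(1 − ψ'). Then the function induced from α to G has inner product 1 with the principal character, and the inner product of the functions induced from α and α' is 1 + a + b + ab where a = 1 if φ = φ' (else 0) and b = 1 if ψ = ψ' (else 0). -/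
theorem result {G : Type*} [Group G] [Fintype G] (W₁ W₂ : Subgroup G) (hW : Cfsg.IsSelfNormalizingCyclic W₁ W₂) (φ φ' ψ ψ' : ↥(W₁ ⊔ W₂) →* ℂˣ) (hφ : φ ≠ 1) (hφ' : φ' ≠ 1) (hψ : ψ ≠ 1) (hψ' : ψ' ≠ 1) (hφ₂ : ∀ w : ↥(W₁ ⊔ W₂), (w : G) ∈ W₂ → φ w = 1 ∧ φ' w = 1) (hψ₁ : ∀ w : ↥(W₁ ⊔ W₂), (w : G) ∈ W₁ → ψ w = 1 ∧ ψ' w = 1) : Cfsg.classInner (Cfsg.indFun (W₁ ⊔ W₂) (fun w => 1 - (φ w : ℂ) - (ψ w : ℂ) + (φ w : ℂ) * (ψ w : ℂ))) (fun _ => 1) = 1 ∧ Cfsg.classInner (Cfsg.indFun (W₁ ⊔ W₂) (fun w => 1 - (φ w : ℂ) - (ψ w : ℂ) + (φ w : ℂ) * (ψ w : ℂ))) (Cfsg.indFun (W₁ ⊔ W₂) (fun w => 1 - (φ' w : ℂ) - (ψ' w : ℂ) + (φ' w : ℂ) * (ψ' w : ℂ))) = 1 + (if φ = φ' then 1 else 0) + (if ψ = ψ' then 1 else 0) + (if φ = φ' then 1 else 0) * (if ψ = ψ' then 1 else 0) := by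
  have hd := snc_disj hW
  have hc := snc_comm hW
  obtain ⟨i, j, rfl⟩ := exists_omW hd hc φ
  obtain ⟨i', j', rfl⟩ := exists_omW hd hc φ'
  obtain ⟨k, l, rfl⟩ := exists_omW hd hc ψ
  obtain ⟨k', l', rfl⟩ := exists_omW hd hc ψ'
  obtain rfl := (omW_triv_right hd hc).1 fun w h => (hφ₂ w h).1
  obtain rfl := (omW_triv_right hd hc).1 fun w h => (hφ₂ w h).2
  obtain rfl := (omW_triv_left hd hc).1 fun w h => (hψ₁ w h).1
  obtain rfl := (omW_triv_left hd hc).1 fun w h => (hψ₁ w h).2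
  have hi : i ≠ 1 := fun e => hφ (by simp only [e, omW_one])
  have hi' : i' ≠ 1 := fun e => hφ' (by simp only [e, omW_one])
  have hl : l ≠ 1 := fun e => hψ (by simp only [e, omW_one])
  have hl' : l' ≠ 1 := fun e => hψ' (by simp only [e, omW_one])
  rw [indFun_alph, indFun_alph]
  constructor
  · rw [indH_recip (wHom_inj hd hc) _ (isClassFunction_const 1)]
    exact inner_alph_one hi hl
  · rw [inner_indH_of_TI (wHom_inj hd hc) (T := vSet W₁ W₂) (fun h => h.1 rfl) (snc_tiV hW)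
      (alph_vchar _ _).isClassFunction (fun w hw => alph_eq_zero _ _ w (not_mem_vSet.1 hw))
      (fun w hw => alph_eq_zero _ _ w (not_mem_vSet.1 hw)), inner_alph hi hi' hl hl']
    simp only [omW_inj, and_true, true_and]

end Cfsg.Agent.S1505
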