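import Cfsg.Statements.S1506
import Cfsg.Agent.Odd.PF3Sub

set_option autoImplicit false
open Cfsg CL.Odd CL.Char

namespace Cfsg.Agent.S1506

/-- Let W₁, W₂ ≤ G form a self-normalising cyclic subgroup W = W₁ ⊔ W₂ and χ an orthonormal family of irreducible characters of G up to sign, indexed by the linear characters ω of W, with χ_1 = 1, χ_ω = ω on W outside W₁ ∪ W₂, and the induction identity for (1 − φ)(1 − ψ). Let θ be a class function of G vanishing at every element of W outside W₁ ∪ W₂. For linear characters φ, φ' of W trivial on W₂ and ψ, ψ' trivial on W₁, the inner products a(ω) = ⟨θ, χ ω⟩ satisfy a(φψ) + a(φ'ψ') = a(φψ') + a(φ'ψ). -/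
theorem result {G : Type*} [Group G] [Fintype G] (W₁ W₂ : Subgroup G) (hW : Cfsg.IsSelfNormalizingCyclic W₁ W₂) (χ : (↥(W₁ ⊔ W₂) →* ℂˣ) → (G → ℂ)) (hχ : Cfsg.IsCyclicTIFamily W₁ W₂ χ) (θ : G → ℂ) (hθ : Cfsg.IsClassFunction G θ) (hθV : ∀ w : ↥(W₁ ⊔ W₂), (w : G) ∉ W₁ → (w : G) ∉ W₂ → θ w = 0) (φ φ' ψ ψ' : ↥(W₁ ⊔ W₂) →* ℂˣ) (hφ₂ : ∀ w : ↥(W₁ ⊔ W₂), (w : G) ∈ W₂ → φ w = 1 ∧ φ' w = 1) (hψ₁ : ∀ w : ↥(W₁ ⊔ W₂), (w : G) ∈ W₁ → ψ w = 1 ∧ ψ' w = 1) : Cfsg.classInner θ (χ (φ * ψ)) + Cfsg.classInner θ (χ (φ' * ψ')) = Cfsg.classInner θ (χ (φ * ψ')) + Cfsg.classInner θ (χ (φ' * ψ)) := by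
  classical
  have hd := snc_disj hW
  have hc := snc_comm hW
  obtain ⟨i, j, rfl⟩ := exists_omW hd hc φ
  obtain ⟨i', j', rfl⟩ := exists_omW hd hc φ'
  obtain ⟨k, l, rfl⟩ := exists_omW hd hc ψ
  obtain ⟨k', l', rfl⟩ := exists_omW hd hc ψ'
  obtain rfl := (omW_triv_right hd hc).1 fun w h => (hφ₂ w h).1
  obtain rfl := (omW_triv_right hd hc).1 fun w h => (hφ₂ w h).2
  obtain rfl := (omW_triv_left hd hc).1 fun w h => (hψ₁ w h).1
  obtain rfl := (omW_triv_left hd hc).1 fun w h => (hψ₁ w h).2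
  have key : ∀ i j, classInner θ (χ (omW hd hc 1 1)) - classInner θ (χ (omW hd hc i 1))
      - classInner θ (χ (omW hd hc 1 j)) + classInner θ (χ (omW hd hc i j)) = 0 := fun i j => by
    rw [← family_inner hW hχ hθ, inner_congr_of_vanish' (T := vSet W₁ W₂)
      (ψ := fun w => θ (wHom hc w)) (ψ' := 0)
      (fun w hw => alph_eq_zero i j w (not_mem_vSet.1 hw))
      (fun w hw => hθV (wEquiv hd hc w) (fun h => hw.2 ((mul_mem_left_iff hd _ _).1 h))
        (fun h => hw.1 ((mul_mem_right_iff hd _ _).1 h))), classInner_zero_left]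
  simp only [omW_mul, dual_mul_one, dual_one_mul]
  linear_combination key i l + key i' l' - key i l' - key i' l

end Cfsg.Agent.S1506
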