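import Cfsg.Statements.S1507
import Cfsg.Agent.Odd.PF3Sub

set_option autoImplicit false
open Cfsg CL.Odd CL.Char

namespace Cfsg.Agent.S1507

open Classical in
/-- Let W₁, W₂ ≤ G form a self-normalising cyclic subgroup W = W₁ ⊔ W₂ of odd order with Nat.card W₁ < Nat.card W₂, and χ an orthonormal family of irreducible characters of G up to sign, indexed by the linear characters ω of W, with χ_1 = 1, χ_ω = ω on W outside W₁ ∪ W₂, and the induction identity for (1 − φ)(1 − ψ). Let θ be a class function of G vanishing on W outside W₁ ∪ W₂, and suppose fewer than 2 · Nat.card W₁ linear characters ω of W have ⟨θ, χ ω⟩ ≠ 0. Then one of: all ⟨θ, χ ω⟩ vanish; or there are ψ₀ and a with ⟨θ, χ ω⟩ = a when ω ψ₀⁻¹ is trivial on W₂ and 0 otherwise; or there are φ₀ and a with ⟨θ, χ ω⟩ = a when ω φ₀⁻¹ is trivial on W₁ and 0 otherwise. -/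
theorem result {G : Type*} [Group G] [Fintype G] (W₁ W₂ : Subgroup G) (hW : Cfsg.IsSelfNormalizingCyclic W₁ W₂) (hodd : Odd (Nat.card ↥(W₁ ⊔ W₂))) (χ : (↥(W₁ ⊔ W₂) →* ℂˣ) → (G → ℂ)) (hχ : Cfsg.IsCyclicTIFamily W₁ W₂ χ) (hlt : Nat.card W₁ < Nat.card W₂) (θ : G → ℂ) (hθ : Cfsg.IsClassFunction G θ) (hθV : ∀ w : ↥(W₁ ⊔ W₂), (w : G) ∉ W₁ → (w : G) ∉ W₂ → θ w = 0) (hfew : Nat.card {ω : ↥(W₁ ⊔ W₂) →* ℂˣ // Cfsg.classInner θ (χ ω) ≠ 0} < 2 * Nat.card W₁) : (∀ ω, Cfsg.classInner θ (χ ω) = 0) ∨ (∃ (ψ₀ : ↥(W₁ ⊔ W₂) →* ℂˣ) (a : ℂ), ∀ ω, Cfsg.classInner θ (χ ω) = if (∀ w : ↥(W₁ ⊔ W₂), (w : G) ∈ W₂ → (ω * ψ₀⁻¹) w = 1) then a else 0) ∨ (∃ (φ₀ : ↥(W₁ ⊔ W₂) →* ℂˣ) (a : ℂ), ∀ ω, Cfsg.classInner θ (χ ω) = if (∀ w : ↥(W₁ ⊔ W₂), (w : G) ∈ W₁ → (ω * φ₀⁻¹) w = 1) then a else 0) := by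
  have h := cycTI_of_snc hW hodd
  have hd := snc_disj hW
  have hc := snc_comm hW
  have he := family_eq_eta hW hχ hodd
  by_cases h0 : ∀ ω, Cfsg.classInner θ (χ ω) = 0
  · exact Or.inl h0
  right
  push Not at h0
  obtain ⟨ω, h0⟩ := h0
  obtain ⟨i0, j0, rfl⟩ := exists_omW hd hc ω
  rw [he] at h0
  have hN : cycNC W₁.subtype W₂.subtype θ < 2 * min (Nat.card W₁) (Nat.card W₂) := by
    rw [min_eq_left hlt.le]
    refine lt_of_eq_of_lt ?_ hfew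
    rw [cycNC, ← Fintype.card_subtype, ← Nat.card_eq_fintype_card]
    exact Nat.card_congr ((omWEquiv hd hc).subtypeEquiv fun p => by rw [← he]; rfl)
  rcases h.small_NC hθ (fun a b ha hb => hθV (wEquiv hd hc (a, b))
    (fun h => hb ((mul_mem_left_iff hd _ _).1 h)) (fun h => ha ((mul_mem_right_iff hd _ _).1 h)))
    hN h0 with e | e
  · refine Or.inl ⟨omW hd hc 1 j0, classInner θ (cycEta W₁.subtype W₂.subtype i0 j0), fun ω => ?_⟩
    · obtain ⟨i, j, rfl⟩ := exists_omW hd hc ω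
      rw [he, e, omW_inv, omW_mul]
      simp only [omW_triv_right, dual_mul_inv_eq_one]
  · refine Or.inr ⟨omW hd hc i0 1, classInner θ (cycEta W₁.subtype W₂.subtype i0 j0), fun ω => ?_⟩
    · obtain ⟨i, j, rfl⟩ := exists_omW hd hc ω
      rw [he, e, omW_inv, omW_mul]
      simp only [omW_triv_left, dual_mul_inv_eq_one]

end Cfsg.Agent.S1507
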