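import Cfsg.Statements.S1508
import Cfsg.Agent.Odd.PF3Sub

set_option autoImplicit false
open Cfsg CL.Odd CL.Char

namespace Cfsg.Agent.S1508

/-- Let W₁, W₂ ≤ G form a self-normalising cyclic subgroup W = W₁ ⊔ W₂ of odd order and χ an orthonormal family of irreducible characters of G up to sign, indexed by the linear characters ω of W, with χ_1 = 1, χ_ω = ω on W outside W₁ ∪ W₂, and the induction identity for (1 − φ)(1 − ψ). Let ω be a linear character of W and g an element of G whose order is coprime to the order of ω. Then χ ω g is an integer. -/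
theorem result {G : Type*} [Group G] [Fintype G] (W₁ W₂ : Subgroup G) (hW : Cfsg.IsSelfNormalizingCyclic W₁ W₂) (hodd : Odd (Nat.card ↥(W₁ ⊔ W₂))) (χ : (↥(W₁ ⊔ W₂) →* ℂˣ) → (G → ℂ)) (hχ : Cfsg.IsCyclicTIFamily W₁ W₂ χ) (ω : ↥(W₁ ⊔ W₂) →* ℂˣ) (g : G) (hg : Nat.Coprime (orderOf g) (orderOf ω)) : ∃ n : ℤ, χ ω g = n := by
  classical
  have h := cycTI_of_snc hW hodd
  have hd := snc_disj hW
  have hc := snc_comm hW
  obtain ⟨i, j, rfl⟩ := exists_omW hd hc ω
  rw [family_eq_eta hW hχ hodd]
  have h1 := pow_orderOf_eq_one (omW hd hc i j)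
  have h0 := (orderOf_pos (omW hd hc i j)).ne'
  generalize orderOf (omW hd hc i j) = n at *
  refine h.eta_int h0 (MonoidHom.ext fun a => ?_) (MonoidHom.ext fun b => ?_) hg
  · simpa [omW_apply] using DFunLike.congr_fun h1 (wEquiv hd hc (a, 1))
  · simpa [omW_apply] using DFunLike.congr_fun h1 (wEquiv hd hc (1, b))

end Cfsg.Agent.S1508
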