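import Cfsg.Statements.S1511
import Cfsg.Agent.Odd.PF4Amb

set_option autoImplicit false
open Cfsg CL.Odd CL.Char

namespace Cfsg.Agent.S1511

/-- Let L be a finite group with K normal with complement W₁ ≠ 1 a cyclic Hall subgroup, and W₂ ≠ 1 a cyclic subgroup of K equal to C_K(x) for every non-identity x ∈ W₁, with W₁W₂ of odd order. Then there are a map μ from the linear characters of W = W₁ ⊔ W₂ to irreducible characters of L, injective, and a sign δ(ω) ∈ {1, −1} depending only on the values of ω on W₂, such that: for ω, ω' agreeing on W₂, the function induced to L from ω − ω' equals δ(ω) • (μ ω − μ ω'); μ ω x = δ(ω) ω x for x ∈ W outside W₂; every irreducible character of L not of the form μ ω vanishes on W outside W₂; and μ ω 1 − δ(ω) is an integer multiple of Nat.card W₁. -/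
theorem result {L : Type*} [Group L] [Fintype L] (K W₁ W₂ : Subgroup L) [hK : K.Normal] (hKW₁ : K ⊓ W₁ = ⊥) (hKW₁' : K ⊔ W₁ = ⊤) (hW₁ : W₁ ≠ ⊥) (hW₁c : IsCyclic W₁) (hHall : Nat.Coprime (Nat.card W₁) W₁.index) (hW₂ : W₂ ≠ ⊥) (hW₂c : IsCyclic W₂) (hW₂K : W₂ ≤ K) (hC : ∀ x ∈ W₁, x ≠ 1 → K ⊓ Subgroup.centralizer ({x} : Set L) = W₂) (hodd : Odd (Nat.card ↥(W₁ ⊔ W₂))) : ∃ (μ : (↥(W₁ ⊔ W₂) →* ℂˣ) → (L → ℂ)) (δ : (↥(W₁ ⊔ W₂) →* ℂˣ) → ℂ), Function.Injective μ ∧ (∀ ω, Cfsg.IsIrrCharacter L (μ ω)) ∧ (∀ ω, δ ω = 1 ∨ δ ω = -1) ∧ (∀ ω ω' : ↥(W₁ ⊔ W₂) →* ℂˣ, (∀ w : ↥(W₁ ⊔ W₂), (w : L) ∈ W₂ → ω w = ω' w) → δ ω = δ ω' ∧ Cfsg.indFun (W₁ ⊔ W₂) (fun w => (ω w : ℂ) - (ω' w : ℂ)) = δ ω • (μ ω - μ ω')) ∧ (∀ ω, ∀ w : ↥(W₁ ⊔ W₂), (w : L) ∉ W₂ → μ ω w = δ ω * (ω w : ℂ)) ∧ (∀ θ : L → ℂ, Cfsg.IsIrrCharacter L θ → (∀ ω, θ ≠ μ ω) → ∀ w : ↥(W₁ ⊔ W₂), (w : L) ∉ W₂ → θ w = 0) ∧ (∀ ω, ∃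 n : ℤ, μ ω 1 - δ ω = n * (Nat.card W₁ : ℂ)) := by
  classical
  have h := primeTI_of_normal hKW₁ hKW₁' hW₁ hW₁c hHall hW₂c hC hodd
  have hd := h.toWPair.sub_disj
  have hc := h.toWPair.sub_comm
  let e := omWEquiv hd hc
  have he : ∀ i j, e.symm (omW hd hc i j) = (i, j) := fun i j => e.symm_apply_apply (i, j)
  have hw : ∀ w : ↥(W₁ ⊔ W₂), (w : L) ∉ W₂ → ∃ a b, a ≠ 1 ∧ w = wEquiv hd hc (a, b) := by
    intro w hw
    obtain ⟨⟨a, b⟩, rfl⟩ := (wEquiv hd hc).surjective w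
    exact ⟨a, b, mt (mul_mem_right_iff hd a b).2 hw, rfl⟩
  refine ⟨fun ω => ptiIrr W₁.subtype W₂.subtype (e.symm ω).1 (e.symm ω).2,
    fun ω => ptiSign W₁.subtype W₂.subtype (e.symm ω).2,
    fun ω ω' hh => e.symm.injective (Prod.ext (h.irr_inj hh).1 (h.irr_inj hh).2),
    fun ω => h.irr _ _, fun ω => ptiSign_cases _ _ _, fun ω ω' hh => ?_, fun ω w hw' => ?_,
    fun θ hθ hne w hw' => ?_, fun ω => h.irr_one_mod _ _⟩
  · obtain ⟨i, j, rfl⟩ := exists_omW hd hc ω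
    obtain ⟨k, l, rfl⟩ := exists_omW hd hc ω'
    obtain rfl : j = l := by
      ext b
      have := hh (wEquiv hd hc (1, b)) (by simp [coe_wEquiv])
      simpa [omW_apply] using congrArg Units.val this
    simp only [he]
    refine ⟨trivial, ?_⟩
    rw [indFun_sup_eq_indH hd hc, ← h.indH_sub_om]
    congr 1
    funext w
    simp [omW_apply, om]
  · obtain ⟨i, j, rfl⟩ := exists_omW hd hc ω
    obtain ⟨a, b, ha, rfl⟩ := hw w hw'
    simp only [he, omW_apply, coe_wEquiv, Units.val_mul]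
    exact h.irr_apply i j ha b
  · obtain ⟨a, b, ha, rfl⟩ := hw w hw'
    exact h.vanish_of_ne hθ (fun i j => by simpa only [he] using hne (omW hd hc i j)) ha b

end Cfsg.Agent.S1511
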