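import Cfsg.Statements.S1515
import Cfsg.Agent.Odd.PF5Coh

set_option autoImplicit false
open Cfsg

namespace Cfsg.Agent.S1515

/-- Let (S, τ, R) be a coherence system from L to G, χ ∈ S, and ψ an integer combination of S with ⟨χ, ψ⟩ = ⟨conj χ, ψ⟩ = 0. Let τ₁ be a linear isometry on the integer combinations of χ − ψ and χ − conj χ, with virtual-character values, agreeing with τ on integer multiples of χ − conj χ. Then the sum over α ∈ R χ of the squared absolute values of ⟨τ₁(χ − ψ), α⟩ is at least ⟨χ, χ⟩; and if ⟨τ₁(χ − ψ), τ₁(χ − ψ)⟩ minus that sum is at least ⟨ψ, ψ⟩, then the sum equals ⟨χ, χ⟩ and every ⟨τ₁(χ − ψ), α⟩ with α ∈ R χ is 0 or 1. -/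
theorem result {L : Type*} [Group L] [Fintype L] {G : Type*} [Group G] [Fintype G] (S : Set (L → ℂ)) (τ : (L → ℂ) → (G → ℂ)) (R : (L → ℂ) → Finset (G → ℂ)) (hS : Cfsg.IsCoherenceSystem S τ R) (χ : L → ℂ) (hχ : χ ∈ S) (ψ : L → ℂ) (hψ : ψ ∈ Cfsg.zspan S) (h1 : Cfsg.classInner χ ψ = 0) (h2 : Cfsg.classInner (Cfsg.conjFun χ) ψ = 0) (τ₁ : (L → ℂ) → (G → ℂ)) (hτ₁ : Cfsg.IsLinearIsometryOn (Cfsg.zspan {χ - ψ, χ - Cfsg.conjFun χ}) τ₁) (hagree : ∀ n : ℤ, τ₁ (n • (χ - Cfsg.conjFun χ)) = τ (n • (χ - Cfsg.conjFun χ))) : (Cfsg.classInner χ χ).re ≤ ∑ α ∈ R χ, ‖Cfsg.classInner (τ₁ (χ - ψ)) α‖ ^ 2 ∧ ((Cfsg.classInner ψ ψ).re ≤ (Cfsg.classInner (τ₁ (χ - ψ)) (τ₁ (χ - ψ))).re - ∑ α ∈ R χ, ‖Cfsg.classInner (τ₁ (χ - ψ)) α‖ ^ 2 → (∑ α ∈ R χ, ‖Cfsg.classInner (τ₁ (χ - ψ)) α‖ ^ 2 = (Cfsg.classInner χ χ).re ∧ ∀ α ∈ R χ, Cfsg.classInner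 (τ₁ (χ - ψ)) α = 0 ∨ Cfsg.classInner (τ₁ (χ - ψ)) α = 1)) := by
  have m1 : χ - ψ ∈ Cfsg.zspan {χ - ψ, χ - Cfsg.conjFun χ} := CL.Odd.mem_zspan_of_mem (by simp)
  have m2 : χ - Cfsg.conjFun χ ∈ Cfsg.zspan {χ - ψ, χ - Cfsg.conjFun χ} :=
    CL.Odd.mem_zspan_of_mem (by simp)
  have hv := hτ₁.2.2.2 _ m1
  have he : τ₁ (χ - Cfsg.conjFun χ) = ∑ α ∈ R χ, α := by
    have := hagree 1
    rw [one_smul] at this
    rw [this, hS.sum_eq χ hχ]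
  have hi : Cfsg.classInner (τ₁ (χ - ψ)) (∑ α ∈ R χ, α) = (CL.Odd.nrm χ : ℂ) := by
    rw [← he, hτ₁.2.2.1 _ m1 _ m2]
    simp [CL.Char.classInner_sub_left, CL.Char.classInner_sub_right, CL.Odd.sub_inner_conj hS hχ,
      CL.Odd.inner_eq_zero_symm h1, CL.Odd.inner_eq_zero_symm h2, CL.Odd.inner_self_eq_nrm]
  obtain ⟨k1, -, k3, -⟩ := (CL.Odd.sub_orthoN hS hχ).nrm_ge
    (fun α hα => CL.Odd.vchar_inner_int hv (hS.virtual χ hχ α hα)) hi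
  refine ⟨k1, fun hle => ?_⟩
  have hn := CL.Odd.nrm_congr (hτ₁.2.2.1 _ m1 _ m1)
  rw [CL.Odd.nrm_sub_of_orth h1] at hn
  simp only [← CL.Odd.nrm_def] at hle ⊢
  exact ⟨by linarith, k3 (by linarith)⟩

end Cfsg.Agent.S1515
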