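import Cfsg.Statements.S1521
import Cfsg.Agent.Odd.PF6a

set_option autoImplicit false
open Cfsg

namespace Cfsg.Agent.S1521

/-- Let K be a solvable normal subgroup of the finite group L of odd order and (S, τ, R) a coherence system from L to G with S the functions induced from non-principal irreducible characters of K; S(A) as before. Let M ≤ K be normal in L with K/M nilpotent, H₁ = [K, K] ⊔ M, H₁ < K < L, and suppose every element of K outside H₁ is centralised modulo H₁ only from inside K (L/H₁ is a Frobenius group with kernel K/H₁). Suppose one of the following: some normal subgroup of L lies strictly between H₁ and K; or [K:H₁] > 4[L:K]^2 + 1; or [K:M] is not a prime power; or [K,K] ≤ M; or [K:M] is a power of a prime p with [L:K] dividing p − 1. Then S(M) is coherent. -/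
theorem result {L : Type*} [Group L] [Fintype L] {G : Type*} [Group G] [Fintype G] (K : Subgroup L) [hK : K.Normal] (hsolv : Group.IsSolvable K) (τ : (L → ℂ) → (G → ℂ)) (R : (L → ℂ) → Finset (G → ℂ)) (hS : Cfsg.IsCoherenceSystem (Cfsg.inducedIrrAbove K ⊥) τ R) (hodd : Odd (Nat.card L)) (M : Subgroup L) [M.Normal] (hMK : M ≤ K) [(M.subgroupOf K).Normal] (hnil : Group.IsNilpotent (↥K ⧸ M.subgroupOf K)) (H₁ : Subgroup L) (hH₁ : H₁ = ⁅K, K⁆ ⊔ M) (hH₁K : H₁ < K) (hKL : K < ⊤) (hfrob : ∀ k ∈ K, k ∉ H₁ → ∀ x : L, x * k * x⁻¹ * k⁻¹ ∈ H₁ → x ∈ K) (hgood : (∃ N : Subgroup L, N.Normal ∧ H₁ < N ∧ N < K) ∨ 4 * K.index ^ 2 + 1 < H₁.relIndex K ∨ (¬ ∃ p m : ℕ, p.Prime ∧ M.relIndex K = p ^ m) ∨ ⁅K, K⁆ ≤ M ∨ (∃ p m : ℕ, p.Prime ∧ M.relIndex K = p ^ m ∧ K.index ∣ p - 1)) : Cfsg.IsCoherent (Cfsg.inducedIrrAbove K M) {1}ᶜ τ := by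
  rw [CL.Odd.inducedIrrAbove_eq] at hS ⊢
  subst hH₁
  refine CL.Odd.seqIndD_isCoherent hsolv hS (lt_of_le_of_lt le_sup_right hH₁K) ?_
  by_contra hnc
  obtain ⟨h1, h2, h3, p, m, hp, hm, h4⟩ := CL.Odd.non_coherent_chief hsolv hS hodd hMK
    (CL.Odd.isNilpotent_map_mk_iff.2 hnil) hH₁K.not_ge hfrob hnc
  rcases hgood with ⟨N, hN, k1, k2⟩ | h | h | h | ⟨q, n, hq, hn, h⟩
  · rcases h1 N hN k1.le k2.le with e | e
    exacts [k1.ne' e, k2.ne e]
  · omega
  · exact h ⟨p, m, hp, hm⟩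
  · exact h3 h
  · have h5 := CL.Odd.one_lt_relIndex (A := M) (B := K) fun h' => hH₁K.not_ge (h'.trans le_sup_right)
    have hm0 : m ≠ 0 := by rintro rfl; simp [hm] at h5
    have : p = q := (Nat.prime_dvd_prime_iff_eq hp hq).1
      (hp.dvd_of_dvd_pow (hn ▸ hm ▸ dvd_pow_self p hm0))
    exact h4 (this ▸ h)

end Cfsg.Agent.S1521
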