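import Cfsg.Statements.S1531
import Cfsg.Agent.Odd.PF5Irr

set_option autoImplicit false
open Cfsg

namespace Cfsg.Agent.S1531

/-- Let N be a subgroup of the finite group G, S a set of irreducible characters of N, and α a linear isometry on the integer combinations of S vanishing at 1 with values virtual characters of G vanishing at 1. Let X, Y ⊆ S be disjoint, each with at least two members, and σ, τ linear isometries on ℤ[X], ℤ[Y] into virtual characters agreeing with α on the members vanishing at 1. Then ⟨σ χ, τ η⟩ = 0 for χ ∈ X, η ∈ Y; and if for some χ₀ ∈ X, η₀ ∈ Y with degrees c = χ₀ 1, e = η₀ 1 one has α (c • η₀ − e • χ₀) = c • τ η₀ − e • σ χ₀, then (X ∪ Y, N minus 1, α) is coherent. -/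
theorem result {G : Type*} [Group G] [Fintype G] (N : Subgroup G) [Fintype N] (S X Y : Set (N → ℂ)) (hirr : ∀ ξ ∈ S, Cfsg.IsIrrCharacter N ξ) (hXS : X ⊆ S) (hYS : Y ⊆ S) (hXY : Disjoint X Y) (hX2 : ∃ a ∈ X, ∃ b ∈ X, a ≠ b) (hY2 : ∃ a ∈ Y, ∃ b ∈ Y, a ≠ b) (α : (N → ℂ) → (G → ℂ)) (hα : Cfsg.IsLinearIsometryOn (Cfsg.zspanOn S {1}ᶜ) α) (hα1 : ∀ θ ∈ Cfsg.zspanOn S {1}ᶜ, α θ 1 = 0) (σ τ : (N → ℂ) → (G → ℂ)) (hσ : Cfsg.IsLinearIsometryOn (Cfsg.zspan X) σ) (hσα : ∀ θ ∈ Cfsg.zspanOn X {1}ᶜ, σ θ = α θ) (hτ : Cfsg.IsLinearIsometryOn (Cfsg.zspan Y) τ) (hτα : ∀ θ ∈ Cfsg.zspanOn Y {1}ᶜ, τ θ = α θ) : (∀ χ ∈ X, ∀ η ∈ Y, Cfsg.classInner (σ χ) (τ η) = 0) ∧ ((∃ χ₀ ∈ X, ∃ η₀ ∈ Y, α (χ₀ 1 • η₀ - η₀ 1 • χ₀) = χ₀ 1 • τ η₀ - η₀ 1 • σ χ₀) → Cfsg.IsCoherent (X ∪ Y) {1}ᶜ α) := by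
  obtain ⟨ν₁, h₁, e₁⟩ := CL.Odd.exists_cohWith_of_isometryOn hσ hσα
  obtain ⟨ν₂, h₂, e₂⟩ := CL.Odd.exists_cohWith_of_isometryOn hτ hτα
  have ho : ∀ φ ∈ X, ∀ ψ ∈ Y, Cfsg.classInner φ ψ = 0 := fun φ hφ ψ hψ =>
    (hirr φ (hXS hφ)).classInner_of_ne (hirr ψ (hYS hψ))
      (by rintro rfl; exact Set.disjoint_left.1 hXY hφ hψ)
  have other : ∀ {Z : Set (N → ℂ)}, (∃ a ∈ Z, ∃ b ∈ Z, a ≠ b) → ∀ c, ∃ d ∈ Z, c ≠ d := by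
    rintro Z ⟨a, ha, b, hb, hab⟩ c
    by_cases h : c = a
    · exact ⟨b, hb, h ▸ hab⟩
    · exact ⟨a, ha, h⟩
  have key : ∀ χ ∈ X, ∀ η ∈ Y, Cfsg.classInner (ν₁ χ) (ν₂ η) = 0 := by
    intro χ hχ η hη
    obtain ⟨χ', hχ', n1⟩ := other hX2 χ
    obtain ⟨η', hη', n2⟩ := other hY2 η
    refine CL.Odd.coh_irr_orth h₁ h₂ (fun θ h => hα1 θ (CL.Odd.zspanOn_mono hXS _ h))
      (fun θ h => hα1 θ (CL.Odd.zspanOn_mono hYS _ h)) (fun θ h θ' h' => ?_) hχ hχ'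
      (hirr _ (hXS hχ)) (hirr _ (hXS hχ')) n1 hη hη' (hirr _ (hYS hη)) (hirr _ (hYS hη')) n2
    rw [hα.2.2.1 _ (CL.Odd.zspanOn_mono hXS _ h) _ (CL.Odd.zspanOn_mono hYS _ h')]
    exact CL.Odd.inner_zspan_left_eq_zero
      (fun φ hφ => CL.Odd.inner_zspan_right_eq_zero (fun ψ hψ => ho φ hφ ψ hψ) h'.1) h.1
  refine ⟨fun χ hχ η hη => ?_, ?_⟩
  · rw [← e₁ χ (CL.Odd.mem_zspan_of_mem hχ), ← e₂ η (CL.Odd.mem_zspan_of_mem hη), key χ hχ η hη]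
  · rintro ⟨χ₀, hχ₀, η₀, hη₀, hb⟩
    have hXY' : X ∪ Y ⊆ S := Set.union_subset hXS hYS
    have hα' := CL.Odd.IsLinearIsometryOn.mono' hα (CL.Odd.zspanOn_mono hXY' {1}ᶜ)
    obtain ⟨c, hc0, hc⟩ := (hirr _ (hXS hχ₀)).exists_nat_one
    obtain ⟨e, he0, he⟩ := (hirr _ (hYS hη₀)).exists_nat_one
    rw [← e₁ χ₀ (CL.Odd.mem_zspan_of_mem hχ₀), ← e₂ η₀ (CL.Odd.mem_zspan_of_mem hη₀), hc, he] at hb
    have m1 := CL.Odd.zspan_natCast_smul e (CL.Odd.mem_zspan_of_mem hχ₀)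
    have m2 := CL.Odd.zspan_natCast_smul c (CL.Odd.mem_zspan_of_mem hη₀)
    have m3 : (c : ℂ) • η₀ - (e : ℂ) • χ₀ ∈ Cfsg.zspanOn (X ∪ Y) {1}ᶜ :=
      CL.Odd.mem_zspanOn_one.2 ⟨CL.Odd.zspan_sub (CL.Odd.zspan_mono Set.subset_union_right m2)
        (CL.Odd.zspan_mono Set.subset_union_left m1), by simp [hc, he, mul_comm]⟩
    obtain ⟨ν, hν, -⟩ := CL.Odd.bridge_cohWith hα' (fun φ h => CL.Odd.vchar_irr (hirr φ (hXY' h)))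
      h₁ h₂ ho key m1 m2 (by simp [hc, he, mul_comm]) (by simp [hc, hc0.ne', he0.ne']) (by
        have h1 := hα'.2.1 _ m3 (-1)
        simp only [neg_smul, one_smul, neg_sub] at h1
        rw [h1, hb, map_smul, map_smul, neg_sub])
    refine hν.isCoherent ⟨_, m3, fun h0 => ?_⟩
    have := congrArg (fun θ => Cfsg.classInner χ₀ θ) h0
    simp [CL.Char.classInner_sub_right, CL.Char.classInner_smul_right, CL.Char.classInner_zero_right,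
      ho χ₀ hχ₀ η₀ hη₀, (hirr _ (hXS hχ₀)).classInner_self, he0.ne'] at this

end Cfsg.Agent.S1531
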