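import Cfsg.Statements.S1532
import Cfsg.Agent.Char.SibleyGen

set_option autoImplicit false
open Cfsg CL.Odd CL.Char CL.Grp

namespace Cfsg.Agent.S1532

/-- Let G be a finite group, p an odd prime and P a Sylow p-subgroup that is non-abelian, whose underlying set is a TI-subset of G, with P properly contained in its set normaliser N and C_G(x) ≤ P for every non-identity x ∈ P. Let Z be a nontrivial subgroup of the centre of P normalised by N. Then the set of irreducible characters χ of N with χ z ≠ χ 1 for some z ∈ Z is coherent for the map induced by induction from N to G. -/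
theorem result {G : Type*} [Group G] [Fintype G] (p : ℕ) [Fact p.Prime] (hp : p ≠ 2) (P : Sylow p G) (hna : ¬ IsMulCommutative (P : Subgroup G)) (hTI : Cfsg.IsTISubset ((P : Subgroup G) : Set G)) (hlt : (P : Subgroup G) < Subgroup.normalizer ((P : Subgroup G) : Set G)) (hC : ∀ k ∈ (P : Subgroup G), k ≠ 1 → Subgroup.centralizer ({k} : Set G) ≤ (P : Subgroup G)) [Fintype ↥(Subgroup.normalizer ((P : Subgroup G) : Set G))] (Z : Subgroup G) (hZ1 : Z ≠ ⊥) (hZP : ∀ z ∈ Z, z ∈ (P : Subgroup G) ∧ ∀ y ∈ (P : Subgroup G), z * y = y * z) (hZn : ∀ x ∈ Subgroup.normalizer ((P : Subgroup G) : Set G), ∀ z ∈ Z, x * z * x⁻¹ ∈ Z) : Cfsg.IsCoherent {χ : ↥(Subgroup.normalizer ((P : Subgroup G) : Set G)) → ℂ | Cfsg.IsIrrCharacter ↥(Subgroup.normalizer ((P : Subgroup G) : Set G)) χ ∧ ∃ z : ↥(Subgroup.normalizer ((P : Subgroup G) : Set G)), (z : G) ∈ Z ∧ χ z ≠ χ 1} {1}ᶜ (fun α => Cfsg.indFun (Subgroup.normalizer ((P : Subgroup G) : Set G)) α)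 := by
  have hP := P.isPGroup'
  generalize (P : Subgroup G) = K at *
  have hnil : Group.IsNilpotent K := hP.isNilpotent
  obtain ⟨m, hm⟩ := IsPGroup.iff_card.1 hP
  obtain ⟨hodd, ν, hν⟩ := sibley_cohWith hnil hTI hlt hC hna
    (hm ▸ ((Fact.out : p.Prime).odd_of_ne_two hp).pow)
  have hZ : Z.subgroupOf N[K] ≤ K.subgroupOf N[K] := fun z hz => (hZP z hz).1
  haveI : (Z.subgroupOf N[K]).Normal := ⟨fun z hz g => hZn g g.2 z hz⟩
  have hs : seqIndD (K.subgroupOf N[K]) (Z.subgroupOf N[K]) ⊥ ⊆ seqIndD _ _ ⊥ := seqIndD_mono hZ le_rfl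
  have hirr := fun χ h => frob_seqIndD_irr (tifn_cent hC) χ (hs h)
  have e : {χ : N[K] → ℂ | IsIrrCharacter N[K] χ ∧ ∃ z : N[K], (z : G) ∈ Z ∧ χ z ≠ χ 1} =
      seqIndD (K.subgroupOf N[K]) (Z.subgroupOf N[K]) ⊥ := by
    rw [seqIndD_eq_irr hZ hirr]
    ext χ
    refine and_congr_right fun h => ?_
    rw [SetLike.not_le_iff_exists]
    exact exists_congr fun z => and_congr_right fun _ => h.mem_charKer.not.symm
  rw [e]
  refine (hν.mono hs).isCoherent ?_
  obtain ⟨z, hz, h1⟩ := ne_bot_iff.1 hZ1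
  obtain ⟨χ, hχ, hk⟩ := exists_irr_not_mem_charKer (g := (⟨z, le_norm_self K (hZP z hz).1⟩ : N[K]))
    fun h => h1 (congrArg Subtype.val h)
  have hm : χ ∈ seqIndD (K.subgroupOf N[K]) (Z.subgroupOf N[K]) ⊥ :=
    e ▸ ⟨hχ, _, hz, hχ.mem_charKer.not.1 hk⟩
  refine ⟨χ - conjFun χ, mem_zspanOn_one.2 ⟨zspan_sub (mem_zspan_of_mem hm) (mem_zspan_of_mem (seqIndD_conj hm)),
    by rw [Pi.sub_apply, char_conjFun_one hχ.isCharacter, sub_self]⟩, sub_ne_zero.2 (seqIndD_conj_ne hodd hm).symm⟩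

end Cfsg.Agent.S1532
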