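import Cfsg.Statements.S1533
import Cfsg.Agent.Char.SibleyGen

set_option autoImplicit false
open Cfsg CL.Odd CL.Char CL.Grp

namespace Cfsg.Agent.S1533

/-- Let G be a finite group, p an odd prime, and P a nontrivial Sylow p-subgroup whose underlying set is a TI-subset of G, with P properly contained in its set normaliser N and C_G(x) ≤ P for every non-identity x ∈ P. Let S be the set of irreducible characters χ of N with χ x ≠ χ 1 for some x ∈ P. Then either S has exactly one member, P is elementary abelian and Nat.card P = [N:P] + 1; or (S, N minus 1, induction to G) is coherent. -/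
theorem result {G : Type*} [Group G] [Fintype G] (p : ℕ) [Fact p.Prime] (hp : p ≠ 2) (P : Sylow p G) (hP1 : (P : Subgroup G) ≠ ⊥) (hTI : Cfsg.IsTISubset ((P : Subgroup G) : Set G)) (hlt : (P : Subgroup G) < Subgroup.normalizer ((P : Subgroup G) : Set G)) (hC : ∀ k ∈ (P : Subgroup G), k ≠ 1 → Subgroup.centralizer ({k} : Set G) ≤ (P : Subgroup G)) [Fintype ↥(Subgroup.normalizer ((P : Subgroup G) : Set G))] : (Nat.card {χ : ↥(Subgroup.normalizer ((P : Subgroup G) : Set G)) → ℂ // Cfsg.IsIrrCharacter ↥(Subgroup.normalizer ((P : Subgroup G) : Set G)) χ ∧ ∃ x : ↥(Subgroup.normalizer ((P : Subgroup G) : Set G)), (x : G) ∈ (P : Subgroup G) ∧ χ x ≠ χ 1} = 1 ∧ Cfsg.IsElementaryAbelian p (P : Subgroup G) ∧ Nat.card (P : Subgroup G) = ((P : Subgroup G).subgroupOf (Subgroup.normalizer ((P : Subgroup G) : Set G))).index + 1) ∨ Cfsg.IsCoherent {χ : ↥(Subgroup.normalizer ((P : Subgroup G) : Set G)) → ℂ | Cfsg.IsIrrCharacter ↥(Subgroup.normalizer ((P : Subgroup G) : Set G)) χ ∧ ∃ x :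 ↥(Subgroup.normalizer ((P : Subgroup G) : Set G)), (x : G) ∈ (P : Subgroup G) ∧ χ x ≠ χ 1} {1}ᶜ (fun α => Cfsg.indFun (Subgroup.normalizer ((P : Subgroup G) : Set G)) α) := by
  have hP := P.isPGroup'
  generalize (P : Subgroup G) = K at *
  have hnil : Group.IsNilpotent K := hP.isNilpotent
  have hd : p ∣ Nat.card K := dvd_card_of_isPGroup_ne_bot hP hP1
  have e := Subgroup.subgroupOfEquivOfLe (le_norm_self K)
  have ec := Nat.card_congr e.toEquiv
  by_cases he : Nat.card K = (K.subgroupOf N[K]).index + 1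
  · have hK1' : K.subgroupOf N[K] ≠ ⊥ := fun h =>
      hP1 (by rw [← Subgroup.card_eq_one, ← ec, h, Subgroup.card_bot])
    haveI : Group.IsNilpotent (K.subgroupOf N[K]) := Group.nilpotent_of_mulEquiv e.symm
    have h := frob_elem_of_card (tifn_cent hC) (ec ▸ he) Fact.out (ec ▸ hd)
    refine Or.inl ⟨frob_card_irr_eq_one inferInstance hK1' (tifn_cent hC) (ec ▸ he),
      ⟨⟨⟨fun a b => e.symm.injective (by rw [map_mul, map_mul, h.1.1.1])⟩⟩, fun a ha => ?_⟩, he⟩
    exact congrArg Subtype.val (h.2 ⟨a, le_norm_self K ha⟩ ha)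
  · refine Or.inr ((feit_sibley hP1 hnil hTI hlt hC he).resolve_left fun h => hp ?_)
    exact (Nat.prime_dvd_prime_iff_eq Fact.out Nat.prime_two).1 ((Fact.out : p.Prime).dvd_of_dvd_pow (h.1 ▸ hd))

end Cfsg.Agent.S1533
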