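import Cfsg.Statements.S1534
import Cfsg.Agent.Char.SibleyGen

set_option autoImplicit false
open Cfsg CL.Odd CL.Char CL.Grp

namespace Cfsg.Agent.S1534

/-- Let G be a finite group and K a nontrivial nilpotent subgroup whose underlying set is a TI-subset of G, properly contained in its set normaliser N, with C_G(k) ≤ K for every non-identity k ∈ K; let e be the index of K in N and S the set of irreducible characters χ of N with χ k ≠ χ 1 for some k ∈ K. Then one of: S has exactly one member, Nat.card K = e + 1 and K is an elementary abelian p-group for some prime p; or K is a Sylow 2-subgroup of G (Nat.card K is the largest power of 2 dividing Nat.card G) and [K : [K,K]] < 4e²; or (S, N minus 1, induction to G) is coherent. -/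
theorem result {G : Type*} [Group G] [Fintype G] (K : Subgroup G) (hK1 : K ≠ ⊥) (hnil : Group.IsNilpotent K) (hTI : Cfsg.IsTISubset (K : Set G)) (hlt : K < Subgroup.normalizer (K : Set G)) (hC : ∀ k ∈ K, k ≠ 1 → Subgroup.centralizer ({k} : Set G) ≤ K) [Fintype ↥(Subgroup.normalizer (K : Set G))] : (Nat.card {χ : ↥(Subgroup.normalizer (K : Set G)) → ℂ // Cfsg.IsIrrCharacter ↥(Subgroup.normalizer (K : Set G)) χ ∧ ∃ k : ↥(Subgroup.normalizer (K : Set G)), (k : G) ∈ K ∧ χ k ≠ χ 1} = 1 ∧ Nat.card K = (K.subgroupOf (Subgroup.normalizer (K : Set G))).index + 1 ∧ ∃ p : ℕ, p.Prime ∧ Cfsg.IsElementaryAbelian p K) ∨ (Nat.card K = 2 ^ (Nat.card G).factorization 2 ∧ (⁅K, K⁆.subgroupOf K).index < 4 * (K.subgroupOf (Subgroup.normalizer (K : Set G))).index ^ 2) ∨ Cfsg.IsCoherent {χ : ↥(Subgroup.normalizer (K : Set G)) → ℂ | Cfsg.IsIrrCharacter ↥(Subgroup.normalizer (K : Set G)) χ ∧ ∃ k : ↥(Subgroup.normalizer (K : Set G)), (k : G) ∈ K ∧ χ k ≠ χ 1} {1}ᶜ (fun α => Cfsg.indFun (Subgroup.normalizer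 (K : Set G)) α) := by
  have e := Subgroup.subgroupOfEquivOfLe (le_norm_self K)
  have ec := Nat.card_congr e.toEquiv
  by_cases he : Nat.card K = (K.subgroupOf N[K]).index + 1
  · have hK1' : K.subgroupOf N[K] ≠ ⊥ := fun h =>
      hK1 (by rw [← Subgroup.card_eq_one, ← ec, h, Subgroup.card_bot])
    haveI : Group.IsNilpotent (K.subgroupOf N[K]) := Group.nilpotent_of_mulEquiv e.symm
    obtain ⟨p, hp, hd⟩ := exists_prime_dvd_card_of_ne_bot hK1
    have h := frob_elem_of_card (tifn_cent hC) (ec ▸ he) hp (ec ▸ hd)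
    refine Or.inl ⟨frob_card_irr_eq_one inferInstance hK1' (tifn_cent hC) (ec ▸ he), he, p, hp,
      ⟨⟨fun a b => e.symm.injective (by rw [map_mul, map_mul, h.1.1.1])⟩⟩, fun a ha => ?_⟩
    exact congrArg Subtype.val (h.2 ⟨a, le_norm_self K ha⟩ ha)
  · exact Or.inr (feit_sibley hK1 hnil hTI hlt hC he)

end Cfsg.Agent.S1534
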