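import Cfsg.Statements.S1535
import Cfsg.Agent.Char.FeitCoh
import Cfsg.Agent.Grp.ThompsonFpf

set_option autoImplicit false
open Cfsg

namespace Cfsg.Agent.S1535

/-- Let N be a finite group with a proper nontrivial normal subgroup H such that every element commuting with a non-identity element of H lies in H (N is a Frobenius group with kernel H); let e be the index of H and suppose Nat.card H ≠ e + 1. Let S be the set of irreducible characters χ of N with χ h ≠ χ 1 for some h ∈ H, and τ a linear isometry on the integer combinations of S vanishing at 1, with values virtual characters of a finite group G vanishing at 1. Then (S, N minus 1, τ) is coherent, or there is a prime p with Nat.card H a power of p, H non-abelian and [H : [H,H]] ≤ 4e² + 1. -/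
theorem result {N : Type*} [Group N] [Fintype N] {G : Type*} [Group G] [Fintype G] (H : Subgroup N) [H.Normal] (hH1 : H ≠ ⊥) (hH2 : H ≠ ⊤) (hC : ∀ h ∈ H, h ≠ 1 → Subgroup.centralizer ({h} : Set N) ≤ H) (he : Nat.card H ≠ H.index + 1) (τ : (N → ℂ) → (G → ℂ)) (hτ : Cfsg.IsLinearIsometryOn (Cfsg.zspanOn {χ : N → ℂ | Cfsg.IsIrrCharacter N χ ∧ ∃ h ∈ H, χ h ≠ χ 1} {1}ᶜ) τ) (hτ1 : ∀ α ∈ Cfsg.zspanOn {χ : N → ℂ | Cfsg.IsIrrCharacter N χ ∧ ∃ h ∈ H, χ h ≠ χ 1} {1}ᶜ, τ α 1 = 0) : Cfsg.IsCoherent {χ : N → ℂ | Cfsg.IsIrrCharacter N χ ∧ ∃ h ∈ H, χ h ≠ χ 1} {1}ᶜ τ ∨ ∃ p : ℕ, p.Prime ∧ (∃ m : ℕ, Nat.card H = p ^ m) ∧ ¬ IsMulCommutative H ∧ (⁅H, H⁆.subgroupOf H).index ≤ 4 * H.index ^ 2 + 1 := by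
  refine CL.Char.feit_coherence ?_ hH1 hC he hτ hτ1
  obtain ⟨r, hr, h1⟩ := Nat.exists_prime_and_dvd (fun h => hH2 (Subgroup.index_eq_one.1 h))
  have := Fact.mk hr
  obtain ⟨a, ha⟩ := exists_prime_orderOf_dvd_card' r (h1.trans H.index_dvd_card)
  refine CL.Grp.isNilpotent_of_fpf_prime (a := a) (ha ▸ hr) (Subgroup.le_normalizer_of_normal (Subgroup.mem_top a)) ?_
  rw [eq_bot_iff]
  rintro x ⟨h2, h3⟩
  by_contra h4
  have h5 : a ∈ H := hC x h2 h4 (Subgroup.mem_centralizer_singleton_iff.2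
    (Subgroup.mem_centralizer_singleton_iff.1 h3).symm)
  have h6 := h1.trans (CL.Char.index_dvd_card_pred le_rfl hC)
  have h7 : r ∣ Nat.card H := ha ▸ H.orderOf_dvd_natCard h5
  have h8 : 0 < Nat.card H := Nat.card_pos
  exact hr.not_dvd_one ((Nat.dvd_add_right h6).1 (by rwa [Nat.sub_add_cancel h8]))

end Cfsg.Agent.S1535
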