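import Cfsg.Statements.S1536
import Cfsg.Agent.Odd.PF4Grp

set_option autoImplicit false
open Cfsg

namespace Cfsg.Agent.S1536

/-- Let H be a normal subgroup of the finite group M whose order is coprime to its index. For x ∈ M: some non-principal irreducible character of H is unchanged under h ↦ θ(x h x⁻¹) if and only if some non-identity element of H commutes with x. -/
theorem result {M : Type*} [Group M] [Finite M] (H : Subgroup M) [hN : H.Normal] (hHall : Nat.Coprime (Nat.card H) H.index) (x : M) : (∃ θ : H → ℂ, Cfsg.IsIrrCharacter H θ ∧ θ ≠ (fun _ => 1) ∧ (fun h : H => θ ⟨x * h * x⁻¹, hN.conj_mem h h.2 x⟩) = θ) ↔ ∃ h ∈ H, h ≠ 1 ∧ x * h = h * x := by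
  have e : ∀ θ : H → ℂ, (fun h : H => θ ⟨x * h * x⁻¹, hN.conj_mem h h.2 x⟩) =
      fun k : H => θ (MulAut.conjNormal x k) := fun θ => rfl
  simp only [e]
  constructor
  · rintro ⟨θ, hθ, h1, hx⟩
    by_cases hz : x ^ H.index = 1
    · have hc : (orderOf x).Coprime (Nat.card H) :=
        hHall.symm.coprime_dvd_left (orderOf_dvd_of_pow_eq_one hz)
      have h2 : Nontrivial {χ : IrrCharacter H // (fun k : H => (χ : H → ℂ) (MulAut.conjNormal x k)) = χ} :=
        ⟨⟨⟨⟨θ, hθ⟩, hx⟩, ⟨⟨fun _ => 1, CL.Char.isIrrCharacter_one⟩, rfl⟩,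
          fun h => h1 (congrArg (fun χ => (χ.1 : H → ℂ)) h)⟩⟩
      have h3 := lt_of_lt_of_le Finite.one_lt_card (CL.Odd.card_fixed_irr_le H hc)
      obtain ⟨⟨h, hh⟩, hne⟩ := Subgroup.ne_bot_iff_exists_ne_one.mp (Subgroup.one_lt_card_iff_ne_bot _ |>.mp h3)
      exact ⟨h, hh.1, by simpa using hne, (Subgroup.mem_centralizer_singleton_iff.mp hh.2).symm⟩
    · exact ⟨_, H.pow_index_mem x, hz, (Commute.self_pow x _).eq⟩
  · rintro ⟨h, hh, h1, hx⟩
    have h2 : Nontrivial {C : ConjClasses H //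
        ConjClasses.map (MulAut.conjNormal x : MulAut H).toMonoidHom C = C} := by
      refine ⟨⟨⟨ConjClasses.mk ⟨h, hh⟩, ?_⟩, ⟨ConjClasses.mk 1, ?_⟩, fun e => h1 ?_⟩⟩
      · refine congrArg ConjClasses.mk (Subtype.ext ?_)
        change x * h * x⁻¹ = h
        rw [hx, mul_inv_cancel_right]
      · exact congrArg ConjClasses.mk (map_one _)
      · have := ConjClasses.mk_eq_mk_iff_isConj.mp (congrArg Subtype.val e)
        exact congrArg Subtype.val (isConj_one_left.mp this)
    have h3 := Finite.one_lt_card (α := {C : ConjClasses H //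
        ConjClasses.map (MulAut.conjNormal x : MulAut H).toMonoidHom C = C})
    rw [← CL.Char.brauer_perm_aut, Finite.one_lt_card_iff_nontrivial] at h3
    obtain ⟨⟨χ, hχ⟩, hne⟩ := exists_ne (⟨⟨fun _ => 1, CL.Char.isIrrCharacter_one⟩, rfl⟩ :
      {χ : IrrCharacter H // (fun k : H => (χ : H → ℂ) (MulAut.conjNormal x k)) = χ})
    exact ⟨χ, χ.2, fun e => hne (Subtype.ext (Subtype.ext e)), hχ⟩

end Cfsg.Agent.S1536
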