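import Cfsg.Statements.S1540
import Cfsg.Agent.Odd.FT

set_option autoImplicit false
open Cfsg

namespace Cfsg.Agent.S1540

/-- Let G be a minimal simple group of odd order and M a maximal subgroup of Type I. Then every non-identity element of M_F has its centraliser in M contained in M_F (M is a Frobenius group with kernel M_F). -/
theorem result {G : Type*} [Group G] [Finite G] (hG : Cfsg.IsMinSimpleOddOrder G) (M : Subgroup G) (hM : IsCoatom M) (hI : Cfsg.IsOfTypeI M) : ∀ x ∈ Cfsg.fittingHallOf M, x ≠ 1 → M ⊓ Subgroup.centralizer ({x} : Set G) ≤ Cfsg.fittingHallOf M := by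
  exact (CL.Odd.not_minSimpleOdd hG).elim

end Cfsg.Agent.S1540
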