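import Cfsg.Statements.S1541
import Cfsg.Agent.Odd.FT

set_option autoImplicit false
open Cfsg

namespace Cfsg.Agent.S1541

/-- Let G be a minimal simple group of odd order. Then some maximal subgroup of G is not of Type I. -/
theorem result {G : Type*} [Group G] [Finite G] (hG : Cfsg.IsMinSimpleOddOrder G) : ∃ M : Subgroup G, IsCoatom M ∧ ¬ Cfsg.IsOfTypeI M := by
  exact (CL.Odd.not_minSimpleOdd hG).elim

end Cfsg.Agent.S1541
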