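import Cfsg.Statements.S1544
import Cfsg.Agent.Odd.FT

set_option autoImplicit false
open Cfsg

namespace Cfsg.Agent.S1544

/-- Let G be a minimal simple group of odd order with maximal subgroups S, T carrying type-P data (S, W₁, U, W₂) and (T, W₂, V, W₁), with S ⊓ T = W₁ ⊔ W₂, S or T of Type II, and each of S, T of Type II, III, IV or V, and suppose the order q of W₁ is less than the order p of W₂. Then p and q are prime, S_F is elementary abelian of order p^q, U is cyclic of order (p^q − 1)/(p − 1), every non-identity element of U commutes with no non-identity element of S_F, (p^q − 1)/(p − 1) is coprime to p − 1, U normalises S_F, the order of T_F is coprime to p, T_F is elementary abelian of exponent q with W₂ contained in its set normaliser, and there is y ∈ T_F such that y W₂ y⁻¹ is contained in the set normaliser of U; moreover there are a field F with p^q elements, an additive bijection f from S_F onto F and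 a multiplicative injection ψ of U into the nonzero elements of F such that conjugation by u ∈ U on S_F becomes multiplication by ψ u, and W₂ corresponds to the prime field (the x ∈ S_F with (f x)^p = f x). -/
theorem result {G : Type*} [Group G] [Finite G] (hG : Cfsg.IsMinSimpleOddOrder G) (S T W₁ W₂ U V : Subgroup G) (hS : IsCoatom S) (hT : IsCoatom T) (hSP : Cfsg.IsTypePWith S W₁ U W₂) (hTP : Cfsg.IsTypePWith T W₂ V W₁) (hST : S ⊓ T = W₁ ⊔ W₂) (hII : Cfsg.IsOfTypeII S ∨ Cfsg.IsOfTypeII T) (hS25 : Cfsg.IsOfTypeII S ∨ Cfsg.IsOfTypeIII S ∨ Cfsg.IsOfTypeIV S ∨ Cfsg.IsOfTypeV S) (hT25 : Cfsg.IsOfTypeII T ∨ Cfsg.IsOfTypeIII T ∨ Cfsg.IsOfTypeIV T ∨ Cfsg.IsOfTypeV T) (hqp : Nat.card W₁ < Nat.card W₂) : (Nat.card W₁).Prime ∧ (Nat.card W₂).Prime ∧ Cfsg.IsElementaryAbelian (Nat.card W₂) (Cfsg.fittingHallOf S) ∧ Nat.card (Cfsg.fittingHallOf S) = Nat.card W₂ ^ Nat.card W₁ ∧ IsCyclic U ∧ Nat.card U * (Nat.card W₂ - 1) = Nat.card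 W₂ ^ Nat.card W₁ - 1 ∧ (∀ u ∈ U, u ≠ 1 → ∀ x ∈ Cfsg.fittingHallOf S, u * x = x * u → x = 1) ∧ Nat.Coprime ((Nat.card W₂ ^ Nat.card W₁ - 1) / (Nat.card W₂ - 1)) (Nat.card W₂ - 1) ∧ U ≤ Subgroup.normalizer (Cfsg.fittingHallOf S : Set G) ∧ (Nat.card (Cfsg.fittingHallOf T)).Coprime (Nat.card W₂) ∧ Cfsg.IsElementaryAbelian (Nat.card W₁) (Cfsg.fittingHallOf T) ∧ W₂ ≤ Subgroup.normalizer (Cfsg.fittingHallOf T : Set G) ∧ ∃ y ∈ Cfsg.fittingHallOf T, W₂.map (MulAut.conj y).toMonoidHom ≤ Subgroup.normalizer (U : Set G) ∧ ∃ (F : Type) (_ : Field F) (_ : Fintype F) (f : G → F) (ψ : G → F), Fintype.card F = Nat.card W₂ ^ Nat.card W₁ ∧ Set.BijOn f (Cfsg.fittingHallOf S : Set G) Set.univ ∧ (∀ x ∈ Cfsg.fittingHallOf S, ∀ x' ∈ Cfsg.fittingHallOf S, f (x * x') = f x + f x') ∧ (∀ u ∈ U, ψ u ≠ 0 ∧ ∀ x ∈ Cfsg.fittingHallOf S, f (u * x * u⁻¹) = ψ u * f x) ∧ (∀ u ∈ U, ∀ u' ∈ U, ψ (u * u') = ψ u * ψ u') ∧ Set.InjOn ψ (U : Set G) ∧ (∀ x ∈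 Cfsg.fittingHallOf S, x ∈ W₂ ↔ f x ^ Nat.card W₂ = f x) := by
  exact (CL.Odd.not_minSimpleOdd hG).elim

end Cfsg.Agent.S1544
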