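import Cfsg.Statements.S1549
import Cfsg.Agent.Odd.FT

set_option autoImplicit false
open Cfsg

namespace Cfsg.Agent.S1549

/-- Let G be a minimal simple group of odd order with maximal subgroups S, T carrying type-P data (S, W₁, U, W₂) and (T, W₂, V, W₁), with S ⊓ T = W₁ ⊔ W₂, S or T of Type II, and each of S, T of Type II, III, IV or V, S of Type II, and L a maximal subgroup containing the set normaliser of U, with H = L_F. Then every non-identity element of H has its centraliser within L inside H; U ≤ H; and either H ⊓ W₁ = ⊥ with H ⊔ W₁ = L, or there is y ∈ T_F with H ⊓ (W₁ ⊔ W₂^y) = ⊥ and H ⊔ (W₁ ⊔ W₂^y) = L, where W₂^y = y W₂ y⁻¹. -/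
theorem result {G : Type*} [Group G] [Finite G] (hG : Cfsg.IsMinSimpleOddOrder G) (S T W₁ W₂ U V : Subgroup G) (hS : IsCoatom S) (hT : IsCoatom T) (hSP : Cfsg.IsTypePWith S W₁ U W₂) (hTP : Cfsg.IsTypePWith T W₂ V W₁) (hST : S ⊓ T = W₁ ⊔ W₂) (hII : Cfsg.IsOfTypeII S ∨ Cfsg.IsOfTypeII T) (hS25 : Cfsg.IsOfTypeII S ∨ Cfsg.IsOfTypeIII S ∨ Cfsg.IsOfTypeIV S ∨ Cfsg.IsOfTypeV S) (hT25 : Cfsg.IsOfTypeII T ∨ Cfsg.IsOfTypeIII T ∨ Cfsg.IsOfTypeIV T ∨ Cfsg.IsOfTypeV T) (hSII : Cfsg.IsOfTypeII S) (L : Subgroup G) (hL : IsCoatom L) (hNU : Subgroup.normalizer (U : Set G) ≤ L) : (∀ x ∈ Cfsg.fittingHallOf L, x ≠ 1 → L ⊓ Subgroup.centralizer ({x} : Set G) ≤ Cfsg.fittingHallOf L) ∧ U ≤ Cfsg.fittingHallOf L ∧ ((Cfsg.fittingHallOf L ⊓ W₁ = ⊥ ∧ Cfsg.fittingHallOf L ⊔ W₁ = L) ∨ ∃ y ∈ Cfsg.fittingHallOf T, Cfsg.fittingHallOf L ⊓ (W₁ ⊔ W₂.map (MulAut.conj y).toMonoidHom)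 = ⊥ ∧ Cfsg.fittingHallOf L ⊔ (W₁ ⊔ W₂.map (MulAut.conj y).toMonoidHom) = L) := by
  exact (CL.Odd.not_minSimpleOdd hG).elim

end Cfsg.Agent.S1549
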