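import Cfsg.Statements.S1551
import Cfsg.Agent.Spor.M24More

set_option autoImplicit false
open scoped Pointwise
open Cfsg

namespace Cfsg.Agent.S1551

open CL.Spor MulAction

def levN : List (ℕ × List ℕ) := [(23, [984818244535754528103549039458486304, 111890735759189500967275039606037505, 29340620570662517957029049942508631, 70399228063273750146191920654811874]), (3, [984818244535754528103549039458486304, 984235865005994746954145143334668320, 984724508489452699215480746259449888, 984202951082164080105044112956360736]), (8, [984818244535754528103549039458486304, 961365507626256404119956257276790816, 976448692869377735270425038196672544, 972512676110088067912772961567868960])]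

/-- Structure of a sextet stabiliser: it induces every permutation of the six tetrads, the subgroup fixing each tetrad setwise has order 192, and there is a normal subgroup of order 64 consisting of elements squaring to the identity. -/
theorem result (S : Finset (Finset Cfsg.GolayPt)) (hS : S ∈ Cfsg.sextets) : (∀ e : Equiv.Perm ↥S, ∃ g ∈ MulAction.stabilizer Cfsg.M24 S, ∀ t : ↥S, (g : Equiv.Perm Cfsg.GolayPt) • (t : Finset Cfsg.GolayPt) = ((e t : ↥S) : Finset Cfsg.GolayPt)) ∧ Nat.card {g : ↥(MulAction.stabilizer Cfsg.M24 S) // ∀ t ∈ S, ((g : Cfsg.M24) : Equiv.Perm Cfsg.GolayPt) • t = t} = 192 ∧ ∃ N : Subgroup ↥(MulAction.stabilizer Cfsg.M24 S), N.Normal ∧ Nat.card N = 64 ∧ ∀ x ∈ N, x * x = 1 := by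
  have h1 : Nat.card (stabilizer M24 S ⊓ fixS S : Subgroup M24) ≤ 192 := by
    obtain ⟨g, rfl⟩ := exists_eq_smul (M24_sextet_trans0 hS)
    rw [inf_eq_right.2 (fixS_le_stabilizer _), fixS_smul, card_map_conj, ← top_inf_eq (fixS sext0)]
    refine (chain24.card_inf_le ((PruneOK.anyL fun B _ => pruneOK_set B B).mono fun g hg B hB => mem_fixS.1 hg _ ?_)
      [8388615, 7, 2, 4, 147496, 4268048, 32]).trans (Nat.le_of_ble_eq_true (m := 192) (show Nat.ble (ubC
        (fun F P => anyL (fun B => pruneSet B B F P) [147496, 268544, 1082880, 2621632, 4268048, 8388615]) _ _) _ = true by decide +kernel))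
    have : ∀ B ∈ [147496, 268544, 1082880, 2621632, 4268048, 8388615], B < 2 ^ 24 ∧ pc24 B = 4 ∧ synd B = 3489 := by decide +kernel
    exact (mem_sext (by norm_num)).2 ⟨by rw [card_ofMask, (this B hB).2.1], by rw [syn_ofMask (this B hB).1, (this B hB).2.2]⟩
  have h2 := range_resHom_eq_top (stabilizer M24 S) S (fun _ h => h) (by
    rw [hS.1, card_stabilizer_sextet hS, show Nat.factorial 6 = 720 from rfl]; omega)
  refine ⟨fun e => ?_, ?_, ?_⟩
  · obtain ⟨g, hg⟩ := h2.ge (Subgroup.mem_top e)
    exact ⟨g, g.2, fun t => congrArg Subtype.val (Equiv.ext_iff.1 hg t)⟩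
  · have h3 := card_range_resHom (stabilizer M24 S) S fun _ h => h
    rw [h2, Subgroup.card_top, Nat.card_perm, Nat.card_eq_fintype_card, Fintype.card_coe, hS.1,
      card_stabilizer_sextet hS, show Nat.factorial 6 = 720 from rfl, ← card_subgroupOf'] at h3
    refine (Nat.card_congr (Equiv.subtypeEquivRight fun g => ?_)).trans
      (show Nat.card ((fixS S : Subgroup M24).subgroupOf (stabilizer M24 S)) = 192 by omega)
    exact mem_fixS.symm
  · obtain ⟨g, rfl⟩ := exists_eq_smul (M24_sextet_trans0 hS)
    have hL : ∀ P ∈ levelEls levN, Good ⊤ P := good_top_of_all (by decide +kernel)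
    have a1 : gen (levelEls levN) ≤ stabilizer M24 sext0 := gen_le (good_sext_all hL (by norm_num) (by decide +kernel))
    have : ((gen (levelEls levN)).subgroupOf (stabilizer M24 sext0)).Normal :=
      Subgroup.normal_subgroupOf_of_le_normalizer (sextG_eq.le.trans (gen_le
        (good_normalizer_all sextG_good (good_gen hL) rfl (good_gen hL) (by decide +kernel))))
    obtain ⟨N, n1, n2, n3⟩ := exists_normal_of_equiv (conjEquiv g _ _ fun x => mem_stabilizer_smul_iff)
      ((gen (levelEls levN)).subgroupOf (stabilizer M24 sext0))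
    refine ⟨N, n1, ?_, fun x hx => ?_⟩
    · rw [n2, card_subgroupOf', inf_eq_right.2 a1, (sChain_gen (by decide +kernel)).card_eq]; decide +kernel
    · have := gen_pow_eq_one hL (by decide +kernel) (n := 2) (by decide +kernel) _ ((n3 x).1 hx)
      apply (conjEquiv g _ _ fun x => mem_stabilizer_smul_iff).symm.injective
      rw [map_mul, map_one, ← sq]
      exact Subtype.ext this

end Cfsg.Agent.S1551
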