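import Cfsg.Statements.S1554
import Cfsg.Agent.Spor.M24Octad

set_option autoImplicit false
open scoped Pointwise
open Cfsg

namespace Cfsg.Agent.S1554

open CL.Spor MulAction

/-- An octad stabiliser is a split extension: the joint stabiliser of the octad and a point outside it is a complement to the pointwise stabiliser of the octad, and is isomorphic to the alternating group of degree 8. -/
theorem result (o : Finset Cfsg.GolayPt) (ho : o ∈ Cfsg.octads) (p : Cfsg.GolayPt) (hp : p ∉ o) : (Cfsg.M24 ⊓ fixingSubgroup (Equiv.Perm Cfsg.GolayPt) (o : Set Cfsg.GolayPt)) ⊓ (Cfsg.M24 ⊓ MulAction.stabilizer (Equiv.Perm Cfsg.GolayPt) o ⊓ MulAction.stabilizer (Equiv.Perm Cfsg.GolayPt) p) = ⊥ ∧ (Cfsg.M24 ⊓ fixingSubgroup (Equiv.Perm Cfsg.GolayPt) (o : Set Cfsg.GolayPt)) ⊔ (Cfsg.M24 ⊓ MulAction.stabilizer (Equiv.Perm Cfsg.GolayPt) o ⊓ MulAction.stabilizer (Equiv.Perm Cfsg.GolayPt) p) = (Cfsg.M24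 ⊓ MulAction.stabilizer (Equiv.Perm Cfsg.GolayPt) o) ∧ Nonempty (↥(Cfsg.M24 ⊓ MulAction.stabilizer (Equiv.Perm Cfsg.GolayPt) o ⊓ MulAction.stabilizer (Equiv.Perm Cfsg.GolayPt) p) ≃* alternatingGroup (Fin 8)) := by
  have e1 := fixS_octad_pt ho hp
  refine ⟨eq_bot_iff.2 fun g hg => ?_, le_antisymm (sup_le ?_ inf_le_left) ?_, ?_⟩
  · have : (⟨g, hg.1.1⟩ : M24) ∈ (fixS o : Subgroup M24) ⊓ stabilizer M24 p := ⟨hg.1.2, hg.2.2⟩
    rw [e1] at this
    exact congrArg Subtype.val (Subgroup.mem_bot.1 this)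
  · intro g hg
    exact ⟨hg.1, fixS_le_stabilizer (G := M24) o (x := ⟨g, hg.1⟩) hg.2⟩
  · intro g hg
    have h1 : (⟨g, hg.1⟩ : M24) ∈ stabilizer M24 o := hg.2
    obtain ⟨k, hk, e⟩ := fixS_octad_trans ho hp (q := (⟨g, hg.1⟩ : M24) • p)
      (by rw [smul_mem_iff_of_smul_eq h1]; exact hp)
    have h2 : k⁻¹ * ⟨g, hg.1⟩ ∈ stabilizer M24 o := mul_mem (inv_mem (fixS_le_stabilizer o hk)) h1
    have h3 : k⁻¹ * ⟨g, hg.1⟩ ∈ stabilizer M24 p := mem_stabilizer_iff.2 (by rw [mul_smul, ← e, inv_smul_smul])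
    have : g = (k : Equiv.Perm GolayPt) * (k⁻¹ * ⟨g, hg.1⟩ : M24) := by simp
    rw [this]
    exact Subgroup.mul_mem_sup ⟨k.2, hk⟩ ⟨⟨Subtype.prop _, h2⟩, h3⟩
  · obtain ⟨e⟩ := nonempty_mulEquiv_alternating (stabilizer M24 o ⊓ stabilizer M24 p) o (fun _ h => h.1)
      (by rw [inf_assoc, inf_comm (stabilizer M24 p), e1, inf_bot_eq]) ho.2
      (by rw [card_stabilizer_octad_pt ho hp]; rfl)
    rw [inf_assoc]
    exact ⟨(infEquiv _).symm.trans e⟩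

end Cfsg.Agent.S1554
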