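import Cfsg.Statements.S1555
import Cfsg.Agent.Spor.M24More

set_option autoImplicit false
open scoped Pointwise
open Cfsg

namespace Cfsg.Agent.S1555

open CL.Spor MulAction

/-- Bottom row of the Leech triangle: an octad is met in a prescribed pair of its points by exactly 16 octads and in a prescribed 4-subset by exactly 4 octads. -/
theorem result (o : Finset Cfsg.GolayPt) (ho : o ∈ Cfsg.octads) (s : Finset Cfsg.GolayPt) (hs : s ⊆ o) : (s.card = 2 → {o' : Finset Cfsg.GolayPt | o' ∈ Cfsg.octads ∧ o ∩ o' = s}.ncard = 16) ∧ (s.card = 4 → {o' : Finset Cfsg.GolayPt | o' ∈ Cfsg.octads ∧ o ∩ o' = s}.ncard = 4) := by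
  have key : ∀ m k : ℕ, m < 2 ^ 24 → ofMask m ⊆ oct0 → s.card = pc24 m → s.card ≤ 5 →
      cntL (fun x => Nat.beq (Nat.land 8536111 x) m) octadList = k →
      {o' : Finset GolayPt | o' ∈ octads ∧ o ∩ o' = s}.ncard = k := by
    intro m k hm h1 h2 h3 h4
    obtain ⟨g, e1, e2⟩ := octad_subset_trans ho oct0_mem hs h1 h3 (by rw [h2, card_ofMask])
    rw [← h4, ← ncard_octads (fun x => oct0 ∩ x = ofMask m) _ fun x hx => by
      rw [oct0, ← ofMask_and, ofMask_inj (Nat.and_lt_two_pow _ (octadList_lt x hx)) hm, Nat.beq_eq]; rfl]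
    refine (ncard_smul_congr g fun y => ?_).symm
    rw [Set.mem_ofPred_eq, Set.mem_ofPred_eq, smul_mem_octads_iff, ← e1, ← e2, ← Finset.smul_finset_inter,
      smul_left_cancel_iff]
  exact ⟨fun h => key 3 16 (by norm_num) (by decide +kernel) (by rw [h]; decide +kernel) (by omega) (by decide +kernel),
    fun h => key 15 4 (by norm_num) (by decide +kernel) (by rw [h]; decide +kernel) (by omega) (by decide +kernel)⟩

end Cfsg.Agent.S1555
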