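import Cfsg.Statements.S1558
import Cfsg.Agent.Spor.M24Iso

set_option autoImplicit false
open scoped Pointwise
open Cfsg

namespace Cfsg.Agent.S1558

open CL.Spor MulAction

def idx (y : Fin 3 → ZMod 2) : ℕ := xorSel [904, 1105, 2544] ((y 0).val + 2 * (y 1).val + 4 * (y 2).val)
def kerG : List ℕ := [972512676110088067912772961567868960, 970499966350631336865513127433832480, 966182099583441531322624363496310816, 223523859854079652784281245107370531, 597411026485614903746515193671226481, 139771924029540163110695287162389957]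

/-- Structure of a trio stabiliser: every permutation of the three octads is induced, and there is a normal subgroup of order 64 of elements squaring to the identity whose quotient is isomorphic to the product of GL(3, 2) with the symmetric group of degree 3. -/
theorem result (T : Finset (Finset Cfsg.GolayPt)) (hT : T ∈ Cfsg.trios) : (∀ e : Equiv.Perm ↥T, ∃ g ∈ MulAction.stabilizer Cfsg.M24 T, ∀ o : ↥T, (g : Equiv.Perm Cfsg.GolayPt) • (o : Finset Cfsg.GolayPt) = ((e o : ↥T) : Finset Cfsg.GolayPt)) ∧ ∃ (N : Subgroup ↥(MulAction.stabilizer Cfsg.M24 T)) (_ : N.Normal), Nat.card N = 64 ∧ (∀ x ∈ N, x * x = 1) ∧ Nonempty (↥(MulAction.stabilizer Cfsg.M24 T) ⧸ N ≃* GL (Fin 3) (ZMod 2) × Equiv.Perm (Fin 3)) := by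
  refine ⟨fun e => ?_, ?_⟩
  · obtain ⟨a, b, c, hab, hac, hbc, h⟩ := Finset.card_eq_three.1 hT.1
    have ha : a ∈ T := by simp [h]
    have hb : b ∈ T := by simp [h]
    have h1 := card_stabilizer_octad_pair (hT.2.1 a ha) (hT.2.1 b hb)
    rw [Finset.disjoint_iff_inter_eq_empty.1 (hT.2.2 a ha b hb hab), Finset.card_empty,
      (ncard_octads_inter (hT.2.1 a ha)).1] at h1
    have h2 : Nat.card (stabilizer M24 T ⊓ fixS T : Subgroup M24) ≤
        Nat.card (stabilizer M24 a ⊓ stabilizer M24 b : Subgroup M24) :=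
      Subgroup.card_le_of_le fun g hg => ⟨mem_fixS.1 hg.2 a ha, mem_fixS.1 hg.2 b hb⟩
    obtain ⟨g, hg⟩ := (range_resHom_eq_top (stabilizer M24 T) T (fun _ h => h) (by
      rw [hT.1, card_stabilizer_trio hT, show Nat.factorial 3 = 6 from rfl]; omega)).ge (Subgroup.mem_top e)
    exact ⟨g, g.2, fun t => congrArg Subtype.val (Equiv.ext_iff.1 hg t)⟩
  obtain ⟨g, rfl⟩ := exists_eq_smul (M24_trio_trans0 hT)
  have hi : ∀ y, idx y < 4096 ∧ (pc24 (ldr (idx y)) = 4 ∨ y = 0) := by decide +kernel
  obtain ⟨θ₁, h1, -⟩ := exists_hom_of_match (fun (g : M24) (x : Finset (Finset GolayPt)) => g • x) mul_smul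
    (fun y => sext (idx y)) _ (gl_ker_iff (idx := fun y => sext (idx y)) fun x y e => by
      have inj : Function.Injective idx := by decide +kernel
      rcases (hi x).2 with h | rfl
      · exact inj (sext_inj (hi x).1 (hi y).1 h e)
      · rcases (hi y).2 with h | rfl
        · exact inj (sext_inj (hi y).1 (hi 0).1 h e.symm).symm
        · rfl) (stabilizer M24 trio0) (by
      rw [trioG_eq]
      refine match_gen _ mul_smul (one_smul _) _ fun P hP => ?_
      suffices h : ∃ γ : GL (Fin 3) (ZMod 2), ∀ y, lin (sTab P) (idx y) = idx (γ • y) from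
        h.imp fun γ hγ y => by rw [(trioG_top P hP).rep.smul_sext (hi y).1, hγ]
      simp only [trioG, List.mem_cons, List.not_mem_nil, or_false] at hP
      rcases hP with rfl | rfl
      · exact ⟨⟨!![1, 1, 1; 1, 0, 0; 1, 1, 0], !![0, 1, 0; 0, 1, 1; 1, 0, 1], by decide +kernel, by decide +kernel⟩, by decide +kernel⟩
      · exact ⟨⟨!![1, 0, 1; 0, 1, 0; 1, 1, 0], !![0, 1, 1; 0, 1, 0; 1, 1, 1], by decide +kernel, by decide +kernel⟩, by decide +kernel⟩)
  obtain ⟨θ₂, h2, -⟩ := exists_hom_masks (fun i : Fin 3 => nth 0 [8536111, 4536592, 3704512] i) (by decide +kernel) _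
    (id_ker_iff (Γ := Equiv.Perm (Fin 3)) (idx := fun i : Fin 3 => nth 0 [8536111, 4536592, 3704512] i) (by decide +kernel)) trioG_good trioG_eq (by
      intro P hP
      simp only [trioG, List.mem_cons, List.not_mem_nil, or_false] at hP
      rcases hP with rfl | rfl
      · exact ⟨⟨![1, 0, 2], ![1, 0, 2], by decide, by decide⟩, by decide +kernel⟩
      · exact ⟨⟨![2, 1, 0], ![2, 1, 0], by decide, by decide⟩, by decide +kernel⟩)
  obtain ⟨K, hK⟩ : ∃ K, K = (θ₁.prod θ₂).ker.map (stabilizer M24 trio0).subtype := ⟨_, rfl⟩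
  have k0 : Nat.card K = Nat.card (θ₁.prod θ₂).ker := hK ▸ Subgroup.card_map_of_injective (Subgroup.subtype_injective _)
  have k1 : ∀ x ∈ K, (∀ y, x • sext (idx y) = sext (idx y)) ∧ ∀ i : Fin 3, x • ofMask (nth 0 [8536111, 4536592, 3704512] i) =
      ofMask (nth 0 [8536111, 4536592, 3704512] i) := by
    rw [hK]
    rintro _ ⟨x, hx, rfl⟩
    exact ⟨(h1 x).1 (congrArg Prod.fst hx), (h2 x).1 (congrArg Prod.snd hx)⟩
  have k2 : Nat.card K ≤ 64 := by
    rw [card_eq_ncard_orbit_mul K (gPt 23), inf_comm]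
    refine Nat.mul_le_mul (n₂ := 8) (m₂ := 8) ((orbit_subset_of_invariant (U := oct0) (x := gPt 23) (fun x hx => (k1 x hx).2 0)
      (by decide +kernel)).trans oct0_mem.2.le) ?_
    rw [← inf_eq_right.2 (inf_le_left (a := stabilizer M24 (gPt 23)) (b := K))]
    refine (chain23.card_inf_le ((PruneOK.anyL fun B _ => pruneOK_set B B).mono fun x hx B hB => ?_)
      [1, 2, 4, 8, 4536592, 32]).trans (Nat.le_of_ble_eq_true (m := 8) (show Nat.ble (ubC
        (fun F P => anyL (fun B => pruneSet B B F P) [8536111, 4536592, 3704512, tet 904 23, tet 1105 23, tet 2544 23]) _ _) _ = true by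
          decide +kernel))
    have t : ∀ y, pc24 (ldr (idx y)) = 4 → x • ofMask (tet (idx y) 23) = ofMask (tet (idx y) 23) := fun y h =>
      (ofMask_tet (hi y).1 (by norm_num) ((k1 x hx.2).1 y ▸ Finset.smul_mem_smul_finset (tet_mem (hi y).1 h (by norm_num)).1)
        (mem_stabilizer_iff.1 hx.1 ▸ Finset.smul_mem_smul_finset (tet_mem (hi y).1 h (by norm_num)).2)).symm
    simp only [List.mem_cons, List.not_mem_nil, or_false] at hB
    rcases hB with rfl | rfl | rfl | rfl | rfl | rfl
    exacts [(k1 x hx.2).2 0, (k1 x hx.2).2 1, (k1 x hx.2).2 2, t ![1, 0, 0] (by decide +kernel),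
      t ![0, 1, 0] (by decide +kernel), t ![0, 0, 1] (by decide +kernel)]
  have hX : ∀ P ∈ kerG, Good ⊤ P := good_top_of_all (by decide +kernel)
  obtain ⟨k3, k4⟩ := eq_gen_of_card_le [23, 4] (H := K) (S := kerG) (fun P hP => (hX P hP).of_rep fun x hx => by
    have := (allL_iff _ _).1 (show allL (fun P => decide (tact P 501 = 501 ∧ (∀ y, lin (sTab P) (idx y) = idx y) ∧
      ∀ i : Fin 3, actMask (pf P) (nth 0 [8536111, 4536592, 3704512] i) = nth 0 [8536111, 4536592, 3704512] i)) kerG = true by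
        decide +kernel) P hP
    obtain ⟨a, b, c⟩ := of_decide_eq_true this
    rw [hK]
    exact ⟨⟨x, (isFam_trios.smul_eq_iff hx (by norm_num) (by decide +kernel) (by norm_num) (by decide +kernel)).2 a⟩,
      Prod.ext ((h1 _).2 fun y => by rw [hx.smul_sext (hi y).1, b]) ((h2 _).2 fun i => by rw [hx.smul_ofMask, c]), rfl⟩)
    (by decide +kernel) k2
  obtain ⟨N, n1, n2, n3, n4⟩ := exists_normal_quot_of_equiv (conjEquiv g _ _ fun x => mem_stabilizer_smul_iff) (θ₁.prod θ₂)
    (surjective_of_card_ker _ (by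
      rw [← k0, k4, card_stabilizer_trio trio0_mem, Nat.card_prod, CL.SLn.card_GL, Nat.card_perm, Nat.card_fin]; decide +kernel))
  refine ⟨N, n1, n2.trans (k0.symm.trans k4), fun x hx => ?_, n4⟩
  have := gen_pow_eq_one hX (by decide +kernel) (n := 2) (by decide +kernel) _ (k3.le (hK.ge ⟨_, n3 x hx, rfl⟩))
  apply (conjEquiv g _ _ fun x => mem_stabilizer_smul_iff).symm.injective
  rw [map_mul, map_one, ← sq]
  exact Subtype.ext this

end Cfsg.Agent.S1558
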