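import Cfsg.Statements.S1560
import Cfsg.Agent.Spor.M24Octad

set_option autoImplicit false
open scoped Pointwise
open Cfsg

namespace Cfsg.Agent.S1560

open CL.Spor MulAction

/-- Intersection numbers of dodecads: a dodecad meets every other dodecad in 0, 4, 6 or 8 points, meeting 495 of them in 4 points, 1584 in 6 points and 495 in 8 points. -/
theorem result (d : Finset Cfsg.GolayPt) (hd : d ∈ Cfsg.dodecads) : (∀ d' ∈ Cfsg.dodecads, d' ≠ d → (d ∩ d').card = 0 ∨ (d ∩ d').card = 4 ∨ (d ∩ d').card = 6 ∨ (d ∩ d').card = 8) ∧ {d' : Finset Cfsg.GolayPt | d' ∈ Cfsg.dodecads ∧ (d ∩ d').card = 4}.ncard = 495 ∧ {d' : Finset Cfsg.GolayPt | d' ∈ Cfsg.dodecads ∧ (d ∩ d').card = 6}.ncard = 1584 ∧ {d' : Finset Cfsg.GolayPt | d' ∈ Cfsg.dodecads ∧ (d ∩ d').card = 8}.ncard = 495 := by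
  refine ⟨fun d' hd' hne => ?_, ?_⟩
  · have h1 := card_symmDiff_add d d'
    have h2 := GC_card (GC_symmDiff hd.1 hd'.1)
    have h3 : (symmDiff d d').card ≠ 0 := by
      rw [Ne, Finset.card_eq_zero, ← Finset.bot_eq_empty, symmDiff_eq_bot]; exact hne.symm
    rw [hd.2, hd'.2] at h1
    omega
  obtain ⟨g, rfl⟩ := exists_eq_smul (M24_dodecad_trans0 hd)
  exact ⟨(ncard_cw_inter_smul g 12 _ _).trans ((ncard_cw_inter _ _ _).trans (by decide +kernel)),
    (ncard_cw_inter_smul g 12 _ _).trans ((ncard_cw_inter _ _ _).trans (by decide +kernel)),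
    (ncard_cw_inter_smul g 12 _ _).trans ((ncard_cw_inter _ _ _).trans (by decide +kernel))⟩

end Cfsg.Agent.S1560
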