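import Cfsg.Statements.S1568
import Cfsg.Agent.Spor.LeechShape
import Cfsg.Agent.Spor.LeechCount

set_option autoImplicit false
open Cfsg

namespace Cfsg.Agent.S1568

/-- Shape census of the lattice vectors of sum of squares 48 (customary norm 6): the four families (2^12, 0^12), (±3^3, ±1^21), (±4, ±2^8, 0^15) and (±5, ±1^23) have 5275648, 8290304, 3108864 and 98304 members. -/
theorem result : {x : Cfsg.GolayPt → ℤ | x ∈ Cfsg.leechLattice ∧ Cfsg.sqNorm x = 48 ∧ ∀ i, x i = 0 ∨ x i = 2 ∨ x i = -2}.ncard = 5275648 ∧ {x : Cfsg.GolayPt → ℤ | x ∈ Cfsg.leechLattice ∧ Cfsg.sqNorm x = 48 ∧ ∃ i j k, i ≠ j ∧ j ≠ k ∧ i ≠ k ∧ |x i| = 3 ∧ |x j| = 3 ∧ |x k| = 3}.ncard = 8290304 ∧ {x : Cfsg.GolayPt → ℤ | x ∈ Cfsg.leechLattice ∧ Cfsg.sqNorm x = 48 ∧ ∃ i, |x i| = 4}.ncard = 3108864 ∧ {x : Cfsg.GolayPt → ℤ | x ∈ Cfsg.leechLattice ∧ Cfsg.sqNorm x = 48 ∧ ∃ i, |x i| = 5}.ncard = 98304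 := by
  refine ⟨CL.Spor.Leech.ncard_48_two, ?_, CL.Spor.Leech.ncard_48_four, CL.Spor.Leech.ncard_48_five⟩
  rw [← CL.Spor.Leech.ncard_48_three]
  refine congrArg Set.ncard (Set.ext fun x => ?_)
  simp only [Set.mem_ofPred_eq]
  refine and_congr_right fun hx => and_congr_right fun hn => ⟨?_, ?_⟩
  · rintro ⟨i, -, -, -, -, -, h, -⟩
    exact ⟨i, h⟩
  · rintro ⟨i, hi⟩
    have hodd : ∀ j, x j % 2 = 1 := fun j => by
      have := CL.Spor.Leech.parity_eq hx j i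
      rcases abs_cases (x i) with h | h <;> omega
    obtain ⟨h1, h2⟩ := CL.Spor.Leech.odd_shape (by omega) hodd
    have h3 : 0 < (CL.Spor.Leech.lev x 3).card := Finset.card_pos.2 ⟨i, CL.Spor.Leech.mem_lev.2 hi⟩
    have h4 : (CL.Spor.Leech.lev x 3).card = 3 := by omega
    obtain ⟨a, b, c, hab, hac, hbc, h5⟩ := Finset.card_eq_three.1 h4
    refine ⟨a, b, c, hab, hbc, hac, ?_, ?_, ?_⟩ <;> rw [← CL.Spor.Leech.mem_lev, h5] <;> simp

end Cfsg.Agent.S1568
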