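import Cfsg.Statements.S1571
import Cfsg.Agent.Spor.LeechTrans

set_option autoImplicit false
open scoped Pointwise
open Cfsg

namespace Cfsg.Agent.S1571

/-- The stabiliser of the standard cross in the automorphism group of the lattice is the monomial group of the code: each of its elements acts as a signed permutation with permutation part in the code's group and sign set a codeword, and it has order 4096 · 244823040. -/
theorem result : (∀ g : ↥Cfsg.Co0, (∀ v : ↥Cfsg.leechLattice, (v : Cfsg.GolayPt → ℤ) ∈ Cfsg.stdCross → ((g • v : ↥Cfsg.leechLattice) : Cfsg.GolayPt → ℤ) ∈ Cfsg.stdCross) → ∃ f ∈ Cfsg.golayMonomialMaps, ∀ v : ↥Cfsg.leechLattice, ((g • v : ↥Cfsg.leechLattice) : Cfsg.GolayPt → ℤ) = f (v : Cfsg.GolayPt → ℤ)) ∧ Nat.card {g : ↥Cfsg.Co0 // (∀ v : ↥Cfsg.leechLattice, (v : Cfsg.GolayPt → ℤ) ∈ Cfsg.stdCross → ((g • v : ↥Cfsg.leechLattice) : Cfsg.GolayPt → ℤ) ∈ Cfsg.stdCross)} = 4096 * 244823040 := by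
    refine ⟨fun g hg => ?_, ?_⟩
    · obtain ⟨σ, hσ, c, hc, rfl⟩ := CL.Spor.Leech.mem_Nsub_iff_cross.2 hg
      exact ⟨_, ⟨σ, hσ, c, hc, rfl⟩, fun v => rfl⟩
    · rw [← CL.Spor.card_M24, ← CL.Spor.Leech.card_Nsub]
      exact Nat.card_congr (Equiv.subtypeEquivRight fun g => CL.Spor.Leech.mem_Nsub_iff_cross.symm)

end Cfsg.Agent.S1571
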