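import Cfsg.Statements.S1572
import Cfsg.Agent.Spor.LeechMax

set_option autoImplicit false
open scoped Pointwise
open Cfsg

namespace Cfsg.Agent.S1572

/-- The stabiliser of the standard cross is a maximal proper subgroup of the lattice's automorphism group. -/
theorem result (H : Subgroup ↥Cfsg.Co0) (hH : (H : Set ↥Cfsg.Co0) = {g : ↥Cfsg.Co0 | (∀ v : ↥Cfsg.leechLattice, (v : Cfsg.GolayPt → ℤ) ∈ Cfsg.stdCross → ((g • v : ↥Cfsg.leechLattice) : Cfsg.GolayPt → ℤ) ∈ Cfsg.stdCross)}) : IsCoatom H := by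
    have : H = CL.Spor.Leech.Nsub := Subgroup.ext fun g => by
      rw [CL.Spor.Leech.mem_Nsub_iff_cross, ← SetLike.mem_coe, hH]; rfl
    rw [this]; exact CL.Spor.Leech.Nsub_isCoatom

end Cfsg.Agent.S1572
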