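import Cfsg.Statements.S1579
import Cfsg.Agent.Spor.LeechPairs

set_option autoImplicit false
open Cfsg

namespace Cfsg.Agent.S1579

/-- The stabiliser of a vector of customary norm 6 is transitive on the 552 minimal vectors that complete it to a sum of two minimal vectors. -/
theorem result (u v v' : ↥Cfsg.leechLattice) (hu : Cfsg.sqNorm (u : Cfsg.GolayPt → ℤ) = 48) (hv : Cfsg.sqNorm (v : Cfsg.GolayPt → ℤ) = 32 ∧ Cfsg.sqNorm ((u - v) : Cfsg.GolayPt → ℤ) = 32) (hv' : Cfsg.sqNorm (v' : Cfsg.GolayPt → ℤ) = 32 ∧ Cfsg.sqNorm ((u - v') : Cfsg.GolayPt → ℤ) = 32) : ∃ g : ↥Cfsg.Co0, g • u = u ∧ g • v = v' := by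
    have key : ∀ x : leechLattice, sqNorm (x : GolayPt → ℤ) = 32 ∧ sqNorm ((u - x) : GolayPt → ℤ) = 32 →
        ∃ g : Co0, g • (-u) = Spor.leechV ∧ g • x = Spor.leechU := fun x hx => by
      refine CL.Spor.Leech.pair_48_m24 (by rw [AddSubgroup.coe_neg, CL.Spor.Leech.sqNorm_neg, hu]) hx.1 ?_
      have := hx.2
      rw [CL.Spor.Leech.sqNorm_sub, hu, hx.1] at this
      rw [AddSubgroup.coe_neg, CL.Spor.Leech.dot_neg_left]
      omega
    obtain ⟨g, h1, h2⟩ := CL.Spor.Leech.pair_of_base (key v hv) (key v' hv')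
    open CL.Spor.Leech in
    rw [smul_neg, neg_inj] at h1
    exact ⟨g, h1, h2⟩

end Cfsg.Agent.S1579
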