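import Cfsg.Statements.S1580
import Cfsg.Agent.Spor.LeechOrb

set_option autoImplicit false
open Cfsg

namespace Cfsg.Agent.S1580
open CL.Spor.Leech

/-- The McLaughlin configuration: for u of customary norm 6 and v minimal with u − v minimal, there are 275 further such summands x of customary inner product 2 with v, permuted transitively by the stabiliser of u and v. -/
theorem result (u v : ↥Cfsg.leechLattice) (hu : Cfsg.sqNorm (u : Cfsg.GolayPt → ℤ) = 48) (hv : Cfsg.sqNorm (v : Cfsg.GolayPt → ℤ) = 32 ∧ Cfsg.sqNorm ((u - v) : Cfsg.GolayPt → ℤ) = 32) : {x : ↥Cfsg.leechLattice | Cfsg.sqNorm (x : Cfsg.GolayPt → ℤ) = 32 ∧ Cfsg.sqNorm ((u - x) : Cfsg.GolayPt → ℤ) = 32 ∧ Cfsg.dotInt (v : Cfsg.GolayPt → ℤ) (x : Cfsg.GolayPt → ℤ) = 16}.ncard = 275 ∧ ∀ x ∈ {x : ↥Cfsg.leechLattice | Cfsg.sqNorm (x : Cfsg.GolayPt → ℤ) = 32 ∧ Cfsg.sqNorm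 ((u - x) : Cfsg.GolayPt → ℤ) = 32 ∧ Cfsg.dotInt (v : Cfsg.GolayPt → ℤ) (x : Cfsg.GolayPt → ℤ) = 16}, ∀ x' ∈ {x : ↥Cfsg.leechLattice | Cfsg.sqNorm (x : Cfsg.GolayPt → ℤ) = 32 ∧ Cfsg.sqNorm ((u - x) : Cfsg.GolayPt → ℤ) = 32 ∧ Cfsg.dotInt (v : Cfsg.GolayPt → ℤ) (x : Cfsg.GolayPt → ℤ) = 16}, ∃ g : ↥Cfsg.Co0, g • u = u ∧ g • v = v ∧ g • x = x' := by
    have key : ∀ x : leechLattice, sqNorm (x : GolayPt → ℤ) = 32 → (sqNorm ((u - x) : GolayPt → ℤ) = 32 ↔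
        dotInt (u : GolayPt → ℤ) x = 24) := fun x hx => by rw [sqNorm_sub, hu, hx]; omega
    have h := mcl_orb hu ⟨hv.1, (key v hv.1).1 hv.2⟩
    have e : {x : leechLattice | sqNorm (x : GolayPt → ℤ) = 32 ∧ sqNorm ((u - x) : GolayPt → ℤ) = 32 ∧
        dotInt (v : GolayPt → ℤ) x = 16} = tri u 24 v 16 := Set.ext fun x =>
      ⟨fun h => ⟨⟨h.1, (key x h.1).1 h.2.1⟩, h.2.2⟩, fun h => ⟨h.1.1, (key x h.1.1).2 h.1.2, h.2⟩⟩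
    rw [e]
    exact ⟨h.1, fun x hx y hy => let ⟨g, hg, e⟩ := h.trans hx hy; ⟨g, hg.1, hg.2, e⟩⟩

end Cfsg.Agent.S1580
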