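import Cfsg.Statements.S1581
import Cfsg.Agent.Spor.LeechOrb

set_option autoImplicit false
open Cfsg

namespace Cfsg.Agent.S1581
open CL.Spor.Leech

/-- The McLaughlin group acts with rank 3 and subdegrees 1, 112, 162 on its 275 points: the point stabiliser has two orbits on the remaining points, distinguished by customary inner product 1 or 2 with the fixed point. -/
theorem result (u v x : ↥Cfsg.leechLattice) (hu : Cfsg.sqNorm (u : Cfsg.GolayPt → ℤ) = 48) (hv : Cfsg.sqNorm (v : Cfsg.GolayPt → ℤ) = 32 ∧ Cfsg.sqNorm ((u - v) : Cfsg.GolayPt → ℤ) = 32) (hx : x ∈ {x : ↥Cfsg.leechLattice | Cfsg.sqNorm (x : Cfsg.GolayPt → ℤ) = 32 ∧ Cfsg.sqNorm ((u - x) : Cfsg.GolayPt → ℤ) = 32 ∧ Cfsg.dotInt (v : Cfsg.GolayPt → ℤ) (x : Cfsg.GolayPt → ℤ) = 16}) : {y : ↥Cfsg.leechLattice | y ∈ {x : ↥Cfsg.leechLattice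 | Cfsg.sqNorm (x : Cfsg.GolayPt → ℤ) = 32 ∧ Cfsg.sqNorm ((u - x) : Cfsg.GolayPt → ℤ) = 32 ∧ Cfsg.dotInt (v : Cfsg.GolayPt → ℤ) (x : Cfsg.GolayPt → ℤ) = 16} ∧ Cfsg.dotInt (x : Cfsg.GolayPt → ℤ) (y : Cfsg.GolayPt → ℤ) = 8}.ncard = 112 ∧ {y : ↥Cfsg.leechLattice | y ∈ {x : ↥Cfsg.leechLattice | Cfsg.sqNorm (x : Cfsg.GolayPt → ℤ) = 32 ∧ Cfsg.sqNorm ((u - x) : Cfsg.GolayPt → ℤ) = 32 ∧ Cfsg.dotInt (v : Cfsg.GolayPt → ℤ) (x : Cfsg.GolayPt → ℤ) = 16} ∧ y ≠ x ∧ Cfsg.dotInt (x : Cfsg.GolayPt → ℤ) (y : Cfsg.GolayPt → ℤ) = 16}.ncard = 162 ∧ ∀ y ∈ {x : ↥Cfsg.leechLattice | Cfsg.sqNorm (x : Cfsg.GolayPt → ℤ) = 32 ∧ Cfsg.sqNorm ((u - x) : Cfsg.GolayPt → ℤ) = 32 ∧ Cfsg.dotInt (v : Cfsg.GolayPt → ℤ) (x : Cfsg.GolayPt → ℤ) = 16}, ∀ y' ∈ {x : ↥Cfsg.leechLattice | Cfsg.sqNorm (x : Cfsg.GolayPt → ℤ) = 32 ∧ Cfsg.sqNorm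 ((u - x) : Cfsg.GolayPt → ℤ) = 32 ∧ Cfsg.dotInt (v : Cfsg.GolayPt → ℤ) (x : Cfsg.GolayPt → ℤ) = 16}, y ≠ x → y' ≠ x → Cfsg.dotInt (x : Cfsg.GolayPt → ℤ) (y : Cfsg.GolayPt → ℤ) = Cfsg.dotInt (x : Cfsg.GolayPt → ℤ) (y' : Cfsg.GolayPt → ℤ) → ∃ g : ↥Cfsg.Co0, g • u = u ∧ g • v = v ∧ g • x = x ∧ g • y = y' := by
    have key : ∀ x : leechLattice, sqNorm (x : GolayPt → ℤ) = 32 → (sqNorm ((u - x) : GolayPt → ℤ) = 32 ↔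
        dotInt (u : GolayPt → ℤ) x = 24) := fun x hx => by rw [sqNorm_sub, hu, hx]; omega
    have e : {x : leechLattice | sqNorm (x : GolayPt → ℤ) = 32 ∧ sqNorm ((u - x) : GolayPt → ℤ) = 32 ∧
        dotInt (v : GolayPt → ℤ) x = 16} = tri u 24 v 16 := Set.ext fun x =>
      ⟨fun h => ⟨⟨h.1, (key x h.1).1 h.2.1⟩, h.2.2⟩, fun h => ⟨h.1.1, (key x h.1.1).2 h.1.2, h.2⟩⟩
    rw [e] at hx ⊢
    obtain ⟨h1, h2, h3⟩ := u43_orb hu ⟨hv.1, (key v hv.1).1 hv.2⟩ hx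
    refine ⟨h1.1, ?_, fun y hy y' hy' hn _ hd => ?_⟩
    · rw [← h2.1]
      refine congrArg Set.ncard (Set.ext fun y => ⟨fun h => ⟨h.1, h.2.2⟩, fun h => ⟨h.1, ?_, h.2⟩⟩)
      rintro rfl
      have := h.2; rw [← sqNorm_eq_dot, hx.1.1] at this; omega
    · have := h3 y hy
      simp only [List.mem_cons, List.not_mem_nil, or_false] at this
      rcases this with h | h | h
      · obtain ⟨g, hg, e⟩ := h1.trans ⟨hy, h⟩ ⟨hy', hd ▸ h⟩; exact ⟨g, hg.1.1, hg.1.2, hg.2, e⟩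
      · obtain ⟨g, hg, e⟩ := h2.trans ⟨hy, h⟩ ⟨hy', hd ▸ h⟩; exact ⟨g, hg.1.1, hg.1.2, hg.2, e⟩
      · exact absurd (eq_of_dot_self hx.1.1 hy.1.1 h) hn

end Cfsg.Agent.S1581
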