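import Cfsg.Statements.S1584
import Cfsg.Agent.Spor.LeechOrb

set_option autoImplicit false
open Cfsg

namespace Cfsg.Agent.S1584
open CL.Spor.Leech

/-- The Higman–Sims group acts with rank 3 and subdegrees 1, 22, 77 on its 100 points, the orbits of a point stabiliser being distinguished by customary inner product 1 with the fixed point. -/
theorem result (v w x : ↥Cfsg.leechLattice) (hv : Cfsg.sqNorm (v : Cfsg.GolayPt → ℤ) = 48) (hw : Cfsg.sqNorm (w : Cfsg.GolayPt → ℤ) = 48) (hvw : Cfsg.dotInt (v : Cfsg.GolayPt → ℤ) (w : Cfsg.GolayPt → ℤ) = -32) (hx : x ∈ {x : ↥Cfsg.leechLattice | Cfsg.sqNorm (x : Cfsg.GolayPt → ℤ) = 32 ∧ Cfsg.dotInt (v : Cfsg.GolayPt → ℤ) (x : Cfsg.GolayPt → ℤ) = 24 ∧ Cfsg.dotInt (w : Cfsg.GolayPt → ℤ) (x : Cfsg.GolayPt → ℤ) = -24}) : {y : ↥Cfsg.leechLattice | y ∈ {x : ↥Cfsg.leechLattice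 | Cfsg.sqNorm (x : Cfsg.GolayPt → ℤ) = 32 ∧ Cfsg.dotInt (v : Cfsg.GolayPt → ℤ) (x : Cfsg.GolayPt → ℤ) = 24 ∧ Cfsg.dotInt (w : Cfsg.GolayPt → ℤ) (x : Cfsg.GolayPt → ℤ) = -24} ∧ Cfsg.dotInt (x : Cfsg.GolayPt → ℤ) (y : Cfsg.GolayPt → ℤ) = 8}.ncard = 22 ∧ {y : ↥Cfsg.leechLattice | y ∈ {x : ↥Cfsg.leechLattice | Cfsg.sqNorm (x : Cfsg.GolayPt → ℤ) = 32 ∧ Cfsg.dotInt (v : Cfsg.GolayPt → ℤ) (x : Cfsg.GolayPt → ℤ) = 24 ∧ Cfsg.dotInt (w : Cfsg.GolayPt → ℤ) (x : Cfsg.GolayPt → ℤ) = -24} ∧ y ≠ x ∧ Cfsg.dotInt (x : Cfsg.GolayPt → ℤ) (y : Cfsg.GolayPt → ℤ) ≠ 8}.ncard = 77 ∧ ∀ y ∈ {x : ↥Cfsg.leechLattice | Cfsg.sqNorm (x : Cfsg.GolayPt → ℤ) = 32 ∧ Cfsg.dotInt (v : Cfsg.GolayPt → ℤ) (x : Cfsg.GolayPt → ℤ) = 24 ∧ Cfsg.dotInt (w : Cfsg.GolayPt → ℤ) (x : Cfsg.GolayPt → ℤ) = -24}, ∀ y' ∈ {x : ↥Cfsg.leechLattice | Cfsg.sqNorm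 (x : Cfsg.GolayPt → ℤ) = 32 ∧ Cfsg.dotInt (v : Cfsg.GolayPt → ℤ) (x : Cfsg.GolayPt → ℤ) = 24 ∧ Cfsg.dotInt (w : Cfsg.GolayPt → ℤ) (x : Cfsg.GolayPt → ℤ) = -24}, y ≠ x → y' ≠ x → (Cfsg.dotInt (x : Cfsg.GolayPt → ℤ) (y : Cfsg.GolayPt → ℤ) = 8 ↔ Cfsg.dotInt (x : Cfsg.GolayPt → ℤ) (y' : Cfsg.GolayPt → ℤ) = 8) → ∃ g : ↥Cfsg.Co0, g • v = v ∧ g • w = w ∧ g • x = x ∧ g • y = y' := by
    have e : {x : leechLattice | sqNorm (x : GolayPt → ℤ) = 32 ∧ dotInt (v : GolayPt → ℤ) x = 24 ∧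
        dotInt (w : GolayPt → ℤ) x = -24} = tri v 24 w (-24) := Set.ext fun x => and_assoc.symm
    rw [e] at hx ⊢
    obtain ⟨h1, h2, h3⟩ := m22_orb hv hw hvw hx
    have h4 : ∀ y ∈ tri v 24 w (-24), y ≠ x → dotInt (x : GolayPt → ℤ) y ≠ 8 → dotInt (x : GolayPt → ℤ) y = 16 :=
      fun y hy hn h8 => by
        have := h3 y hy
        simp only [List.mem_cons, List.not_mem_nil, or_false] at this
        exact (this.resolve_left h8).resolve_right fun h => hn (eq_of_dot_self hx.1.1 hy.1.1 h)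
    refine ⟨h1.1, ?_, fun y hy y' hy' hn hn' hd => ?_⟩
    · rw [← h2.1]
      refine congrArg Set.ncard (Set.ext fun y => ⟨fun h => ⟨h.1, h4 y h.1 h.2.1 h.2.2⟩, fun h => ⟨h.1, ?_, ?_⟩⟩)
      · rintro rfl
        have := h.2; rw [← sqNorm_eq_dot, hx.1.1] at this; omega
      · rw [h.2]; norm_num
    · by_cases h : dotInt (x : GolayPt → ℤ) y = 8
      · obtain ⟨g, hg, e⟩ := h1.trans ⟨hy, h⟩ ⟨hy', hd.1 h⟩; exact ⟨g, hg.1.1, hg.1.2, hg.2, e⟩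
      · obtain ⟨g, hg, e⟩ := h2.trans ⟨hy, h4 y hy hn h⟩ ⟨hy', h4 y' hy' hn' (mt hd.2 h)⟩
        exact ⟨g, hg.1.1, hg.1.2, hg.2, e⟩

end Cfsg.Agent.S1584
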