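import Cfsg.Statements.S1589
import Cfsg.Agent.Spor.M24Idx

set_option autoImplicit false
open scoped Pointwise
open Cfsg

namespace Cfsg.Agent.S1589

open CL.Spor MulAction

/-- Subgroups of the group of the length-24 code of index 759, 276 and 1771 are exactly the octad, duad and sextet stabilisers, and no subgroup has index 253. -/
theorem result : (∀ H : Subgroup ↥Cfsg.M24, H.index = 759 → ∃ o ∈ Cfsg.octads, H = MulAction.stabilizer Cfsg.M24 o) ∧ (∀ H : Subgroup ↥Cfsg.M24, H.index = 276 → ∃ s : Finset Cfsg.GolayPt, s.card = 2 ∧ H = MulAction.stabilizer Cfsg.M24 s) ∧ (∀ H : Subgroup ↥Cfsg.M24, H.index = 1771 → ∃ S ∈ Cfsg.sextets, H = MulAction.stabilizer Cfsg.M24 S) ∧ ∀ H : Subgroup ↥Cfsg.M24, H.index ≠ 253 := by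
  have hc : ∀ (H : Subgroup M24) (i n : ℕ), H.index = i → 0 < i → i * n = 244823040 → Nat.card H = n :=
    fun H i n h h0 e => Nat.eq_of_mul_eq_mul_left h0 (by rw [e, ← h, H.index_mul_card, card_M24])
  refine ⟨fun H h => ?_, fun H h => ?_, fun H h => ?_, fun H h => ?_⟩
  · have hn := hc H _ 322560 h (by norm_num) (by norm_num)
    obtain ⟨y, -, hy⟩ := exists_conj_ge Nat.prime_two sylIn_P2 (H := H) le_top (by rw [card_P2, hn]; norm_num)
    exact ⟨_, (smul_mem_octads_iff y⁻¹).2 oct0_mem,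
      eq_stabilizer_of_map_conj (over_P2_759 hy ((card_map_conj _ _).trans hn))⟩
  · have hn := hc H _ 887040 h (by norm_num) (by norm_num)
    obtain ⟨y, -, hy⟩ := exists_conj_ge (by norm_num) sylIn_a11 (H := H) le_top (by rw [card_a11, hn]; norm_num)
    exact ⟨_, (Finset.card_smul_finset y⁻¹ _).trans duad0_card,
      eq_stabilizer_of_map_conj (over_a11_276 hy ((card_map_conj _ _).trans hn))⟩
  · have hn := hc H _ 138240 h (by norm_num) (by norm_num)
    obtain ⟨y, -, hy⟩ := exists_conj_ge Nat.prime_two sylIn_P2 (H := H) le_top (by rw [card_P2, hn]; norm_num)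
    exact ⟨_, (smul_mem_sextets_iff y⁻¹).2 sext0_mem,
      eq_stabilizer_of_map_conj (over_P2_1771 hy ((card_map_conj _ _).trans hn))⟩
  · have hn := hc H _ 967680 h (by norm_num) (by norm_num)
    obtain ⟨y, -, hy⟩ := exists_conj_ge Nat.prime_two sylIn_P2 (H := H) le_top (by rw [card_P2, hn]; norm_num)
    exact over_P2_253 hy ((card_map_conj _ _).trans hn)

end Cfsg.Agent.S1589
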