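import Cfsg.Statements.S1594
import Cfsg.Agent.Spor.CodeTG
import Cfsg.Agent.S0425

set_option autoImplicit false
open Cfsg

namespace Cfsg.Agent.S1594

open CL.Mx CL.Mx.Code

/-- The monomial automorphism group of the length-12 ternary code has order 190080 and its permutation parts are exactly the automorphisms of its hexad system. -/
theorem result : Nat.card {f : Equiv.Perm Cfsg.ArrayPt × (Cfsg.ArrayPt → (ZMod 3)ˣ) // (∀ x ∈ Cfsg.ternaryGolayCode, Cfsg.monomialMap f.1 f.2 x ∈ Cfsg.ternaryGolayCode)} = 190080 ∧ {σ : Equiv.Perm Cfsg.ArrayPt | ∃ c : Cfsg.ArrayPt → (ZMod 3)ˣ, (∀ x ∈ Cfsg.ternaryGolayCode, Cfsg.monomialMap σ c x ∈ Cfsg.ternaryGolayCode)} = (Cfsg.setSystemAut {h : Finset Cfsg.ArrayPt | ∃ x ∈ Cfsg.ternaryGolayCode, Cfsg.ternarySupport x = h ∧ h.card = 6} : Set (Equiv.Perm Cfsg.ArrayPt)) := by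
  have h1 : Nat.card (setSystemAut hexads) = 95040 := (S0425.result rfl steiner_hexads).1.2
  have h2 := Subgroup.eq_of_le_of_card_ge permPart_le (h1 ▸ le_card_permPart)
  refine ⟨(card_monomial (ternaryGolayCode : Set (ArrayPt → ZMod 3))).trans ?_, congrArg SetLike.coe h2⟩
  rw [h2, h1]
  refine (congrArg _ (card_diag ternaryGolayCode diag_tgc)).trans ?_
  rw [Nat.card_units, Nat.card_zmod]

end Cfsg.Agent.S1594
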