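import Cfsg.Statements.S1598
import Cfsg.Agent.Spor.M24Iso

set_option autoImplicit false
open scoped Pointwise
open Cfsg

namespace Cfsg.Agent.S1598

open CL.Spor MulAction

def idx (y : Fin 2 → ZMod 3) : ℕ := nth 0 [984818244535754528103549039458486304, 928718206277989008510816407558424608, 487607080158395075740321133224921120, 858249338590762411966147903161237569, 891256915141300104684601826038906945, 608132182080247986231149538876424257, 630488151153570250854033705891136514, 232830186133421440756815622813352962, 809648025571350634416323764134740994]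
  ((y 0).val + 3 * (y 1).val)

/-- A quartet stabiliser inside the dodecad stabiliser has order 432, a normal subgroup of order 9 with quotient GL(2, 3), and is transitive on the dodecad. -/
theorem result (d : Finset Cfsg.GolayPt) (hd : d ∈ Cfsg.dodecads) (Q : Finset (Finset Cfsg.GolayPt)) (hQ : Q ∈ Cfsg.quartets d) : Nat.card ↥(MulAction.stabilizer Cfsg.M24 d ⊓ MulAction.stabilizer Cfsg.M24 Q) = 432 ∧ (∃ (N : Subgroup ↥(MulAction.stabilizer Cfsg.M24 d ⊓ MulAction.stabilizer Cfsg.M24 Q)) (_ : N.Normal), Nat.card N = 9 ∧ Nonempty (↥(MulAction.stabilizer Cfsg.M24 d ⊓ MulAction.stabilizer Cfsg.M24 Q) ⧸ N ≃* GL (Fin 2) (ZMod 3))) ∧ ∀ p ∈ d, ∀ q ∈ d, ∃ g ∈ (MulAction.stabilizer Cfsg.M24 d ⊓ MulAction.stabilizer Cfsg.M24 Q), ((g : ↥Cfsg.M24) : Equiv.Perm Cfsg.GolayPt) p = q := by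
  obtain ⟨g, rfl, rfl⟩ := quartet_base hd hQ
  have e := conjEquiv g (stabilizer M24 dod0 ⊓ stabilizer M24 quart0)
    (stabilizer M24 (g • dod0) ⊓ stabilizer M24 (g • quart0))
    fun x => by simp only [Subgroup.mem_inf, mem_stabilizer_smul_iff]
  refine ⟨(Nat.card_congr e.toEquiv).symm.trans card_quart0, ?_, fun p hp q hq => ?_⟩
  · obtain ⟨θ, h1, -⟩ := exists_hom_conj idx (by decide +kernel) _
      (gl_ker_iff (by decide +kernel)) quartG_good quartG_eq (by
        intro P hP
        simp only [quartG, List.mem_cons, List.not_mem_nil, or_false] at hP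
        rcases hP with rfl | rfl
        · exact ⟨⟨!![2, 1; 2, 2], !![1, 1; 2, 1], by decide +kernel, by decide +kernel⟩, by decide +kernel⟩
        · exact ⟨⟨!![1, 0; 2, 2], !![1, 0; 2, 2], by decide +kernel, by decide +kernel⟩, by decide +kernel⟩)
    have h2 : Nat.card θ.ker = 9 := by
      have hi : ∀ y, inM24 (idx y) = true := by decide +kernel
      have := chainQuart.ncard_eq (fun x => ∀ y, x * m24 (idx y) * x⁻¹ = m24 (idx y))
        (fun P => decide (∀ y, pconj P (idx y) = idx y)) fun P x hP _ => by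
          rw [decide_eq_true_iff]
          exact forall_congr' fun y => hP.isConj_eq (rep_m24 (hi y)) (rep_m24 (hi y))
      rw [← Nat.card_coe_set_eq] at this
      refine (Nat.card_congr ?_).trans (this.trans (by decide +kernel))
      exact ⟨fun x => ⟨x.1.1, x.1.2, (h1 _).1 x.2⟩, fun x => ⟨⟨x.1, x.2.1⟩, (h1 _).2 x.2.2⟩, fun _ => rfl, fun _ => rfl⟩
    obtain ⟨N, n1, n2, -, n3⟩ := exists_normal_quot_of_equiv e θ (surjective_of_card_ker θ (by
      rw [h2, card_quart0, CL.SLn.card_GL]; decide))
    exact ⟨N, n1, n2.trans h2, n3⟩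
  · obtain ⟨p, rfl⟩ := MulAction.surjective g p
    obtain ⟨q, rfl⟩ := MulAction.surjective g q
    rw [Finset.smul_mem_smul_finset_iff] at hp hq
    obtain ⟨k, hk, e2⟩ := exists_fix_smul_of_orb quartG_good (b := 0) (m := 340831) (by norm_num) (by decide +kernel) hp hq
    exact ⟨g * k * g⁻¹, ⟨conj_smul_smul g k hk.1, conj_smul_smul g k hk.2⟩, conj_smul_smul g k e2⟩

end Cfsg.Agent.S1598
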