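import Cfsg.Statements.S1600
import Cfsg.Agent.Spor.M24Simple

set_option autoImplicit false
open scoped Pointwise
open Cfsg

namespace Cfsg.Agent.S1600

open CL.Spor MulAction

/-- The pointwise stabiliser of three points of a dodecad inside the dodecad stabiliser (order 72) is transitive on the complementary dodecad. -/
theorem result (d : Finset Cfsg.GolayPt) (hd : d ∈ Cfsg.dodecads) (p q r : Cfsg.GolayPt) (hp : p ∈ d) (hq : q ∈ d) (hr : r ∈ d) (hpq : p ≠ q) (hpr : p ≠ r) (hqr : q ≠ r) : Nat.card ↥(MulAction.stabilizer Cfsg.M24 d ⊓ MulAction.stabilizer Cfsg.M24 p ⊓ MulAction.stabilizer Cfsg.M24 q ⊓ MulAction.stabilizer Cfsg.M24 r) = 72 ∧ ∀ x ∉ d, ∀ y ∉ d, ∃ g ∈ (MulAction.stabilizer Cfsg.M24 d ⊓ MulAction.stabilizer Cfsg.M24 p ⊓ MulAction.stabilizer Cfsg.M24 q ⊓ MulAction.stabilizer Cfsg.M24 r), ((g : ↥Cfsg.M24) : Equiv.Perm Cfsg.GolayPt) x = y := by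
  have e : stabilizer M24 d ⊓ stabilizer M24 p ⊓ stabilizer M24 q ⊓ stabilizer M24 r =
      stabilizer M24 d ⊓ fixS {p, q, r} := by rw [fixS_triple]; simp only [inf_assoc]
  have hF : ({p, q, r} : Finset GolayPt) ⊆ d := by simp [Finset.insert_subset_iff, hp, hq, hr]
  have h3 : ({p, q, r} : Finset GolayPt).card = 3 := Finset.card_eq_three.2 ⟨_, _, _, hpq, hpr, hqr, rfl⟩
  rw [e]
  exact ⟨card_dodecad_fix_three hd hF h3, fun x hx y hy => dodecad_fix_three_trans_compl hd hF h3 hx hy⟩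

end Cfsg.Agent.S1600
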