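import Cfsg.Statements.S1602
import Cfsg.Agent.Spor.M24More

set_option autoImplicit false
open scoped Pointwise
open Cfsg

namespace Cfsg.Agent.S1602

open CL.Spor MulAction

/-- In the 12-point action of the smallest Mathieu group the setwise stabiliser of a pair is isomorphic to the symmetric group of degree 5. -/
theorem result (d : Finset Cfsg.GolayPt) (hd : d ∈ Cfsg.dodecads) (p q q' : Cfsg.GolayPt) (hp : p ∈ d) (hq : q ∉ d) (hq' : q' ∉ d) (hqq' : q ≠ q') : Nonempty (↥(MulAction.stabilizer Cfsg.M24 d ⊓ MulAction.stabilizer Cfsg.M24 p ⊓ MulAction.stabilizer Cfsg.M24 ({q, q'} : Finset Cfsg.GolayPt)) ≃* Equiv.Perm (Fin 5)) := by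
  obtain ⟨o, ho, hpo, e⟩ := exists_octad_pair hd hp hq hq' hqq'
  have c0 : (o ∩ d).card = 6 := by
    have := Finset.card_sdiff_add_card_inter o d
    rw [e, Finset.card_pair hqq', ho.2] at this; omega
  have c5 : ((o ∩ d).erase p).card = 5 := by rw [Finset.card_erase_of_mem (Finset.mem_inter.2 ⟨hpo, hp⟩), c0]
  refine nonempty_mulEquiv_perm _ ((o ∩ d).erase p) (fun g hg => ?_) (eq_bot_iff.2 fun g hg => ?_) c5 ?_
  · have h1 : g • o = o := by
      have a1 : g • o \ d = o \ d := by
        rw [← mem_stabilizer_iff.1 hg.1.1, ← Finset.smul_finset_sdiff, e, mem_stabilizer_iff.1 hg.2,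
          mem_stabilizer_iff.1 hg.1.1, e]
      have a2 : p ∈ g • o := mem_stabilizer_iff.1 hg.1.2 ▸ Finset.smul_mem_smul_finset hpo
      have ho' := (smul_mem_octads_iff g).2 ho
      have a3 := GC_symmDiff (mem_octads.1 ho').1 (mem_octads.1 ho).1
      have a4 : symmDiff (g • o) o ⊆ d.erase p := by
        intro x hx
        have := Finset.ext_iff.1 a1 x
        simp only [Finset.mem_sdiff, Finset.mem_symmDiff, Finset.mem_erase] at this hx ⊢
        refine ⟨?_, by tauto⟩
        rintro rfl; tauto
      have a5 := Finset.card_le_card a4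
      rw [Finset.card_erase_of_mem hp, hd.2] at a5
      rcases GC_card a3 with h | h | h
      · exact symmDiff_eq_bot.1 (Finset.card_eq_zero.1 h)
      · have := octad_dodecad_inter (mem_octads.2 ⟨a3, h⟩) hd
        rw [Finset.inter_eq_left.2 (a4.trans (Finset.erase_subset _ _))] at this
        omega
      · omega
    rw [Finset.erase_eq, Finset.smul_finset_sdiff, Finset.smul_finset_inter, h1, mem_stabilizer_iff.1 hg.1.1,
      Finset.smul_finset_singleton, mem_stabilizer_iff.1 hg.1.2]
  · exact dodecad_fix_five_eq_bot hd ((Finset.erase_subset _ _).trans Finset.inter_subset_right) c5 ▸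
      (⟨hg.1.1.1, hg.2⟩ : g ∈ stabilizer M24 d ⊓ fixS _)
  · have c1 := card_eq_ncard_orbit_mul (stabilizer M24 d ⊓ stabilizer M24 p) ({q, q'} : Finset GolayPt)
    have c2 : (orbit (stabilizer M24 d ⊓ stabilizer M24 p : Subgroup M24) ({q, q'} : Finset GolayPt)).ncard ≤ 66 := by
      refine (Set.ncard_le_ncard (t := (Finset.powersetCard 2 dᶜ : Finset (Finset GolayPt))) (fun x hx => ?_)).trans ?_
      · obtain ⟨k, hk, rfl⟩ := mem_orbit_subgroup_iff.1 hx
        refine Finset.mem_coe.2 (Finset.mem_powersetCard.2 ⟨?_, by rw [Finset.card_smul_finset, Finset.card_pair hqq']⟩)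
        rw [← mem_stabilizer_iff.1 hk.1, ← smul_finset_compl']
        exact Finset.smul_finset_subset_smul_finset (by simp [Finset.insert_subset_iff, hq, hq'])
      · rw [Set.ncard_coe_finset, Finset.card_powersetCard, (dodecad_compl hd).2]; decide
    have c3 := card_dodecad_fix_one hd (F := {p}) (by simpa) rfl
    rw [fixS_singleton] at c3
    rw [c3] at c1
    rw [show Nat.factorial 5 = 120 from rfl]
    nlinarith

end Cfsg.Agent.S1602
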