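import Cfsg.Statements.S1606
import Cfsg.Agent.Spor.M24Idx

set_option autoImplicit false
open scoped Pointwise
open Cfsg

namespace Cfsg.Agent.S1606

open CL.Spor MulAction

/-- The stabiliser of two points in the group of the length-24 code has no subgroups of index 56 or 210. -/
theorem result (p q : Cfsg.GolayPt) (hpq : p ≠ q) (H : Subgroup ↥(MulAction.stabilizer Cfsg.M24 p ⊓ MulAction.stabilizer Cfsg.M24 q)) : H.index ≠ 56 ∧ H.index ≠ 210 := by
  obtain ⟨g, h1, h2⟩ := M24_trans2 (p' := gPt 23) (q' := gPt 0) hpq (by decide +kernel)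
  have e : (stabilizer M24 p ⊓ stabilizer M24 q).map (MulAut.conj g).toMonoidHom =
      stabilizer M24 (gPt 23) ⊓ stabilizer M24 (gPt 0) := by
    rw [← h1, ← h2, stabilizer_smul_eq_stabilizer_map_conj, stabilizer_smul_eq_stabilizer_map_conj,
      Subgroup.map_inf _ _ _ (MulAut.conj g).injective]
  have h3 := sub_M22 (H := (H.map (Subgroup.subtype _)).map (MulAut.conj g).toMonoidHom)
    (e ▸ Subgroup.map_mono (Subgroup.map_subtype_le H))
  rw [card_map_conj, Subgroup.card_map_of_injective (Subgroup.subtype_injective _)] at h3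
  have h4 := H.index_mul_card
  rw [← card_map_conj _ g, e, card_M22'] at h4
  constructor <;> intro h <;> rw [h] at h4 <;> omega

end Cfsg.Agent.S1606
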