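import Cfsg.Statements.S1609
import Cfsg.Agent.Spor.M24Idx

set_option autoImplicit false
open scoped Pointwise
open Cfsg

namespace Cfsg.Agent.S1609

open CL.Spor MulAction

/-- Subgroups of index 253 in the Mathieu group of degree 23 are exactly the duad stabilisers and the heptad stabilisers. -/
theorem result (x : Cfsg.GolayPt) (H : Subgroup ↥(MulAction.stabilizer Cfsg.M24 x)) (hH : H.index = 253) : (∃ s : Finset Cfsg.GolayPt, s.card = 2 ∧ x ∉ s ∧ H = (MulAction.stabilizer Cfsg.M24 s).subgroupOf (MulAction.stabilizer Cfsg.M24 x)) ∨ ∃ o ∈ Cfsg.octads, x ∈ o ∧ H = (MulAction.stabilizer Cfsg.M24 o).subgroupOf (MulAction.stabilizer Cfsg.M24 x) := by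
  obtain ⟨g, h1⟩ := M24_trans1 x (gPt 23)
  have e : (stabilizer M24 x).map (MulAut.conj g).toMonoidHom = stabilizer M24 (gPt 23) := by
    rw [← h1, stabilizer_smul_eq_stabilizer_map_conj]
  have h4 := H.index_mul_card
  rw [← card_map_conj (stabilizer M24 x) g, e, card_M23', hH] at h4
  have h2 : (H.map (Subgroup.subtype _)).map (MulAut.conj g).toMonoidHom ≤ stabilizer M24 (gPt 23) :=
    e ▸ Subgroup.map_mono (Subgroup.map_subtype_le H)
  have h3 : Nat.card ((H.map (Subgroup.subtype _)).map (MulAut.conj g).toMonoidHom) = 40320 := by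
    rw [card_map_conj, Subgroup.card_map_of_injective (Subgroup.subtype_injective _)]; omega
  obtain ⟨y, hy, h5⟩ := exists_conj_ge Nat.prime_two sylIn_Q2_M23 h2 (by rw [card_Q2, h3]; norm_num)
  have h6 := (card_map_conj _ y).trans h3
  have hx : (y * g) • x = gPt 23 := by rw [mul_smul, h1, mem_stabilizer_iff.1 hy]
  have key : ∀ A, ((H.map (Subgroup.subtype _)).map (MulAut.conj g).toMonoidHom).map (MulAut.conj y).toMonoidHom ≤
      St A 8388608 → Nat.card (St A 8388608) ≤ 40320 →
      H = (stabilizer M24 ((y * g)⁻¹ • ofMask A)).subgroupOf (stabilizer M24 x) := fun A hA hc => by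
    have h7 := Subgroup.eq_of_le_of_card_ge hA (hc.trans h6.ge)
    ext k
    have h8 : y * (g * k * g⁻¹) * y⁻¹ ∈ St A 8388608 ↔ k ∈ H := by
      rw [← h7]
      exact (Subgroup.mem_map_iff_mem (f := (MulAut.conj y).toMonoidHom) (MulAut.conj y).injective).trans
        ((Subgroup.mem_map_iff_mem (f := (MulAut.conj g).toMonoidHom) (MulAut.conj g).injective).trans
          (Subgroup.mem_map_iff_mem (Subgroup.subtype_injective _)))
    have h9 : y * (g * k * g⁻¹) * y⁻¹ = (y * g) * k * (y * g)⁻¹ := by group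
    rw [← h8, h9, St, fixS_23, Subgroup.mem_inf, Subgroup.mem_subgroupOf, mem_stabilizer_iff, mem_stabilizer_iff,
      mem_stabilizer_iff, ← hx, conj_smul_smul _ _ (mem_stabilizer_iff.1 k.2), mul_smul, mul_smul, smul_eq_iff_eq_inv_smul]
    exact and_iff_left rfl
  have hm : ∀ A, x ∈ (y * g)⁻¹ • ofMask A ↔ gPt 23 ∈ ofMask A := fun A => by
    rw [Finset.inv_smul_mem_iff.symm, inv_inv, hx]
  rcases over_Q2 (fixS_23 ▸ map_conj_le_of_mem h2 hy) h5 (.inl h6) with h | h
  · exact .inl ⟨_, by rw [Finset.card_smul_finset]; decide +kernel, by rw [hm]; decide +kernel, key _ h ub_6⟩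
  · exact .inr ⟨_, (smul_mem_octads_iff _).2 oct0_mem, (hm 8536111).2 (by decide +kernel), key _ h ub_oct⟩

end Cfsg.Agent.S1609
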