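import Cfsg.Statements.S1612
import Cfsg.Agent.Spor.TT6

set_option autoImplicit false
open Cfsg

namespace Cfsg.Agent.S1612

/-- In a 3-transposition group (no solvable normal subgroup, perfect derived group), the normaliser of a commuting set of transpositions of maximum size contains a Sylow 2-subgroup and is doubly transitive on the set. -/
theorem result {G : Type*} [Group G] [Finite G] (hsol : ∀ N : Subgroup G, N.Normal → Group.IsSolvable ↥N → N = ⊥) (hperf : ⁅commutator G, commutator G⁆ = commutator G) {D : Set G} (hD : Cfsg.IsThreeTranspositionClass D) {E : Set G} (hE : E ⊆ D) (hc : ∀ a ∈ E, ∀ b ∈ E, Commute a b) (hmax : ∀ E' : Set G, E' ⊆ D → (∀ a ∈ E', ∀ b ∈ E', Commute a b) → E'.ncard ≤ E.ncard) : (∃ P : Sylow 2 G, (P : Subgroup G) ≤ Subgroup.normalizer E) ∧ ∀ a ∈ E, ∀ b ∈ E, ∀ c ∈ E, ∀ d ∈ E, a ≠ b → c ≠ d → ∃ g ∈ Subgroup.normalizer E, g * a * g⁻¹ = c ∧ g * b * g⁻¹ = d := by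
  have hG := CL.TT.IsClass.isGroup hD
  have hnorm : ∀ g : G, (∀ x, g * x * g⁻¹ ∈ E ↔ x ∈ E) → g ∈ Subgroup.normalizer E :=
    fun g h => Subgroup.mem_set_normalizer_iff.2 fun x => (h x).symm
  constructor
  · obtain ⟨T, hT⟩ := CL.TT.exists_sylow_eq hD.1 hE hc hmax
    refine ⟨T, fun g hg => hnorm g fun x => ?_⟩
    rw [hT]
    simp only [Set.mem_ofPred_eq, CL.TT.conj_mem_iff hG.2.1]
    refine and_congr_right fun _ => ?_
    change _ ∈ (T : Subgroup G) ↔ _ ∈ (T : Subgroup G)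
    rw [Subgroup.mul_mem_cancel_right _ (inv_mem hg), Subgroup.mul_mem_cancel_left _ hg]
  · intro a ha b hb c hc' d hd hab hcd
    obtain ⟨g1, h1⟩ := CL.TT.IsClass.exists_conj hD (hE ha) (hE hc')
    obtain ⟨g2, hg2, h2⟩ := CL.TT.Prim.exists_conj_Dd hG (CL.TT.Fischer.prim hsol hperf hD)
      (CL.TT.Fischer.width hsol hD) (hE hc') (y := g1 * b * g1⁻¹) (y' := d)
      (by rw [← h1, CL.TT.conj_mem_Dd_iff hG.2.1]; exact ⟨hE hb, hab.symm, hc a ha b hb⟩)
      ⟨hE hd, hcd.symm, hc c hc' d hd⟩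
    have e1 : g2 * g1 * a * (g2 * g1)⁻¹ = c := by
      rw [← CL.TT.conj_eq_of_commute (CL.TT.commute_of_mem_closure_Dd hg2), ← h1]; group
    have e2 : g2 * g1 * b * (g2 * g1)⁻¹ = d := by rw [← h2]; group
    set g := g2 * g1
    have hc2 : ∀ x ∈ (fun x => g * x * g⁻¹) '' E, ∀ y ∈ (fun x => g * x * g⁻¹) '' E, Commute x y := by
      rintro _ ⟨x, hx, rfl⟩ _ ⟨y, hy, rfl⟩
      exact (CL.TT.commute_conj_iff g x y).2 (hc x hx y hy)
    have hcard := Set.ncard_image_of_injective E (CL.TT.conj_injective g)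
    obtain ⟨k, hk, h⟩ := CL.TT.exists_conj_max_commuting hD.1 hG.2.1
      (K := Subgroup.centralizer {c, d}) (E := (fun x => g * x * g⁻¹) '' E) (E' := E)
      (by rintro _ ⟨x, hx, rfl⟩; exact hG.2.1 g x (hE hx)) hE
      (fun x hx => by
        rintro _ (rfl | rfl)
        · exact (hc2 _ ⟨a, ha, e1⟩ x hx).eq
        · exact (hc2 _ ⟨b, hb, e2⟩ x hx).eq)
      (fun x hx => by
        rintro _ (rfl | rfl)
        · exact (hc _ hc' x hx).eq
        · exact (hc _ hd x hx).eq) hc2 hc hcard.symm (by rw [hcard]; exact hmax)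
    have hkc : k * c * k⁻¹ = c := CL.TT.conj_eq_of_commute (hk c (by simp)).symm
    have hkd : k * d * k⁻¹ = d := CL.TT.conj_eq_of_commute (hk d (by simp)).symm
    refine ⟨k * g, hnorm _ fun x => ?_, by rw [← hkc, ← e1]; group, by rw [← hkd, ← e2]; group⟩
    rw [show k * g * x * (k * g)⁻¹ = k * (g * x * g⁻¹) * k⁻¹ by group, h]
    exact (CL.TT.conj_injective g).mem_set_image

end Cfsg.Agent.S1612
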