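import Cfsg.Statements.S1616
import Cfsg.Agent.Spor.TT18

set_option autoImplicit false
open Cfsg

namespace Cfsg.Agent.S1616

/-- If O₂(⟨D_x⟩) is not central in ⟨D_x⟩ for some transposition x, the 3-transposition group is some Sp(2n, 2) or PSU(n, 2). -/
theorem result {G : Type*} [Group G] [Finite G] (hsol : ∀ N : Subgroup G, N.Normal → Group.IsSolvable ↥N → N = ⊥) (hperf : ⁅commutator G, commutator G⁆ = commutator G) {D : Set G} (hD : Cfsg.IsThreeTranspositionClass D) (x : G) (hx : x ∈ D) (h : ¬ Cfsg.pCore 2 ↥(Subgroup.closure {y : G | y ∈ D ∧ y ≠ x ∧ Commute x y}) ≤ Subgroup.center ↥(Subgroup.closure {y : G | y ∈ D ∧ y ≠ x ∧ Commute x y})) : (∃ n : ℕ, Nonempty (G ≃* Matrix.symplecticGroup (Fin n) (ZMod 2))) ∨ ∃ (F : Type) (_ : Field F) (_ : Fintype F) (n : ℕ), Fintype.card F = 4 ∧ Nonempty (G ≃* Cfsg.PSU n F 2) := by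
  have hG := CL.TT.IsClass.isGroup hD
  have hZ := CL.TT.Fischer.center_eq_bot hsol
  have hp := CL.TT.ps_of_prim hG (CL.TT.Fischer.prim hsol hperf hD) (CL.TT.Fischer.width hsol hD)
  have hV := mt (CL.TT.triV_iff_pCore (hp.cs.Dd x) (hp.nc_Dd hx) (hp.two_Dd hx)).2 h
  rcases hp.caseB hx hV with ⟨n, B, τ, h1, h2, h3⟩ | ⟨n, h4, B, τ, h1, h2⟩
  · obtain ⟨m, -, e, -⟩ := CL.TT.sp_equiv hp.cs hG.2.2 hZ h1 h2 h3
    exact Or.inl ⟨m, ⟨e⟩⟩
  · obtain ⟨e, -⟩ := CL.TT.u_equiv hp.cs hG.2.2 hZ h1 (by simp) h4 h2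
    exact Or.inr ⟨CL.Rec.K4, inferInstance, inferInstance, n, rfl, ⟨e⟩⟩

end Cfsg.Agent.S1616
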