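import Cfsg.Statements.S1618
import Cfsg.Agent.Spor.TTZ

set_option autoImplicit false
open Cfsg

namespace Cfsg.Agent.S1618

/-- A group generated by a class of involutions whose pairwise products (of distinct members) have p-power order for a fixed odd prime p has nilpotent derived subgroup. -/
theorem result {G : Type*} [Group G] [Finite G] (p : ℕ) (hp : p.Prime) (hodd : p ≠ 2) {D : Set G} (hinv : ∀ d ∈ D, orderOf d = 2) (hconj : ∃ d ∈ D, D = conjugatesOf d) (hgen : Subgroup.closure D = ⊤) (hprod : ∀ x ∈ D, ∀ y ∈ D, x ≠ y → ∃ k : ℕ, orderOf (x * y) = p ^ k) : Group.IsNilpotent ↥(commutator G) := by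
  obtain ⟨d, hd, rfl⟩ := hconj
  have key := CL.TT.mul_mem_pCore_of_prime_pow hp hodd (hinv d hd) (fun a ha b hb => by
    by_cases h : a = b
    · subst h
      refine ⟨0, ?_⟩
      rw [← pow_two, ← hinv a ha, pow_orderOf_eq_one, orderOf_one, pow_zero]
    · exact hprod a ha b hb h)
  haveI : Fact p.Prime := ⟨hp⟩
  have hle : commutator G ≤ Cfsg.pCore p G := by
    have h1 : ∀ x : G, (x : G ⧸ Cfsg.pCore p G) ∈ Subgroup.zpowers (d : G ⧸ Cfsg.pCore p G) := by
      intro x
      have hx : x ∈ Subgroup.closure (conjugatesOf d) := by rw [hgen]; trivial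
      induction hx using Subgroup.closure_induction with
      | mem a ha =>
        have h2 : (d : G ⧸ Cfsg.pCore p G) = a := by
          rw [QuotientGroup.eq]
          have hdi : d⁻¹ = d := inv_eq_of_mul_eq_one_left (by rw [← pow_two, ← hinv d hd, pow_orderOf_eq_one])
          rw [hdi]
          exact key d hd a ha
        rw [← h2]
        exact Subgroup.mem_zpowers _
      | one => exact Subgroup.one_mem _
      | mul a b _ _ ha hb => exact Subgroup.mul_mem _ ha hb
      | inv a _ ha => exact Subgroup.inv_mem _ ha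
    rw [commutator, Subgroup.commutator_le]
    intro x _ y _
    rw [← QuotientGroup.eq_one_iff, ← QuotientGroup.mk'_apply, map_commutatorElement,
      commutatorElement_eq_one_iff_commute, QuotientGroup.mk'_apply, QuotientGroup.mk'_apply]
    obtain ⟨m, hm⟩ := h1 x
    obtain ⟨n, hn⟩ := h1 y
    rw [← hm, ← hn]
    exact Commute.zpow_zpow_self _ _ _
  exact (CL.Grp.isPGroup_of_le_pCore hle).isNilpotent

end Cfsg.Agent.S1618
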