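import Cfsg.Statements.S1620
import Cfsg.Agent.Spor.J2Main

set_option autoImplicit false
open Quaternion
open Cfsg

namespace Cfsg.Agent.S1620

/-- The Hall–Janko group is simple and non-abelian. -/
theorem result : IsSimpleGroup Cfsg.Spor.J2 ∧ ∃ a b : Cfsg.Spor.J2, a * b ≠ b * a := by
  refine ⟨CL.J2.simple_J2, ?_⟩
  by_contra h
  push Not at h
  have h1 : Subgroup.centralizer {CL.J2.mJ.val CL.J2.xc} = ⊤ :=
    eq_top_iff.mpr fun g _ => Subgroup.mem_centralizer_singleton_iff.mpr (h _ _)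
  have h2 := CL.J2.x_cent
  rw [h1, Subgroup.card_top, CL.J2.card_J2] at h2
  omega

end Cfsg.Agent.S1620
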