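import Cfsg.Statements.S1624
import Cfsg.Agent.Spor.J2U33
import Cfsg.Agent.Spor.PGPres

set_option autoImplicit false
open Quaternion
open Cfsg

namespace Cfsg.Agent.S1624

/-- The Hall–Janko group contains PSU(3, 3) with index 100 and acts on the 100 cosets with rank 3 and subdegrees 1, 36, 63. -/
theorem result : ∃ H : Subgroup Cfsg.Spor.J2, H.index = 100 ∧ (∃ (F : Type) (_ : Field F) (_ : Fintype F), Fintype.card F = 9 ∧ Nonempty (↥H ≃* Cfsg.PSU 3 F 3)) ∧ ∃ c₁ c₂ : Cfsg.Spor.J2 ⧸ H, (MulAction.orbit ↥H c₁).ncard = 36 ∧ (MulAction.orbit ↥H c₂).ncard = 63 := by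
  open CL.PG CL.PP CL.J2U33 in
  obtain ⟨_, cs, t⟩ := xtop CL.Std.J2.iso
  have h := xG_ex t.c (t.ub _)
  have hs : subW cs [[8], [10]] = MulAction.stabilizer _ (CL.PG.eF CL.Std.J2.P.n 0) := (t.top_inf h.stab).symm
  have hK : Nat.card (subW cs [[8], [10]]) = 6048 := h.tail.card.trans (by decide +kernel)
  have h1 := (xo100 t.c).2
  rw [t.top] at h1
  have := pretransitive_of_orbit (Set.eq_of_subset_of_ncard_le (Set.subset_univ _)
    (by rw [h1, Set.ncard_univ, Nat.card_fin]; rfl))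
  obtain ⟨θ, hθ⟩ := exists_coset_equiv hs
  obtain ⟨F, _, _, hF⟩ := exists_field 3 2 (by norm_num)
  exact ⟨_, (index_eq_of_stab hs).trans (Nat.card_fin _),
    ⟨F, _, _, hF, ⟨(xiso t.c hK).some.trans (CL.Std.U33.iso hF).some⟩⟩, _, _,
    (ncard_orbit_equiv θ hθ _ _).trans (xo36 t.c).2, (ncard_orbit_equiv θ hθ _ _).trans (xo63 t.c).2⟩

end Cfsg.Agent.S1624
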