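import Cfsg.Statements.S1626
import Cfsg.Agent.Spor.J3Main
import Cfsg.Agent.Spor.J3Iso

set_option autoImplicit false
open scoped MatrixGroups
open Matrix
open Cfsg

namespace Cfsg.Agent.S1626

open CL.Mx CL.Mx.J3

/-- Orbits of the triple cover of the third Janko group on lines of its 9-space over the field with 4 elements: the line through the first basis vector has exactly 23256 images, and the isotropic lines (nonzero v with Σ v_z³ = 0) form a single orbit. -/
theorem result (F : Type) [Field F] [Fintype F] (hF : Fintype.card F = 4) (ω : F) (hω : ω ^ 2 + ω + 1 = 0) : {L : Submodule F (Cfsg.Spor.F9 → F) | ∃ g ∈ Cfsg.Spor.threeJ3 F ω, L = F ∙ ((g : Matrix Cfsg.Spor.F9 Cfsg.Spor.F9 F) *ᵥ (Pi.single (0 : Cfsg.Spor.F9) (1 : F) : Cfsg.Spor.F9 → F))}.ncard = 23256 ∧ ∀ v w : Cfsg.Spor.F9 → F, v ≠ 0 → w ≠ 0 → ∑ z, (v z) ^ 3 = 0 → ∑ z, (w z) ^ 3 = 0 → ∃ g ∈ Cfsg.Spor.threeJ3 F ω, ∃ c : F, c ≠ 0 ∧ (g : Matrix Cfsg.Spor.F9 Cfsg.Spor.F9 F) *ᵥ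 v = c • w := by
  let D : CL.Mx.F4 F := ⟨ω, hω, by rw [Nat.card_eq_fintype_card, hF]⟩
  have e : Cfsg.Spor.threeJ3 F ω = _ := threeJ3_eq D
  have h1 := faith9 D
  have h2 := a_top D σ9
  rw [e]
  set K := (ρ9 D).model.gen aS0
  constructor
  · let O : Set (Spor.F9 → F) := {w | ∃ g ∈ K, (g : Matrix Spor.F9 Spor.F9 F) *ᵥ Pi.single 0 1 = w}
    have hv : D.toF σ9 (decW2 18 1 0) = Pi.single 0 1 := by
      rw [← D.toF_single σ9 0]
      congr 1
      decide
    have hO : O.ncard = 69768 := by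
      rw [← e_orbit h1 h2, ← Set.ncard_image_of_injective _ (D.toF σ9).injective]
      congr 1
      ext w
      constructor
      · rintro ⟨g, hg, rfl⟩
        exact ⟨_, ⟨g, hg, rfl⟩, by rw [toF_act9, hv]⟩
      · rintro ⟨_, ⟨g, hg, rfl⟩, rfl⟩
        exact ⟨g, hg, by rw [toF_act9, hv]⟩
    have hz : ∀ w ∈ O, ω • w ∈ O := by
      rintro _ ⟨g, hg, rfl⟩
      refine ⟨(ρ9 D).model.val zc * g, K.mul_mem (z_in h2).2 hg, ?_⟩
      have : (((ρ9 D).model.val zc : GL Spor.F9 F) : Matrix Spor.F9 Spor.F9 F) = Matrix.scalar _ ω :=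
        (D.φ_val σ9 _ _ (z_in h2).1).trans (dec4_z D σ9)
      rw [Units.val_mul, this, ← mulVec_mulVec, scalar_apply, ← smul_one_eq_diagonal, smul_mulVec, one_mulVec]
    have h3 := ncard_lines_mul (F := F) (O := O) (by
      rintro ⟨g, _, h⟩
      have := congrArg (((g⁻¹ : GL Spor.F9 F) : Matrix Spor.F9 Spor.F9 F) *ᵥ ·) h
      simp only [mulVec_mulVec, Units.inv_mul, one_mulVec, mulVec_zero] at this
      simpa using congrFun this 0) (by
      intro c hc w hw
      rcases D.cases c with rfl | rfl | rfl | rfl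
      · exact absurd rfl hc
      · rwa [one_smul]
      · exact hz w hw
      · rw [← D.sq, pow_two, mul_smul]
        exact hz _ (hz w hw))
    rw [hO, Nat.card_units, D.card] at h3
    have h4 : {L : Submodule F (Spor.F9 → F) | ∃ g ∈ K, L = F ∙ ((g : Matrix Spor.F9 Spor.F9 F) *ᵥ
        (Pi.single (0 : Spor.F9) (1 : F) : Spor.F9 → F))} = (fun w => F ∙ w) '' O := by
      ext L
      constructor
      · rintro ⟨g, hg, rfl⟩
        exact ⟨_, ⟨g, hg, rfl⟩, rfl⟩
      · rintro ⟨_, ⟨g, hg, rfl⟩, rfl⟩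
        exact ⟨g, hg, rfl⟩
    rw [h4]
    omega
  · have key : ∀ v : Spor.F9 → F, v ≠ 0 → ∑ z, (v z) ^ 3 = 0 → ∃ g ∈ K, (g : Matrix Spor.F9 Spor.F9 F) *ᵥ
        D.toF σ9 (decW2 18 (Nat.lor (Nat.shiftLeft 1 54) (Nat.shiftLeft 1 108)) 0) = v := by
      intro v hv hs
      obtain ⟨x, rfl⟩ := (D.toF σ9).surjective v
      obtain ⟨i, hi, rfl⟩ := exists_bv x
      have hi0 : i ≠ 0 := by
        rintro rfl
        exact hv (by rw [bv_zero, D.toF_zero])
      have hc := i_cover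
      rw [zipL_eq] at hc
      refine ⟨_, (ρ9 D).model.sp_mem (i_in h2) (bitsAt iF i), ?_⟩
      rw [← toF_act9, ← Model.elt_zip]
      refine congrArg _ (covers_sound (Model.progOk_zip (i_in h2) iF) hc hi ?_)
      have h5 : (xorN (fun k => Nat.lor (ctr 18 k) (ctr 18 (Nat.add 9 k))) 9).testBit i = false := by
        apply b2_inj
        rw [b2_xorN, Finset.sum_range, ← σ9.sum_comp]
        refine (D.el_eq_zero (b := ∑ _z : Spor.F9, 0) ?_).1
        rw [D.el_sum, ← hs]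
        refine Finset.sum_congr rfl fun z _ => ?_
        have hz := (σ9 z).2
        show D.el (b2 ((ctr 18 (σ9 z) ||| ctr 18 (9 + σ9 z)).testBit i)) 0 =
          D.el (b2 (i.testBit (σ9 z))) (b2 (i.testBit (9 + σ9 z))) ^ 3
        rw [Nat.testBit_or, testBit_ctr (by omega) hi, testBit_ctr (by omega) hi]
        cases i.testBit (σ9 z) <;> cases i.testBit (9 + σ9 z) <;> simp [D.cube]
        rw [← D.sq, ← pow_mul, mul_comm, pow_mul, D.cube, one_pow]
      show ((low (1 <<< 18) ^^^ 1) ^^^ _).testBit i = true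
      rw [Nat.testBit_xor, Nat.testBit_xor, h5, testBit_low, Nat.one_shiftLeft]
      have : (1 : ℕ).testBit i = false := by
        rw [Bool.eq_false_iff, ne_eq, Nat.testBit_one_eq_true_iff_self_eq_zero]; exact hi0
      have hi' : i < 262144 := hi
      simp [hi', this]
    intro v w hv hw h3 h4
    obtain ⟨g, hg, rfl⟩ := key v hv h3
    obtain ⟨g', hg', rfl⟩ := key w hw h4
    refine ⟨g' * g⁻¹, K.mul_mem hg' (K.inv_mem hg), 1, one_ne_zero, ?_⟩
    rw [one_smul, mulVec_mulVec, ← Units.val_mul, inv_mul_cancel_right]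

end Cfsg.Agent.S1626
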