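import Cfsg.Statements.S1629
import Cfsg.Agent.Spor.TTClassic

set_option autoImplicit false
open scoped MatrixGroups
open Cfsg

namespace Cfsg.Agent.S1629

/-- The orthogonal transvections of the plus-type orthogonal group in dimension 2m ≥ 6 over the field with two elements form a generating conjugacy class of 3-transpositions. -/
theorem result (m : ℕ) (hm : 3 ≤ m) : Cfsg.IsThreeTranspositionClass {g : ↥(Cfsg.isometryGroup (ZMod 2) (Cfsg.quadFormPlus m (ZMod 2))) | (((g : GL (Fin m ⊕ Fin m) (ZMod 2)) : Matrix (Fin m ⊕ Fin m) (Fin m ⊕ Fin m) (ZMod 2)) - 1).rank = 1} := by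
  have := CL.TTC.isClass_orth_two (CL.Cls.nondeg_qfPlus (m := m) (F := ZMod 2)) (by simp; omega)
    CL.TTC.zmod_two_eq_one (CL.Cls.isomEquiv _)
  simp only [← CL.TTC.rank_eq_finrank_resid] at this
  exact this

end Cfsg.Agent.S1629
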