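import Cfsg.Statements.S1633
import Cfsg.Agent.Spor.ConwUni

set_option autoImplicit false
open Cfsg

namespace Cfsg.Agent.S1633

open CL.Spor.Leech

/-- The Higman–Sims group acts transitively on 352 vectors, a set closed under x ↦ −w − x, with vector stabiliser isomorphic to PSU(3, 5). -/
theorem result (v w : ↥Cfsg.leechLattice) (hv : Cfsg.sqNorm (v : Cfsg.GolayPt → ℤ) = 48) (hw : Cfsg.sqNorm (w : Cfsg.GolayPt → ℤ) = 48) (hvw : Cfsg.dotInt (v : Cfsg.GolayPt → ℤ) (w : Cfsg.GolayPt → ℤ) = -32) (F : Type) [Field F] [Fintype F] (hF : Fintype.card F = 25) : {x : ↥Cfsg.leechLattice | Cfsg.sqNorm (x : Cfsg.GolayPt → ℤ) = 32 ∧ Cfsg.dotInt (v : Cfsg.GolayPt → ℤ) (x : Cfsg.GolayPt → ℤ) = 16 ∧ Cfsg.dotInt (w : Cfsg.GolayPt → ℤ) (x : Cfsg.GolayPt → ℤ) = -24}.ncard = 352 ∧ (∀ x ∈ {x : ↥Cfsg.leechLattice | Cfsg.sqNorm (x : Cfsg.GolayPt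 → ℤ) = 32 ∧ Cfsg.dotInt (v : Cfsg.GolayPt → ℤ) (x : Cfsg.GolayPt → ℤ) = 16 ∧ Cfsg.dotInt (w : Cfsg.GolayPt → ℤ) (x : Cfsg.GolayPt → ℤ) = -24}, -w - x ∈ {x : ↥Cfsg.leechLattice | Cfsg.sqNorm (x : Cfsg.GolayPt → ℤ) = 32 ∧ Cfsg.dotInt (v : Cfsg.GolayPt → ℤ) (x : Cfsg.GolayPt → ℤ) = 16 ∧ Cfsg.dotInt (w : Cfsg.GolayPt → ℤ) (x : Cfsg.GolayPt → ℤ) = -24}) ∧ (∀ x ∈ {x : ↥Cfsg.leechLattice | Cfsg.sqNorm (x : Cfsg.GolayPt → ℤ) = 32 ∧ Cfsg.dotInt (v : Cfsg.GolayPt → ℤ) (x : Cfsg.GolayPt → ℤ) = 16 ∧ Cfsg.dotInt (w : Cfsg.GolayPt → ℤ) (x : Cfsg.GolayPt → ℤ) = -24}, ∀ x' ∈ {x : ↥Cfsg.leechLattice | Cfsg.sqNorm (x : Cfsg.GolayPt → ℤ) = 32 ∧ Cfsg.dotInt (v : Cfsg.GolayPt → ℤ) (x : Cfsg.GolayPt → ℤ) = 16 ∧ Cfsg.dotInt (w : Cfsg.GolayPt → ℤ) (x : Cfsg.GolayPt → ℤ) = -24}, ∃ g : ↥Cfsg.Co0, g • v = v ∧ g • w = w ∧ g • x = x') ∧ ∀ x ∈ {x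 : ↥Cfsg.leechLattice | Cfsg.sqNorm (x : Cfsg.GolayPt → ℤ) = 32 ∧ Cfsg.dotInt (v : Cfsg.GolayPt → ℤ) (x : Cfsg.GolayPt → ℤ) = 16 ∧ Cfsg.dotInt (w : Cfsg.GolayPt → ℤ) (x : Cfsg.GolayPt → ℤ) = -24}, Nonempty (↥(MulAction.stabilizer ↥Cfsg.Co0 v ⊓ MulAction.stabilizer ↥Cfsg.Co0 w ⊓ MulAction.stabilizer ↥Cfsg.Co0 x) ≃* Cfsg.PSU 3 F 5) := by
    have hwv : dotInt (w : GolayPt → ℤ) v = -32 := by rw [dot_comm]; exact hvw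
    have hO := (hs_orb hw hv hwv).2
    have hm : ∀ x : leechLattice, x ∈ {x : leechLattice | sqNorm (x : GolayPt → ℤ) = 32 ∧
        dotInt (v : GolayPt → ℤ) x = 16 ∧ dotInt (w : GolayPt → ℤ) x = -24} ↔ -x ∈ tri w 24 v (-16) := fun x => by
      simp only [tri, mem_nbr, Set.mem_setOf_eq, NegMemClass.coe_neg, sqNorm_neg, dot_neg_right]
      omega
    refine ⟨?_, fun x hx => ?_, fun x hx x' hx' => ?_, fun x hx => ?_⟩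
    · rw [← hO.1, ← Set.ncard_image_of_injective _ neg_injective]
      refine congrArg Set.ncard (Set.ext fun y => ⟨?_, fun hy => ⟨-y, (hm _).2 (by simpa using hy), neg_neg y⟩⟩)
      rintro ⟨x, hx, rfl⟩; exact (hm x).1 hx
    · obtain ⟨h1, h2, h3⟩ := hx
      refine ⟨?_, ?_, ?_⟩
      · rw [AddSubgroupClass.coe_sub, sqNorm_sub, NegMemClass.coe_neg, sqNorm_neg, dot_neg_left, hw, h1, h3]; norm_num
      · rw [AddSubgroupClass.coe_sub, dot_sub_right, NegMemClass.coe_neg, dot_neg_right, hvw, h2]; norm_num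
      · rw [AddSubgroupClass.coe_sub, dot_sub_right, NegMemClass.coe_neg, dot_neg_right, ← sqNorm_eq_dot, hw, h3]
        norm_num
    · obtain ⟨g, hg, e⟩ := hO.trans ((hm x).1 hx) ((hm x').1 hx')
      exact ⟨g, hg.2, hg.1, neg_injective (by rw [← smul_neg, e])⟩
    · obtain ⟨f⟩ := iso_U35 hF hw hv hwv ((hm x).1 hx)
      exact ⟨(MulEquiv.subgroupCongr (by rw [stabilizer_neg, inf_comm (MulAction.stabilizer Co0 v)])).trans f⟩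

end Cfsg.Agent.S1633
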