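import Cfsg.Statements.S1635
import Cfsg.Agent.Spor.GolayOctad

set_option autoImplicit false
open Cfsg

namespace Cfsg.Agent.S1635

open CL.Spor

/-- Coset leaders of the length-24 code: a coset contains a unique word of weight ≤ 3, or else exactly six words of weight 4 and none lighter. -/
theorem result (w : Cfsg.GolayPt → ZMod 2) : ({v : Cfsg.GolayPt → ZMod 2 | hammingNorm v ≤ 4 ∧ w - v ∈ Cfsg.golayCode}.ncard = 1 ∧ ∃ v : Cfsg.GolayPt → ZMod 2, hammingNorm v ≤ 3 ∧ w - v ∈ Cfsg.golayCode) ∨ ({v : Cfsg.GolayPt → ZMod 2 | hammingNorm v ≤ 4 ∧ w - v ∈ Cfsg.golayCode}.ncard = 6 ∧ ∀ v : Cfsg.GolayPt → ZMod 2, w - v ∈ Cfsg.golayCode → hammingNorm v ≤ 4 → hammingNorm v = 4) := by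
  obtain ⟨v, hv, hc⟩ := exists_coset_leader (support₂ w)
  have key : ∀ u : GolayPt → ZMod 2, w - u ∈ golayCode ↔ symmDiff v (support₂ u) ∈ GC := by
    intro u
    have e : w - u = w + u := by
      funext p; simp only [Pi.sub_apply, Pi.add_apply]; generalize w p = a; generalize u p = b
      revert a b; decide
    rw [e, mem_golayCode_iff, support₂_add]
    constructor
    · intro h
      have := GC_symmDiff (symmDiff_comm (support₂ w) v ▸ hc) h
      rwa [symmDiff_symmDiff_cancel_mid] at this
    · intro h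
      have := GC_symmDiff hc h
      rwa [symmDiff_symmDiff_cancel_mid] at this
  simp only [key, hammingNorm_eq_card]
  by_cases h3 : v.card ≤ 3
  · left
    refine ⟨?_, wordOf v, by simpa using h3, by simpa using GC_empty⟩
    rw [Set.ncard_eq_one]
    refine ⟨wordOf v, ?_⟩
    ext u
    simp only [Set.mem_ofPred_eq, Set.mem_singleton_iff]
    constructor
    · rintro ⟨h1, h2⟩
      by_contra hne
      have : v ≠ support₂ u := fun e => hne (by rw [e, wordOf_support₂])
      have := (coset_small hv h1 h2 this).1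
      omega
    · rintro rfl
      exact ⟨by simpa using hv, by simpa using GC_empty⟩
  · right
    have h4 : v.card = 4 := by omega
    have k2 : ∀ u : GolayPt → ZMod 2, symmDiff v (support₂ u) ∈ GC → (support₂ u).card ≤ 4 →
        (support₂ u).card = 4 := by
      intro u h2 h1
      by_cases e : v = support₂ u
      · rw [← e, h4]
      · exact (coset_small hv h1 h2 e).2.1
    refine ⟨?_, k2⟩
    rw [← sextetOf_card h4, ← Set.ncard_coe_finset, ← Set.ncard_image_of_injective _ support₂_injective]
    congr 1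
    ext t
    simp only [Set.mem_image, Set.mem_ofPred_eq, Finset.mem_coe, mem_sextetOf]
    constructor
    · rintro ⟨u, ⟨h1, h2⟩, rfl⟩; exact ⟨k2 u h2 h1, h2⟩
    · rintro ⟨h1, h2⟩; exact ⟨wordOf t, by simpa using ⟨h1.le, h2⟩, by simp⟩

end Cfsg.Agent.S1635
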