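import Cfsg.Statements.S1636
import Cfsg.Agent.Spor.M24Act

set_option autoImplicit false
open Cfsg

namespace Cfsg.Agent.S1636

open CL.Spor MulAction

/-- The word of a set of points, the extra point deleted. -/
def res (s : Finset GolayPt) : ZMod 23 → ZMod 2 := fun x => wordOf s (some x)

theorem mem_iff {u : ZMod 23 → ZMod 2} :
    u ∈ {u : ZMod 23 → ZMod 2 | ∃ w ∈ golayCode, ∀ x : ZMod 23, u x = w (some x)} ↔ ∃ s ∈ GC, res s = u :=
  ⟨fun ⟨w, h1, h2⟩ => ⟨support₂ w, mem_golayCode_iff.1 h1, funext fun x => by rw [h2, res, wordOf_support₂]⟩,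
    fun ⟨s, h1, h2⟩ => ⟨wordOf s, mem_GC_iff_wordOf.1 h1, fun _ => h2 ▸ rfl⟩⟩

theorem norm_res (s : Finset GolayPt) : hammingNorm (res s) = (s.erase none).card := by
  refine Finset.card_bij (fun x _ => some x) (fun x hx => ?_) (fun _ _ _ _ e => Option.some.inj e) fun y hy => ?_
  · simpa [res, wordOf] using hx
  · obtain ⟨h1, h2⟩ := Finset.mem_erase.1 hy
    obtain ⟨x, rfl⟩ := Option.ne_none_iff_exists'.1 h1
    exact ⟨x, by simpa [res, wordOf] using h2, rfl⟩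

theorem res_symmDiff (s t : Finset GolayPt) : res (symmDiff s t) = res s - res t := by
  funext x
  rw [res, wordOf_symmDiff, Pi.add_apply, Pi.sub_apply, CharTwo.sub_eq_add]; rfl

theorem eq_empty {s : Finset GolayPt} (hs : s ∈ GC) (h : hammingNorm (res s) < 7) : s = ∅ := by
  refine GC_eq_empty_of_card_lt hs ?_
  have := Finset.pred_card_le_card_erase (s := s) (a := none)
  rw [norm_res] at h
  omega

theorem ncard_res (P : (ZMod 23 → ZMod 2) → Prop) :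
    {u : ZMod 23 → ZMod 2 | u ∈ {u : ZMod 23 → ZMod 2 | ∃ w ∈ golayCode, ∀ x : ZMod 23, u x = w (some x)} ∧ P u}.ncard =
      {s | s ∈ GC ∧ P (res s)}.ncard := by
  rw [← Set.InjOn.ncard_image (f := res) (s := {s | s ∈ GC ∧ P (res s)}) fun s hs t ht e =>
    symmDiff_eq_bot.1 (eq_empty (GC_symmDiff hs.1 ht.1) (by rw [res_symmDiff, e, sub_self, hammingNorm_zero]; norm_num))]
  refine congrArg Set.ncard (Set.ext fun u => ⟨fun ⟨h1, h2⟩ => ?_, ?_⟩)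
  · obtain ⟨s, hs, rfl⟩ := mem_iff.1 h1
    exact ⟨s, ⟨hs, h2⟩, rfl⟩
  · rintro ⟨s, hs, rfl⟩
    exact ⟨mem_iff.2 ⟨s, hs.1, rfl⟩, hs.2⟩

/-- The punctured length-23 code has weight distribution 0^1 7^253 8^506 11^1288 12^1288 15^506 16^253 23^1. -/
theorem result : {u : ZMod 23 → ZMod 2 | ∃ w ∈ Cfsg.golayCode, ∀ x : ZMod 23, u x = w (some x)}.ncard = 4096 ∧ {u : ZMod 23 → ZMod 2 | u ∈ {u : ZMod 23 → ZMod 2 | ∃ w ∈ Cfsg.golayCode, ∀ x : ZMod 23, u x = w (some x)} ∧ hammingNorm u = 7}.ncard = 253 ∧ {u : ZMod 23 → ZMod 2 | u ∈ {u : ZMod 23 → ZMod 2 | ∃ w ∈ Cfsg.golayCode, ∀ x : ZMod 23, u x = w (some x)} ∧ hammingNorm u = 8}.ncard = 506 ∧ {u : ZMod 23 → ZMod 2 | u ∈ {u : ZMod 23 → ZMod 2 | ∃ w ∈ Cfsg.golayCode, ∀ x : ZMod 23, u x = w (some x)} ∧ hammingNorm u = 11}.ncard = 1288 ∧ {u : ZMod 23 → ZMod 2 | u ∈ {u : ZMod 23 → ZMod 2 | ∃ w ∈ Cfsg.golayCode, ∀ x : ZMod 23, u x = w (some x)} ∧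 hammingNorm u = 12}.ncard = 1288 ∧ {u : ZMod 23 → ZMod 2 | u ∈ {u : ZMod 23 → ZMod 2 | ∃ w ∈ Cfsg.golayCode, ∀ x : ZMod 23, u x = w (some x)} ∧ hammingNorm u = 15}.ncard = 506 ∧ {u : ZMod 23 → ZMod 2 | u ∈ {u : ZMod 23 → ZMod 2 | ∃ w ∈ Cfsg.golayCode, ∀ x : ZMod 23, u x = w (some x)} ∧ hammingNorm u = 16}.ncard = 253 ∧ ∀ u ∈ {u : ZMod 23 → ZMod 2 | ∃ w ∈ Cfsg.golayCode, ∀ x : ZMod 23, u x = w (some x)}, u ≠ 0 → 7 ≤ hammingNorm u := by
  have key : ∀ k n : ℕ, cnt4096 (fun x => Nat.beq (pc24 (Nat.land (enc x) 8388607)) k) = n →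
      {u : ZMod 23 → ZMod 2 | u ∈ {u : ZMod 23 → ZMod 2 | ∃ w ∈ golayCode, ∀ x : ZMod 23, u x = w (some x)} ∧
        hammingNorm u = k}.ncard = n := by
    intro k n h
    rw [ncard_res, ← h]
    refine ncard_GC _ (fun m => Nat.beq (pc24 (Nat.land m 8388607)) k) fun x _ => ?_
    rw [norm_res, Finset.erase_eq, Finset.sdiff_eq_inter_compl, show ({none}ᶜ : Finset GolayPt) = ofMask 8388607 by
      decide +kernel, ← ofMask_and, card_ofMask, Nat.beq_eq]; rfl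
  refine ⟨?_, key 7 _ (by decide +kernel), key 8 _ (by decide +kernel), key 11 _ (by decide +kernel),
    key 12 _ (by decide +kernel), key 15 _ (by decide +kernel), key 16 _ (by decide +kernel), fun u hu h => ?_⟩
  · simpa [GC_ncard] using ncard_res fun _ => True
  · obtain ⟨s, hs, rfl⟩ := mem_iff.1 hu
    by_contra h7
    exact h (by rw [eq_empty hs (not_le.1 h7)]; rfl)

end Cfsg.Agent.S1636
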