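import Cfsg.Statements.S1637
import Cfsg.Agent.S1636

set_option autoImplicit false
open Cfsg

namespace Cfsg.Agent.S1637

open CL.Spor Cfsg.Agent.S1636

/-- The punctured length-23 code is a perfect 3-error-correcting code: each word of length 23 is within distance 3 of exactly one codeword. -/
theorem result (u : ZMod 23 → ZMod 2) : ∃! c : ZMod 23 → ZMod 2, c ∈ {u : ZMod 23 → ZMod 2 | ∃ w ∈ Cfsg.golayCode, ∀ x : ZMod 23, u x = w (some x)} ∧ hammingDist u c ≤ 3 := by
  obtain ⟨s, hs, rfl⟩ : ∃ s : Finset GolayPt, Odd s.card ∧ res s = u := by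
    let t : Finset GolayPt := support₂ fun p => p.elim 0 u
    have e : res t = u := funext fun x => by rw [res, wordOf_support₂]; rfl
    have n : none ∉ t := by simp [t, support₂]
    rcases Nat.even_or_odd t.card with h | h
    · refine ⟨insert none t, by rw [Finset.card_insert_of_notMem n]; exact h.add_one, ?_⟩
      rw [← e]; funext x; simp [res, wordOf]
    · exact ⟨t, h, e⟩
  have hd : ∀ a b, hammingDist (res a) (res b) = hammingNorm (res (symmDiff a b)) := fun a b => by
    rw [hammingDist_comm, hammingDist_eq_hammingNorm, neg_add_eq_sub, res_symmDiff]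
  obtain ⟨v, h1, h2⟩ := exists_coset_leader s
  have h3 := card_symmDiff_add s v
  have h4 := GC_four_dvd_card h2
  have h6 : hammingDist (res s) (res (symmDiff s v)) ≤ 3 := by
    rw [hd, symmDiff_symmDiff_cancel_left, norm_res]
    have := Finset.card_erase_le (s := v) (a := none)
    obtain ⟨k, hk⟩ := hs
    omega
  refine ⟨res (symmDiff s v), ⟨mem_iff.2 ⟨_, h2, rfl⟩, h6⟩, ?_⟩
  rintro c ⟨hc, h5⟩
  obtain ⟨t, ht, rfl⟩ := mem_iff.1 hc
  have h7 := hammingDist_triangle_left (res t) (res (symmDiff s v)) (res s)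
  rw [symmDiff_eq_bot.1 (eq_empty (GC_symmDiff ht h2) (by rw [← hd]; omega))]

end Cfsg.Agent.S1637
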