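import Cfsg.Statements.S1643
import Cfsg.Agent.Spor.M24Idx

set_option autoImplicit false
open scoped Pointwise
open Cfsg

namespace Cfsg.Agent.S1643

open CL.Spor MulAction

theorem count {G : Type*} [Group G] [Finite G] {p : ℕ} (hp : p.Prime) {X H : Subgroup G} (hX : CL.Fus.SylIn p X H)
    (hN : Subgroup.normalizer (X : Set G) ≤ H) :
    ∃ n, n % p = 1 % p ∧ Nat.card H = n * Nat.card (Subgroup.normalizer (X : Set G)) := by
  have := Fact.mk hp
  have h2 : Subgroup.normalizer (hX.toSylow : Set H) = (Subgroup.normalizer (X : Set G)).subgroupOf H :=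
    (Subgroup.subgroupOf_normalizer_eq hX.le).symm
  refine ⟨Nat.card (Sylow p H), card_sylow_modEq_one p H, ?_⟩
  rw [hX.toSylow.card_eq_index_normalizer, h2, ← Subgroup.index_mul_card ((Subgroup.normalizer (X : Set G)).subgroupOf H),
    card_subgroupOf', inf_of_le_right hN]

def levL : List (ℕ × List ℕ) := [(23, [984818244535754528103549039458486304, 1795248432537898728475572672376535, 44673570877212604306017735907225623, 87551893321887283366365293184594999, 928413874498667716355043516223936224, 130430215766561988943882167652005975, 477144491347695089491217979027889856, 174170767301553238845147917032197207, 901444215902188470208020324925722336, 645267317966049346622286219446798688, 259927412190902650000206953962706071, 520022813792369793915838637655891969, 217049089746227944422690079495295095, 731191410586561560211075431725612384, 348311466625634908953577867777349783, 816717111165828015668196378610810592, 688145640410724025682632677212540289, 305296306134448803386162645966173888, 562901136209239204489322825265652770, 391506460524442839052180722851431904,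 434068111514984320108662193474543831, 774069733003430970784559619335373185, 858681379848851706453721586951310880, 610592612240223370115752850548395680]), (0, [984818244535754528103549039458486304, 956302485175575353788796878166559809, 956709441910203461498593497208492130, 958020233522794296771657265635857539, 958006165371231930418104512559784132, 960656904560218850239657233030195462, 959346112947628014966593464602830053, 960599612294185813218395739240677768, 961996852136614934788930136863845671, 965930246635095986705696830193193484, 963279507446109066883334869165492682, 961939559869712982334845917122446761, 965786535529392261879876178556789808, 968610141787861002196991426167953998, 967270194211464917647718522334303789, 964619455022505151432633061765828075, 971146297361486754562470765046445236, 968466402208694611981878226359790706, 967126454633167442865428048478021713, 969950089364257086746289618769019503, 973826192514278923661067125551807734, 972486244937882839111768932951472341, 969806349785090670013981813003399315]), (1, [984818244535754528103549039458486304,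 983435072843990828779021698901151808, 980668730378935070469623699575545984, 975166140090675008210365318152896768, 965063883269089610517257152230401536, 973782968399780250007192978068752672, 962298451038133363011374430748423744, 969184212989482915311201746032266656, 982051901153124072706648311500937312, 977903326592794432676351619257413824, 970567384681219435340729552166356352])]
theorem chainL0 : SChain (gen (levelEls levL)) levL := sChain_gen (by decide +kernel)
theorem goodL : ∀ P ∈ [pA, pB, a11], Good ⊤ P := good_top_of_all (by decide +kernel)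
theorem goodB : ∀ P ∈ [pA, a11], Good ⊤ P := good_top_of_all (by decide +kernel)
theorem cardL : Nat.card (gen [pA, pB, a11]) = 6072 := by
  have h : Nat.card (gen (levelEls levL)) = 6072 := chainL0.card_eq.trans (by decide +kernel)
  rw [← eq_gen_of_slp (chainL0.good_of_sift goodL (by decide +kernel)) [] [pA, pB, a11] [23, 0, 1] h.le (by decide +kernel), h]
theorem eqB : Subgroup.normalizer (Subgroup.zpowers (m24 r23) : Set M24) = gen [pA, a11] :=
  eq_gen_of_slp (chainN23.good_of_sift goodB (by decide +kernel)) [] [pA, a11] [0, 1] card_N23.le (by decide +kernel)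
theorem cardB : Nat.card (gen [pA, a11]) = 253 := eqB ▸ card_N23
theorem B_le : gen [pA, a11] ≤ stabilizer M24 (gPt 23) := gen_le (good_pt_all goodB (by norm_num) (by decide +kernel))

theorem over_B {K : Subgroup M24} (hB : gen [pA, a11] ≤ K) (hK : K ≤ stabilizer M24 (gPt 23)) :
    Nat.card K = 253 ∨ Nat.card K = 10200960 := by
  obtain ⟨n, h1, h2⟩ := count (by norm_num) (sylIn_r23.mono (Subgroup.le_normalizer.trans (eqB.le.trans hB)) le_top)
    (eqB.le.trans hB)
  obtain ⟨k, m, h3, h4, h5, -⟩ := normalizer_count (by norm_num)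
    (sylIn_a11.mono (Subgroup.zpowers_le.2 (hB (good_gen goodB a11 (by simp)).m24_mem)) le_top) hK cardN11'
  have h6 := Subgroup.card_dvd_of_le hK
  rw [card_N23] at h2
  rw [card_M23', h2] at h6
  have h7 : n ∣ 40320 := Nat.dvd_of_mul_dvd_mul_right (k := 253) (by norm_num) h6
  have h8 := Nat.le_of_dvd (by norm_num) h7
  have h9 : ∀ j < 1754, 40320 % (23 * j + 1) = 0 → j = 0 ∨ j = 1 ∨ j = 3 ∨ j = 25 ∨ j = 73 ∨ j = 1753 := by decide +kernel
  have h10 := h9 (n / 23) (by omega) (by rw [show 23 * (n / 23) + 1 = n by omega]; exact Nat.mod_eq_zero_of_dvd h7)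
  have : k ∈ Nat.divisors 55 := Nat.mem_divisors.2 ⟨h3, by norm_num⟩
  rw [show Nat.divisors 55 = {1, 5, 11, 55} by decide +kernel] at this
  simp only [Finset.mem_insert, Finset.mem_singleton] at this
  rcases this with rfl | rfl | rfl | rfl <;> omega

theorem coatomL : IsCoatom (gen [pA, pB, a11]) := by
  refine ⟨fun h => absurd cardL (by rw [h, card_top_M24]; norm_num), fun K hK => ?_⟩
  have hS : ∀ P ∈ [pA, pB, a11], Good K P := fun P hP => (good_gen goodL P hP).mono hK.le
  obtain ⟨m, hm, -, e⟩ := orbit_cases (F := 0) hS (by rw [ofMask_zero, fixS_empty]; exact le_top) (n := 0 + Nat.card K)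
    (Nat.zero_add _).symm [0] 23 [16777215] (by
      have : ∀ m ∈ subU ([0].map (orbMask [pA, pB, a11])), (or (not (Nat.testBit m 23))
        (anyL (fun x => Nat.beq m x) [16777215])) = true := (allL_iff _ _).1 (by decide +kernel)
      generalize 0 + Nat.card K = n
      rw [candOK, Bool.and_eq_true, allL_iff]
      refine ⟨by decide +kernel, fun m hm => ?_⟩
      have := this m hm
      rw [Bool.or_eq_true] at this
      rw [Bool.or_eq_true, Bool.or_eq_true, Bool.or_eq_true]
      exact this.elim (fun h => .inl (.inl h)) fun h => .inr (.inr h))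
  rw [List.mem_singleton.1 hm, show pc24 16777215 = 24 by decide +kernel] at e
  rcases over_B (K := K ⊓ stabilizer M24 (gPt 23))
    (le_inf (gen_le fun P hP => hS P (by simp only [List.mem_cons] at hP ⊢; tauto)) B_le) inf_le_right with h | h
  · exact absurd (Subgroup.eq_of_le_of_card_ge hK.le (by rw [cardL]; omega)) hK.ne
  · exact Subgroup.eq_top_of_card_eq _ (by rw [card_M24]; omega)

theorem coatomB : IsCoatom ((gen [pA, a11]).subgroupOf (stabilizer M24 (gPt 23))) := by
  have hc : Nat.card ((gen [pA, a11]).subgroupOf (stabilizer M24 (gPt 23))) = 253 := by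
    rw [card_subgroupOf', inf_of_le_right B_le, cardB]
  refine ⟨fun h => absurd hc (by rw [h, Subgroup.card_top, card_M23']; norm_num), fun K hK => ?_⟩
  have := over_B (K := K.map (Subgroup.subtype _)) (fun g hg => ⟨⟨g, B_le hg⟩, hK.le hg, rfl⟩) (Subgroup.map_subtype_le K)
  rw [Subgroup.card_map_of_injective (Subgroup.subtype_injective _)] at this
  rcases this with h | h
  · exact absurd (Subgroup.eq_of_le_of_card_ge hK.le (by rw [hc, h])) hK.ne
  · exact Subgroup.eq_top_of_card_eq _ (by rw [card_M23', h])

theorem sq_pow (u : (ZMod 23)ˣ) (hu : IsSquare u) :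
    ∃ k, Equiv.optionCongr (Units.mulLeft u) = ((m24 a11 ^ k : M24) : Equiv.Perm GolayPt) := by
  obtain ⟨r, rfl⟩ := hu
  have : ∀ x : ZMod 23, x ≠ 0 → ∃ k < 11, ∀ p : GolayPt,
      gIdx (Option.map (fun t => x * x * t) p) = pf (ppow a11 k) (gIdx p) := by decide +kernel
  obtain ⟨k, -, h⟩ := this r (fun e => absurd r.mul_inv (by rw [e, zero_mul]; decide))
  refine ⟨k, Equiv.ext fun p => gIdx_injective ((h p).trans ((rep_a11.pow k).2 p).symm)⟩

theorem coe_a11 : ∃ u : (ZMod 23)ˣ, IsSquare u ∧ (m24 a11 : Equiv.Perm GolayPt) = Equiv.optionCongr (Units.mulLeft u) :=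
  ⟨⟨5, 14, rfl, rfl⟩ * ⟨5, 14, rfl, rfl⟩, IsSquare.mul_self _,
    coe_m24_of_represents (by decide +kernel) (by unfold Represents; decide +kernel)⟩

theorem closure_eq {S : List ℕ} (hS : ∀ P ∈ S ++ [a11], Good ⊤ P) {T : Set (Equiv.Perm GolayPt)}
    (hT : ∀ σ, σ ∈ T ↔ ∃ P ∈ S, (m24 P : Equiv.Perm GolayPt) = σ) :
    Subgroup.closure (T ∪ {g : Equiv.Perm GolayPt | ∃ u : (ZMod 23)ˣ, IsSquare u ∧ g = Equiv.optionCongr (Units.mulLeft u)}) =
      (gen (S ++ [a11])).map M24.subtype := by
  refine le_antisymm ((Subgroup.closure_le _).2 ?_) (Subgroup.map_le_iff_le_comap.2 (gen_le_of fun P hP => ?_))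
  · rintro σ (h | ⟨u, hu, rfl⟩)
    · obtain ⟨P, hP, rfl⟩ := (hT σ).1 h
      exact ⟨_, (good_gen hS P (List.mem_append_left _ hP)).m24_mem, rfl⟩
    · obtain ⟨k, e⟩ := sq_pow u hu
      exact ⟨_, pow_mem (good_gen hS a11 (by simp)).m24_mem k, e.symm⟩
  · refine Subgroup.subset_closure ?_
    rcases List.mem_append.1 hP with h | h
    · exact .inl ((hT _).2 ⟨P, h, rfl⟩)
    · rw [List.mem_singleton.1 h]; exact .inr coe_a11

/-- PSL(2, 23) = ⟨t ↦ t+1, t ↦ u t (u square), t ↦ −1/t⟩ is maximal of order 6072 in the group of the length-24 code, and its point stabiliser 23:11 (order 253) is maximal in the Mathieu group of degree 23. -/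
theorem result : (Subgroup.closure ({Equiv.optionCongr (Equiv.addRight (1 : ZMod 23)), Cfsg.projInv} ∪ {g : Equiv.Perm Cfsg.GolayPt | ∃ u : (ZMod 23)ˣ, IsSquare u ∧ g = Equiv.optionCongr (Units.mulLeft u)}) ≤ Cfsg.M24 ∧ Nat.card ↥(Subgroup.closure ({Equiv.optionCongr (Equiv.addRight (1 : ZMod 23)), Cfsg.projInv} ∪ {g : Equiv.Perm Cfsg.GolayPt | ∃ u : (ZMod 23)ˣ, IsSquare u ∧ g = Equiv.optionCongr (Units.mulLeft u)})) = 6072 ∧ IsCoatom ((Subgroup.closure ({Equiv.optionCongr (Equiv.addRight (1 : ZMod 23)), Cfsg.projInv} ∪ {g : Equiv.Perm Cfsg.GolayPt | ∃ u : (ZMod 23)ˣ, IsSquare u ∧ g = Equiv.optionCongr (Units.mulLeft u)})).subgroupOf Cfsg.M24)) ∧ (Subgroup.closure ({Equiv.optionCongr (Equiv.addRight (1 : ZMod 23))} ∪ {g : Equiv.Perm Cfsg.GolayPt | ∃ u : (ZMod 23)ˣ, IsSquare u ∧ g = Equiv.optionCongr (Units.mulLeft u)}) ≤ Cfsg.M24 ⊓ MulAction.stabilizer (Equiv.Perm Cfsg.GolayPt) (none : Cfsg.GolayPt) ∧ Nat.card ↥(Subgroup.closure ({Equiv.optionCongr (Equiv.addRight (1 : ZMod 23))} ∪ {g : Equiv.Perm Cfsg.GolayPt | ∃ u : (ZMod 23)ˣ, IsSquare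 u ∧ g = Equiv.optionCongr (Units.mulLeft u)})) = 253 ∧ IsCoatom (((Subgroup.closure ({Equiv.optionCongr (Equiv.addRight (1 : ZMod 23))} ∪ {g : Equiv.Perm Cfsg.GolayPt | ∃ u : (ZMod 23)ˣ, IsSquare u ∧ g = Equiv.optionCongr (Units.mulLeft u)})).subgroupOf Cfsg.M24).subgroupOf (MulAction.stabilizer Cfsg.M24 (none : Cfsg.GolayPt)))) := by
  rw [closure_eq (S := [pA, pB]) goodL fun σ => by simp [coe_m24_pA, coe_m24_pB, eq_comm],
    closure_eq (S := [pA]) goodB fun σ => by simp [coe_m24_pA, eq_comm],
    Subgroup.card_map_of_injective M24.subtype_injective, Subgroup.card_map_of_injective M24.subtype_injective,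
    Subgroup.subgroupOf, Subgroup.comap_map_eq_self_of_injective M24.subtype_injective, ← gPt_23]
  refine ⟨⟨Subgroup.map_subtype_le _, cardL, coatomL⟩, ?_, cardB, ?_⟩
  · rintro _ ⟨g, hg, rfl⟩
    exact ⟨g.2, B_le hg⟩
  · rw [show Subgroup.subgroupOf (Subgroup.map M24.subtype (gen ([pA] ++ [a11]))) M24 = gen [pA, a11] from
      Subgroup.comap_map_eq_self_of_injective M24.subtype_injective _]
    exact coatomB

end Cfsg.Agent.S1643
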