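import Cfsg.Statements.S1668
import Cfsg.Agent.Spor.SuzRk3
import Cfsg.Agent.Spor.SuzG24

set_option autoImplicit false
open Cfsg

namespace Cfsg.Agent.S1668

open CL CL.PG CL.SuzP CL.SzRk3 Cfsg.Spor in
theorem top1 : Top P0 xns xD xchk [[0], [2], [4], [6], [8], [10], [12]] 448345497600 (PP.eF 1782) (ext gs xws) :=
  have t : Top P0 PM.Suz.ns PM.Suz.D chk0 [[0], [2], [4], [6], [8], [10], [12]] 448345497600 (PP.eF 1782) gs :=
    ⟨ctx00 good (PP.injLt_eF _) model.hD, model.top, model.top ▸ exact.faithful, card, by norm_num⟩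
  t.ext (xctx t.c t.fa fun _ _ => trivial) (b := 12) (by decide +kernel) (by decide +kernel)

open CL CL.PG CL.SuzP CL.SzRk3 in
theorem H_eq1 : subW (ext gs xws) [[0], [2], [4], [6], [8], [10]] = H := by
  rw [subW_ext (xlen (ctx00 good (PP.injLt_eF _) model.hD)) _ (by decide +kernel)]; exact H_eq

/-- Recognition of the sporadic Suzuki group as a rank 3 permutation group: a transitive permutation group on 1782 points in which the stabiliser of a point is isomorphic to the Chevalley group G₂(4) and has two further orbits, of sizes 416 and 1365, is isomorphic to the sporadic Suzuki group. -/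
theorem result {Ω : Type*} [Fintype Ω] [DecidableEq Ω] (hΩ : Fintype.card Ω = 1782) (G : Subgroup (Equiv.Perm Ω)) [MulAction.IsPretransitive G Ω] (a : Ω) (K : Type) [Field K] [Fintype K] (hK : Fintype.card K = 4) (e : MulAction.stabilizer G a ≃* Cfsg.Lie.chevG2.group K) (b c : Ω) (hb : (MulAction.orbit (MulAction.stabilizer G a) b).ncard = 416) (hc : (MulAction.orbit (MulAction.stabilizer G a) c).ncard = 1365) : Cfsg.Spor.IsoSuz G := by
  have t := top1
  have := CL.SuzP.simple
  have g := (MulEquiv.subgroupCongr t.top).trans Subgroup.topEquiv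
  have := g.isSimpleGroup
  obtain ⟨d⟩ := CL.SuzG.iso hK
  obtain ⟨f⟩ := CL.SzRk3.xrecog t.c (fun x => ⟨x, x.2, CL.PP.eF_coe x⟩) (t.top ▸ t.fa)
    (by rw [t.top, top_inf_eq, H_eq1, CL.SuzP.stab]) (H_eq1 ▸ CL.SuzP.card_H) ((Nat.card_congr g.toEquiv).trans t.card)
    (e.trans (d.symm.trans (MulEquiv.subgroupCongr H_eq1.symm)))
    (CL.R3.rk_perm G hΩ hb hc (by norm_num) (by norm_num) (by norm_num))
  exact ⟨Subgroup.topEquiv.symm.trans (f.trans g)⟩

end Cfsg.Agent.S1668
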