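import Cfsg.Statements.S1669
import Cfsg.Agent.Spor.RuRk3

set_option autoImplicit false
open Cfsg

namespace Cfsg.Agent.S1669

/-- Recognition of the Rudvalis group as a rank 3 permutation group: a transitive permutation group on 4060 points in which the stabiliser of a point is isomorphic to the Ree group ²F₄(2) and has two further orbits, of sizes 1755 and 2304, is isomorphic to the Rudvalis group. -/
theorem result {Ω : Type*} [Fintype Ω] [DecidableEq Ω] (hΩ : Fintype.card Ω = 4060) (G : Subgroup (Equiv.Perm Ω)) [MulAction.IsPretransitive G Ω] (a : Ω)  (e : MulAction.stabilizer G a ≃* Cfsg.Lie.twistedF4 (ZMod 2) 1) (b c : Ω) (hb : (MulAction.orbit (MulAction.stabilizer G a) b).ncard = 1755) (hc : (MulAction.orbit (MulAction.stabilizer G a) c).ncard = 2304) : Cfsg.Spor.IsoRu G := by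
  have c := CL.RuRk3.xctx CL.Std.Ru.c1 (CL.PG.faithful_eF _) fun _ _ => trivial
  have h1 := CL.PG.subW_ext (CL.RuRk3.xlen CL.Std.Ru.c1) CL.RuRk3.xws (l := [[0], [2]]) (by decide +kernel)
  have h2 := CL.RuRk3.G_ex c (by rw [h1]; exact CL.Std.Ru.ub)
  have h3 : Nat.card (CL.PG.subW (CL.PG.ext CL.Std.Ru.gs1 CL.RuRk3.xws) [[4], [6]]) = 35942400 :=
    h2.tail.card.trans (by decide +kernel : CL.PG.prodL CL.RuRk3.G_vs1 1 = 35942400)
  have := CL.Std.Ru.simple
  have := (MulEquiv.subgroupCongr h1).isSimpleGroup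
  obtain ⟨d⟩ := CL.RuRk3.xiso c h3
  obtain ⟨d'⟩ := CL.Std.R2.iso
  obtain ⟨g⟩ := CL.Std.Ru.iso
  obtain ⟨f⟩ := CL.RuRk3.xrecog c (fun x => ⟨x, x.2, CL.PG.eF_coe x⟩) h2.faithful h2.stab h3
    (by rw [h1]; exact CL.Std.Ru.card)    (e.trans (d.trans d').symm) (CL.R3.rk_perm G hΩ hb hc (by norm_num) (by norm_num) (by norm_num))
  exact ⟨Subgroup.topEquiv.symm.trans (f.trans ((MulEquiv.subgroupCongr h1).trans g))⟩

end Cfsg.Agent.S1669
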