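import Cfsg.Statements.S1670
import Cfsg.Agent.Spor.J4U3
import Cfsg.Agent.S1703

set_option autoImplicit false
open Cfsg
open scoped Pointwise

namespace Cfsg.Agent.S1670

/-- Uniqueness of the fourth Janko group at the level of isomorphism: let a finite simple group have a 2-central involution t whose centraliser C has normal subgroups Q ≤ N ≤ M with M of index 2 and every element of C that centralises M / N lying in M, Q extraspecial of order 2 ^ 13, containing its centraliser in C and containing an elementary abelian subgroup of order 2 ^ 7, N / Q of order 3 and central in M / Q, M / Q perfect, and M / N isomorphic to the Mathieu group M₂₂. Then the group is isomorphic to the presented J₄. -/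
theorem result {G : Type*} [Group G] [Finite G] [IsSimpleGroup G] (t : G) (ht : orderOf t = 2) (Q N M : Subgroup (Subgroup.centralizer ({t} : Set G))) [Q.Normal] [N.Normal] [M.Normal] (hQN : Q ≤ N) (hNM : N ≤ M) (hM : M.index = 2) (hQ : Cfsg.IsExtraspecial 2 Q) (hcard : Nat.card Q = 2 ^ 13) (hplus : ∃ E : Subgroup Q, Cfsg.IsElementaryAbelian 2 E ∧ Nat.card E = 2 ^ 7) (hN : Nat.card N = 3 * Nat.card Q) (hcent : ⁅M, N⁆ ≤ Q) (hperf : M ≤ ⁅M, M⁆ ⊔ Q) (h2c : Subgroup.centralizer (Q : Set (Subgroup.centralizer ({t} : Set G))) ≤ Q) (hout : ∀ c : Subgroup.centralizer ({t} : Set G), (∀ m ∈ M, c * m * c⁻¹ * m⁻¹ ∈ N) → c ∈ M) (hM22 : Cfsg.Spor.IsoM22 (M ⧸ N.subgroupOf M)) (h2cen : Cfsg.IsTwoCentralInvolution t) : Cfsg.Spor.IsoJ4 G := by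
  obtain ⟨X, -⟩ := CL.J4.exists_HM_of_shape ht Q N M hQN hNM hM hQ hcard hN hcent hperf h2c hout hM22
  obtain ⟨Y, -⟩ := X.exists_JM
  exact CL.J4.Un.isoJ4 Y Cfsg.Agent.S1703.result

end Cfsg.Agent.S1670
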