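import Cfsg.Statements.S1681
import Cfsg.Agent.Spor.SuzModel
import Cfsg.Agent.Spor.PGPres3
import Cfsg.Agent.Spor.TCSuzF
import Cfsg.Agent.Spor.TCSuzG
import Cfsg.Agent.Spor.TCSuzH

set_option autoImplicit false
open Cfsg

namespace Cfsg.Agent.S1681

/-- In the presented sporadic Suzuki group (generators a, …, g), the subgroup generated by the images of a, b, c, d, f, g has index 22880. -/
theorem result : (((Subgroup.closure ({Cfsg.Spor.Suz.a, Cfsg.Spor.Suz.b, Cfsg.Spor.Suz.c, Cfsg.Spor.Suz.d, Cfsg.Spor.Suz.f, Cfsg.Spor.Suz.g} : Set (FreeGroup Cfsg.Spor.Suz.Gen))).map (PresentedGroup.mk (Cfsg.Spor.coxRelators Cfsg.Spor.Suz.edges ∪ {r | r ∈ Cfsg.Spor.Suz.extra})))).index = 22880 := by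
  have e : ((Subgroup.closure ({Cfsg.Spor.Suz.a, Cfsg.Spor.Suz.b, Cfsg.Spor.Suz.c, Cfsg.Spor.Suz.d, Cfsg.Spor.Suz.f, Cfsg.Spor.Suz.g} : Set (FreeGroup Cfsg.Spor.Suz.Gen))).map (PresentedGroup.mk (Cfsg.Spor.coxRelators Cfsg.Spor.Suz.edges ∪ {r | r ∈ Cfsg.Spor.Suz.extra}))) = (CL.TC.subL CL.SuzP.mk (CL.SuzP.wds [.a, .b, .c, .d, .f, .g])) := by
    unfold CL.TC.subL
    congr 2
    ext x
    simp
  rw [e]
  have h := CL.TC.SuzF.valid.relIndex_le (invol := CL.SuzP.gens) (LB := CL.SuzP.lets CL.SuzP.gens)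
    (SL := CL.SuzP.wds [.a, .b, .c, .d, .f, .g]) (KL := CL.SuzP.wds CL.SuzP.gens) CL.SuzP.hR rfl (by decide +kernel)
  rw [CL.SuzP.top, Subgroup.relIndex_top_right] at h
  have h1 := CL.TC.SuzH.valid.card_le (invol := CL.SuzP.gens) (LB := CL.SuzP.lets [.a, .b, .c, .d, .f])
    (SL := CL.SuzP.wds [.a, .b, .c, .d]) (KL := CL.SuzP.wds [.a, .b, .c, .d, .f]) CL.SuzP.hR rfl (by decide +kernel)
    (CL.TC.subL_le_of_lettersIn (by decide +kernel)) (CL.SuzP.cardD CL.SuzP.hR)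
  have h2 := CL.TC.SuzG.valid.card_le (invol := CL.SuzP.gens) (LB := CL.SuzP.lets [.a, .b, .c, .d, .f, .g])
    (SL := CL.SuzP.wds [.a, .b, .c, .d, .f]) (KL := CL.SuzP.wds [.a, .b, .c, .d, .f, .g]) CL.SuzP.hR rfl
    (by decide +kernel) (CL.TC.subL_le_of_lettersIn (by decide +kernel)) h1
  exact (CL.PP.index_eq_of_bounds (by rw [CL.SuzP.card]; rfl) h h2).1

end Cfsg.Agent.S1681
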