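import Cfsg.Statements.S1685
import Cfsg.Agent.Spor.Fi22Model
import Cfsg.Agent.Spor.PGPres3

set_option autoImplicit false
open Cfsg

namespace Cfsg.Agent.S1685

/-- In the presented Fischer group Fi₂₂ (generators a, …, i), the subgroup generated by the images of b, c, d, e, f, g, h, i has index 14080. -/
theorem result : (((Subgroup.closure ({Cfsg.Spor.Fi22.b, Cfsg.Spor.Fi22.c, Cfsg.Spor.Fi22.d, Cfsg.Spor.Fi22.e, Cfsg.Spor.Fi22.f, Cfsg.Spor.Fi22.g, Cfsg.Spor.Fi22.h, Cfsg.Spor.Fi22.i} : Set (FreeGroup Cfsg.Spor.Fi22.Gen))).map (PresentedGroup.mk (Cfsg.Spor.coxRelators Cfsg.Spor.Fi22.edges ∪ {r | r ∈ Cfsg.Spor.Fi22.extra})))).index = 14080 := by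
  have e : ((Subgroup.closure ({Cfsg.Spor.Fi22.b, Cfsg.Spor.Fi22.c, Cfsg.Spor.Fi22.d, Cfsg.Spor.Fi22.e, Cfsg.Spor.Fi22.f, Cfsg.Spor.Fi22.g, Cfsg.Spor.Fi22.h, Cfsg.Spor.Fi22.i} : Set (FreeGroup Cfsg.Spor.Fi22.Gen))).map (PresentedGroup.mk (Cfsg.Spor.coxRelators Cfsg.Spor.Fi22.edges ∪ {r | r ∈ Cfsg.Spor.Fi22.extra}))) = (CL.TC.subL CL.Fi22P.mk (CL.Fi22P.wds [.b, .c, .d, .e, .f, .g, .h, .i])) := by
    unfold CL.TC.subL
    congr 2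
    ext x
    simp
  rw [e]
  have h := CL.Fi22P.idxB CL.Fi22P.hR
  rw [CL.Fi22P.top, Subgroup.relIndex_top_right] at h
  exact (CL.PP.index_eq_of_bounds (by rw [CL.Fi22P.card]) h (CL.Fi22P.cardC CL.Fi22P.hR)).1

end Cfsg.Agent.S1685
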