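import Cfsg.Statements.S1693
import Cfsg.Agent.Spor.ONModel
import Cfsg.Agent.Spor.ONL37

set_option autoImplicit false
open Cfsg

namespace Cfsg.Agent.S1693

open CL.TC CL.PG CL.PP CL.ONP Cfsg.Spor Cfsg.Spor.ON in
theorem equiv : Nonempty (H ≃* subW CL.ONL.gs1 [[2], [4], [6], [8], [10], [12]]) := by
  let χ := FreeGroup.lift fun x => CL.ONL.gs1.getD (gens.idxOf x) 1
  have h0 := CL.ONL.rel CL.ONL.c1
  have hR : ∀ r ∈ coxList edges [a * f * ((c * d) ^ 4)⁻¹], mk.prod χ r = 1 := fun r hr => Prod.ext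
    (hR r (mem_coxList.2 ((mem_coxList.1 hr).imp id fun h => by
      rw [List.mem_singleton.1 h]; exact List.Mem.tail _ (List.Mem.head _))))
    ((mem_coxList.1 hr).elim (cox_of_rels (getD_lift _ _) (rels_sub h0 (by decide +kernel)) r)
      (ext_of_rels (getD_lift _ _) (rels_sub h0 (by decide +kernel)) r))
  obtain ⟨h1, h2⟩ : Finite (subL (mk.prod χ) (wds invs)) ∧ Nat.card (subL (mk.prod χ) (wds invs)) ≤ 3753792 :=
    ONB.valid.card_le (invol := invs) (LB := lets invs) hR rfl (by decide +kernel)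
      (subL_le_of_lettersIn (by decide +kernel)) (ONC.valid.card_le (invol := invs)
        (LB := lets [.a, .b, .c, .e, .f]) (KL := wds [.a, .b, .c, .e, .f]) hR rfl (by decide +kernel)
        (subL_le_of_lettersIn (by decide +kernel)) (card_subL_nil _))
  have e1 : (subL (mk.prod χ) (wds invs)).map (MonoidHom.fst _ _) = H := Subgroup.map_map ..
  have e2 : (subL (mk.prod χ) (wds invs)).map (MonoidHom.snd _ _) = subW CL.ONL.gs1 [[2], [4], [6], [8], [10], [12]] :=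
    (Subgroup.map_map ..).trans ((subW_toPG (getD_lift _ _) _).symm.trans (congrArg _ (by decide +kernel)))
  exact ⟨(MulEquiv.subgroupCongr e1.symm).trans ((MulEquiv.ofBijective _ ((MonoidHom.subgroupMap_surjective _
    _).bijective_of_nat_card_le (by rwa [e1, card_H]))).symm.trans ((MulEquiv.ofBijective _
    ((MonoidHom.subgroupMap_surjective _ _).bijective_of_nat_card_le (h2.trans (by
      rw [e2]; exact CL.ONL.H_lb CL.ONL.c1 inferInstance)))).trans (MulEquiv.subgroupCongr e2)))⟩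

/-- In the presented O'Nan group, the subgroup H generated by the images of a, …, f has a normal subgroup of index 2 isomorphic to PSL(3, 7). -/
theorem result : ∃ N : Subgroup (((Subgroup.closure ({Cfsg.Spor.ON.a, Cfsg.Spor.ON.b, Cfsg.Spor.ON.c, Cfsg.Spor.ON.d, Cfsg.Spor.ON.e, Cfsg.Spor.ON.f} : Set (FreeGroup Cfsg.Spor.ON.Gen))).map (PresentedGroup.mk (Cfsg.Spor.coxRelators Cfsg.Spor.ON.edges ∪ {r | r ∈ Cfsg.Spor.ON.extra})))), N.Normal ∧ N.index = 2 ∧ Nonempty (N ≃* Matrix.ProjectiveSpecialLinearGroup (Fin 3) (ZMod 7)) := by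
  have e : ((Subgroup.closure ({Cfsg.Spor.ON.a, Cfsg.Spor.ON.b, Cfsg.Spor.ON.c, Cfsg.Spor.ON.d, Cfsg.Spor.ON.e, Cfsg.Spor.ON.f} : Set (FreeGroup Cfsg.Spor.ON.Gen))).map (PresentedGroup.mk (Cfsg.Spor.coxRelators Cfsg.Spor.ON.edges ∪ {r | r ∈ Cfsg.Spor.ON.extra}))) = CL.ONP.H := by
    unfold CL.ONP.H CL.TC.subL
    congr 2
    ext x
    simp
  rw [e]
  obtain ⟨a⟩ := equiv
  obtain ⟨b⟩ := CL.ONL.iso CL.ONL.c1
  obtain ⟨c⟩ := CL.Std.L37.iso (F := ZMod 7) (ZMod.card 7)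
  have h1 := CL.ONL.N_le CL.ONL.c1
  have h2 := ((CL.PG.subW CL.ONL.gs1 [[38], [40], [42], [44], [46]]).subgroupOf
    (CL.PG.subW CL.ONL.gs1 [[2], [4], [6], [8], [10], [12]])).card_mul_index
  rw [Nat.card_congr (Subgroup.subgroupOfEquivOfLe h1).toEquiv, CL.ONL.N_card CL.ONL.c1, ← Nat.card_congr a.toEquiv,
    CL.ONP.card_H, ← Subgroup.index_map_equiv _ a.symm] at h2
  exact ⟨_, Subgroup.normal_of_index_eq_two (by omega), by omega,
    ⟨(a.symm.subgroupMap _).symm.trans ((Subgroup.subgroupOfEquivOfLe h1).trans (b.trans c))⟩⟩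

end Cfsg.Agent.S1693
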