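import Cfsg.Statements.S1712
import Cfsg.Agent.Spor.J4DMain

set_option autoImplicit false
open Cfsg

namespace Cfsg.Agent.S1712

/-- In the presented fourth Janko group (generators x, y, t), the subgroup generated by the images of x, y and (y * w⁻¹ * t * w) ^ 3 with w = (y * x) ^ 4 * y⁻¹ * x has index 173067389. -/
theorem result : (((Subgroup.closure ({Cfsg.Spor.J4.x, Cfsg.Spor.J4.y, (Cfsg.Spor.J4.y * ((Cfsg.Spor.J4.y * Cfsg.Spor.J4.x) ^ 4 * Cfsg.Spor.J4.y⁻¹ * Cfsg.Spor.J4.x)⁻¹ * Cfsg.Spor.J4.t * ((Cfsg.Spor.J4.y * Cfsg.Spor.J4.x) ^ 4 * Cfsg.Spor.J4.y⁻¹ * Cfsg.Spor.J4.x)) ^ 3} : Set (FreeGroup Cfsg.Spor.J4.Gen))).map (PresentedGroup.mk (Cfsg.Spor.coxRelators Cfsg.Spor.J4.edges ∪ {r | r ∈ Cfsg.Spor.J4.extra})))).index = 173067389 := by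
  rw [← CL.J4M.final.1]
  unfold CL.J4M.N0 CL.TC.subL CL.J4DA.s
  congr 3
  ext x
  simp

end Cfsg.Agent.S1712
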