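import Cfsg.Statements.S1721
import Cfsg.Agent.Spor.J23J2

set_option autoImplicit false
open Cfsg

namespace Cfsg.Agent.S1721

/-- The order of a group of Hall–Janko type: under the large-extraspecial hypothesis with Q of order 32, quotient Ω⁻(4, 2), z not weakly closed in Q, and more than one class of involutions, the group has order 2^7·3^3·5^2·7 = 604800. -/
theorem result {G : Type*} [Group G] [Finite G] (z : G) (hz : orderOf z = 2) (Q : Subgroup (Subgroup.centralizer ({z} : Set G))) [Q.Normal] (hF : Cfsg.generalizedFittingSubgroup (Subgroup.centralizer ({z} : Set G)) = Q) (hQ : Cfsg.IsExtraspecial 2 Q) (hcard : Nat.card Q = 2 ^ 5) (e : (Subgroup.centralizer ({z} : Set G)) ⧸ Q ≃* Cfsg.Omega (ZMod 2) (Cfsg.quadFormMinus 1 (ZMod 2) 1 1)) (hnwc : ∃ g : G, (∃ hq : g * z * g⁻¹ ∈ Subgroup.centralizer ({z} : Set G), (⟨g * z * g⁻¹, hq⟩ : Subgroup.centralizer ({z} : Set G)) ∈ Q) ∧ g * z * g⁻¹ ≠ z) (hcl : ∃ x y : G, orderOf x = 2 ∧ orderOf y = 2 ∧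 ¬ IsConj x y) : Nat.card G = 604800 := by
  exact CL.J23.card_of_isoJ2 (CL.J23.j2_of_fstar hz Q hF hQ hcard e hnwc hcl)

end Cfsg.Agent.S1721
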