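import Cfsg.Statements.S1724
import Cfsg.Agent.Spor.J23J2
import Cfsg.Agent.Spor.J2Loc

set_option autoImplicit false
open Cfsg

namespace Cfsg.Agent.S1724

/-- In a group of Hall–Janko type (large-extraspecial hypothesis with Q of order 32, quotient Ω⁻(4, 2), z not weakly closed in Q, more than one class of involutions), a Sylow 7-subgroup is its own centraliser and its normaliser is non-abelian of order 42. -/
theorem result {G : Type*} [Group G] [Finite G] (z : G) (hz : orderOf z = 2) (Q : Subgroup (Subgroup.centralizer ({z} : Set G))) [Q.Normal] (hF : Cfsg.generalizedFittingSubgroup (Subgroup.centralizer ({z} : Set G)) = Q) (hQ : Cfsg.IsExtraspecial 2 Q) (hcard : Nat.card Q = 2 ^ 5) (e : (Subgroup.centralizer ({z} : Set G)) ⧸ Q ≃* Cfsg.Omega (ZMod 2) (Cfsg.quadFormMinus 1 (ZMod 2) 1 1)) (hnwc : ∃ g : G, (∃ hq : g * z * g⁻¹ ∈ Subgroup.centralizer ({z} : Set G), (⟨g * z * g⁻¹, hq⟩ : Subgroup.centralizer ({z} : Set G)) ∈ Q) ∧ g * z * g⁻¹ ≠ z) (hcl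 : ∃ x y : G, orderOf x = 2 ∧ orderOf y = 2 ∧ ¬ IsConj x y) (D : Sylow 7 G) : Subgroup.centralizer ((D : Subgroup G) : Set G) = D ∧ Nat.card (Subgroup.normalizer ((D : Subgroup G) : Set G)) = 42 ∧ ¬ IsMulCommutative (Subgroup.normalizer ((D : Subgroup G) : Set G)) := by
  obtain ⟨ρ, h⟩ := CL.J2L.exists_good (CL.J23.j2_of_fstar hz Q hF hQ hcard e hnwc hcl)
  exact h.seven D

end Cfsg.Agent.S1724
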