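import Cfsg.Statements.S1753
import Cfsg.Agent.Base

set_option autoImplicit false
universe u
open Cfsg

namespace Cfsg.Agent.S1753

/-- Let K be any property of groups. (1) If G is a minimal counterexample relative to K — a finite non-abelian simple group not satisfying K such that every finite non-abelian simple group of smaller order satisfies K — then every proper subgroup of G is a K-group (all its non-abelian simple sections satisfy K), since such sections have smaller order than G. (2) Consequently (induction on the order), if every finite non-abelian simple group all of whose proper subgroups are K-groups satisfies K, then every finite non-abelian simple group satisfies K. -/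
theorem result (K : ∀ (X : Type u) [Group X], Prop) :
    (∀ (G : Type u) [Group G], Cfsg.IsMinCounterexampleWith K G → Cfsg.IsKProperWith K G) ∧
      ((∀ (X : Type u) [Group X] [Finite X], IsSimpleGroup X → ¬ IsMulCommutative X → Cfsg.IsKProperWith K X → K X) →
        ∀ (G : Type u) [Group G] [Finite G], IsSimpleGroup G → ¬ IsMulCommutative G → K G) := by
  have h1 : ∀ (G : Type u) [Group G], Cfsg.IsMinCounterexampleWith K G → Cfsg.IsKProperWith K G := by
    intro G _ ⟨hf, _, _, _, hmin⟩ H hH L N _ hs hn
    refine hmin _ hs hn ?_
    have a1 : Nat.card (L ⧸ N) ≤ Nat.card L :=
      Nat.card_le_card_of_surjective _ (QuotientGroup.mk'_surjective N)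
    have a2 : Nat.card L ≤ Nat.card H := Nat.card_le_card_of_injective _ L.subtype_injective
    have a3 : Nat.card H < Nat.card G := by
      refine lt_of_le_of_ne (Nat.card_le_card_of_injective _ H.subtype_injective) fun h => hH ?_
      exact Subgroup.eq_top_of_card_eq H h
    omega
  refine ⟨h1, fun hK G _ _ => ?_⟩
  induction hn : Nat.card G using Nat.strong_induction_on generalizing G with
  | _ n ih =>
    intro hs hc
    by_contra hKG
    refine hKG (hK G hs hc (h1 G ⟨inferInstance, hs, hc, hKG, fun X _ _ hXs hXc hlt => ?_⟩))
    exact ih _ (hn ▸ hlt) X _ inferInstance rfl hXs hXc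

end Cfsg.Agent.S1753
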