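import Cfsg.Statements.S1755
import Cfsg.Agent.Even.ParChar
import Cfsg.Agent.Inv.BF3
import Cfsg.Agent.Grp.PGroupBasic

set_option autoImplicit false
open Cfsg

namespace Cfsg.Agent.S1755

open Subgroup CL.Even CL.Grp

/-- Let G be a finite group and let z be an involution of G such that Q, the generalized Fitting subgroup of the centralizer C of z, is a 2-group of symplectic type (every characteristic abelian subgroup of Q is cyclic). Let B be a characteristic abelian subgroup of Q, viewed as a subgroup of G. Then for every g in G, the conjugate of B by g either equals B or meets B trivially. -/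
theorem result {G : Type*} [Group G] [Finite G] (z : G) (hz : orderOf z = 2) (hQ : Cfsg.IsOfSymplecticType ↥(Cfsg.generalizedFittingSubgroup ↥(Subgroup.centralizer ({z} : Set G))))
    (B : Subgroup ↥(Cfsg.generalizedFittingSubgroup ↥(Subgroup.centralizer ({z} : Set G)))) (hBc : B.Characteristic) (hBa : IsMulCommutative ↥B) (g : G) :
    ((B.map (Cfsg.generalizedFittingSubgroup ↥(Subgroup.centralizer ({z} : Set G))).subtype).map (Subgroup.centralizer ({z} : Set G)).subtype).map (MulAut.conj g).toMonoidHom =
        (B.map (Cfsg.generalizedFittingSubgroup ↥(Subgroup.centralizer ({z} : Set G))).subtype).map (Subgroup.centralizer ({z} : Set G)).subtype ∨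
      ((B.map (Cfsg.generalizedFittingSubgroup ↥(Subgroup.centralizer ({z} : Set G))).subtype).map (Subgroup.centralizer ({z} : Set G)).subtype).map (MulAut.conj g).toMonoidHom ⊓
        (B.map (Cfsg.generalizedFittingSubgroup ↥(Subgroup.centralizer ({z} : Set G))).subtype).map (Subgroup.centralizer ({z} : Set G)).subtype = ⊥ := by
  let C := centralizer ({z} : Set G)
  let Q := generalizedFittingSubgroup C
  let B' : Subgroup G := (B.map Q.subtype).map C.subtype
  have hB' : B' = (B.map Q.subtype).map C.subtype := rfl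
  have hQn : Q.Normal := CL.Loc.fstar_normal
  have hBn : (B.map Q.subtype).Normal := inferInstance
  have hinj : Function.Injective (C.subtype.comp Q.subtype) :=
    C.subtype_injective.comp Q.subtype_injective
  have hB'cyc : IsCyclic B' := by
    have := hQ.2 B hBc hBa
    rw [hB', Subgroup.map_map]
    exact isCyclic_of_surjective _ (B.equivMapOfInjective _ hinj).surjective
  have hB'2 : IsPGroup 2 B' := ((hQ.1.to_subgroup B).map _).map _
  by_cases hI : cj g B' ⊓ B' = ⊥
  · exact Or.inr hI
  left
  have hBne : B ≠ ⊥ := by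
    rintro rfl
    apply hI
    rw [hB', Subgroup.map_bot, Subgroup.map_bot, inf_bot_eq]
  have hzC : z ∈ C := mem_cent_singleton.2 rfl
  have hzZ : (⟨z, hzC⟩ : C) ∈ center C :=
    mem_center_iff.2 fun c => Subtype.ext (mem_cent_singleton.1 c.2)
  have hzQ : (⟨z, hzC⟩ : C) ∈ Q := CL.Loc.fitting_le_fstar (center_le_fittingSubgroup hzZ)
  have hzB : z ∈ B' := by
    have := hQ.1.isNilpotent
    obtain ⟨w, hw, hw1, hwp⟩ := exists_mem_pow_eq_one (p := 2) ((hQ.1.to_subgroup _))
      (inf_center_ne_bot hBne)
    have hwz : w = ⟨⟨z, hzC⟩, hzQ⟩ := CL.Inv.eq_of_invol_of_mem_isCyclic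
      (hQ.2 (center Q) inferInstance inferInstance) hw.2
      (mem_center_iff.2 fun c => Subtype.ext (mem_center_iff.1 hzZ c))
      (orderOf_eq_prime hwp hw1) (by rw [orderOf_mk, orderOf_mk, hz])
    exact ⟨_, ⟨w, hw.1, rfl⟩, by rw [hwz]; rfl⟩
  obtain ⟨u, hu, hu1, hup⟩ := exists_mem_pow_eq_one hB'2.to_inf_right hI
  have huo := orderOf_eq_prime hup hu1
  have h1 : u = z := CL.Inv.eq_of_invol_of_mem_isCyclic hB'cyc hu.2 hzB huo hz
  have h2 : g⁻¹ * u * g = z := CL.Inv.eq_of_invol_of_mem_isCyclic hB'cyc (mem_cj.1 hu.1) hzB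
    (by rw [← huo]; simpa using (MulAut.conj g⁻¹).orderOf_eq u) hz
  have hg : g ∈ C := mem_cent_singleton.2 (by
    rw [h1] at h2
    calc g * z = g * (g⁻¹ * z * g) := by rw [h2]
      _ = z * g := by group)
  exact cj_eq (le_normalizer_map_subtype _ hg)

end Cfsg.Agent.S1755
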