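import Cfsg.Statements.S1756
import Cfsg.Agent.Grp.ExtraBasic

set_option autoImplicit false
open Cfsg

open scoped commutatorElement

namespace Cfsg.Agent.S1756

/-- Let Q be an extraspecial 2-subgroup of the finite group G (special with centre of order 2) and t an involution of G normalizing Q such that the centralizer of t in Q has index at most 2 in Q. Then t lies in the product of Q with the centralizer of Q. -/
theorem result {G : Type*} [Group G] [Finite G] (Q : Subgroup G)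
    (hQ : Cfsg.IsExtraspecial 2 ↥Q) (t : G) (ht : orderOf t = 2) (htN : t ∈ Subgroup.normalizer (Q : Set G))
    (hi : (Subgroup.centralizer ({t} : Set G) ⊓ Q).relIndex Q ≤ 2) :
    t ∈ Q ⊔ Subgroup.centralizer (Q : Set G) := by
  have htt : t * t = 1 := by rw [← pow_two, ← ht]; exact pow_orderOf_eq_one t
  have hti : t⁻¹ = t := inv_eq_of_mul_eq_one_right htt
  have hconj : ∀ x ∈ Q, t * x * t⁻¹ ∈ Q := fun x hx => (Subgroup.mem_normalizer_iff.mp htN x).mp hx
  set C := (Subgroup.centralizer ({t} : Set G) ⊓ Q).subgroupOf Q with hCdef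
  have hC : ∀ x : Q, x ∈ C ↔ t * x * t⁻¹ = x := fun x => by
    rw [hCdef, Subgroup.mem_subgroupOf, Subgroup.mem_inf, Subgroup.mem_centralizer_singleton_iff,
      and_iff_left x.2, mul_inv_eq_iff_eq_mul, eq_comm]
  have hi' : C.index ≤ 2 := hi
  have hi0 : C.index ≠ 0 := Subgroup.index_ne_zero_of_finite
  refine CL.Grp.extra_mem_sup_centralizer hQ fun x hx => ?_
  have hm : ⁅t, x⁆ ∈ Q := Q.mul_mem (hconj x hx) (Q.inv_mem hx)
  refine ⟨hm, ?_⟩
  by_cases hxC : (⟨x, hx⟩ : Q) ∈ C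
  · rw [commutatorElement_def, (hC _).mp hxC, mul_inv_cancel]
    exact Subgroup.one_mem _
  have h2 : C.index = 2 := by
    have : C.index ≠ 1 := fun h => hxC (by rw [Subgroup.index_eq_one.mp h]; trivial)
    omega
  have hZC : Subgroup.center Q ≤ C := CL.Grp.extra_frattini_eq hQ ▸
    frattini_le_coatom (CL.Grp.isCoatom_of_index_prime (h2 ▸ Nat.prime_two))
  have hnC : C.Normal := CL.Grp.extra_normal_of_center_le hQ hZC
  have hyC : (⟨t * x * t⁻¹, hconj x hx⟩ : Q) ∉ C := fun h => hxC ((hC _).mpr (by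
    have := (hC _).mp h
    simp only at this ⊢
    rw [← this, hti]
    calc t * (t * x * t) * t = (t * t) * x * (t * t) := by group
      _ = x := by rw [htt]; group))
  -- `d = [t, x]` lies in `C`, is inverted by `t`, and by `x`
  have hdC : (⟨⁅t, x⁆, hm⟩ : Q) ∈ C := by
    have : (⟨⁅t, x⁆, hm⟩ : Q) = ⟨t * x * t⁻¹, hconj x hx⟩ * (⟨x, hx⟩ : Q)⁻¹ := rfl
    rw [this, Subgroup.mul_mem_iff_of_index_two h2, inv_mem_iff]
    exact iff_of_false hyC hxC
  have hd1 : ⁅t, x⁆⁻¹ = ⁅t, x⁆ := by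
    have := (hC _).mp hdC
    simp only at this
    rw [← this]
    conv_lhs => rw [this]
    simp only [commutatorElement_def, hti, mul_inv_rev, inv_inv]
    calc x * (t * (x⁻¹ * t)) = (t * t) * x * t * x⁻¹ * t := by rw [htt]; group
      _ = _ := by group
  have hx2 : t * (x * x) * t⁻¹ = x * x := by
    have := (hC _).mp (hZC (CL.Grp.extra_pow_mem_center hQ ⟨x, hx⟩))
    simpa [pow_two] using this
  have hdx : x * ⁅t, x⁆ = ⁅t, x⁆ * x := by
    conv_rhs => rw [← hd1]
    simp only [commutatorElement_def, mul_inv_rev, inv_inv]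
    calc x * (t * x * t⁻¹ * x⁻¹) = x * (t * x⁻¹ * t⁻¹) * (t * (x * x) * t⁻¹) * x⁻¹ := by group
      _ = _ := by rw [hx2]; group
  have hdc : ∀ c ∈ C, (c : G) * ⁅t, x⁆ = ⁅t, x⁆ * c := fun c hc => by
    have h3 := (hC _).mp hc
    have h4 := (hC _).mp (hnC.conj_mem' c hc ⟨x, hx⟩)
    simp only [Subgroup.coe_mul, InvMemClass.coe_inv] at h4
    rw [commutatorElement_def]
    calc (c : G) * (t * x * t⁻¹ * x⁻¹) = (t * c * t⁻¹) * (t * x * t⁻¹ * x⁻¹) := by rw [h3]
      _ = (t * x * t⁻¹) * (t * (x⁻¹ * c * x) * t⁻¹) * x⁻¹ := by group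
      _ = _ := by rw [h4]; group
  intro y hy
  by_cases hyC' : (⟨y, hy⟩ : Q) ∈ C
  · exact hdc _ hyC'
  · have : (⟨y, hy⟩ : Q) * (⟨x, hx⟩ : Q)⁻¹ ∈ C := by
      rw [Subgroup.mul_mem_iff_of_index_two h2, inv_mem_iff]
      exact iff_of_false hyC' hxC
    have h5 := hdc _ this
    simp only [Subgroup.coe_mul, InvMemClass.coe_inv] at h5
    calc y * ⁅t, x⁆ = y * x⁻¹ * (x * ⁅t, x⁆) := by group
      _ = (y * x⁻¹ * ⁅t, x⁆) * x := by rw [hdx]; group
      _ = _ := by rw [h5]; group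

end Cfsg.Agent.S1756
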