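import Cfsg.Statements.S1774
import Cfsg.Agent.Even.XS2

set_option autoImplicit false
open Cfsg

namespace Cfsg.Agent.S1774

/-- Let G be a finite group and let z be an involution of G such that Q, the generalized Fitting subgroup of the centralizer C of z, is a 2-group of symplectic type (every characteristic abelian subgroup of Q is cyclic); suppose every element of Q has order dividing 4. Let g ∈ G with z' = g z g⁻¹ ≠ z and z' ∈ Q. Then z lies in the conjugate g Q g⁻¹, and the subgroup X generated by Q and g Q g⁻¹ induces every automorphism of the four-group generated by z and z': for any two distinct non-identity elements u, v of that four-group there is x ∈ X with x z x⁻¹ = u and x z' x⁻¹ = v. -/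
theorem result {G : Type*} [Group G] [Finite G] (z : G) (hz : orderOf z = 2) (hQ : Cfsg.IsOfSymplecticType ↥(Cfsg.generalizedFittingSubgroup ↥(Subgroup.centralizer ({z} : Set G))))
    (h4 : ∀ q ∈ (Cfsg.generalizedFittingSubgroup ↥(Subgroup.centralizer ({z} : Set G))).map (Subgroup.centralizer ({z} : Set G)).subtype, q ^ 4 = 1) (g : G) (hne : g * z * g⁻¹ ≠ z) (hin : g * z * g⁻¹ ∈ (Cfsg.generalizedFittingSubgroup ↥(Subgroup.centralizer ({z} : Set G))).map (Subgroup.centralizer ({z} : Set G)).subtype) :
    z ∈ ((Cfsg.generalizedFittingSubgroup ↥(Subgroup.centralizer ({z} : Set G))).map (Subgroup.centralizer ({z} : Set G)).subtype).map (MulAut.conj g).toMonoidHom ∧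
      ∀ u ∈ Subgroup.closure ({z, g * z * g⁻¹} : Set G), ∀ v ∈ Subgroup.closure ({z, g * z * g⁻¹} : Set G),
        u ≠ 1 → v ≠ 1 → u ≠ v →
          ∃ x ∈ (Cfsg.generalizedFittingSubgroup ↥(Subgroup.centralizer ({z} : Set G))).map (Subgroup.centralizer ({z} : Set G)).subtype ⊔ ((Cfsg.generalizedFittingSubgroup ↥(Subgroup.centralizer ({z} : Set G))).map (Subgroup.centralizer ({z} : Set G)).subtype).map (MulAut.conj g).toMonoidHom, x * z * x⁻¹ = u ∧ x * (g * z * g⁻¹) * x⁻¹ = v := by
  have h := CL.Even.xs_of_fstar hz rfl (by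
    have e := Subgroup.equivMapOfInjective
      (Cfsg.generalizedFittingSubgroup ↥(Subgroup.centralizer ({z} : Set G))) _
      (Subgroup.centralizer ({z} : Set G)).subtype_injective
    refine ⟨hQ.1.of_equiv e, fun A hA hA' => ?_⟩
    have h1 := hQ.2 (A.map e.symm.toMonoidHom) (Subgroup.characteristic_iff_map_le.mpr fun φ => by
      rintro _ ⟨_, ⟨x, hx, rfl⟩, rfl⟩
      exact ⟨e (φ (e.symm x)), Subgroup.characteristic_iff_le_comap.mp hA
        ((e.symm.trans φ).trans e) hx, by simp⟩) inferInstance
    exact @isCyclic_of_surjective _ _ _ _ _ h1 _ _ _ (e.symm.subgroupMap A).symm.surjective) h4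
  exact ⟨h.mem_cj_of_conj_mem hin, fun u hu v hv hu1 hv1 huv =>
    h.exists_conj_pair hin hne hu hv hu1 hv1 huv⟩

end Cfsg.Agent.S1774
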