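import Cfsg.Statements.S1775
import Cfsg.Agent.Loc.Bal2
import Cfsg.Agent.Loc.FStar
import Cfsg.Agent.Inv.Small1

set_option autoImplicit false
open Cfsg

namespace Cfsg.Agent.S1775

open Subgroup CL.Loc CL.Grp CL.Even

/-- Let G be a finite group whose generalized Fitting subgroup is a non-abelian simple group and in which every proper section (every quotient H/N of a proper subgroup H, or of G by a nontrivial normal subgroup) has the B-property. Let x, y be commuting involutions, let D be the intersection of the 2-layer of C_G(x) with C_G(y), and let J be a 2-component of D. Write Q for the quotient of C_G(y) by its largest normal odd-order subgroup. Then (i) the image of J in Q is a component of the centralizer in Q of the image of x; and (ii) for every J-invariant subgroup E of odd order of C_G(x) ∩ C_G(y), the commutator subgroup [J, E] lies in the largest normal odd-order subgroup of C_G(y). -/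
theorem result {G : Type*} [Group G] [Finite G]
    (hF : IsSimpleGroup ↥(Cfsg.generalizedFittingSubgroup G)) (hF' : ¬ IsMulCommutative ↥(Cfsg.generalizedFittingSubgroup G))
    (hsec : ∀ (H : Subgroup G) (N : Subgroup ↥H) [N.Normal], (H ≠ ⊤ ∨ N ≠ ⊥) → Cfsg.HasBProperty (↥H ⧸ N))
    (x y : G) (hx : orderOf x = 2) (hy : orderOf y = 2) (hxy : x * y = y * x)
    (J : Subgroup ↥((Cfsg.pLayer 2 ↥(Subgroup.centralizer ({x} : Set G))).map (Subgroup.centralizer ({x} : Set G)).subtype ⊓ Subgroup.centralizer ({y} : Set G)))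
    (hJ : Cfsg.IsPComponent 2 J) :
    Cfsg.IsComponent
        ((((J.map (Subgroup.subtype _)).subgroupOf (Subgroup.centralizer ({y} : Set G))).map (QuotientGroup.mk' (Cfsg.oddCore ↥(Subgroup.centralizer ({y} : Set G))))).subgroupOf
          (Subgroup.centralizer ({(QuotientGroup.mk' (Cfsg.oddCore ↥(Subgroup.centralizer ({y} : Set G))) ⟨x, Subgroup.mem_centralizer_singleton_iff.mpr hxy⟩ : ↥(Subgroup.centralizer ({y} : Set G)) ⧸ Cfsg.oddCore ↥(Subgroup.centralizer ({y} : Set G)))} : Set _))) ∧
      ∀ E : Subgroup G, E ≤ Subgroup.centralizer ({x} : Set G) ⊓ Subgroup.centralizer ({y} : Set G) → Odd (Nat.card ↥E) →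
        (∀ j ∈ J.map (Subgroup.subtype _), ∀ e ∈ E, j * e * j⁻¹ ∈ E) →
          ⁅J.map (Subgroup.subtype _), E⁆ ≤ (Cfsg.oddCore ↥(Subgroup.centralizer ({y} : Set G))).map (Subgroup.centralizer ({y} : Set G)).subtype := by
  have : Fact (Nat.Prime 2) := ⟨Nat.prime_two⟩
  let Y := centralizer ({y} : Set G)
  let x' : Y := ⟨x, mem_centralizer_singleton_iff.mpr hxy⟩
  let π := QuotientGroup.mk' (oddCore Y)
  let K := J.map (Subgroup.subtype _)
  have hx2 : x' ^ 2 ^ 1 = 1 := Subtype.ext (by simpa [hx] using pow_orderOf_eq_one x)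
  have hYt : Y ≠ ⊤ := fun e => by
    have h1 : y ∈ center G := mem_center_iff.2 fun g => mem_centralizer_singleton_iff.1 (e.ge (mem_top g))
    have h2 : (⟨y, fitting_le_fstar (center_le_fittingSubgroup h1)⟩ : generalizedFittingSubgroup G) ∈
        center (generalizedFittingSubgroup G) :=
      mem_center_iff.2 fun g => Subtype.ext (mem_center_iff.1 h1 g)
    rw [CL.Inv.center_eq_bot_of_simple hF', mem_bot, Subtype.ext_iff] at h2
    rw [show y = 1 from h2] at hy
    simp at hy
  have h0 : PComp 2 K (Y ⊓ centralizer {x}) := by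
    refine (isPComponent_iff.1 hJ).map_subtype.trans (SubnIn.of_le_normalizer
      (le_inf inf_le_right (inf_le_left.trans (map_subtype_le _))) (le_norm_inf ?_ ?_))
    · exact inf_le_right.trans (le_normalizer.trans (norm_le_norm_pLayerOf (p := 2) _))
    · exact inf_le_left.trans le_normalizer
  have hsub : (Y ⊓ centralizer {x}).subgroupOf Y = centralizer {x'} := by
    rw [← show (centralizer {x'}).map Y.subtype = Y ⊓ centralizer {x} from map_subtype_cent_singleton x']
    exact comap_map_eq_self_of_injective Y.subtype_injective _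
  have h1 : PComp 2 (K.subgroupOf Y) (centralizer {x'}) :=
    hsub ▸ (pComp_subgroupOf_iff (h0.le.trans inf_le_left) inf_le_left).2 h0
  have hmap := map_cent_singleton_of_coprime (QuotientGroup.mk'_surjective (oddCore Y)) coprime_ker_mk' hx2
  have h2 : PComp 2 ((K.subgroupOf Y).map π) (centralizer {π x'}) :=
    hmap ▸ h1.map_of_coprime (coprime_inf_ker_mk' _)
  have h3 : orderOf (π x') = 2 := by
    refine orderOf_eq_prime (by rw [← map_pow, show x' ^ 2 = 1 from hx2, map_one]) fun e => ?_
    have h4 := (orderOf_dvd_natCard (⟨x', (QuotientGroup.eq_one_iff _).1 e⟩ : oddCore Y))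
    rw [← orderOf_coe, ← orderOf_coe, hx] at h4
    exact Nat.prime_two.coprime_iff_not_dvd.1 (pPrimeCore_coprime 2 Y).symm h4
  have h4 : ⁅(K.subgroupOf Y).map π, pPrimeCoreOf 2 (centralizer {π x'})⁆ = ⊥ := by
    have h5 := hsec Y (oddCore Y) (Or.inl hYt) _ h3
    rw [map_commutator, show oddCore (Y ⧸ oddCore Y) = ⊥ from pPrimeCore_quotient_pPrimeCore 2 Y] at h5
    exact le_bot_iff.1 ((commutator_mono h2.le_pLayerOf le_rfl).trans h5)
  refine ⟨⟨(subnIn_iff.1 h2.1).2, (isQuasisimple_subgroupOf_iff h2.le).2 (h2.2.isQuasisimple_iff.2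
    (le_bot_iff.1 ((commutator_mono le_rfl h2.core_le).trans h4.le)))⟩, fun E hE ho hn => ?_⟩
  refine commutator_le_of_subgroupOf (h0.le.trans inf_le_left) (hE.trans inf_le_right)
    (commutator_map_mk'_eq_bot_iff.1 ?_)
  have h5 : (E.subgroupOf Y).map π ≤ centralizer {π x'} := by
    rw [← hmap, ← hsub]
    exact map_mono (comap_mono (hE.trans (inf_comm _ _).le))
  have h6 : K ≤ 𝒩(E) := fun j hj => mem_normalizer_fintype (hn j hj)
  rcases h2.le_or_of_le_norm h5 (le_norm_map _ ((comap_mono h6).trans (le_normalizer_comap _))) with h7 | h7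
  · refine absurd h7 (h2.2.not_le_of_coprime (Nat.Coprime.coprime_dvd_left ?_ (Nat.coprime_two_right.2 ho)))
    exact (card_map_dvd _ _).trans (card_comap_dvd_of_injective _ _ Y.subtype_injective)
  · have h8 := le_bot_iff.1 ((commutator_mono le_rfl h7).trans h4.le)
    rw [← h2.2.perfect]
    exact commutator_commutator_eq_bot_of_rotate (by rwa [commutator_comm])
      (by rwa [commutator_comm, commutator_comm ((E.subgroupOf Y).map π)])

end Cfsg.Agent.S1775
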