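import Cfsg.Statements.S1783
import Cfsg.Agent.Loc.TIFam

set_option autoImplicit false
open Cfsg

namespace Cfsg.Agent.S1783

open Subgroup CL.Loc CL.Grp CL.Even
open scoped commutatorElement

/-- Let X be a finite group whose generalized Fitting subgroup equals its largest normal 2-subgroup Q, and let A be an abelian 2-subgroup of X such that every conjugate of A equals A or meets A trivially. Let B be the subgroup generated by the squares of the elements of A. Then B lies in Q, and if B is not an elementary abelian 2-group then the normal closure of B in X is commutative. -/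
theorem result {X : Type*} [Group X] [Finite X]
    (hX : Cfsg.generalizedFittingSubgroup X = Cfsg.pCore 2 X) (A : Subgroup X) (hA2 : IsPGroup 2 ↥A) (hAa : IsMulCommutative ↥A)
    (hti : ∀ h : X, A.map (MulAut.conj h).toMonoidHom = A ∨ A.map (MulAut.conj h).toMonoidHom ⊓ A = ⊥) :
    Subgroup.closure ((fun a : X => a ^ 2) '' (A : Set X)) ≤ Cfsg.pCore 2 X ∧
      (¬ Cfsg.IsElementaryAbelian 2 (Subgroup.closure ((fun a : X => a ^ 2) '' (A : Set X))) →
        IsMulCommutative ↥(Subgroup.normalClosure ((fun a : X => a ^ 2) '' (A : Set X)))) := by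
  have : Fact (Nat.Prime 2) := ⟨Nat.prime_two⟩
  have hcm : ∀ a ∈ A, ∀ b ∈ A, Commute a b := fun a ha b hb =>
    congrArg Subtype.val (hAa.is_comm.comm ⟨a, ha⟩ ⟨b, hb⟩)
  have fam : ∀ C : Subgroup X, (∃ x ∈ C, x ^ 2 ≠ 1) → (∀ h : X, cj h C = C ∨ cj h C ⊓ C = ⊥) →
      ∀ H : Subgroup X, IsPGroup 2 H → ∀ g h : X, cj g C ≤ H → cj h C ≤ H → cj g C ≠ cj h C →
        ⁅cj g C, cj h C⁆ = ⊥ := by
    rintro C ⟨x, hx, hx2⟩ hC H hH g h
    refine commute_of_ti_family (Set.range fun g : X => cj g C) ?_ ?_ ?_ ?_ H hH _ ⟨g, rfl⟩ _ ⟨h, rfl⟩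
    · rintro s _ ⟨a, rfl⟩
      exact ⟨s * a, cj_mul s a C⟩
    · rintro _ ⟨a, rfl⟩
      exact ⟨_, conj_mem_cj a hx, by rwa [conj_pow, Ne, conj_eq_one_iff]⟩
    · rintro _ ⟨a, rfl⟩ _ ⟨b, rfl⟩
      rw [card_cj, card_cj]
    · rintro _ ⟨a, rfl⟩ _ ⟨b, rfl⟩
      refine (hC (b⁻¹ * a)).imp (fun e => ?_) fun e => ?_
      · rw [cj_mul] at e
        simpa only [cj_cj_inv] using congrArg (fun K => cj b K) e
      · rw [cj_mul] at e
        simpa only [cj_inf, cj_cj_inv, cj_bot] using congrArg (fun K => cj b K) e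
  set B := closure ((fun a : X => a ^ 2) '' (A : Set X)) with hB
  have hBA : B ≤ A := (closure_le _).2 (by rintro _ ⟨a, ha, rfl⟩; exact pow_mem ha 2)
  have h1 : B ≤ pCore 2 X := by
    refine (closure_le _).2 ?_
    rintro _ ⟨a, ha, rfl⟩
    by_cases ha2 : a ^ 2 = 1
    · exact (show a ^ 2 ∈ pCore 2 X from ha2 ▸ one_mem _)
    refine mem_pCore_of_commutator_mem_frattini (fstar_eq_pCore_iff.1 hX) fun v hv => ?_
    have h2 : Commute (v * a * v⁻¹) a := by
      by_cases e : cj v A = cj (1 : X) A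
      · exact hcm _ (by rw [← cj_one A, ← e]; exact conj_mem_cj v ha) a ha
      have h3 := fam A ⟨a, ha, ha2⟩ hti (A ⊔ pCore 2 X)
        (hA2.to_sup_of_normal_right (pCore_isPGroup 2 X)) v 1
        (cj_le_of_mem le_sup_left (mem_sup_right hv)) (cj_le_of_mem le_sup_left (one_mem _)) e
      rw [cj_one] at h3
      exact commutatorElement_eq_one_iff_commute.1
        (mem_bot.1 (h3.le (commutator_mem_commutator (conj_mem_cj v ha) ha)))
    have h3 : ⁅v, a⁆ ∈ pCore 2 X := by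
      rw [commutatorElement_def, mul_assoc, mul_assoc, ← mul_assoc a]
      exact mul_mem hv (Normal.conj_mem inferInstance _ (inv_mem hv) a)
    refine ⟨_, pow_mem_frattini (pCore_isPGroup 2 X) ⟨_, h3⟩, ?_⟩
    change ⁅v, a⁆ ^ 2 = ⁅v, a ^ 2⁆
    rw [commutatorElement_def, h2.inv_right.mul_pow, conj_pow, commutatorElement_def, inv_pow]
  refine ⟨h1, fun hne => ?_⟩
  have h2 : ∃ x ∈ B, x ^ 2 ≠ 1 := by
    by_contra! h
    exact hne ⟨⟨⟨fun a b => Subtype.ext (hcm _ (hBA a.2) _ (hBA b.2))⟩⟩, h⟩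
  have h3 : ∀ h : X, cj h B = B ∨ cj h B ⊓ B = ⊥ := fun h => by
    refine (hti h).imp (fun e => cj_eq (mem_norm_of_cj_le ?_)) fun e =>
      le_bot_iff.1 ((inf_le_inf (cj_mono h hBA) hBA).trans e.le)
    rw [hB, MonoidHom.map_closure]
    refine closure_mono ?_
    rintro _ ⟨_, ⟨a, ha, rfl⟩, rfl⟩
    exact ⟨_, e.le (conj_mem_cj h ha), conj_pow⟩
  refine isMulCommutative_closure ?_
  intro x hx y hy
  obtain ⟨a, ha, h4⟩ := Group.mem_conjugatesOfSet_iff.1 hx
  obtain ⟨b, hb, h5⟩ := Group.mem_conjugatesOfSet_iff.1 hy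
  obtain ⟨g, rfl⟩ := isConj_iff.1 h4
  obtain ⟨h, rfl⟩ := isConj_iff.1 h5
  have ha' := conj_mem_cj g (subset_closure ha : a ∈ B)
  have hb' := conj_mem_cj h (subset_closure hb : b ∈ B)
  by_cases e : cj g B = cj h B
  · obtain ⟨c, hc, e'⟩ := e.le ha'
    rw [← e']
    exact ((hcm c (hBA hc) b (hBA (subset_closure hb))).map (MulAut.conj h)).eq
  have h6 := fam B h2 h3 _ (pCore_isPGroup 2 X) g h (cj_le_of_le h1 (le_normalizer_of_normal (mem_top g)))
    (cj_le_of_le h1 (le_normalizer_of_normal (mem_top h))) e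
  exact commutatorElement_eq_one_iff_mul_comm.1 (mem_bot.1 (h6.le (commutator_mem_commutator ha' hb')))

end Cfsg.Agent.S1783
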