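import Cfsg.Statements.S1784
import Cfsg.Agent.Even.XS3

set_option autoImplicit false
open Cfsg

open scoped commutatorElement

namespace Cfsg.Agent.S1784

open Subgroup CL.Grp CL.Even in
theorem aux {G : Type*} [Group G] [Finite G] {z α : G} {Q : Subgroup G} (h : XE z Q) (hα : α * α = 1)
    (hαC : α ∈ centralizer ({z} : Set G)) (hαQ : α ∉ Q) (Q₀ : Subgroup G)
    (hQ₀ : ∀ q : G, q ∈ Q₀ ↔ (q ∈ Q ∧ α * q * α⁻¹ * q⁻¹ ∈ zpowers z)) :
    closure ((fun q : G => α * q * α⁻¹ * q⁻¹) '' (Q : Set G)) = Q₀ ⊓ 𝒞(Q₀) := by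
  set D := closure ((fun q : G => α * q * α⁻¹ * q⁻¹) '' (Q : Set G)) with hD
  have hm : ∀ q ∈ Q, α * q * α⁻¹ * q⁻¹ ∈ Q := fun q hq => mul_mem (conj_mem (h.norm hαC) hq) (inv_mem hq)
  have hm' : ∀ q ∈ Q, α * q * α⁻¹ * q⁻¹ ∈ D := fun q hq => subset_closure ⟨q, hq, rfl⟩
  have hDQ : D ≤ Q := (closure_le _).mpr (by rintro _ ⟨q, hq, rfl⟩; exact hm q hq)
  have hzD : z ∈ D := h.mem_of_normalized (h.isPGroup.to_le hDQ) (le_norm_of_cj_le fun x hx => by
      rw [hD, MonoidHom.map_closure, closure_le]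
      rintro _ ⟨_, ⟨q, hq, rfl⟩, rfl⟩
      have : (MulAut.conj x).toMonoidHom (α * q * α⁻¹ * q⁻¹) =
          (α * x * α⁻¹ * x⁻¹)⁻¹ * (α * (x * q) * α⁻¹ * (x * q)⁻¹) := by simp [mul_assoc]
      rw [this]
      exact D.mul_mem (D.inv_mem (hm' x hx)) (hm' _ (mul_mem hx hq)))
    fun h0 => hαQ (h.stab α hαC fun x hx => by
      rw [commutatorElement_def, mem_bot.mp (h0.le (hm' x hx))]; exact one_mem _)
  obtain ⟨n, H, A, h0, -, hA, hq, -⟩ := h.exists_model
  have hN : ∀ r, (∀ y, H.B r y = 0) → r = 0 := fun r hr => by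
    obtain ⟨x, rfl⟩ := H.π_surj r
    exact (h0 x).mpr (h.cent_eq ▸ fun y hy => congrArg Subtype.val
      (mem_center_iff.mp (H.mem_center_iff.mpr hr) ⟨y, hy⟩))
  set T := A ⟨α, hαC⟩
  have hT2 : ∀ v, T (T v) = v := fun v => by
    rw [← Module.End.mul_apply, ← map_mul,
      show (⟨α, hαC⟩ : centralizer ({z} : Set G)) * ⟨α, hαC⟩ = 1 from Subtype.ext hα,
      map_one, Module.End.one_apply]
  have hπ : ∀ x : Q, H.π ⟨_, hm x x.2⟩ = T (H.π x) + H.π x := fun x => by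
    rw [hA, ← neg_eq_iff_eq_neg.mpr (eq_neg_of_add_eq_zero_left (add_self_zmod2 (H.π x))),
      ← H.π_inv, ← H.π_mul]; rfl
  let S : Module.End (ZMod 2) (Fin n → ZMod 2) := T + 1
  have hS : ∀ v, S v = T v + v := fun _ => rfl
  have hker : ∀ x : Q, (x : G) ∈ Q₀ ↔ S (H.π x) = 0 := fun x => by
    rw [hQ₀, and_iff_right x.2, hS, ← hπ, h0]
  have hadj : ∀ v w, H.B (S v) w = H.B v (S w) := fun v w => by
    rw [hS, hS, LinearMap.BilinForm.add_left, map_add, ← quad2_B_map H.q_add_two (hq _) v (T w), hT2]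
  have hQ₀Q : Q₀ ≤ Q := fun x hx => ((hQ₀ x).mp hx).1
  refine le_antisymm ((closure_le _).mpr ?_) fun x hx => ?_
  · rintro _ ⟨q, hq', rfl⟩
    refine ⟨(hker ⟨_, hm q hq'⟩).mpr ?_, fun y hy => ?_⟩
    · rw [hπ ⟨q, hq'⟩, hS, map_add, hT2, add_comm (T _), add_self_zmod2]
    · refine (congrArg Subtype.val ((H.B_eq_zero_iff (a := ⟨_, hm q hq'⟩) (b := ⟨y, hQ₀Q hy⟩)).mp ?_)).symm
      rw [hπ ⟨q, hq'⟩, ← hS, hadj, (hker ⟨y, hQ₀Q hy⟩).mp hy, map_zero]
  · have h1 : H.π ⟨x, hQ₀Q hx.1⟩ ∈ H.B.orthogonal (H.B.orthogonal (LinearMap.range S)) := by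
      intro w hw
      obtain ⟨y, rfl⟩ := H.π_surj w
      refine H.B_eq_zero_iff.mpr (Subtype.ext (hx.2 y ((hker y).mpr (hN _ fun v => ?_))))
      rw [hadj]; exact H.B_isRefl _ _ (hw _ ⟨v, rfl⟩)
    rw [LinearMap.BilinForm.orthogonal_orthogonal (nondegenerate_of_isAlt H.B_isAlt hN) H.B_isRefl] at h1
    obtain ⟨v, hv⟩ := h1
    obtain ⟨y, rfl⟩ := H.π_surj v
    rw [hS, ← hπ] at hv
    obtain ⟨s, hs⟩ := H.π_eq_iff.mp hv.symm
    rw [show x = _ from congrArg Subtype.val hs]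
    exact D.mul_mem (hm' y y.2) (zpowers_le.mpr hzD ((h0 _).mp (H.π_ι s)))


/-- Let G be a finite group and let z be an involution of G such that Q, the generalized Fitting subgroup of the centralizer C of z, is a 2-group of symplectic type (every characteristic abelian subgroup of Q is cyclic); suppose Q is extraspecial, and view Q inside G. Let α be an involution of C that is not in Q, and let Q₀ be the subgroup of those q ∈ Q whose commutator with α lies in the subgroup generated by z. Then (a) the subgroup generated by the commutators α q α⁻¹ q⁻¹, q ∈ Q, equals the centre of Q₀; and (b) if Q₀ is not contained in the product of the centralizer of α in Q with the subgroup generated by z, then some element of Q conjugates α to α z. -/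
theorem result {G : Type*} [Group G] [Finite G] (z : G) (hz : orderOf z = 2) (hQ : Cfsg.IsOfSymplecticType ↥(Cfsg.generalizedFittingSubgroup ↥(Subgroup.centralizer ({z} : Set G)))) (hE : Cfsg.IsExtraspecial 2 ↥(Cfsg.generalizedFittingSubgroup ↥(Subgroup.centralizer ({z} : Set G))))
    (α : G) (hα : orderOf α = 2) (hαC : α ∈ Subgroup.centralizer ({z} : Set G)) (hαQ : α ∉ (Cfsg.generalizedFittingSubgroup ↥(Subgroup.centralizer ({z} : Set G))).map (Subgroup.centralizer ({z} : Set G)).subtype)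
    (Q₀ : Subgroup G) (hQ₀ : ∀ q : G, q ∈ Q₀ ↔ (q ∈ (Cfsg.generalizedFittingSubgroup ↥(Subgroup.centralizer ({z} : Set G))).map (Subgroup.centralizer ({z} : Set G)).subtype ∧ α * q * α⁻¹ * q⁻¹ ∈ Subgroup.zpowers z)) :
    Subgroup.closure ((fun q : G => α * q * α⁻¹ * q⁻¹) '' ((Cfsg.generalizedFittingSubgroup ↥(Subgroup.centralizer ({z} : Set G))).map (Subgroup.centralizer ({z} : Set G)).subtype : Set G)) = (Subgroup.center ↥Q₀).map Q₀.subtype ∧
      (¬ Q₀ ≤ ((Cfsg.generalizedFittingSubgroup ↥(Subgroup.centralizer ({z} : Set G))).map (Subgroup.centralizer ({z} : Set G)).subtype ⊓ Subgroup.centralizer ({α} : Set G)) ⊔ Subgroup.zpowers z →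
        ∃ q ∈ (Cfsg.generalizedFittingSubgroup ↥(Subgroup.centralizer ({z} : Set G))).map (Subgroup.centralizer ({z} : Set G)).subtype, q * α * q⁻¹ = α * z) := by
  have h := CL.Even.xe_of_fstar hz rfl (CL.Grp.extra_of_mulEquiv hE (Subgroup.equivMapOfInjective _ _
    (Subgroup.centralizer ({z} : Set G)).subtype_injective))
  have hα2 := CL.Even.mul_self_of_orderOf_two hα
  refine ⟨by rw [CL.Grp.map_subtype_center_eq]; exact aux h hα2 hαC hαQ Q₀ hQ₀, fun h1 => ?_⟩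
  obtain ⟨q, hq, hq'⟩ := SetLike.not_le_iff_exists.mp h1
  obtain ⟨h2, h3⟩ := (hQ₀ q).mp hq
  refine ⟨q, h2, ?_⟩
  rw [← (h.mem_Z.mp h3).resolve_left fun h4 => hq' (Subgroup.mem_sup_left ⟨h2,
    CL.Even.mem_cent_singleton.mpr (commutatorElement_eq_one_iff_mul_comm.mp h4).symm⟩),
    inv_eq_of_mul_eq_one_right hα2, ← mul_assoc, ← mul_assoc, ← mul_assoc, hα2, one_mul]

end Cfsg.Agent.S1784
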