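import Cfsg.Statements.S1785
import Cfsg.Agent.Loc.EAChain

set_option autoImplicit false
open Cfsg

namespace Cfsg.Agent.S1785

/-- Let X be a finite 2-group having a normal elementary abelian subgroup of order at least 32. Then (a) for any two elementary abelian subgroups A, B of X of order 8 there is a chain A = A₁, A₂, …, Aₙ = B of elementary abelian subgroups of order 8 in which consecutive members commute elementwise; and (b) every elementary abelian subgroup of X of order 4 is contained in an elementary abelian subgroup of order 8. -/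
theorem result {X : Type*} [Group X] [Finite X]
    (hX : IsPGroup 2 X) (E : Subgroup X) [E.Normal] (hE : Cfsg.IsElementaryAbelian 2 E) (hE32 : 32 ≤ Nat.card ↥E) :
    (∀ A B : Subgroup X, Cfsg.IsElementaryAbelian 2 A → Nat.card ↥A = 8 → Cfsg.IsElementaryAbelian 2 B → Nat.card ↥B = 8 →
        Relation.ReflTransGen
          (fun C D : Subgroup X => Cfsg.IsElementaryAbelian 2 C ∧ Nat.card ↥C = 8 ∧ Cfsg.IsElementaryAbelian 2 D ∧ Nat.card ↥D = 8 ∧ ⁅C, D⁆ = ⊥)
          A B) ∧
      (∀ V : Subgroup X, Cfsg.IsElementaryAbelian 2 V → Nat.card ↥V = 4 →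
        ∃ A : Subgroup X, V ≤ A ∧ Cfsg.IsElementaryAbelian 2 A ∧ Nat.card ↥A = 8) := by
  refine ⟨fun A B hA hA' hB hB' => CL.Loc.rtg_mono (CL.Loc.nAdj_connected (n := 3) hE
    (fun k hk => lt_of_lt_of_le ?_ hE32) hA hA' hB hB') fun C D h => ⟨h.1, h.2.1, h.2.2.1, h.2.2.2.1,
      Subgroup.commutator_eq_bot_iff_le_centralizer.2 fun a ha b hb => (h.2.2.2.2 a ha b hb).symm⟩,
    fun V hV h => CL.Loc.exists_ea_gt_of_normal (n := 2) hE (fun k hk => lt_of_lt_of_le ?_ hE32) hV h⟩ <;>
  interval_cases k <;> norm_num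

end Cfsg.Agent.S1785
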