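import Cfsg.Statements.S1786
import Cfsg.Agent.Timm.MaxAb
import Cfsg.Agent.Loc.FStar
import Cfsg.Agent.Grp.PGroupFrattini

set_option autoImplicit false
open Cfsg

namespace Cfsg.Agent.S1786

open CL.Even CL.Timm CL.Loc CL.Grp Subgroup in

/-- Let G be a finite group, V an elementary abelian 2-subgroup of G and M the normalizer of V; write Q for the largest normal 2-subgroup of M. Suppose (1) the generalized Fitting subgroup of M equals Q; (2) V is a maximal abelian normal subgroup of M; (3) every conjugate of V equals V or meets V trivially, and for some g ∈ G the conjugate V' = g V g⁻¹ is different from V and contained in Q. Let P be the centralizer of V in Q, W the subgroup generated by V and V', and H the subgroup generated by P and g P g⁻¹. Then: (a) V is contained in g Q g⁻¹; (b) every non-identity element of W lies in exactly one conjugate of V contained in W, H normalizes W, and H modulo the centralizer of W in H is isomorphic to the special linear group of dimension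 2 over the field with |V| elements; (c) P = Q, and V equals the Frattini subgroup, the centre and the commutator subgroup of Q. -/
theorem result {G : Type*} [Group G] [Finite G] (V : Subgroup G)
    (hV : Cfsg.IsElementaryAbelian 2 V)
    (h1 : (Cfsg.generalizedFittingSubgroup ↥(Subgroup.normalizer (V : Set G))).map (Subgroup.normalizer (V : Set G)).subtype =
      (Cfsg.pCore 2 ↥(Subgroup.normalizer (V : Set G))).map (Subgroup.normalizer (V : Set G)).subtype)
    (h2 : ∀ A : Subgroup G, V ≤ A → A ≤ Subgroup.normalizer (V : Set G) → IsMulCommutative ↥A →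
      (∀ m ∈ Subgroup.normalizer (V : Set G), ∀ a ∈ A, m * a * m⁻¹ ∈ A) → A = V)
    (hti : ∀ x : G, V.map (MulAut.conj x).toMonoidHom = V ∨ V.map (MulAut.conj x).toMonoidHom ⊓ V = ⊥)
    (g : G) (hg : V.map (MulAut.conj g).toMonoidHom ≠ V)
    (hgQ : V.map (MulAut.conj g).toMonoidHom ≤ (Cfsg.pCore 2 ↥(Subgroup.normalizer (V : Set G))).map (Subgroup.normalizer (V : Set G)).subtype) :
    let Q : Subgroup G := (Cfsg.pCore 2 ↥(Subgroup.normalizer (V : Set G))).map (Subgroup.normalizer (V : Set G)).subtype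
    let P : Subgroup G := Q ⊓ Subgroup.centralizer (V : Set G)
    let W : Subgroup G := V ⊔ V.map (MulAut.conj g).toMonoidHom
    let H : Subgroup G := P ⊔ P.map (MulAut.conj g).toMonoidHom
    V ≤ Q.map (MulAut.conj g).toMonoidHom ∧
      (∀ w ∈ W, w ≠ 1 → ∃! U : Subgroup G, (∃ x : G, U = V.map (MulAut.conj x).toMonoidHom) ∧ U ≤ W ∧ w ∈ U) ∧
      H ≤ Subgroup.normalizer (W : Set G) ∧
      (∀ hN : ((Subgroup.centralizer (W : Set G)).subgroupOf H).Normal, ∃ (F : Type) (_ : Field F) (_ : Fintype F), Fintype.card F = Nat.card ↥V ∧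
        Nonempty (↥H ⧸ (Subgroup.centralizer (W : Set G)).subgroupOf H ≃* Matrix.SpecialLinearGroup (Fin 2) F)) ∧
      P = Q ∧ (frattini ↥Q).map Q.subtype = V ∧ (Subgroup.center ↥Q).map Q.subtype = V ∧ (commutator ↥Q).map Q.subtype = V := by
  intro Q P W H
  have hT : TI V := ⟨hV, hti⟩
  have hch : IsCharP 2 𝒩(V) := isCharP_iff.2 (fstar_eq_pCore_iff.1 (map_injective (Subgroup.subtype_injective _) h1))
  have hmax : ∀ A : Subgroup G, A ≤ 𝒞(V) → A ≤ 𝒞(A) → 𝒩(V) ≤ 𝒩(A) → A ≤ V := fun A hA hA' hn => by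
    have hc : V ⊔ A ≤ 𝒞(V ⊔ A) := by
      rw [cent_sup]
      exact le_inf (sup_le (elem_le_cent hV) hA) (sup_le (le_centralizer_iff.1 hA) hA')
    exact le_sup_right.trans (h2 (V ⊔ A) le_sup_left (sup_le le_normalizer (hA.trans (cent_le_norm _)))
      (le_centralizer_iff_isMulCommutative.1 hc) fun m hm a ha => conj_mem (le_norm_sup le_rfl hn hm) ha).le
  have S : Spec V P := spec_of_max hmax hT hch
  have hle : cj g V ≤ P := le_inf hgQ (hT.le_cent_of_le_norm (hgQ.trans (core_le _)))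
  have L : Line V P (cj g V) (cj g P) := S.line_of_max hmax hle hg
  have hQn : 𝒩(V) ≤ 𝒩(Q) := self_le_norm_core _
  have hPQ : P = Q := by
    obtain ⟨⟨z, hz, hz'⟩, hz1⟩ := ne_bot_iff_exists_ne_one.1
      (inf_cent_ne_bot (elem_isP hV) (core_isP 𝒩(V)) (core_le _) L.ne_bot)
    refine inf_eq_left.2 (le_centralizer_iff.1 fun v hv => ?_)
    by_cases hv1 : v = 1
    · rw [hv1]; exact one_mem _
    obtain ⟨h, hh, rfl⟩ := L.trans_left hz (fun e => hz1 (Subtype.ext e)) hv hv1
    exact conj_mem (le_norm_cent hQn hh.2) hz'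
  have hcom : (commutator ↥Q).map Q.subtype = V := by
    rw [map_subtype_commutator, ← hPQ]
    refine le_antisymm (commutator_le.2 S.cel) fun u hu => ?_
    obtain ⟨⟨w, hw⟩, hw1⟩ := ne_bot_iff_exists_ne_one.1 L.symm.ne_bot
    obtain ⟨y, hy, rfl⟩ := L.full w hw (fun e => hw1 (Subtype.ext e)) u hu
    exact commutator_mem_commutator hy (hle hw)
  refine ⟨L.le'.trans (cj_mono g inf_le_left), fun w hw h1 => ?_, L.sup_le_norm, fun hN => ?_, hPQ, ?_, ?_, hcom⟩
  · have : ∃ x, cj x V ≤ W ∧ w ∈ cj x V := by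
      by_cases hwV : w ∈ V
      · exact ⟨1, by rw [cj_one]; exact ⟨le_sup_left, hwV⟩⟩
      · obtain ⟨y, hy, hw'⟩ := L.exists_mem_cj hw hwV
        exact ⟨y * g, by rw [cj_mul]; exact ⟨cj_le_of_le le_sup_right (L.le_norm hy), hw'⟩⟩
    obtain ⟨x, hx, hx'⟩ := this
    refine ⟨_, ⟨⟨x, rfl⟩, hx, hx'⟩, ?_⟩
    rintro _ ⟨⟨y, rfl⟩, -, hy⟩
    exact hT.eq_of_mem hy hx' h1
  · obtain ⟨n, hn⟩ := IsPGroup.iff_card.1 (elem_isP hV)
    have hn0 : n ≠ 0 := by
      rintro rfl
      exact L.ne_bot (card_eq_one.1 hn)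
    have hF : Nat.card (GaloisField 2 n) = Nat.card V := by rw [hn, GaloisField.card 2 n hn0]
    obtain ⟨ψ, φ, hs, -, -, -, -, -, -, -, -, -, -, hk⟩ := L.exists_SL2 (GaloisField 2 n) hF
    refine ⟨GaloisField 2 n, inferInstance, Fintype.ofFinite _, by rw [← hF]; exact (@Nat.card_eq_fintype_card _ (Fintype.ofFinite _)).symm, ⟨?_⟩⟩
    exact (QuotientGroup.quotientMulEquivOfEq hk.symm).trans (QuotientGroup.quotientKerEquivOfSurjective φ hs)
  · refine le_antisymm ?_ (hcom.ge.trans (map_mono (commutator_le_frattini (core_isP 𝒩(V)))))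
    rw [map_le_iff_le_comap]
    refine frattini_le_of_commutator_le_of_pow_mem (p := 2) (map_le_iff_le_comap.1 hcom.le) fun x => ?_
    rw [pow_two]
    exact S.sqm _ (hPQ.ge x.2)
  · ext x
    refine ⟨?_, fun hx => ⟨⟨x, (S.le hx).1⟩, mem_center_iff.2 fun y => Subtype.ext (S.cm (hPQ.ge y.2) hx), rfl⟩⟩
    rintro ⟨x, hx, rfl⟩
    exact S.mem_of_cent (hPQ.ge x.2) fun y hy =>
      cel_eq_one.2 (congrArg Subtype.val (mem_center_iff.1 hx ⟨y, hy.1⟩)).symm

end Cfsg.Agent.S1786
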