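import Cfsg.Statements.S1958
import Cfsg.Agent.Loc.PConstr

set_option autoImplicit false
open Cfsg

namespace Cfsg.Agent.S1958

theorem aux {G : Type*} [Group G] [Finite G] (p : ℕ) [Fact p.Prime] (x y : G)
    (hy : orderOf y = p) (hxy : x * y = y * x)
    (hCx : Group.IsSolvable ↥(Subgroup.centralizer ({x} : Set G))) :
    Cfsg.centralizerPPrimeCore p x ⊓ Subgroup.centralizer {y} =
      CL.Grp.pPrimeCoreOf p (Subgroup.centralizer {x} ⊓ Subgroup.centralizer {y}) := by
  set C := Subgroup.centralizer ({x} : Set G) with hC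
  have hyC : y ∈ C := by rw [hC, Subgroup.mem_centralizer_singleton_iff]; exact hxy.symm
  have hP : IsPGroup p (Subgroup.zpowers (⟨y, hyC⟩ : C)) :=
    IsPGroup.of_card (n := 1) (by
      rw [Nat.card_zpowers, pow_one, ← Subgroup.orderOf_coe]; exact hy)
  have h := CL.Loc.pPrimeCoreOf_centralizer (CL.Loc.isPConstrained_of_isSolvable (p := p) hCx) hP
  have h1 : Subgroup.centralizer ((Subgroup.zpowers (⟨y, hyC⟩ : C) : Subgroup C) : Set C) =
      (Subgroup.centralizer {y}).subgroupOf C := by
    rw [Subgroup.zpowers_eq_closure, Subgroup.centralizer_closure]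
    ext c
    rw [Subgroup.mem_subgroupOf, Subgroup.mem_centralizer_singleton_iff,
      Subgroup.mem_centralizer_singleton_iff, Subtype.ext_iff]
    rfl
  rw [h1] at h
  have h2 := congrArg (Subgroup.map C.subtype) h
  rw [Subgroup.map_inf _ _ _ C.subtype_injective, Subgroup.subgroupOf_map_subtype,
    CL.Grp.map_pPrimeCoreOf_of_injective C.subtype_injective,
    Subgroup.subgroupOf_map_subtype] at h2
  rw [inf_comm C, h2, inf_comm _ C, ← inf_assoc]
  congr 1
  exact (inf_eq_left.2 (Subgroup.map_subtype_le _)).symm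


/-- Let `G` be a finite group, `p` a prime, and `x, y` commuting elements of order `p` whose centralizers `C_G(x)` and `C_G(y)` are both solvable. Then `O_{p'}(C_G(x)) ∩ C_G(y) = O_{p'}(C_G(y)) ∩ C_G(x)` (balance). -/
theorem result {G : Type*} [Group G] [Finite G]
    (p : ℕ) [Fact p.Prime] (x y : G) (hx : orderOf x = p) (hy : orderOf y = p) (hxy : x * y = y * x)
    (hCx : Group.IsSolvable ↥(Subgroup.centralizer ({x} : Set G))) (hCy : Group.IsSolvable ↥(Subgroup.centralizer ({y} : Set G))) :
    Cfsg.centralizerPPrimeCore p x ⊓ Subgroup.centralizer {y} = Cfsg.centralizerPPrimeCore p y ⊓ Subgroup.centralizer {x} := by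
  rw [aux p x y hy hxy hCx, aux p y x hx hxy.symm hCy, inf_comm]

end Cfsg.Agent.S1958
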