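import Cfsg.Statements.S1967
import Cfsg.Agent.Loc.CFunChain

set_option autoImplicit false
open Cfsg

namespace Cfsg.Agent.S1967

/-- Let p be a prime, G a finite group with Sylow p-subgroup S and W a conjugacy functor for p on G. Then W controls strong fusion in G if and only if, whenever T ≤ S and g ∈ G satisfy gTg⁻¹ ≤ S, one can write g = n c with n ∈ N_G(W(S)) and c ∈ C_G(T). -/
theorem result {G : Type*} [Group G] [Finite G] {p : ℕ} [Fact p.Prime] (S : Sylow p G) (W : Subgroup G → Subgroup G) (hW : Cfsg.IsConjugacyFunctor p W) : Cfsg.ControlsStrongFusionIn p W ⊤ ↔ ∀ (T : Subgroup G) (g : G), T ≤ (S : Subgroup G) → T.map (MulAut.conj g).toMonoidHom ≤ (S : Subgroup G) → ∃ n ∈ Subgroup.normalizer ((W (S : Subgroup G) : Subgroup G) : Set G), ∃ c ∈ Subgroup.centralizer (T : Set G), g = n * c := by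
  have hS := CL.Grp.isSylowIn_top S
  rw [CL.Loc.controlsStrongFusionIn_iff_family]
  constructor
  · intro hc T g hT hg
    have h1 := (CL.Loc.genFus_of_familyControls (fun W' h => by rw [h]; exact hW) hc hS).subgroup
      hT (Subgroup.mem_top g) hg
    obtain ⟨x, hx, e⟩ := h1.exists_mem
      (N := Subgroup.normalizer ((W (S : Subgroup G) : Subgroup G) : Set G))
      (by rintro x ⟨W', rfl, hx⟩; exact hx.2)
    refine ⟨x, hx, x⁻¹ * g, ?_, by simp⟩
    intro a ha
    calc a * (x⁻¹ * g) = x⁻¹ * (x * a * x⁻¹) * g := by group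
      _ = _ := by rw [e a ha]; group
  · intro hc
    refine CL.Loc.familyControlsStrongFusionIn_iff.2 ⟨S, hS, CL.Loc.genFus_of_subgroups ?_⟩
    intro A hA g _ hg
    obtain ⟨n, hn, c, hc, rfl⟩ := hc A g hA hg
    have e : ∀ a ∈ (A : Set G), n * a * n⁻¹ = n * c * a * (n * c)⁻¹ := by
      intro a ha
      rw [mul_assoc n c a, ← hc a ha]
      group
    refine (CL.Loc.FusBy.step (𝓝 := CL.Loc.famSteps {W} ⊤ S) hA ⟨W, rfl, trivial, hn⟩
      fun a ha => ?_).congr e
    rw [e a ha]
    exact hg (CL.Grp.conj_mem_conj_smul _ ha)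

end Cfsg.Agent.S1967
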