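import Cfsg.Statements.S1993
import Cfsg.Agent.Loc.KinfTransfer
import Cfsg.Agent.S1969

set_option autoImplicit false
universe u
open Cfsg

namespace Cfsg.Agent.S1993

open Subgroup CL.Grp CL.Loc

/-- Let p be a prime, G a finite group with Sylow p-subgroup S, and K the upper K-infinity subgroup of S. If p ≥ 5 then S ∩ G' = S ∩ (N_G(K))'; and if p is odd and every section of G is p-stable in the normalizer form, then K controls strong fusion in G. -/
theorem result {G : Type u} [Group G] [Finite G] {p : ℕ} [Fact p.Prime] (S : Sylow p G) : (5 ≤ p → (S : Subgroup G) ⊓ commutator G = (S : Subgroup G) ⊓ ⁅Subgroup.normalizer ((Cfsg.inducedFunctor Cfsg.kInfUpper (S : Subgroup G) : Subgroup G) : Set G), Subgroup.normalizer ((Cfsg.inducedFunctor Cfsg.kInfUpper (S : Subgroup G) : Subgroup G) : Set G)⁆) ∧ (p ≠ 2 → (∀ (K R : Subgroup G) [hR : (R.subgroupOf K).Normal], Cfsg.IsNormalizerPStable p (↥K ⧸ R.subgroupOf K)) → Cfsg.ControlsStrongFusion p (Cfsg.inducedFunctor Cfsg.kInfUpper (S : Subgroup G))) := by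
  refine ⟨fun hp => (controlsTransferIn_top_iff (isCharPFunctor_kInfUpper p) S).1
    (controlsTransferIn_kInfUpper hp), fun _ hst => ?_⟩
  obtain ⟨K, R, _, ⟨e⟩⟩ := exists_section_equiv G
  refine controlsStrongFusion_inducedFunctor_of_equiv (isCharPFunctor_kInfUpper p) e
    (Cfsg.Agent.S1969.result _ (isCharPFunctor_kInfUpper p) (fun K R _ hc T => ?_) K R) S
  exact (kInf_normal_of_pStable hc (fun N _ => isNormalizerPStable_of_involves hst
    (involves_trans (involves_quotient N) (involves_section K R))) (pCore_le_sylow T)).2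

end Cfsg.Agent.S1993
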