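import Cfsg.Statements.S1997
import Cfsg.Agent.Loc.CFunFac
import Cfsg.Agent.S1996

set_option autoImplicit false
universe u
open Cfsg

namespace Cfsg.Agent.S1997

open CL.Loc CL.Grp
open scoped Pointwise

/-- Let p be a prime, G a finite group with Sylow p-subgroup S, and W₁, W₂ two isomorphism-invariant p-group functors (W assigns to every group Q a subgroup W(Q), nontrivial whenever Q is a nontrivial finite p-group, and every isomorphism from a finite p-group Q onto a group R carries W(Q) onto W(R)). Suppose that G* = C_{G*}(Ω₁Z(S*)) N_{G*}(W₁(S*)) = C_{G*}(Ω₁Z(S*)) N_{G*}(W₂(S*)) = N_{G*}(W₁(S*)) N_{G*}(W₂(S*)) whenever G* = K/R is a section of G with C_{G*}(O_p(G*)) ≤ O_p(G*) and S* is a Sylow p-subgroup of G*, where Ω₁Z denotes the subgroup generated by the elements of order dividing p in the centre. Suppose also Ω₁Z(S) ≤ W₁(S) ∩ W₂(S), and let A be the normal closure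 of Ω₁Z(S) in N_G(W₁(S)). Then A is an elementary abelian subgroup of S, strongly closed in S with respect to G, and A controls strong fusion in G. -/
theorem result {G : Type u} [Group G] [Finite G] {p : ℕ} [Fact p.Prime] (S : Sylow p G) (W₁ W₂ : ∀ (Q : Type u) [Group Q], Subgroup Q) (hW₁ : Cfsg.IsCharPFunctor.{u} p W₁) (hW₂ : Cfsg.IsCharPFunctor.{u} p W₂) (hfac : ∀ (K R : Subgroup G) [hR : (R.subgroupOf K).Normal], Subgroup.centralizer ((Cfsg.pCore p (↥K ⧸ R.subgroupOf K) : Subgroup (↥K ⧸ R.subgroupOf K)) : Set (↥K ⧸ R.subgroupOf K)) ≤ Cfsg.pCore p (↥K ⧸ R.subgroupOf K) → ∀ T : Sylow p (↥K ⧸ R.subgroupOf K), (∀ x : (↥K ⧸ R.subgroupOf K), ∃ a ∈ Subgroup.centralizer ((Cfsg.omegaOne p ((T : Subgroup (↥K ⧸ R.subgroupOf K)) ⊓ Subgroup.centralizer (((T : Subgroup (↥K ⧸ R.subgroupOf K)) : Subgroup (↥K ⧸ R.subgroupOf K)) : Set (↥K ⧸ R.subgroupOf K))) : Subgroup (↥K ⧸ R.subgroupOf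 K)) : Set (↥K ⧸ R.subgroupOf K)), ∃ b ∈ Subgroup.normalizer ((Cfsg.inducedFunctor (G := (↥K ⧸ R.subgroupOf K)) W₁ (T : Subgroup (↥K ⧸ R.subgroupOf K)) : Subgroup (↥K ⧸ R.subgroupOf K)) : Set (↥K ⧸ R.subgroupOf K)), x = a * b) ∧ (∀ x : (↥K ⧸ R.subgroupOf K), ∃ a ∈ Subgroup.centralizer ((Cfsg.omegaOne p ((T : Subgroup (↥K ⧸ R.subgroupOf K)) ⊓ Subgroup.centralizer (((T : Subgroup (↥K ⧸ R.subgroupOf K)) : Subgroup (↥K ⧸ R.subgroupOf K)) : Set (↥K ⧸ R.subgroupOf K))) : Subgroup (↥K ⧸ R.subgroupOf K)) : Set (↥K ⧸ R.subgroupOf K)), ∃ b ∈ Subgroup.normalizer ((Cfsg.inducedFunctor (G := (↥K ⧸ R.subgroupOf K)) W₂ (T : Subgroup (↥K ⧸ R.subgroupOf K)) : Subgroup (↥K ⧸ R.subgroupOf K)) : Set (↥K ⧸ R.subgroupOf K)), x = a * b) ∧ (∀ x : (↥K ⧸ R.subgroupOf K), ∃ a ∈ Subgroup.normalizer ((Cfsg.inducedFunctor (G := (↥K ⧸ R.subgroupOf K)) W₁ (T : Subgroup (↥K ⧸ R.subgroupOf K)) : Subgroup (↥K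 ⧸ R.subgroupOf K)) : Set (↥K ⧸ R.subgroupOf K)), ∃ b ∈ Subgroup.normalizer ((Cfsg.inducedFunctor (G := (↥K ⧸ R.subgroupOf K)) W₂ (T : Subgroup (↥K ⧸ R.subgroupOf K)) : Subgroup (↥K ⧸ R.subgroupOf K)) : Set (↥K ⧸ R.subgroupOf K)), x = a * b)) (hZ : Cfsg.omegaOne p ((S : Subgroup G) ⊓ Subgroup.centralizer (((S : Subgroup G) : Subgroup G) : Set G)) ≤ Cfsg.inducedFunctor (G := G) W₁ (S : Subgroup G) ⊓ Cfsg.inducedFunctor (G := G) W₂ (S : Subgroup G)) (N₁ : Subgroup G) (hN₁ : N₁ = Subgroup.normalizer ((Cfsg.inducedFunctor (G := G) W₁ (S : Subgroup G) : Subgroup G) : Set G)) (A : Subgroup G) (hA : A = (Subgroup.normalClosure (((Cfsg.omegaOne p ((S : Subgroup G) ⊓ Subgroup.centralizer (((S : Subgroup G) : Subgroup G) : Set G))).subgroupOf N₁ : Subgroup ↥N₁) : Set ↥N₁)).map N₁.subtype) : A ≤ (S : Subgroup G) ∧ Cfsg.IsElementaryAbelian p A ∧ Cfsg.IsStronglyClosed A (S : Subgroup G)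 ∧ Cfsg.ControlsStrongFusion p A := by
  set Z := omegaOne p ((S : Subgroup G) ⊓ Subgroup.centralizer ((S : Subgroup G) : Set G)) with hZdef
  set N₂ := Subgroup.normalizer ((inducedFunctor W₂ (S : Subgroup G) : Subgroup G) : Set G) with hN₂
  have hS₁ : (S : Subgroup G) ≤ N₁ := hN₁ ▸ le_normalizer_inducedFunctor hW₁ S.2
  have hS₂ : (S : Subgroup G) ≤ N₂ := le_normalizer_inducedFunctor hW₂ S.2
  have hZS : Z ≤ S := (omegaOne_le _).trans inf_le_left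
  have hZe : IsElementaryAbelian p Z := ea_omegaOne fun x hx y hy => hx.2 y hy.1
  have f₁ : ∀ n ∈ N₁, ∃ b ∈ N₁ ⊓ N₂, ∃ c ∈ Subgroup.centralizer (Z : Set G), n = b * c :=
    fun n hn => exists_factor_of_sections hW₂ (fun K R _ hc T => (hfac K R hc T).2.1)
      (isSylowIn_of_le S hS₁) (inducedFunctor_le W₁ _) hN₁.le (hZ.trans inf_le_left) hn
  have f₂ : ∀ n ∈ N₂, ∃ b ∈ N₂ ⊓ N₁, ∃ c ∈ Subgroup.centralizer (Z : Set G), n = b * c :=
    fun n hn => hN₁ ▸ exists_factor_of_sections hW₁ (fun K R _ hc T => (hfac K R hc T).1)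
      (isSylowIn_of_le S hS₂) (inducedFunctor_le W₂ _) le_rfl (hZ.trans inf_le_right) hn
  let s : Set G := {y | ∃ n ∈ N₁, ∃ z ∈ Z, y = n * z * n⁻¹}
  have hAs : A = Subgroup.closure s := by
    rw [hA, Subgroup.normalClosure, MonoidHom.map_closure]
    congr 1
    ext y
    constructor
    · rintro ⟨y, hy, rfl⟩
      obtain ⟨z, hz, h⟩ := Group.mem_conjugatesOfSet_iff.1 hy
      obtain ⟨n, rfl⟩ := isConj_iff.1 h
      exact ⟨n, n.2, z, hz, rfl⟩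
    · rintro ⟨n, hn, z, hz, rfl⟩
      exact ⟨⟨n, hn⟩ * ⟨z, hS₁ (hZS hz)⟩ * ⟨n, hn⟩⁻¹,
        Group.mem_conjugatesOfSet_iff.2 ⟨⟨z, hS₁ (hZS hz)⟩, hz, isConj_iff.2 ⟨_, rfl⟩⟩, rfl⟩
  have hsS : ∀ n ∈ N₁, ∀ z ∈ Z, n * z * n⁻¹ ∈ (S : Subgroup G) := fun n hn z hz =>
    inducedFunctor_le W₁ _ (conj_mem_of_mem_normalizer (hN₁ ▸ hn) (hZ hz).1)
  have hnorm : ∀ N : Subgroup G, (∀ g ∈ N, ∀ y ∈ s, g * y * g⁻¹ ∈ s) →
      N ≤ Subgroup.normalizer (A : Set G) := by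
    intro N h g hg
    rw [← conj_smul_eq_self_iff, hAs]
    exact Subgroup.eq_of_le_of_card_ge
      (conj_smul_closure_le fun y hy => Subgroup.subset_closure (h g hg y hy))
      (card_conj_smul g _).ge
  have hA₁ : N₁ ≤ Subgroup.normalizer (A : Set G) := hnorm N₁ (by
    rintro g hg _ ⟨n, hn, z, hz, rfl⟩
    exact ⟨g * n, N₁.mul_mem hg hn, z, hz, by group⟩)
  have hA₂ : N₂ ≤ Subgroup.normalizer (A : Set G) := hnorm N₂ (by
    rintro g hg _ ⟨n, hn, z, hz, rfl⟩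
    obtain ⟨b, hb, c, hc, rfl⟩ := f₁ n hn
    obtain ⟨b', hb', c', hc', e⟩ := f₂ (g * b) (N₂.mul_mem hg hb.2)
    refine ⟨b', hb'.2, z, hz, ?_⟩
    have e1 : c * z * c⁻¹ = z := by rw [← hc z hz]; group
    have e2 : c' * z * c'⁻¹ = z := by rw [← hc' z hz]; group
    calc g * (b * c * z * (b * c)⁻¹) * g⁻¹ = (g * b) * (c * z * c⁻¹) * (g * b)⁻¹ := by group
      _ = b' * (c' * z * c'⁻¹) * b'⁻¹ := by rw [e1, e]; group
      _ = b' * z * b'⁻¹ := by rw [e2])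
  have hAS : A ≤ S := by
    rw [hAs, Subgroup.closure_le]
    rintro _ ⟨n, hn, z, hz, rfl⟩
    exact hsS n hn z hz
  have hfus := genFus_of_familyControls (by
      rintro _ (rfl | rfl)
      exacts [isConjugacyFunctor_inducedFunctor hW₁, isConjugacyFunctor_inducedFunctor hW₂])
    (Cfsg.Agent.S1996.result W₁ W₂ hW₁ hW₂ fun K R _ hc T => (hfac K R hc T).2.2) (isSylowIn_top S)
  have hsteps : famSteps {inducedFunctor (G := G) W₁, inducedFunctor (G := G) W₂} ⊤ S ⊆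
      Subgroup.normalizer (A : Set G) := by
    rintro x ⟨_, rfl | rfl, hx⟩
    exacts [hA₁ (hN₁ ▸ hx.2), hA₂ hx.2]
  refine ⟨hAS, ?_, ⟨hAS, fun x hx g hg => ?_⟩, controlsStrongFusion_of_genFus S hAS hfus hsteps⟩
  · rw [hAs]
    refine ea_closure ?_ ?_
    · rintro _ ⟨n, hn, z, hz, rfl⟩ _ ⟨m, hm, w, hw, rfl⟩
      have h1 := (omegaOne_le _ hz).2 _ (hsS (n⁻¹ * m) (N₁.mul_mem (N₁.inv_mem hn) hm) w hw)
      calc n * z * n⁻¹ * (m * w * m⁻¹) = n * (z * (n⁻¹ * m * w * (n⁻¹ * m)⁻¹)) * n⁻¹ := by group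
        _ = m * w * m⁻¹ * (n * z * n⁻¹) := by rw [← h1]; group
    · rintro _ ⟨n, hn, z, hz, rfl⟩
      rw [conj_pow, hZe.2 z hz]; group
  · obtain ⟨n, hn, e⟩ := (hfus {x} g trivial (Set.singleton_subset_iff.2 (hAS hx))
      (by rintro _ rfl; exact hg)).exists_mem
      hsteps
    rw [← e x rfl]
    exact conj_mem_of_mem_normalizer hn hx

end Cfsg.Agent.S1997
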