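import Cfsg.Statements.S1998
import Cfsg.Agent.Loc.CFunMin

set_option autoImplicit false
universe u
open Cfsg

namespace Cfsg.Agent.S1998

open CL.Loc CL.Grp

/-- Let p be a prime, G a finite group with Sylow p-subgroup S, and 𝓦 a nonempty set of isomorphism-invariant p-group functors (W assigns to every group Q a subgroup W(Q), nontrivial whenever Q is a nontrivial finite p-group, and every isomorphism from a finite p-group Q onto a group R carries W(Q) onto W(R)). Suppose the induced conjugacy functors control transfer in every section of G other than G itself, but not in G. Let T be the subgroup generated by the S ∩ (N_G(W(S)))', W ∈ 𝓦, and M = N_G(T ∩ O_p(G)). Then: C_G(O_p(G)) ≤ O_p(G); M is a proper subgroup of G containing every proper subgroup of G that contains S (the unique maximal subgroup over S); [O_p(G), M] ≤ O_p(G) ∩ M' ≤ O_p(G) ∩ T; and every element u of S outside O_p(G) satisfies [X, u, …, u] ≰ Y with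 p − 1 entries u, for some chief factor X/Y of G with X ≤ O_p(G). -/
theorem result {G : Type u} [Group G] [Finite G] {p : ℕ} [Fact p.Prime] (S : Sylow p G) (𝓦 : Set (∀ (Q : Type u) [Group Q], Subgroup Q)) (h𝓦 : ∀ W ∈ 𝓦, Cfsg.IsCharPFunctor.{u} p W) (hne : 𝓦.Nonempty) (hsec : ∀ (K R : Subgroup G) [hR : (R.subgroupOf K).Normal], (K = ⊤ → R ≠ ⊥) → Cfsg.FamilyControlsTransferIn p ((fun W => Cfsg.inducedFunctor (G := (↥K ⧸ R.subgroupOf K)) W) '' 𝓦) ⊤) (hG : ¬ Cfsg.FamilyControlsTransferIn p ((fun W => Cfsg.inducedFunctor (G := G) W) '' 𝓦) ⊤) (T M : Subgroup G) (hT : T = (⨆ W ∈ 𝓦, (S : Subgroup G) ⊓ ⁅Subgroup.normalizer ((Cfsg.inducedFunctor (G := G) W (S : Subgroup G) : Subgroup G) : Set G), Subgroup.normalizer ((Cfsg.inducedFunctor (G := G) W (S : Subgroup G) : Subgroup G) : Set G)⁆)) (hM : M = Subgroup.normalizer ((T ⊓ Cfsg.pCore p G : Subgroup G) : Set G)) : Subgroup.centralizer ((Cfsg.pCore p G : Subgroup G) : Set G) ≤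 Cfsg.pCore p G ∧ (M ≠ ⊤ ∧ ∀ H : Subgroup G, (S : Subgroup G) ≤ H → H ≠ ⊤ → H ≤ M) ∧ (⁅Cfsg.pCore p G, M⁆ ≤ Cfsg.pCore p G ⊓ ⁅M, M⁆ ∧ Cfsg.pCore p G ⊓ ⁅M, M⁆ ≤ Cfsg.pCore p G ⊓ T) ∧ ∀ u : G, u ∈ (S : Subgroup G) → u ∉ Cfsg.pCore p G → ∃ U V : Subgroup G, Cfsg.IsChiefFactor U V ∧ U ≤ Cfsg.pCore p G ∧ ¬ Cfsg.iterCommutator U (Subgroup.zpowers u) (p - 1) ≤ V := by
  have h : MinTr p 𝓦 G := ⟨h𝓦, hne, fun Y _ _ hY hlt => by
    obtain ⟨K, R, hR, h1, ⟨e⟩⟩ := exists_proper_section_of_card_lt hY hlt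
    exact trCtl_of_equiv h𝓦 e (hsec K R h1), hG⟩
  have hS := isSylowIn_top S
  have hT' : T = famDer (indFam 𝓦 G) ⊤ S := by
    rw [hT, famDer, indFam, iSup_image]
    simp only [top_inf_eq]
  rw [hT'] at hM
  have hM1 : M ≠ ⊤ := hM ▸ h.normalizer_ne_top hS
  have hSM : (S : Subgroup G) ≤ M := hM ▸ h.le_normalizer hS (h.sylow_ne_top hS) le_rfl
  refine ⟨h.constrained, ⟨hM1, fun H h1 h2 => hM ▸ h.le_normalizer hS h2 h1⟩, ⟨?_, ?_⟩,
    fun u hu huQ => h.exists_chief_not_engel hS hu huQ⟩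
  · exact le_inf (Subgroup.commutator_le_left _ _)
      (Subgroup.commutator_mono ((pCore_le_sylow S).trans hSM) le_rfl)
  · exact le_inf inf_le_left (hT' ▸ (inf_le_inf_right _ (pCore_le_sylow S)).trans
      (h.inf_le_of_ne_top hS hM1 hSM))

end Cfsg.Agent.S1998
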