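import Cfsg.Statements.S2009
import Cfsg.Agent.Base

set_option autoImplicit false
open Cfsg

namespace Cfsg.Agent.S2009

/-- Let H be a finite group and z an involution such that every proper normal subgroup of H meets the centralizer of z trivially, and suppose z lies in a Klein four-subgroup E of H all three of whose involutions are conjugate to z in H. Then H is simple. -/
theorem result {H : Type*} [Group H] [Finite H] (z : H) (hz : orderOf z = 2) (hN : ∀ N : Subgroup H, N.Normal → N ≠ ⊤ → N ⊓ Subgroup.centralizer ({z} : Set H) = ⊥) (E : Subgroup H) (hE : IsKleinFour ↥E) (hzE : z ∈ E) (hc : ∀ e ∈ E, e ≠ 1 → IsConj z e) : IsSimpleGroup H := by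
  have hz1 : z ≠ 1 := by rintro rfl; simp at hz
  have : Nontrivial H := ⟨z, 1, hz1⟩
  refine ⟨fun N hn => or_iff_not_imp_right.mpr fun ht => ?_⟩
  have h1 : ∀ e ∈ E, e ≠ 1 → ∀ n ∈ N, e * n * e⁻¹ = n → n = 1 := by
    intro e he he1 n hnN h
    obtain ⟨g, rfl⟩ := isConj_iff.mp (hc e he he1)
    have h2 : g⁻¹ * n * g ∈ N ⊓ Subgroup.centralizer {z} := by
      refine ⟨hn.conj_mem' n hnN g, Subgroup.mem_centralizer_singleton_iff.mpr ?_⟩
      calc g⁻¹ * n * g * z = g⁻¹ * (g * z * g⁻¹ * n * (g * z * g⁻¹)⁻¹) * g * z := by rw [h]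
        _ = _ := by group
    rw [hN N hn ht, Subgroup.mem_bot] at h2
    calc n = g * (g⁻¹ * n * g) * g⁻¹ := by group
      _ = 1 := by rw [h2]; group
  have h2 : ∀ e ∈ E, e ≠ 1 → ∀ n ∈ N, e * n * e⁻¹ = n⁻¹ := by
    intro e he he1 n hnN
    have h3 : e * e = 1 := congrArg Subtype.val (IsKleinFour.mul_self (⟨e, he⟩ : E))
    have h4 := MonoidHom.FixedPointFree.coe_eq_inv_of_involutive (φ := (MulAut.conjNormal e : MulAut N))
      (fun x hx => Subtype.ext (h1 e he he1 x x.2 (congrArg Subtype.val hx))) fun x => by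
        rw [← MulAut.mul_apply, ← map_mul, h3, map_one, MulAut.one_apply]
    exact congrArg Subtype.val (congrFun h4 ⟨n, hnN⟩)
  obtain ⟨w, hw1, hwz⟩ : ∃ w : E, w ≠ 1 ∧ w ≠ ⟨z, hzE⟩ := by
    by_contra hcon
    push Not at hcon
    have h3 : Nat.card E ≤ ({1, ⟨z, hzE⟩} : Set E).ncard := by
      rw [← Set.ncard_univ]
      exact Set.ncard_le_ncard fun x _ => or_iff_not_imp_left.mpr (hcon x)
    have h4 := Set.ncard_insert_le (1 : E) {⟨z, hzE⟩}
    rw [Set.ncard_singleton] at h4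
    rw [hE.card_four] at h3
    omega
  rw [eq_bot_iff]
  intro n hnN
  refine h1 (z * w) (E.mul_mem hzE w.2) (fun h => hwz ?_) n hnN ?_
  · rw [← IsKleinFour.inv_eq_self (⟨z, hzE⟩ : E)]
    exact Subtype.ext (eq_inv_of_mul_eq_one_right h)
  · calc _ = z * (w * n * (w : H)⁻¹) * z⁻¹ := by group
      _ = n := by rw [h2 w w.2 (fun h => hw1 (Subtype.ext h)) n hnN, h2 z hzE hz1 _ (inv_mem hnN), inv_inv]

end Cfsg.Agent.S2009
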