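import Cfsg.Statements.S2035
import Cfsg.Agent.Known.PcCM12
import Cfsg.Agent.Known.GM12C2
import Cfsg.Agent.Known.PcM24In
import Cfsg.Agent.Known.MathieuIso

set_option autoImplicit false
open Cfsg

namespace Cfsg.Agent.S2035

/-- The Schur multiplier of the Mathieu group M₁₂ (the stabiliser of a dodecad in the automorphism group of the length-24 binary code) is cyclic of order 2; here the Schur multiplier is described through stem extensions, as in the definitions: surjective homomorphisms onto the group from a finite group, whose kernel is central in that finite group and contained in that finite group's commutator subgroup. -/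
theorem result : Cfsg.HasCyclicSchurMultiplier ↥Cfsg.Spor.M12 2 := by
  have hc := CL.Spor.card_M12
  obtain ⟨x, h⟩ := CL.Pc.GM12.full (CL.Pc.m24_input CL.Pc.t12 CL.Pc.t12_ok hc (by decide +kernel))
  exact CL.Pc.Bounds.cyclic (L := [(2, 1), (3, 0), (5, 0), (11, 0)])
    (.cons (by norm_num) (CL.Pc.M12p2.bound (by rw [hc]; decide)) (.cons (by norm_num)
      (CL.Pc.M12p3.bound (by rw [hc]; decide)) (.cons' hc (by norm_num) (by decide)
      (.cons' hc (by norm_num) (by decide) .nil)))) hc 6 (CL.Pc.GM12.C2.cover h) (by decide)

end Cfsg.Agent.S2035
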