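import Cfsg.Statements.S2036
import Cfsg.Agent.Known.PcCM22
import Cfsg.Agent.Known.GM22C3
import Cfsg.Agent.Known.GM22C4
import Cfsg.Agent.Known.PcM24In
import Cfsg.Agent.Known.MathieuIso

set_option autoImplicit false
open Cfsg

namespace Cfsg.Agent.S2036

/-- The Schur multiplier of the Mathieu group M₂₂ (the permutations in the automorphism group of the length-24 binary code that fix each of two given points) is cyclic of order 12; here the Schur multiplier is described through stem extensions, as in the definitions: surjective homomorphisms onto the group from a finite group, whose kernel is central in that finite group and contained in that finite group's commutator subgroup. -/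
theorem result : Cfsg.HasCyclicSchurMultiplier ↥Cfsg.Spor.M22 12 := by
  have hc := CL.Spor.card_M22
  obtain ⟨x, h⟩ := CL.Pc.GM22.full (CL.Pc.m24_input CL.Pc.t22 CL.Pc.t22_ok hc (by decide +kernel))
  exact CL.Pc.Bounds.cyclic2 (L := [(2, 2), (3, 1), (5, 0), (7, 0), (11, 0)])
    (.cons (by norm_num) (CL.Pc.M22p2.bound (by rw [hc]; decide)) (.cons (by norm_num)
      (CL.Pc.M22p3.bound (by rw [hc]; decide)) (.cons' hc (by norm_num) (by decide)
      (.cons' hc (by norm_num) (by decide) (.cons' hc (by norm_num) (by decide) .nil))))) hc 7
    (CL.Pc.GM22.C3.cover h) (CL.Pc.GM22.C4.cover h) (by decide)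

end Cfsg.Agent.S2036
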