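import Cfsg.Statements.S2044
import Cfsg.Agent.Known.GCo2I
import Cfsg.Agent.Known.GCo2B
import Cfsg.Agent.Known.ConwIn

set_option autoImplicit false
open Cfsg

namespace Cfsg.Agent.S2044

/-- The Schur multiplier of the Conway group Co₂ (the stabiliser of a minimal vector of the rank-24 lattice) is trivial; here the Schur multiplier is described through stem extensions, as in the definitions: surjective homomorphisms onto the group from a finite group, whose kernel is central in that finite group and contained in that finite group's commutator subgroup. -/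
theorem result : Cfsg.HasCyclicSchurMultiplier ↥Cfsg.Spor.Co2 1 := by
  obtain ⟨x, h⟩ := CL.Pc.GCo2.full (CL.Pc.Input.ofSubW CL.Conw.M4600.c.good CL.Conw.M4600.c.inj CL.Conw.ubCo2
    (by decide +kernel) CL.Pc.GCo2.pg_ok)
  have := h.fin
  exact CL.Schur.HasSM.congr_left ((CL.Pc.GCo2.bounds h).cyclic h.card 18 CL.Pc.Cover.triv (by decide)) CL.Conw.eCo2

end Cfsg.Agent.S2044
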