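import Cfsg.Statements.S2045
import Cfsg.Agent.Known.GCo3I
import Cfsg.Agent.Known.GCo3B
import Cfsg.Agent.Known.ConwIn

set_option autoImplicit false
open Cfsg

namespace Cfsg.Agent.S2045

/-- The Schur multiplier of the Conway group Co₃ (the stabiliser of a vector of the second shortest length in the rank-24 lattice) is trivial; here the Schur multiplier is described through stem extensions, as in the definitions: surjective homomorphisms onto the group from a finite group, whose kernel is central in that finite group and contained in that finite group's commutator subgroup. -/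
theorem result : Cfsg.HasCyclicSchurMultiplier ↥Cfsg.Spor.Co3 1 := by
  obtain ⟨x, h⟩ := CL.Pc.GCo3.full (CL.Pc.Input.ofSubW CL.Conw.M552.c.good CL.Conw.M552.c.inj CL.Conw.ubCo3
    (by decide +kernel) CL.Pc.GCo3.pg_ok)
  have := h.fin
  exact CL.Schur.HasSM.congr_left ((CL.Pc.GCo3.bounds h).cyclic h.card 10 CL.Pc.Cover.triv (by decide)) CL.Conw.eCo3

end Cfsg.Agent.S2045
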