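import Cfsg.Statements.S2047
import Cfsg.Agent.Known.GMcLI
import Cfsg.Agent.Known.GMcLB
import Cfsg.Agent.Known.GMcLC3
import Cfsg.Agent.Known.ConwIn

set_option autoImplicit false
open Cfsg

namespace Cfsg.Agent.S2047

/-- The Schur multiplier of the McLaughlin group (as a two-vector stabiliser in the automorphism group of the rank-24 lattice) is cyclic of order 3; here the Schur multiplier is described through stem extensions, as in the definitions: surjective homomorphisms onto the group from a finite group, whose kernel is central in that finite group and contained in that finite group's commutator subgroup. -/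
theorem result : Cfsg.HasCyclicSchurMultiplier ↥Cfsg.Spor.McL 3 := by
  obtain ⟨x, h⟩ := CL.Pc.GMcL.full (CL.Pc.Input.ofSubW CL.Conw.M552.c.good CL.Conw.M552.c.inj CL.Conw.ubMcL
    (by decide +kernel) CL.Pc.GMcL.pg_ok)
  have := h.fin
  exact CL.Schur.HasSM.congr_left ((CL.Pc.GMcL.bounds h).cyclic h.card 7 (CL.Pc.GMcL.C3.cover h) (by decide)) CL.Conw.eMcL

end Cfsg.Agent.S2047
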