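import Cfsg.Statements.S2055
import Cfsg.Agent.Known.GFi24P2
import Cfsg.Agent.Known.GFi24P3
import Cfsg.Agent.Known.GFi24C3
import Cfsg.Agent.Known.GHeB
import Cfsg.Agent.Known.GHeI
import Cfsg.Agent.Spor.Fi24He

set_option autoImplicit false
open Cfsg

namespace Cfsg.Agent.S2055

/-- The Schur multiplier of the Fischer group Fi₂₄′ (the commutator subgroup of the presented group Fi₂₄) is cyclic of order 3; here the Schur multiplier is described through stem extensions, as in the definitions: surjective homomorphisms onto the group from a finite group, whose kernel is central in that finite group and contained in that finite group's commutator subgroup. -/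
theorem result : Cfsg.HasCyclicSchurMultiplier Cfsg.Spor.Fi24' 3 := by
  have hK := CL.Pc.GFi24.cardK
  obtain ⟨x, h⟩ := CL.Pc.GHe.full (CL.Pc.Input.ofTop CL.HeP.good (CL.PP.injLt_eF _) CL.HeP.card (by norm_num)
    CL.Pc.GHe.mask_ok CL.Pc.GHe.pg_ok)
  have hi : Function.Injective CL.Fi24P.homH' := fun a b e => CL.Fi24P.homH_injective (congrArg Subtype.val e)
  have h : CL.Pc.Bounds CL.Pc.GFi24.K
      [(2, 0), (3, 1), (5, 0), (7, 0), (11, 0), (13, 0), (17, 0), (23, 0), (29, 0)] :=
    .cons (by norm_num) CL.Pc.GFi24.P2.bound (.cons (by norm_num) CL.Pc.GFi24.P3.bound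
      (.cons (by norm_num) (.of_hom (by norm_num) _ hi h.card hK (by decide) (CL.Pc.GHe.P5.bound h))
      (.cons (by norm_num) (.of_hom (by norm_num) _ hi h.card hK (by decide) (CL.Pc.GHe.P7.bound h))
      (.cons' hK (by norm_num) (by decide) (.cons' hK (by norm_num) (by decide) (.cons' hK (by norm_num) (by decide)
        (.cons' hK (by norm_num) (by decide) (.cons' hK (by norm_num) (by decide) .nil))))))))
  exact h.cyclic hK 21 CL.Pc.GFi24.C3.cover (by decide)

end Cfsg.Agent.S2055
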