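import Cfsg.Statements.S2087
import Cfsg.Agent.Known.GPsl32I
import Cfsg.Agent.Known.GPsl32B
import Cfsg.Agent.Known.GPsl32C2

set_option autoImplicit false
open Cfsg

namespace Cfsg.Agent.S2087

/-- Exceptional Schur multiplier: over the field with 2 elements, PSL₃ has Schur multiplier cyclic of order 2 (here the Schur multiplier is described through stem extensions, as in the definitions). -/
theorem result {F : Type*} [Field F] [Fintype F] (hF : Fintype.card F = 2) : Cfsg.HasCyclicSchurMultiplier (Matrix.ProjectiveSpecialLinearGroup (Fin 3) F) 2 := by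
  obtain ⟨x, h⟩ := CL.Pc.GPsl32.full CL.Pc.GPsl32.input
  have := h.fin
  exact CL.Schur.HasSM.congr_left ((CL.Pc.GPsl32.bounds h).cyclic h.card 3 (CL.Pc.GPsl32.C2.cover h) (by decide))
    (CL.Std.L32.iso hF).some

end Cfsg.Agent.S2087
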