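import Cfsg.Statements.S2091
import Cfsg.Agent.Known.GPsu62I
import Cfsg.Agent.Known.GPsu62B
import Cfsg.Agent.Known.GPsu62C3
import Cfsg.Agent.Known.GPsu62C2

set_option autoImplicit false
open Cfsg

namespace Cfsg.Agent.S2091

/-- Exceptional Schur multiplier: PSU₆(2), realised over the field with 4 elements, has Schur multiplier isomorphic to the product of cyclic groups of orders 3, 2 and 2 (order 12, not cyclic; here the Schur multiplier is described through stem extensions, as in the definitions). -/
theorem result {F : Type*} [Field F] [Fintype F] (hF : Fintype.card F = 4) : Cfsg.HasSchurMultiplier (Cfsg.PSU 6 F 2) (Multiplicative (ZMod 3 × ZMod 2 × ZMod 2)) := by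
  obtain ⟨x, h⟩ := CL.Pc.GPsu62.full CL.Pc.GPsu62.input
  have := h.fin
  exact CL.Schur.HasSM.congr_left ((CL.Pc.GPsu62.bounds h).three h.card 15 (CL.Pc.GPsu62.C3.cover h)
    (CL.Pc.GPsu62.C2.cover h) (by decide)) (CL.Std.U62.iso hF).some

end Cfsg.Agent.S2091
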