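import Cfsg.Statements.S2096
import Cfsg.Agent.Known.StbSpin

set_option autoImplicit false
open Cfsg CL.Chev

namespace Cfsg.Agent.S2096

/-- Schur multipliers of the even-dimensional orthogonal groups of plus type and odd rank: for odd l ≥ 5 and a field F with q elements, the Schur multiplier of PΩ⁺_2l(F) (for the form Σ xᵢyᵢ) is cyclic of order gcd(4, q^l − 1); here the Schur multiplier is described through stem extensions, as in the definitions. -/
theorem result {F : Type*} [Field F] [Fintype F] {q : ℕ} (hF : Fintype.card F = q) (l : ℕ) (hl : 5 ≤ l) (hodd : Odd l) : Cfsg.HasCyclicSchurMultiplier (Cfsg.POmega F (Cfsg.quadFormPlus l F)) (Nat.gcd 4 (q ^ l - 1)) := by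
  obtain ⟨n, rfl⟩ : ∃ n, l = n + 2 := ⟨l - 2, by omega⟩
  subst hF
  refine (frameD (n + 2) F).hasSM _ CL.Cls.nondeg_qfPlus (by omega) (EuclK.liftable_D (by omega) (by omega))
    ((kerDOdd (by simpa [Nat.odd_add] using hodd)).trans (kerPow F 4 ?_))
  obtain ⟨k, hk⟩ := hodd
  have h0 := Fintype.card_pos (α := F)
  generalize Fintype.card F = q at *
  have h1 : q ^ (2 * k + 1) % 4 = q % 4 ∨ q % 2 = 0 ∧ q ^ (2 * k + 1) % 2 = 0 := by
    have : q % 4 = 1 ∨ q % 4 = 3 ∨ q % 2 = 0 := by omega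
    rcases this with h | h | h
    · simp [Nat.pow_mod, h]
    · simp [pow_succ, pow_mul, Nat.mul_mod, Nat.pow_mod, h]
    · simp [Nat.pow_mod, h]
  have h2 := Nat.pow_pos (n := 2 * k + 1) h0
  rw [hk, Nat.gcd_rec, Nat.gcd_rec 4]
  generalize q ^ (2 * k + 1) = r at *
  rcases h1 with h | h
  · congr 1; omega
  · obtain e | e : (q - 1) % 4 = 1 ∨ (q - 1) % 4 = 3 := by omega
    all_goals obtain e' | e' : (r - 1) % 4 = 1 ∨ (r - 1) % 4 = 3 := by omega
    all_goals simp [e, e']

end Cfsg.Agent.S2096
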