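import Cfsg.Statements.S2097
import Cfsg.Agent.Known.StbSpin

set_option autoImplicit false
open Cfsg CL.Chev

namespace Cfsg.Agent.S2097

/-- Schur multipliers of the even-dimensional orthogonal groups of plus type and even rank: for even l ≥ 4 and a field F with q elements, (l, q) ≠ (4, 2), the Schur multiplier of PΩ⁺_2l(F) (for the form Σ xᵢyᵢ) is the product of two cyclic groups of order gcd(2, q^l − 1) (so trivial for q even and a four-group for q odd; here the Schur multiplier is described through stem extensions, as in the definitions). -/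
theorem result {F : Type*} [Field F] [Fintype F] {q : ℕ} (hF : Fintype.card F = q) (l : ℕ) (hl : 4 ≤ l) (heven : Even l) (hexc : ¬ (l = 4 ∧ q = 2)) : Cfsg.HasSchurMultiplier (Cfsg.POmega F (Cfsg.quadFormPlus l F)) (Multiplicative (ZMod (Nat.gcd 2 (q ^ l - 1)) × ZMod (Nat.gcd 2 (q ^ l - 1)))) := by
  obtain ⟨n, rfl⟩ : ∃ n, l = n + 2 := ⟨l - 2, by omega⟩
  subst hF
  have h : Nat.gcd 2 (Fintype.card F - 1) = Nat.gcd 2 (Fintype.card F ^ (n + 2) - 1) := by
    have h0 := Fintype.card_pos (α := F)
    generalize Fintype.card F = q at *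
    have h1 : q ^ (n + 2) % 2 = q % 2 := by rcases Nat.mod_two_eq_zero_or_one q with h | h <;> simp [Nat.pow_mod, h]
    have h2 := Nat.pow_pos (n := n + 2) h0
    rw [Nat.gcd_rec, Nat.gcd_rec 2]
    congr 1; omega
  exact (frameD (n + 2) F).hasSM _ CL.Cls.nondeg_qfPlus (by omega) (EuclK.liftable_D (by omega) (by omega))
    ((kerDEven (by simpa [Nat.even_add] using heven)).trans
      (((kerPow F 2 h).prodCongr (kerPow F 2 h)).trans (MulEquiv.prodMultiplicative _ _).symm))

end Cfsg.Agent.S2097
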