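import Cfsg.Statements.S2101
import Cfsg.Agent.Known.GG23I
import Cfsg.Agent.Known.GG23B
import Cfsg.Agent.Known.GG23C3
import Cfsg.Agent.Known.ChevCongr

set_option autoImplicit false
open Cfsg

namespace Cfsg.Agent.S2101

/-- Exceptional Schur multiplier: over the field with 3 elements the Chevalley group of type G₂ has Schur multiplier cyclic of order 3 (here the Schur multiplier is described through stem extensions, as in the definitions). -/
theorem result {F : Type*} [Field F] [Fintype F] (hF : Fintype.card F = 3) : Cfsg.HasCyclicSchurMultiplier ↥(Cfsg.Lie.chevG2.group F) 3 := by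
  obtain ⟨x, h⟩ := CL.Pc.GG23.full CL.Pc.GG23.input
  have := h.fin
  exact CL.Schur.HasSM.congr_left ((CL.Pc.GG23.bounds h).cyclic h.card 6 (CL.Pc.GG23.C3.cover h) (by decide))
    (CL.Std.G23.iso.some.trans (CL.Pc.chev_congr_prime _ hF).some)

end Cfsg.Agent.S2101
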