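import Cfsg.Statements.S2104
import Cfsg.Agent.Known.F4Two

set_option autoImplicit false
open Cfsg

namespace Cfsg.Agent.S2104

/-- Exceptional Schur multiplier: over the field with 2 elements the Chevalley group of type F₄ has Schur multiplier cyclic of order 2 (here the Schur multiplier is described through stem extensions, as in the definitions). -/
theorem result {F : Type*} [Field F] [Fintype F] (hF : Fintype.card F = 2) : Cfsg.HasCyclicSchurMultiplier ↥(Cfsg.Lie.chevF4.group F) 2 := by
  exact CL.Chev.F4Two.schur (CL.Chev.field_two hF)

end Cfsg.Agent.S2104
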