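import Cfsg.Statements.S2105
import Cfsg.Agent.S1079

set_option autoImplicit false
open Cfsg

namespace Cfsg.Agent.S2105

/-- Schur multipliers of the (adjoint, simple) Chevalley groups of type E₆: over a field with q elements the Schur multiplier is cyclic of order gcd(3, q − 1) (here the Schur multiplier is described through stem extensions, as in the definitions). -/
theorem result {F : Type*} [Field F] [Fintype F] {q : ℕ} (hF : Fintype.card F = q) : Cfsg.HasCyclicSchurMultiplier ↥(Cfsg.Lie.chevE6.group F) (Nat.gcd 3 (q - 1)) := by
  let E := CL.Chev.realE6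
  subst hF
  rw [← Nat.card_eq_fintype_card]
  exact E.hasSM_of_prime (CL.Chev.liftable_E6 E)
    (E.SS_torus_injective CL.Chev.realE8 CL.Chev.embE6 (CL.Chev.ker_torus_E8 _))
    (E.isPerfect_of_grp (E.SS_faithful F).uFaithful (E.SS_grp F) (by simp) fun h => by
      simp only [List.mem_cons, List.not_mem_nil, or_false] at h
      rcases h with h | h <;> exact absurd (congrArg Cfsg.Lie.ChevalleyDatum.rank h) (by decide))
    Nat.prime_three (Cfsg.Agent.S1079.card_E6 F)

end Cfsg.Agent.S2105
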