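import Cfsg.Statements.S2107
import Cfsg.Agent.Known.StbData
import Cfsg.Agent.Chev.RealAll

set_option autoImplicit false
open Cfsg

namespace Cfsg.Agent.S2107

/-- Schur multipliers of the Chevalley groups of type E₈: over every finite field the Schur multiplier of E₈(q) is trivial (here the Schur multiplier is described through stem extensions, as in the definitions). -/
theorem result {F : Type*} [Field F] [Fintype F] : Cfsg.HasCyclicSchurMultiplier ↥(Cfsg.Lie.chevE8.group F) 1 := by
  let E := CL.Chev.realE8
  exact CL.Chev.StSys.trivial_of_torus (CL.Chev.liftable_E8 E) E.SG_faithful E.SG_grp E.SG_hMul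
    (CL.Chev.ker_torus_E8 E)

end Cfsg.Agent.S2107
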