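import Cfsg.Statements.S2108
import Cfsg.Agent.Known.TwSE6
import Cfsg.Agent.Chev.TwReal
import Cfsg.Agent.Known.StbEmb

set_option autoImplicit false
open Cfsg

namespace Cfsg.Agent.S2108

/-- Schur multipliers of the twisted groups of type ²E₆: for a prime power q ≠ 2, with the group realised over the field with q² elements, the Schur multiplier of ²E₆(q) is cyclic of order gcd(3, q + 1) (here the Schur multiplier is described through stem extensions, as in the definitions); q = 2 is exceptional. -/
theorem result {K : Type*} [Field K] [Fintype K] {q : ℕ} (hq : IsPrimePow q) (hK : Fintype.card K = q ^ 2) (h2 : q ≠ 2) : Cfsg.HasCyclicSchurMultiplier ↥(Cfsg.Lie.twistedE6 K q) (Nat.gcd 3 (q + 1)) := by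
  let E := CL.Chev.realE6
  exact (CL.Chev.isTwE6 E hq hK).schur h2 (S' := E.SS K) (f := (Subgroup.subtype _).comp (E.θS K))
    (congrArg (CL.Chev.StSys.map · (Subgroup.subtype _)) (E.SS_map K)) (E.SS_grp K) (E.SS_hMul K)
    (E.SS_torus_injective CL.Chev.realE8 CL.Chev.embE6 (CL.Chev.ker_torus_E8 _))

end Cfsg.Agent.S2108
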