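import Cfsg.Statements.S2114
import Cfsg.Agent.Known.TwSF4b
import Cfsg.Agent.Chev.TwRealF4

set_option autoImplicit false
open Cfsg

namespace Cfsg.Agent.S2114

/-- Schur multipliers of the large Ree groups: for q = 2^(2m+1) with m ≥ 1 the Schur multiplier of ²F₄(q) is trivial (here the Schur multiplier is described through stem extensions, as in the definitions). -/
theorem result {K : Type*} [Field K] [Fintype K] {m : ℕ} (hm : 1 ≤ m) (hK : Fintype.card K = 2 ^ (2 * m + 1)) : Cfsg.HasCyclicSchurMultiplier ↥(Cfsg.Lie.twistedF4 K (2 ^ m)) 1 := by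
  have : Fact (Nat.Prime 2) := ⟨Nat.prime_two⟩
  have : CharP K 2 := charP_of_card_eq_prime_pow hK
  have h8 : 2 ^ 3 ≤ 2 ^ (2 * m + 1) := Nat.pow_le_pow_right two_pos (by omega)
  obtain ⟨a, ha⟩ := CL.Chev.exists_pow_ne_one (F := K) (n := 1) one_pos (by rw [Nat.card_eq_fintype_card, hK]; omega)
  exact (CL.Chev.isTwF4 CL.Chev.realF4 hK).schur (by omega)
    (CL.Chev.leviB2 ⟨a, a.ne_zero, fun e => ha (Units.ext (by simpa using e))⟩)

end Cfsg.Agent.S2114
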