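import Cfsg.Statements.S2115
import Cfsg.Agent.Known.GTitsI
import Cfsg.Agent.Known.GTitsB

set_option autoImplicit false
open Cfsg

namespace Cfsg.Agent.S2115

/-- The Tits group, the commutator subgroup of ²F₄(2), has trivial Schur multiplier (here the Schur multiplier is described through stem extensions, as in the definitions). -/
theorem result : Cfsg.HasCyclicSchurMultiplier Cfsg.Lie.TitsGroup 1 := by
  obtain ⟨x, h⟩ := CL.Pc.GTits.full CL.Pc.GTits.input
  have := h.fin
  exact CL.Schur.HasSM.congr_left ((CL.Pc.GTits.bounds h).cyclic h.card 11 CL.Pc.Cover.triv (by decide)) CL.Std.Tits.iso.some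

end Cfsg.Agent.S2115
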