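import Cfsg.Statements.S2136
import Cfsg.Agent.Spor.ConwTop
import Cfsg.Agent.Spor.ConwCo2C
import Cfsg.Agent.Spor.StdCore

set_option autoImplicit false
open Cfsg

namespace Cfsg.Agent.S2136

open CL.PG CL.Conw CL.Conw.Co2C

/-- The Conway group Co₂ (the stabiliser of a minimal vector of the rank-24 lattice) has an involution whose centraliser C has largest normal 2-subgroup extraspecial of order 2^9 with quotient C / O₂(C) isomorphic to the symplectic group Sp(6, 2) (shape 2^{1+8}Sp(6, 2)). -/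
theorem result : ∃ t : ↥Cfsg.Spor.Co2, orderOf t = 2 ∧ Cfsg.IsExtraspecial 2 (Cfsg.pCore 2 ↥(Subgroup.centralizer ({t} : Set ↥Cfsg.Spor.Co2))) ∧ Nat.card (Cfsg.pCore 2 ↥(Subgroup.centralizer ({t} : Set ↥Cfsg.Spor.Co2))) = 2 ^ 9 ∧ Nonempty (↥(Subgroup.centralizer ({t} : Set ↥Cfsg.Spor.Co2)) ⧸ Cfsg.pCore 2 ↥(Subgroup.centralizer ({t} : Set ↥Cfsg.Spor.Co2)) ≃* Matrix.symplecticGroup (Fin 3) (ZMod 2)) := by
    obtain ⟨_, cs, t⟩ := topCo2
    have t := t.ext (xctx t.c t.fa fun _ _ => trivial) (b := 16) (by decide +kernel) (by decide +kernel)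
    have hC := t.top_inf (xcent t.c (t.ub _))
    rw [centralizer_subW_single] at hC
    have hq := (xquo t.c).pCoreOf (isPGroup_of_card (xQ_card t.c) 9 (by norm_num)) CL.Std.S62.core2
    refine ⟨_, orderOf_of_card (xT_card t.c), ?_⟩
    rw [hC]
    exact ⟨isExtraspecial_of_map hq (xextra t.c), (card_of_map hq).trans (xQ_card t.c),
      ((xquo t.c).congr (CL.Std.S62.iso (ZMod.card 2))).equiv_of_map hq⟩

end Cfsg.Agent.S2136
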