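import Cfsg.Statements.S2141
import Cfsg.Agent.Known.MinDegSp5

set_option autoImplicit false
open Cfsg

namespace Cfsg.Agent.S2141

/-- Minimal index of a proper subgroup of the symplectic groups over fields with at least 3 elements: for m ≥ 2 and a field F with q ≥ 3 elements, (m, q) ≠ (2, 3), every proper subgroup of PSp_2m(F) has index at least (q^(2m) − 1)/(q − 1), and that index is attained. -/
theorem result {F : Type*} [Field F] [Fintype F] {q : ℕ} (hF : Fintype.card F = q) (m : ℕ) (hm : 2 ≤ m) (hq : 3 ≤ q) (hexc : ¬ (m = 2 ∧ q = 3)) : (∀ H : Subgroup (Cfsg.PSp m F), H ≠ ⊤ → (q ^ (2 * m) - 1) / (q - 1) ≤ H.index) ∧ (∃ H : Subgroup (Cfsg.PSp m F), H.index = (q ^ (2 * m) - 1) / (q - 1)) := by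
  have hc : Nat.card F = q := by rw [Nat.card_eq_fintype_card, hF]
  have hB := CL.Sp.stdForm_isAlt (Fin m) F
  have hN := CL.Sp.stdForm_nondegenerate (Fin m) F
  have hd : Module.finrank F (Fin m ⊕ Fin m → F) = 2 * m := by simp [two_mul]
  have hP : Nat.card (Projectivization F (Fin m ⊕ Fin m → F)) = (q ^ (2 * m) - 1) / (q - 1) := by
    rw [Projectivization.card'', Module.natCard_eq_pow_finrank (K := F), hd, hc]
  have := CL.MinDeg.finite_isom (B := CL.Sp.stdForm (Fin m) F)
  have : Nonempty (Fin m) := ⟨⟨0, by omega⟩⟩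
  rw [← hP]
  exact CL.MinDeg.psp_of_isom (CL.MinDeg.le_index_of_action fun K hK =>
    CL.MinDeg.sp_exists_fixed hB hN hK (by omega) (by omega) (by omega))
    (CL.MinDeg.exists_index_points hB hN)

end Cfsg.Agent.S2141
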