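import Cfsg.Statements.S2142
import Cfsg.Agent.Known.MinDegSp5

set_option autoImplicit false
open Cfsg

namespace Cfsg.Agent.S2142

/-- Minimal index of a proper subgroup of the symplectic groups over the field with 2 elements: for m ≥ 3, every proper subgroup of Sp_2m(2) has index at least 2^(m−1)(2^m − 1), and that index is attained. -/
theorem result {F : Type*} [Field F] [Fintype F] (hF : Fintype.card F = 2) (m : ℕ) (hm : 3 ≤ m) : (∀ H : Subgroup (Cfsg.PSp m F), H ≠ ⊤ → 2 ^ (m - 1) * (2 ^ m - 1) ≤ H.index) ∧ (∃ H : Subgroup (Cfsg.PSp m F), H.index = 2 ^ (m - 1) * (2 ^ m - 1)) := by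
  have hc : Nat.card F = 2 := by rw [Nat.card_eq_fintype_card, hF]
  have h2 := CL.MinDeg.two_eq_zero_of_card hc
  have hB := CL.Sp.stdForm_isAlt (Fin m) F
  have hN := CL.Sp.stdForm_nondegenerate (Fin m) F
  have hd : Module.finrank F (Fin m ⊕ Fin m → F) = 2 * m := by simp [two_mul]
  obtain ⟨k, rfl⟩ : ∃ k, m = k + 1 := ⟨m - 1, by omega⟩
  have ha : Nat.card (Fin (k + 1) ⊕ Fin (k + 1) → F) = 4 * (2 ^ k) ^ 2 := by
    rw [Module.natCard_eq_pow_finrank (K := F), hd, hc]
    ring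
  have ha2 : 2 ≤ 2 ^ k := by
    calc 2 = 2 ^ 1 := rfl
      _ ≤ 2 ^ k := Nat.pow_le_pow_right (by norm_num) (by omega)
  have hN' : 2 ^ (k + 1 - 1) * (2 ^ (k + 1) - 1) + 2 ^ k = 2 * (2 ^ k) ^ 2 := by
    rw [Nat.add_sub_cancel, ← Nat.mul_succ, Nat.succ_eq_add_one,
      Nat.sub_add_cancel Nat.one_le_two_pow]
    ring
  have := CL.MinDeg.finite_isom (B := CL.Sp.stdForm (Fin (k + 1)) F)
  refine CL.MinDeg.psp_of_isom (CL.MinDeg.le_index_of_action fun K hK =>
    CL.MinDeg.sp_two_exists_fixed hB hN hc (by omega) ha ha2 (by omega)) ?_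
  obtain ⟨H, hH⟩ := CL.MinDeg.sp_two_exists_index hB hN hc ha (by omega)
    (fun v => ∑ i, v (Sum.inl i) * v (Sum.inr i)) fun v w => by
      rw [CL.Sp.stdForm_apply', ← Finset.sum_add_distrib, ← Finset.sum_add_distrib]
      refine Finset.sum_congr rfl fun i _ => ?_
      simp only [Pi.add_apply]
      linear_combination (v (Sum.inl i) * w (Sum.inr i)) * h2
  exact ⟨H, CL.MinDeg.center_le_of_two hB hN h2 H, by omega⟩

end Cfsg.Agent.S2142
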