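import Cfsg.Statements.S2143
import Cfsg.Agent.Known.MinDegO8

set_option autoImplicit false
open Cfsg

namespace Cfsg.Agent.S2143

/-- Minimal index of a proper subgroup of the odd-dimensional orthogonal groups: for m ≥ 3 and a field F with q elements, q odd and q ≥ 5, every proper subgroup of PΩ_(2m+1)(F) (for the form x₀² + Σ xᵢyᵢ) has index at least (q^(2m) − 1)/(q − 1), and that index is attained. -/
theorem result {F : Type*} [Field F] [Fintype F] {q : ℕ} (hF : Fintype.card F = q) (hodd : Odd q) (h5 : 5 ≤ q) (m : ℕ) (hm : 3 ≤ m) : (∀ H : Subgroup (Cfsg.POmega F (Cfsg.quadFormOdd m F)), H ≠ ⊤ → (q ^ (2 * m) - 1) / (q - 1) ≤ H.index) ∧ (∃ H : Subgroup (Cfsg.POmega F (Cfsg.quadFormOdd m F)), H.index = (q ^ (2 * m) - 1) / (q - 1)) := by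
  open CL.Cls CL.MinD in
  subst hF
  have h2 := two_ne_zero_of_odd_card hodd
  have hQ := nondeg_qfOdd (m := m) h2
  obtain ⟨j, rfl⟩ := Nat.exists_eq_add_of_le' hm
  have hk : Fintype.card (Unit ⊕ (Fin (j + 3) ⊕ Fin (j + 3))) = 2 * j + 7 := by simp; omega
  have hk' := (Module.finrank_fintype_fun_eq_card (R := F)).trans hk
  obtain ⟨H, h1, h3⟩ := exists_index_sing hQ (by omega)
  obtain ⟨t, -, ht⟩ := exists_card_eq_succ (F := F)
  have h4 : nv (qfOdd (j + 3) F) ⊤ 0 = Fintype.card F ^ (2 * (j + 3)) := by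
    rw [nv_top]; exact card_zeros_quadFormOdd _
  have h6 : (Fintype.card F ^ (2 * (j + 3)) - 1) / (Fintype.card F - 1) = H.index := by
    rw [← h4, ← h3, Nat.mul_div_cancel_left _ (by omega)]
  have h7 : t * H.index + 1 = (t + 1) ^ 2 * (t + 1) ^ (2 * j + 4) := by
    have := one_le_nv_zero (Q := qfOdd (j + 3) F) ⊤
    rw [ht, Nat.add_sub_cancel] at h3
    rw [h3, Nat.sub_add_cancel this, h4, ht]; ring
  rw [h6]
  refine minDeg_pomega (κ := 2) ⟨fun _ => h2, ?_, h3.le, Or.inl rfl, fun c _ => ?_, fun h => by omega⟩ hQ hk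
    ⟨H, h1, rfl⟩
  · refine Nat.le_of_mul_le_mul_left (c := t) ?_ (by omega)
    rw [ht, pow_succ _ (2 * j + 4)]
    nlinarith [Nat.mul_le_mul_right ((t + 1) * (t + 1) ^ (2 * j + 4)) (show t + 1 ≤ 2 * t by omega)]
  · have h8 := nv_ge_two (ndon_top hQ) (k := 2 * j + 2) (by rw [finrank_top, hk']) ht c
    have h9 : 2 * H.index ≤ (3 * t + 2) * (t + 1) ^ (2 * j + 4) := by
      refine Nat.le_of_mul_le_mul_left (c := t) ?_ (by omega)
      nlinarith [Nat.mul_le_mul_right ((t + 1) ^ (2 * j + 4))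
        (show 2 * (t + 1) ^ 2 ≤ t * (3 * t + 2) by nlinarith)]
    rw [ht, Nat.add_sub_cancel, pow_succ _ (2 * j + 4)]
    rw [show 2 * j + 2 + 3 = 2 * j + 4 + 1 by ring, show 2 * j + 2 + 2 = 2 * j + 4 by ring,
      pow_succ _ (2 * j + 4)] at h8
    nlinarith

end Cfsg.Agent.S2143
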