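import Cfsg.Statements.S2144
import Cfsg.Agent.Known.MinDegO8

set_option autoImplicit false
open Cfsg

namespace Cfsg.Agent.S2144

open CL.Cls CL.MinD Module in
theorem nv_odd {F V : Type*} [Field F] [Fintype F] [AddCommGroup V] [Module F V] [FiniteDimensional F V]
    {Q : QuadraticForm F V} (l : ℕ) {W : Submodule F V} (hW : NDon Q W) (hl : finrank F W = 2 * l + 1) :
    ∃ W₀ : Submodule F V, finrank F W₀ = 1 ∧ ∀ c, nv Q W c + Fintype.card F ^ l =
      Fintype.card F ^ l * nv Q W₀ c + Fintype.card F ^ (2 * l) := by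
  induction l generalizing W with
  | zero => exact ⟨W, hl, fun c => by simp⟩
  | succ l ih =>
    obtain ⟨e, he, f, hf, h⟩ := hW.exists_isHyp (by omega)
    have h1 := finrank_hypC h he hf
    obtain ⟨W₀, h2, h3⟩ := ih (hW.hypC h he hf) (by omega)
    refine ⟨W₀, h2, fun c => ?_⟩
    obtain ⟨t, -, ht⟩ := exists_card_eq_succ (F := F)
    have h4 := h3 c
    rw [nv_hypC h he hf, show finrank F (hypC Q W e f) = 2 * l + 1 by omega]
    rw [ht] at h4 ⊢
    rw [Nat.add_sub_cancel, show 2 * (l + 1) = 2 * l + 1 + 1 by ring, pow_succ _ (2 * l + 1), pow_succ _ (2 * l), pow_succ _ l]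
    linarith [congrArg ((t + 1) * ·) h4]

/-- Minimal index of a proper subgroup of the odd-dimensional orthogonal groups over the field with 3 elements: for m ≥ 3, every proper subgroup of PΩ_(2m+1)(3) (for the form x₀² + Σ xᵢyᵢ) has index at least 3^m(3^m − 1)/2, and that index is attained. -/
theorem result {F : Type*} [Field F] [Fintype F] (hF : Fintype.card F = 3) (m : ℕ) (hm : 3 ≤ m) : (∀ H : Subgroup (Cfsg.POmega F (Cfsg.quadFormOdd m F)), H ≠ ⊤ → 3 ^ m * (3 ^ m - 1) / 2 ≤ H.index) ∧ (∃ H : Subgroup (Cfsg.POmega F (Cfsg.quadFormOdd m F)), H.index = 3 ^ m * (3 ^ m - 1) / 2) := by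
  open CL.Cls CL.MinD in
  have h2 := two_ne_zero_of_odd_card (F := F) (by rw [hF]; decide)
  have hQ := nondeg_qfOdd (m := m) h2
  obtain ⟨j, rfl⟩ := Nat.exists_eq_add_of_le' hm
  have hk : Fintype.card (Unit ⊕ (Fin (j + 3) ⊕ Fin (j + 3))) = 2 * j + 7 := by simp; omega
  have hk' := (Module.finrank_fintype_fun_eq_card (R := F)).trans hk
  obtain ⟨W₀, h3, h4⟩ := nv_odd (j + 3) (ndon_top hQ) (by rw [finrank_top, hk']; ring)
  obtain ⟨c, hc, hc'⟩ : ∃ c : F, c ≠ 0 ∧ nv (qfOdd (j + 3) F) W₀ c = 0 := by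
    obtain ⟨w, -, hw⟩ := finrank_eq_one_iff'.1 h3
    have h5 : ∀ c : F, c ≠ 0 → c ≠ qfOdd (j + 3) F w → nv (qfOdd (j + 3) F) W₀ c = 0 := fun c h0 h1 => by
      rw [nv, Set.ncard_eq_zero (by have := finite_space F (Unit ⊕ (Fin (j + 3) ⊕ Fin (j + 3)) → F); exact Set.toFinite _),
        Set.eq_empty_iff_forall_notMem]
      rintro v ⟨hv, rfl⟩
      obtain ⟨s, hs⟩ := hw ⟨v, hv⟩
      have h6 : v = s • (w : Unit ⊕ (Fin (j + 3) ⊕ Fin (j + 3)) → F) := (congrArg Subtype.val hs).symm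
      have h7 : s ≠ 0 := by rintro rfl; exact h0 (by rw [h6, zero_smul, map_zero])
      have h8 := FiniteField.pow_card_sub_one_eq_one s h7
      rw [hF] at h8
      exact h1 (by rw [h6, CL.Cls.map_smul', h8, one_mul])
    by_cases h6 : (1 : F) = qfOdd (j + 3) F w
    · exact ⟨-1, by simp, h5 _ (by simp) (by rw [← h6]; intro h; exact h2 (by linear_combination -h))⟩
    · exact ⟨1, one_ne_zero, h5 _ one_ne_zero h6⟩
  obtain ⟨H, h1, h5⟩ := exists_index_nonsing hQ (by omega) hc (Or.inl ⟨h2, rfl⟩)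
  have h6 := h4 c
  rw [hc', hF, mul_zero, zero_add, ← h5, two_mul (j + 3), pow_add 3 (j + 3) (j + 3)] at h6
  obtain ⟨s, hs⟩ := Nat.exists_eq_add_of_le' (Nat.one_le_pow (j + 3) 3 (by omega))
  have h7 : 3 ^ (j + 3) * (3 ^ (j + 3) - 1) / 2 = H.index := by
    rw [hs] at h6 ⊢
    rw [Nat.add_sub_cancel, show (s + 1) * s = 2 * H.index by nlinarith, Nat.mul_div_cancel_left _ (by omega)]
  have h8 : nv (qfOdd (j + 3) F) ⊤ 0 = 3 ^ (j + 3) * 3 ^ (j + 3) := by
    rw [nv_top, ← pow_add, ← two_mul, ← hF]; exact card_zeros_quadFormOdd _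
  have h9 : 3 ^ (j + 3) * 3 ^ (j + 3) = 3 * 3 ^ (2 * j + 5) := by ring
  rw [h7]
  refine minDeg_pomega (κ := 2) ⟨fun _ => h2, ?_, ?_, Or.inl rfl, fun c _ => ?_, fun h => by omega⟩ hQ hk
    ⟨H, h1, rfl⟩
  · rw [hF]; omega
  · rw [hF, h8]; omega
  · have h10 := h4 c
    rw [hF, two_mul (j + 3), pow_add 3 (j + 3) (j + 3)] at h10
    rw [hF]
    have := Nat.zero_le (3 ^ (j + 3) * nv (qfOdd (j + 3) F) W₀ c)
    omega

end Cfsg.Agent.S2144
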