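import Cfsg.Statements.S2145
import Cfsg.Agent.Known.MinDegO8

set_option autoImplicit false
open Cfsg

namespace Cfsg.Agent.S2145

theorem arith1 {t κ : ℕ} (h : 3 ≤ t) (hκ : κ = 1 ∨ κ = 2 ∧ 4 ≤ t) :
    κ * ((t + 1) ^ 3 + 1) ≤ t * (κ * (t + 1) ^ 2 + t * (t + 1)) := by
  rcases hκ with rfl | ⟨rfl, h⟩ <;> nlinarith [Nat.mul_le_mul_right (t * t) h, Nat.mul_le_mul_right t h]

theorem arith2 {t : ℕ} (h : 3 ≤ t) : (t + 1) ^ 3 + 1 ≤ t * (2 * (t + 1) ^ 2) := by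
  nlinarith [Nat.mul_le_mul_right (t * t) h, Nat.mul_le_mul_right t h]

/-- Minimal index of a proper subgroup of the even-dimensional orthogonal groups of plus type: for m ≥ 4 and a field F with q ≥ 4 elements, every proper subgroup of PΩ⁺_2m(F) (for the form Σ xᵢyᵢ) has index at least (q^m − 1)(q^(m−1) + 1)/(q − 1), and that index is attained (the singular points). -/
theorem result {F : Type*} [Field F] [Fintype F] {q : ℕ} (hF : Fintype.card F = q) (hq : 4 ≤ q) (m : ℕ) (hm : 4 ≤ m) : (∀ H : Subgroup (Cfsg.POmega F (Cfsg.quadFormPlus m F)), H ≠ ⊤ → (q ^ m - 1) * (q ^ (m - 1) + 1) / (q - 1) ≤ H.index) ∧ (∃ H : Subgroup (Cfsg.POmega F (Cfsg.quadFormPlus m F)), H.index = (q ^ m - 1) * (q ^ (m - 1) + 1) / (q - 1)) := by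
  open CL.Cls CL.MinD in
  subst hF
  have hQ := nondeg_qfPlus (m := m) (F := F)
  obtain ⟨j, rfl⟩ := Nat.exists_eq_add_of_le' hm
  have hk : Fintype.card (Fin (j + 4) ⊕ Fin (j + 4)) = 2 * j + 1 + 7 := by simp; omega
  have hk' := (Module.finrank_fintype_fun_eq_card (R := F)).trans hk
  obtain ⟨H, h1, h3⟩ := exists_index_sing hQ (by omega)
  obtain ⟨t, -, ht⟩ := exists_card_eq_succ (F := F)
  have h4 : nv (qfPlus (j + 4) F) ⊤ 0 =
      Fintype.card F ^ (j + 4) + (Fintype.card F ^ (j + 4) - 1) * Fintype.card F ^ (j + 3) := by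
    rw [nv_top]; exact card_zeros_quadFormPlus _
  obtain ⟨s, hs⟩ := Nat.exists_eq_add_of_le' (Nat.one_le_pow (j + 4) (t + 1) (by omega))
  have h5 : t * H.index = s * ((t + 1) ^ (j + 3) + 1) := by
    rw [h4, ht, hs, Nat.add_sub_cancel, Nat.add_sub_cancel, add_right_comm, Nat.add_sub_cancel] at h3
    rw [h3]; ring
  have h6 : (Fintype.card F ^ (j + 4) - 1) * (Fintype.card F ^ (j + 4 - 1) + 1) / (Fintype.card F - 1) = H.index := by
    rw [ht, hs, Nat.add_sub_cancel, Nat.add_sub_cancel, show j + 4 - 1 = j + 3 from rfl, ← h5,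
      Nat.mul_div_cancel_left _ (by omega)]
  have ht3 : 3 ≤ t := by omega
  obtain ⟨P, hP⟩ : ∃ P, P = (t + 1) ^ (j + 2) := ⟨_, rfl⟩
  have hP1 : (t + 1) ^ 2 ≤ P := hP ▸ Nat.pow_le_pow_right (by omega) (by omega)
  have e1 : (t + 1) ^ (j + 3) = (t + 1) * P := by rw [hP]; ring
  have e2 : (t + 1) ^ (j + 4) = (t + 1) ^ 2 * P := by rw [hP]; ring
  have e3 : (t + 1) ^ (2 * j + 1 + 5) = (t + 1) ^ 2 * (P * P) := by rw [hP]; ring
  have e4 : (t + 1) ^ (2 * j + 1 + 4) = (t + 1) * (P * P) := by rw [hP]; ring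
  have h7 : t * H.index ≤ ((t + 1) ^ 3 + 1) * (P * P) := by
    rw [h5, e1]
    have h8 : s ≤ (t + 1) ^ 2 * P := by omega
    linarith [Nat.mul_le_mul_right ((t + 1) * P + 1) h8, Nat.mul_le_mul_right P hP1]
  obtain ⟨κ, hκ, hκ'⟩ : ∃ κ : ℕ, (κ = 2 ∨ (2 : F) = 0 ∧ κ = 1) ∧ (κ = 1 ∨ κ = 2 ∧ 4 ≤ t) := by
    by_cases h2 : Odd (Fintype.card F)
    · exact ⟨2, Or.inl rfl, Or.inr ⟨rfl, by obtain ⟨r, hr⟩ := h2; omega⟩⟩
    · exact ⟨1, Or.inr ⟨two_eq_zero_of_not_odd h2, rfl⟩, Or.inl rfl⟩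
  rw [h6]
  refine minDeg_pomega (κ := κ) ⟨fun h => by omega, ?_, h3.le, hκ, fun c _ => ?_, fun h _ _ _ => ⟨?_, Or.inl hq⟩⟩
    hQ hk ⟨H, h1, rfl⟩
  · refine Nat.le_of_mul_le_mul_left (c := t) (h7.trans ?_) (by omega)
    rw [ht, e3]
    linarith [Nat.mul_le_mul_right (P * P) (arith2 ht3)]
  · have h8 := nv_ge_two (ndon_top hQ) (k := 2 * j + 3) (by rw [finrank_top, hk']) ht c
    have h9 : κ * H.index ≤ (κ * (t + 1) ^ 2 + t * (t + 1)) * (P * P) := by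
      refine Nat.le_of_mul_le_mul_left (c := t) ?_ (by omega)
      linarith [Nat.mul_le_mul_right (P * P) (arith1 ht3 hκ'), Nat.mul_le_mul_left κ h7]
    rw [show 2 * j + 3 + 3 = 2 * j + 1 + 5 by ring, show 2 * j + 3 + 2 = 2 * j + 1 + 4 by ring, e3, e4] at h8
    rw [ht, Nat.add_sub_cancel, e3]
    linarith
  · obtain rfl : j = 0 := by omega
    exact h4

end Cfsg.Agent.S2145
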