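import Cfsg.Statements.S2146
import Cfsg.Agent.Known.MinDegO8

set_option autoImplicit false
open Cfsg

namespace Cfsg.Agent.S2146

/-- Minimal index of a proper subgroup of the even-dimensional orthogonal groups of plus type over the field with 2 elements: for m ≥ 4, every proper subgroup of Ω⁺_2m(2) (for the form Σ xᵢyᵢ) has index at least 2^(m−1)(2^m − 1), and that index is attained. -/
theorem result {F : Type*} [Field F] [Fintype F] (hF : Fintype.card F = 2) (m : ℕ) (hm : 4 ≤ m) : (∀ H : Subgroup (Cfsg.POmega F (Cfsg.quadFormPlus m F)), H ≠ ⊤ → 2 ^ (m - 1) * (2 ^ m - 1) ≤ H.index) ∧ (∃ H : Subgroup (Cfsg.POmega F (Cfsg.quadFormPlus m F)), H.index = 2 ^ (m - 1) * (2 ^ m - 1)) := by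
  open CL.Cls CL.MinD in
  have h2 : (2 : F) = 0 := two_eq_zero_of_not_odd (by rw [hF]; decide)
  have hQ := nondeg_qfPlus (m := m) (F := F)
  obtain ⟨j, rfl⟩ := Nat.exists_eq_add_of_le' hm
  have hk : Fintype.card (Fin (j + 4) ⊕ Fin (j + 4)) = 2 * j + 1 + 7 := by simp; omega
  have hk' := (Module.finrank_fintype_fun_eq_card (R := F)).trans hk
  obtain ⟨H, h1, h3⟩ := exists_index_nonsing hQ (by omega) one_ne_zero (Or.inr ⟨h2, rfl⟩)
  obtain ⟨P, hP⟩ : ∃ P, P = 2 ^ (j + 3) := ⟨_, rfl⟩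
  have hP1 : 1 ≤ P := hP ▸ Nat.one_le_pow _ _ (by omega)
  have e2 : 2 ^ (j + 4) = 2 * P := by rw [hP]; ring
  have e3 : 2 ^ (2 * j + 1 + 5) = P * P := by rw [hP]; ring
  have h4 : nv (qfPlus (j + 4) F) ⊤ 0 =
      Fintype.card F ^ (j + 4) + (Fintype.card F ^ (j + 4) - 1) * Fintype.card F ^ (j + 3) := by
    rw [nv_top]; exact card_zeros_quadFormPlus _
  have h5 : ∀ c : F, c ≠ 0 → nv (qfPlus (j + 4) F) ⊤ c + P = 2 * (P * P) := fun c hc => by
    have h6 := CL.Known.card_value_int hQ (m := j + 4) (by rw [hk']; ring) hc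
    rw [CL.Known.qsign, if_pos (CL.Known.isPlus_qfPlus _), ← nv_top, hF, two_mul (j + 4), pow_add _ (j + 4)] at h6
    have h7 : ((2 : ℕ) : ℤ) ^ (j + 4) = 2 * P := by exact_mod_cast e2
    rw [h7] at h6
    zify
    push_cast at h6
    linarith
  have h6 := h5 1 one_ne_zero
  rw [← h3, one_mul] at h6
  obtain ⟨s, rfl⟩ := Nat.exists_eq_add_of_le' hP1
  have h7 : 2 ^ (j + 4 - 1) * (2 ^ (j + 4) - 1) = H.index := by
    rw [show j + 4 - 1 = j + 3 from rfl, ← hP, e2, show 2 * (s + 1) - 1 = 2 * s + 1 from rfl]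
    nlinarith
  rw [h7]
  refine minDeg_pomega (κ := 1) ⟨fun h => by omega, ?_, ?_, Or.inr ⟨h2, rfl⟩, fun c hc => ?_,
    fun h _ _ _ => ⟨?_, Or.inr ?_⟩⟩ hQ hk ⟨H, h1, rfl⟩
  · rw [hF, e3]; omega
  · rw [h4, hF, ← hP, e2, show 2 * (s + 1) - 1 = 2 * s + 1 from rfl,
      show 2 * (s + 1) + (2 * s + 1) * (s + 1) - 1 = 2 * s + 1 + (2 * s + 1) * (s + 1) by omega]
    nlinarith
  · have := h5 c hc
    rw [hF]; omega
  · obtain rfl : j = 0 := by omega
    exact h4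
  · obtain rfl : j = 0 := by omega
    rw [hF, ← h7]; norm_num

end Cfsg.Agent.S2146
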