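import Cfsg.Statements.S2147
import Cfsg.Agent.Known.MinDegO8

set_option autoImplicit false
open Cfsg

namespace Cfsg.Agent.S2147

/-- Minimal index of a proper subgroup of the even-dimensional orthogonal groups of minus type: for m ≥ 4 and a field F with q elements, every proper subgroup of PΩ⁻_2m(F) (for the form Σ_{i<m−1} xᵢyᵢ + z₁² + a z₁z₂ + b z₂² with anisotropic binary part) has index at least (q^m + 1)(q^(m−1) − 1)/(q − 1), and that index is attained. -/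
theorem result {F : Type*} [Field F] [Fintype F] {q : ℕ} (hF : Fintype.card F = q) (m : ℕ) (hm : 4 ≤ m) (a b : F) (hab : ∀ z₁ z₂ : F, z₁ ^ 2 + a * z₁ * z₂ + b * z₂ ^ 2 = 0 → z₁ = 0 ∧ z₂ = 0) : (∀ H : Subgroup (Cfsg.POmega F (Cfsg.quadFormMinus (m - 1) F a b)), H ≠ ⊤ → (q ^ m + 1) * (q ^ (m - 1) - 1) / (q - 1) ≤ H.index) ∧ (∃ H : Subgroup (Cfsg.POmega F (Cfsg.quadFormMinus (m - 1) F a b)), H.index = (q ^ m + 1) * (q ^ (m - 1) - 1) / (q - 1)) := by
  open CL.Cls CL.MinD in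
  subst hF
  obtain ⟨j, rfl⟩ := Nat.exists_eq_add_of_le' hm
  rw [show j + 4 - 1 = j + 3 from rfl]
  have hQ := nondeg_qfMinus (m := j + 3) a b hab
  have hk : Fintype.card ((Fin (j + 3) ⊕ Fin (j + 3)) ⊕ Fin 2) = 2 * j + 1 + 7 := by simp; omega
  have hk' := (Module.finrank_fintype_fun_eq_card (R := F)).trans hk
  obtain ⟨H, h1, h3⟩ := exists_index_sing hQ (by omega)
  obtain ⟨t, ht1, ht⟩ := exists_card_eq_succ (F := F)
  have h4 : nv (qfMinus (j + 3) F a b) ⊤ 0 =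
      Fintype.card F ^ (j + 3) + (Fintype.card F ^ (j + 3) - 1) * Fintype.card F ^ (j + 4) := by
    rw [nv_top]; exact card_zeros_quadFormMinus _ a b hab
  obtain ⟨s, hs⟩ := Nat.exists_eq_add_of_le' (Nat.one_le_pow (j + 3) (t + 1) (by omega))
  have h5 : t * H.index = ((t + 1) ^ (j + 4) + 1) * s := by
    rw [h4, ht, hs, Nat.add_sub_cancel, Nat.add_sub_cancel, add_right_comm, Nat.add_sub_cancel] at h3
    rw [h3]; ring
  have h6 : (Fintype.card F ^ (j + 4) + 1) * (Fintype.card F ^ (j + 3) - 1) / (Fintype.card F - 1) = H.index := by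
    rw [ht, hs, Nat.add_sub_cancel, Nat.add_sub_cancel, ← h5, Nat.mul_div_cancel_left _ (by omega)]
  have e2 : (t + 1) ^ (j + 4) = (t + 1) * (s + 1) := by rw [← hs]; ring
  have e3 : (t + 1) ^ (2 * j + 1 + 5) = (s + 1) * (s + 1) := by rw [← hs]; ring
  have h7 : t * H.index ≤ (t + 1) * ((s + 1) * (s + 1)) := by
    rw [h5, e2]; nlinarith [Nat.zero_le (t * s)]
  obtain ⟨κ, hκ, hκ'⟩ : ∃ κ : ℕ, (κ = 2 ∨ (2 : F) = 0 ∧ κ = 1) ∧ κ ≤ t := by
    by_cases h2 : Odd (Fintype.card F)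
    · exact ⟨2, Or.inl rfl, by obtain ⟨r, hr⟩ := h2; omega⟩
    · exact ⟨1, Or.inr ⟨two_eq_zero_of_not_odd h2, rfl⟩, ht1⟩
  rw [h6]
  refine minDeg_pomega (κ := κ) ⟨fun h => by omega, ?_, h3.le, hκ, fun c hc => ?_, fun h X hX hX' => ?_⟩
    hQ hk ⟨H, h1, rfl⟩
  · refine Nat.le_of_mul_le_mul_left (c := t) (h7.trans ?_) (by omega)
    rw [ht, e3]
    linarith [Nat.mul_le_mul_right ((s + 1) * (s + 1)) ht1]
  · have h8 := CL.Known.card_value_int hQ (m := j + 4) (by rw [hk']; ring) hc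
    rw [CL.Known.qsign, if_neg (CL.Known.not_isPlus_qfMinus _ hab), ← nv_top, ht, two_mul (j + 4),
      pow_add _ (j + 4)] at h8
    have h9 : ((t + 1 : ℕ) : ℤ) ^ (j + 4) = (t + 1) * (s + 1) := by exact_mod_cast e2
    rw [h9] at h8
    have h10 : (t + 1) * ((s + 1) * (s + 1)) ≤ nv (qfMinus (j + 3) F a b) ⊤ c := by
      refine Nat.le_of_mul_le_mul_left (c := t + 1) ?_ (by omega)
      zify
      push_cast at h8
      linarith [show (0 : ℤ) ≤ (t + 1) * (s + 1) by positivity]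
    have h11 : κ * H.index ≤ (κ + 1) * ((s + 1) * (s + 1)) := by
      refine Nat.le_of_mul_le_mul_left (c := t) ?_ (by omega)
      linarith [Nat.mul_le_mul_right ((s + 1) * (s + 1)) hκ', Nat.mul_le_mul_left κ h7]
    rw [ht, Nat.add_sub_cancel, e3]
    linarith
  · have := finrank_le_of_singular_qfMinus _ hab (disc_ne_zero_of_anisotropic a b hab) X hX
    omega

end Cfsg.Agent.S2147
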