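import Cfsg.Statements.S2149
import Cfsg.Agent.Known.MinDegU35B

set_option autoImplicit false
open Cfsg

namespace Cfsg.Agent.S2149

/-- Minimal index of a proper subgroup of PSU₃(5), realised over the field with 25 elements: every proper subgroup has index at least 50, and that index is attained. -/
theorem result {F : Type*} [Field F] [Fintype F] (hF : Fintype.card F = 25) : (∀ H : Subgroup (Cfsg.PSU 3 F 5), H ≠ ⊤ → 50 ≤ H.index) ∧ (∃ H : Subgroup (Cfsg.PSU 3 F 5), H.index = 50) := by
  open CL.Uni CL.MinU CL.MinD in
  have hF' : Fintype.card F = 5 ^ 2 := hF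
  have h := isHerm_stdB (isBar_bar hF') (Fin 3)
  have := finite_SUG h
  let φ := (centerQuotCongr (suEquiv (isBar_bar hF') 3)).symm
  exact ⟨le_index_of_action (φ.toMonoidHom.comp (QuotientGroup.mk' (Subgroup.center _)))
    (φ.surjective.comp (QuotientGroup.mk'_surjective _)) (fifty_le_index h (Module.finrank_fin_fun F)),
    exists_index_fifty hF⟩

end Cfsg.Agent.S2149
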