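import Cfsg.Statements.S2150
import Cfsg.Agent.Known.MinDegU9
import Cfsg.Agent.Known.MinDegO8
import Cfsg.Agent.Cls.OrthIso6Minus

set_option autoImplicit false
open Cfsg

namespace Cfsg.Agent.S2150

/-- Minimal index of a proper subgroup of the four-dimensional unitary groups: for a field F with q² elements, every proper subgroup of PSU₄(q) has index at least (q + 1)(q³ + 1), and that index is attained. -/
theorem result {F : Type*} [Field F] [Fintype F] (q : ℕ) (hF : Fintype.card F = q ^ 2) (hq : 2 ≤ q) : (∀ H : Subgroup (Cfsg.PSU 4 F q), H ≠ ⊤ → (q + 1) * (q ^ 3 + 1) ≤ H.index) ∧ (∃ H : Subgroup (Cfsg.PSU 4 F q), H.index = (q + 1) * (q ^ 3 + 1)) := by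
  open CL.Uni CL.MinU CL.MinD CL.Cls in
  have h := isHerm_stdB (isBar_bar hF) (Fin 4)
  have := finite_SUG h
  let φ := (centerQuotCongr (suEquiv (isBar_bar hF) 4)).symm
  refine ⟨le_index_of_action (φ.toMonoidHom.comp (QuotientGroup.mk' (Subgroup.center _)))
    (φ.surjective.comp (QuotientGroup.mk'_surjective _)) (le_index_four h (Module.finrank_fin_fun F)), ?_⟩
  let K := IsBar.fixedField (bar hF)
  have := Fintype.ofFinite K
  have hK : Fintype.card K = q := by rw [← Nat.card_eq_fintype_card]; exact h.bar.card_fixedField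
  obtain ⟨a, b, hab⟩ := exists_anisotropic_pair K
  obtain ⟨ψ⟩ := nonempty_POmega6Minus_equiv (hK.symm ▸ hF) a b hab
  rw [hK] at ψ
  have hQ := nondeg_qfMinus (m := 2) a b hab
  obtain ⟨H, h1, h3⟩ := exists_index_sing hQ (by simp)
  have h4 : nv (qfMinus 2 K a b) ⊤ 0 = Fintype.card K ^ 2 + (Fintype.card K ^ 2 - 1) * Fintype.card K ^ 3 := by
    rw [nv_top]; exact card_zeros_quadFormMinus _ a b hab
  have h5 : H.index = (q + 1) * (q ^ 3 + 1) := by
    obtain ⟨t, rfl⟩ := Nat.exists_eq_add_of_le' (show 1 ≤ q by omega)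
    rw [h4, hK, Nat.add_sub_cancel, show (t + 1) ^ 2 = t * (t + 2) + 1 by ring, Nat.add_sub_cancel, add_right_comm,
      Nat.add_sub_cancel] at h3
    exact Nat.eq_of_mul_eq_mul_left (show 0 < t by omega) (h3.trans (by ring))
  rw [← h5]
  let χ := (pomegaEquiv (qfMinus 2 K a b)).symm.trans ψ
  exact exists_index_of_ker_le (χ.toMonoidHom.comp (QuotientGroup.mk' (Subgroup.center _)))
    (χ.surjective.comp (QuotientGroup.mk'_surjective _)) H fun g hg =>
      h1 ((QuotientGroup.eq_one_iff g).1 (χ.map_eq_one_iff.1 hg))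

end Cfsg.Agent.S2150
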