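import Cfsg.Statements.S2151
import Cfsg.Agent.Known.MinDegU6

set_option autoImplicit false
open Cfsg

namespace Cfsg.Agent.S2151

/-- Minimal index of a proper subgroup of the unitary groups of odd dimension n ≥ 5: for a field F with q² elements, every proper subgroup of PSU_n(q) has index at least (q^n + 1)(q^(n−1) − 1)/(q² − 1), and that index is attained. -/
theorem result {F : Type*} [Field F] [Fintype F] (q : ℕ) (hF : Fintype.card F = q ^ 2) (hq : 2 ≤ q) (n : ℕ) (hn : 5 ≤ n) (hodd : Odd n) : (∀ H : Subgroup (Cfsg.PSU n F q), H ≠ ⊤ → (q ^ n + 1) * (q ^ (n - 1) - 1) / (q ^ 2 - 1) ≤ H.index) ∧ (∃ H : Subgroup (Cfsg.PSU n F q), H.index = (q ^ n + 1) * (q ^ (n - 1) - 1) / (q ^ 2 - 1)) := by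
  open CL.Uni CL.MinU in
  obtain ⟨k, rfl⟩ : ∃ k, n = k + 3 + 2 := ⟨n - 5, by omega⟩
  have hk : Even k := by
    rcases Nat.even_or_odd k with h | h
    · exact h
    · obtain ⟨a, ha⟩ := h; obtain ⟨b, hb⟩ := hodd; omega
  have h1 := minDeg_psu_iso hF (r := k + 3) (by omega) fun M hM => by
    rcases hq.eq_or_lt with rfl | h5
    swap
    · exact Or.inl (add_isoCount_le h5 (by omega) hM)
    refine Or.inr ⟨rfl, ?_⟩
    obtain ⟨P, hP⟩ : ∃ P : ℤ, P = ((2 : ℕ) : ℤ) ^ k := ⟨_, rfl⟩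
    have h1 : 1 ≤ P := hP ▸ one_le_pow₀ (by omega)
    zify [show 1 ≤ 2 ^ 2 by norm_num] at hM ⊢
    rw [isoCount_int (show 1 ≤ 2 by omega) (k + 4)] at hM
    rw [isoCount_int (show 1 ≤ 2 by omega) (k + 2)]
    push_cast at hP
    simp only [mul_add, two_mul, pow_add, Nat.cast_ofNat, ← hP, hk.neg_one_pow] at hM ⊢
    nlinarith
  rwa [isoCount, if_neg (Nat.not_even_iff_odd.2 hodd)] at h1

end Cfsg.Agent.S2151
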