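import Cfsg.Statements.S2153
import Cfsg.Agent.Known.MinDegU6

set_option autoImplicit false
open Cfsg

namespace Cfsg.Agent.S2153

/-- Minimal index of a proper subgroup of the unitary groups PSU_n(2) with n divisible by 6, realised over the field with 4 elements: every proper subgroup has index at least 2^(n−1)(2^n − 1)/3, and that index is attained. -/
theorem result {F : Type*} [Field F] [Fintype F] (hF : Fintype.card F = 4) (n : ℕ) (hn : 6 ∣ n) (hpos : 6 ≤ n) : (∀ H : Subgroup (Cfsg.PSU n F 2), H ≠ ⊤ → 2 ^ (n - 1) * (2 ^ n - 1) / 3 ≤ H.index) ∧ (∃ H : Subgroup (Cfsg.PSU n F 2), H.index = 2 ^ (n - 1) * (2 ^ n - 1) / 3) := by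
  open CL.Uni CL.MinU in
  obtain ⟨k, rfl⟩ : ∃ k, n = k + 4 + 2 := ⟨n - 6, by omega⟩
  have hF' : Fintype.card F = 2 ^ 2 := hF
  have hk : Even k := by obtain ⟨a, ha⟩ := hn; exact ⟨3 * a - 3, by omega⟩
  have he : Even (k + 4 + 2) := by obtain ⟨a, ha⟩ := hk; exact ⟨a + 3, by omega⟩
  have h := isHerm_stdB (isBar_bar hF') (Fin (k + 4 + 2))
  have hr : Module.finrank F (Fin (k + 4 + 2) → F) = k + 4 + 2 := Module.finrank_fin_fun F
  obtain ⟨v, -, hv⟩ := h.exists_perp_self_ne_zero (by omega) 0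
  have h1 := index_noniso h (by omega) hv
  rw [hr] at h1
  have h2 := h1
  rw [normCount, if_pos he] at h2
  rw [← h2, Nat.mul_div_cancel_left _ (by norm_num)]
  refine minDeg_psu hF' (le_index h hr (by omega) ?_ (Or.inr ⟨rfl, ?_⟩))
    ⟨_, center_le_stabilizer h (by omega) (by rintro rfl; simp at hv), rfl⟩
  · rw [isoCount, if_pos he, mul_comm (_ - 1) (_ + 1)]
    exact h2.trans_le (Nat.mul_le_mul_right _ (Nat.le_succ _))
  · rw [show 2 + 1 = 3 from rfl] at h1
    rw [h1]
    zify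
    rw [isoCount_int (show 1 ≤ 2 by omega) (k + 3), normCount_int (show 1 ≤ 2 by omega) (k + 5)]
    simp only [mul_add, two_mul, pow_add, Nat.cast_ofNat, hk.neg_one_pow]
    linarith

end Cfsg.Agent.S2153
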