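import Cfsg.Statements.S2154
import Cfsg.Agent.Chev.RealAll
import Cfsg.Agent.Chev.RealSt
import Cfsg.Agent.Chev.StBT

set_option autoImplicit false
open Cfsg

namespace Cfsg.Agent.S2154

/-- The Borel–Tits property of the finite Chevalley groups of types G₂, B₂, D₄, F₄, E₆, E₇, E₈ over a finite field of characteristic p: for every non-trivial p-subgroup U of the group G there are an element g of G and a proper set J of fundamental roots such that the normaliser of U in G lies in the conjugate by g of the standard parabolic subgroup P_J and U lies in the conjugate by g of its unipotent radical U_J. -/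
theorem result {F : Type*} [Field F] [Fintype F] (p : ℕ) [Fact p.Prime] [CharP F p] (D : Cfsg.Lie.ChevalleyDatum) (hD : D ∈ [Cfsg.Lie.chevG2, Cfsg.Lie.chevB2, Cfsg.Lie.chevD4, Cfsg.Lie.chevF4, Cfsg.Lie.chevE6, Cfsg.Lie.chevE7, Cfsg.Lie.chevE8]) (U : Subgroup (GL D.Idx F)) (hUG : U ≤ D.group F) (hU : IsPGroup p ↥U) (hne : U ≠ ⊥) : ∃ g ∈ D.group F, ∃ J : Set ℕ, (∃ i, i < D.rank ∧ i ∉ J) ∧ Subgroup.normalizer (U : Set (GL D.Idx F)) ⊓ D.group F ≤ (D.parabolicSubgroup F J).map (MulAut.conj g).toMonoidHom ∧ U ≤ (D.unipotentRadical F J).map (MulAut.conj g).toMonoidHom := by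
  obtain ⟨E⟩ := CL.Chev.exists_real hD
  rw [E.group_eq] at hUG ⊢
  obtain ⟨g, hg, J, h1, h2⟩ := (E.faithful F).borel_tits ((E.faithful F).exists_conj_le_U (E.hMul F) p hU hUG)
  have e : CL.Chev.Real.nodes D (Fin.val '' J) = J := Set.preimage_image_eq J Fin.val_injective
  refine ⟨g⁻¹, inv_mem hg, Fin.val '' J, by_contra fun h => hne (eq_bot_iff.2 fun x hx => ?_), ?_, ?_⟩
  · obtain rfl : J = Set.univ := Set.eq_univ_of_forall fun i => by_contra fun hi => h ⟨i, i.2, by simpa [Fin.val_inj]⟩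
    simpa [CL.Chev.StSys.UJ] using h1 x hx
  · rw [E.parabolicSubgroup_eq, e]
    exact fun m hm => ⟨_, h2 m hm.2 hm.1, by simp [mul_assoc]⟩
  · rw [E.unipotentRadical_eq, e]
    exact fun m hm => ⟨_, h1 m hm, by simp [mul_assoc]⟩

end Cfsg.Agent.S2154
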