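import Cfsg.Statements.S2155
import Cfsg.Agent.Chev.RealAll
import Cfsg.Agent.Chev.RealSt
import Cfsg.Agent.Chev.StBT
import Cfsg.Agent.Loc.FStar

set_option autoImplicit false
open Cfsg

namespace Cfsg.Agent.S2155

/-- In a Chevalley group of type G₂, B₂, D₄, F₄, E₆, E₇ or E₈ over a finite field of characteristic p (for types G₂ and B₂ the field is assumed to have at least 3 elements, so that the group is simple), the generalized Fitting subgroup of every proper standard parabolic subgroup P_J is a p-group (P_J is p-constrained with trivial largest normal subgroup of order prime to p). -/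
theorem result {F : Type*} [Field F] [Fintype F] (p : ℕ) [Fact p.Prime] [CharP F p] (D : Cfsg.Lie.ChevalleyDatum) (hD : D ∈ [Cfsg.Lie.chevG2, Cfsg.Lie.chevB2, Cfsg.Lie.chevD4, Cfsg.Lie.chevF4, Cfsg.Lie.chevE6, Cfsg.Lie.chevE7, Cfsg.Lie.chevE8]) (hq : (D = Cfsg.Lie.chevG2 ∨ D = Cfsg.Lie.chevB2) → 3 ≤ Fintype.card F) (J : Set ℕ) (hJ : ∃ i, i < D.rank ∧ i ∉ J) : IsPGroup p ↥(Cfsg.generalizedFittingSubgroup ↥(D.parabolicSubgroup F J)) := by
  obtain ⟨E⟩ := CL.Chev.exists_real hD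
  obtain ⟨i, hi, hJ⟩ := hJ
  rw [E.parabolicSubgroup_eq]
  set K := CL.Chev.Real.nodes D J
  have := (E.faithful F).finite_grp (E.hMul F)
  have := Finite.Set.subset _ ((E.S F).P_le_grp K)
  have := Subgroup.normal_subgroupOf_of_le_normalizer ((E.S F).P_le_normalizer_UJ K)
  have h : ((E.S F).UJ K).subgroupOf ((E.S F).P K) ≤ pCore p _ := CL.Grp.le_pCore
    ((((E.faithful F).uFaithful.isPGroup_U p).to_le ((E.S F).UJ_le_U K)).comap_subtype)
  refine CL.Loc.fstar_eq_pCore_iff_isPGroup.1 (CL.Loc.fstar_eq_pCore_iff.2 fun g hg => h ?_)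
  exact (E.faithful F).mem_UJ_of_commute (E.adjoint F) (E.hMul F) E.irred ⟨⟨i, hi⟩, hJ⟩ ((E.S F).P_le_grp K g.2)
    fun u hu => (congrArg Subtype.val (hg ⟨u, (E.S F).UJ_le_P K hu⟩ (h hu))).symm

end Cfsg.Agent.S2155
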