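import Cfsg.Statements.S2156
import Cfsg.Agent.Chev.RealAut

set_option autoImplicit false
open Cfsg

namespace Cfsg.Agent.S2156

/-- Over a finite field, every automorphism of the Chevalley group of type G₂, B₂, D₄, F₄, E₆, E₇ or E₈ is the composite of a field automorphism, a graph automorphism, a diagonal automorphism and an inner automorphism: `θ y = x · d(g(f y)) · x⁻¹` for some group element `x`, diagonal `d`, graph `g` and field `f` (each possibly the identity; diagonal here includes conjugation by elements of the diagonal subgroup H). -/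
theorem result {F : Type*} [Field F] [Finite F] (D : Cfsg.Lie.ChevalleyDatum) (hD : D ∈ [Cfsg.Lie.chevG2, Cfsg.Lie.chevB2, Cfsg.Lie.chevD4, Cfsg.Lie.chevF4, Cfsg.Lie.chevE6, Cfsg.Lie.chevE7, Cfsg.Lie.chevE8]) (θ : ↥(D.group F) ≃* ↥(D.group F)) :
    ∃ (x : ↥(D.group F)) (d g f : ↥(D.group F) ≃* ↥(D.group F)),
      D.IsDiagonalAut d ∧ D.IsGraphAut g ∧ D.IsFieldAut f ∧ ∀ y : ↥(D.group F), θ y = x * d (g (f y)) * x⁻¹ := by
  obtain ⟨E⟩ := CL.Chev.exists_real hD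
  have h := E.full F
  obtain ⟨x, hx⟩ := h.exists_conj_mul_mem_A0 θ
  obtain ⟨π, c, φ, ⟨e1, e2⟩, hb, hφ⟩ := h.exists_acts hx
  obtain ⟨σ, hσ⟩ := E.exists_sigma hD hb hφ
  refine ⟨x⁻¹, h.diagHom (c ∘ π.symm), (h.diagHom (c ∘ π.symm))⁻¹ * (MulAut.conj x * θ) * (h.fieldHom σ)⁻¹, h.fieldHom σ,
    (E.isDiagonalAut_iff _).2 ⟨_, rfl⟩, (E.isGraphAut_iff _).2 ⟨π, hb, fun i t => ?_, fun i t => ?_⟩,
    (E.isFieldAut_iff _).2 ⟨_, rfl⟩, fun y => by simp [mul_assoc]⟩
  · rw [← map_inv, ← map_inv, MulAut.mul_apply, MulAut.mul_apply, h.fieldHom_x, e1, h.diagHom_pos, hσ]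
    simp
  · rw [← map_inv, ← map_inv, MulAut.mul_apply, MulAut.mul_apply, h.fieldHom_x, e2, h.diagHom_neg, hσ]
    simp

end Cfsg.Agent.S2156
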