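import Cfsg.Statements.S2158
import Cfsg.Agent.Chev.RealAut

set_option autoImplicit false
open Cfsg

namespace Cfsg.Agent.S2158

/-- In a Chevalley group of type G₂, B₂, D₄, F₄, E₆, E₇ or E₈ over any field, an element of the group whose matrix is the diagonal matrix `ĥ(χ)` of a character `χ` of the root lattice already lies in the diagonal subgroup H (the non-trivial inclusion of the statement that the group meets the group of all such diagonal matrices in H). -/
theorem result {F : Type*} [Field F] (D : Cfsg.Lie.ChevalleyDatum) (hD : D ∈ [Cfsg.Lie.chevG2, Cfsg.Lie.chevB2, Cfsg.Lie.chevD4, Cfsg.Lie.chevF4, Cfsg.Lie.chevE6, Cfsg.Lie.chevE7, Cfsg.Lie.chevE8]) (χ : ℕ → Fˣ) (hχ : D.IsRootCharacter χ) (g : GL D.Idx F) (hg : g ∈ D.group F)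
    (hgχ : (g : Matrix D.Idx D.Idx F) = D.charDiag F χ) : g ∈ D.diagonalSubgroup F := by
  obtain ⟨E⟩ := CL.Chev.exists_real hD
  have h := E.full F
  have e : MulAut.conj (⟨g, hg⟩ : D.group F) = h.diagHom fun i => χ (E.R.simple i) :=
    MulEquiv.ext fun y => Subtype.ext (Units.ext (by
      rw [E.diagHom_val hχ, ← hgχ, eq_comm, mul_assoc]
      refine congrArg _ ?_ |>.trans (mul_assoc _ _ _).symm
      congr 1
      exact (Units.inv_eq_of_mul_eq_one_right (hgχ ▸ CL.Chev.Real.charDiag_mul_inv χ)).symm))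
  have := h.conj_mem_A0_iff.1 (e ▸ h.diagHom_mem_A0 _)
  rwa [E.Sg_H] at this

end Cfsg.Agent.S2158
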