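import Cfsg.Statements.S2159
import Cfsg.Agent.Chev.RealAut
import Cfsg.Agent.Known.GLLang

set_option autoImplicit false
open Cfsg

namespace Cfsg.Agent.S2159

/-- Structure of the outer automorphism group of the Chevalley group `G` of type G₂, B₂, D₄, F₄, E₆, E₇ or E₈ over a finite field. Let `D̄` be the image in `Out(G)` of the subgroup generated by the diagonal automorphisms and `F̄` the image of the subgroup generated by the field automorphisms. Then `D̄` is a normal abelian subgroup of `Out(G)`, `F̄` is cyclic, `D̄F̄` is a normal subgroup, and the quotient of `Out(G)` by `D̄F̄` is trivial, of order 2, or non-abelian of order 6 (so isomorphic to the symmetric group on three letters): its index is 1 or 2, or it is 6 with the commutator subgroup of `Out(G)` not inside `D̄F̄`. -/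
theorem result {F : Type*} [Field F] [Finite F] (D : Cfsg.Lie.ChevalleyDatum) (hD : D ∈ [Cfsg.Lie.chevG2, Cfsg.Lie.chevB2, Cfsg.Lie.chevD4, Cfsg.Lie.chevF4, Cfsg.Lie.chevE6, Cfsg.Lie.chevE7, Cfsg.Lie.chevE8])
    (Dbar Fbar : Subgroup (Cfsg.Out ↥(D.group F)))
    (hDbar : Dbar = (Subgroup.closure {φ : MulAut ↥(D.group F) | D.IsDiagonalAut φ}).map (QuotientGroup.mk' (Cfsg.Inn ↥(D.group F))))
    (hFbar : Fbar = (Subgroup.closure {φ : MulAut ↥(D.group F) | D.IsFieldAut φ}).map (QuotientGroup.mk' (Cfsg.Inn ↥(D.group F)))) :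
    Dbar.Normal ∧ IsMulCommutative ↥Dbar ∧ IsCyclic ↥Fbar ∧ (Dbar ⊔ Fbar).Normal ∧
      ((Dbar ⊔ Fbar).index = 1 ∨ (Dbar ⊔ Fbar).index = 2 ∨
        ((Dbar ⊔ Fbar).index = 6 ∧ ¬ commutator (Cfsg.Out ↥(D.group F)) ≤ Dbar ⊔ Fbar)) := by
  obtain ⟨E⟩ := CL.Chev.exists_real hD
  have h := E.full F
  have := E.nonempty_rank
  have e1 : {φ : MulAut (D.group F) | D.IsDiagonalAut φ} = h.diagHom.range := Set.ext E.isDiagonalAut_iff
  have e2 : {φ : MulAut (D.group F) | D.IsFieldAut φ} = h.fieldHom.range := Set.ext E.isFieldAut_iff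
  rw [e1, Subgroup.closure_eq] at hDbar
  rw [e2, Subgroup.closure_eq] at hFbar
  have e3 := h.map_ker_nodePerm E.irred
  rw [← hDbar, ← hFbar] at e3
  have := CL.GLn.isCyclic_ringAut (F := F)
  refine ⟨hDbar ▸ h.normal_map_diag, ?_, ?_, e3 ▸ h.normal_map_ker, ?_⟩
  · rw [hDbar, ← MonoidHom.range_comp]; infer_instance
  · rw [hFbar, ← MonoidHom.range_comp]; exact isCyclic_of_surjective _ (MonoidHom.rangeRestrict_surjective _)
  rw [← e3, h.index_map_ker]
  simp only [List.mem_cons, List.not_mem_nil, or_false] at hD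
  rcases hD with rfl | rfl | rfl | rfl | rfl | rfl | rfl
  · exact (CL.Chev.card_range_G2' F E).imp_right Or.inl
  · rw [CL.Chev.card_range_B2]; split_ifs <;> simp
  · refine Or.inr (Or.inr ⟨CL.Chev.card_range_D4 F E, fun e => ?_⟩)
    obtain ⟨a, ha, a1⟩ := CL.Chev.mem_range_D4 F E 0x2310 (by simp)
    obtain ⟨b, hb, b1⟩ := CL.Chev.mem_range_D4 F E 0x3012 (by simp)
    have := congrArg Fin.val (DFunLike.congr_fun (h.commute_of_commutator_le e ha hb).eq ⟨0, by decide⟩)
    rw [Equiv.Perm.mul_apply, Equiv.Perm.mul_apply, a1, b1, b1, a1] at this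
    exact absurd this (by decide +kernel)
  · rw [CL.Chev.card_range_F4]; split_ifs <;> simp
  · exact Or.inr (Or.inl (CL.Chev.card_range_E6 F E))
  · exact Or.inl (CL.Chev.card_range_E7 F E)
  · exact Or.inl (CL.Chev.card_range_E8 F E)

end Cfsg.Agent.S2159
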