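import Cfsg.Statements.S2161
import Cfsg.Agent.Chev.RealAut

set_option autoImplicit false
open Cfsg

namespace Cfsg.Agent.S2161

/-- For the Chevalley groups of types D₄ and E₆ (one root length) over any field: if `π` is a symmetry of the Dynkin diagram and `φ` is an automorphism sending `x_{p_i}(t)` to `x_{p_{π i}}(t)` and `x_{-p_i}(t)` to `x_{-p_{π i}}(t)` for every fundamental root `p_i`, then for every root `r` there is a sign `ε = ±1` with `φ(x_r(t)) = x_{π·r}(ε t)` for all `t`, where `π·r` is the root whose coefficients are those of `r` permuted by `π`. -/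
theorem result {F : Type*} [Field F] (D : Cfsg.Lie.ChevalleyDatum) (hD : D ∈ [Cfsg.Lie.chevD4, Cfsg.Lie.chevE6])
    (π : Equiv.Perm (Fin D.rank)) (hπ : D.IsDiagramSymmetry π) (φ : ↥(D.group F) ≃* ↥(D.group F))
    (hφ : ∀ (g : ↥(D.group F)) (i : Fin D.rank) (t : F),
      (((g : GL D.Idx F) : Matrix D.Idx D.Idx F) = D.x F (D.simple i) t →
        ((φ g : GL D.Idx F) : Matrix D.Idx D.Idx F) = D.x F (D.simple (π i)) t) ∧
      (((g : GL D.Idx F) : Matrix D.Idx D.Idx F) = D.x F (D.neg (D.simple i)) t →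
        ((φ g : GL D.Idx F) : Matrix D.Idx D.Idx F) = D.x F (D.neg (D.simple (π i))) t))
    (r : ℕ) (hr : r < D.nroots) :
    ∃ ε : F, (ε = 1 ∨ ε = -1) ∧ ∀ (g : ↥(D.group F)) (t : F),
      ((g : GL D.Idx F) : Matrix D.Idx D.Idx F) = D.x F r t →
        ((φ g : GL D.Idx F) : Matrix D.Idx D.Idx F) = D.x F (D.permRoot π r) (ε * t) := by
  have hD' : D ∈ [Cfsg.Lie.chevG2, Cfsg.Lie.chevB2, Cfsg.Lie.chevD4, Cfsg.Lie.chevF4, Cfsg.Lie.chevE6, Cfsg.Lie.chevE7,
      Cfsg.Lie.chevE8] := by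
    rcases List.mem_pair.1 hD with rfl | rfl <;> simp
  obtain ⟨E⟩ := CL.Chev.exists_real hD'
  have h := E.full F
  obtain ⟨e1, e2⟩ := (E.graph_iff φ π fun _ t => t).1 hφ
  let A : (E.Sg F).GAut := ⟨φ, π, fun _ => RingEquiv.refl F, e1, e2⟩
  have hb := (E.isDiagramSymmetry_iff π).1 hπ
  have hc : ∀ i j, E.R.cartan (π i) (π j) = E.R.cartan i j := by
    rcases List.mem_pair.1 hD with rfl | rfl
    · obtain ⟨t, ht, e⟩ := CL.Chev.tabD4.sym_cases E CL.Chev.Cert.symD4 hb
      simp only [CL.Chev.tabD4.cartan E, e]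
      clear e
      revert t ht
      decide +kernel
    · obtain ⟨t, ht, e⟩ := CL.Chev.tabE6.sym_cases E CL.Chev.Cert.symE6 hb
      simp only [CL.Chev.tabE6.cartan E, e]
      clear e
      revert t ht
      decide +kernel
  obtain ⟨ρ, hρ, h1⟩ := E.R.exists_diagPerm hc
  have hs := CL.Chev.RS.isSym_of_diag hρ fun r i => (h1 r i).1
  have hs' := A.isSym h.faithful
  have e : ∀ r, A.ρ h.faithful r = ρ r := E.R.root_induction (fun i => (hs'.simple i).trans (hs.simple i).symm)
    fun i r hr => by rw [hs'.sref, hs.sref, hr]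
  have e' : D.permRoot π r = ρ ⟨r, hr⟩ := by
    rw [Cfsg.Lie.ChevalleyDatum.permRoot]
    cases e : List.find? _ (List.range D.nroots) with
    | none =>
      refine absurd ?_ (List.find?_eq_none.1 e (ρ ⟨r, hr⟩) (List.mem_range.2 (ρ _).2))
      simp only [List.all_eq_true, beq_iff_eq]
      exact fun i _ => by rw [← E.coroot_eq, ← E.coroot_eq ⟨r, hr⟩, (h1 _ i).2]
    | some s =>
      have h3 := List.find?_some e
      have h4 := List.mem_range.1 (List.mem_of_find?_eq_some e)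
      simp only [List.all_eq_true, beq_iff_eq] at h3
      refine congrArg Fin.val (E.R.coroot_injective (a₁ := ⟨s, h4⟩) (funext fun j => ?_))
      obtain ⟨i, rfl⟩ := π.surjective j
      rw [(h1 _ i).2, E.coroot_eq, E.coroot_eq, h3 i (List.mem_finRange i)]
  obtain ⟨ε, i, hε, h2, -⟩ := A.exists_map_ρ h.faithful ⟨r, hr⟩
  refine ⟨ε, hε.imp (fun h => by simp [h]) fun h => by simp [h], fun g t => ?_⟩
  rw [e']
  exact (E.forall_x_iff φ ⟨r, hr⟩ _ t _).2 (e _ ▸ h2 t) g

end Cfsg.Agent.S2161
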