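import Cfsg.Statements.S2298
import Cfsg.Agent.Known.GL2Irr

set_option autoImplicit false
open Cfsg

namespace Cfsg.Agent.S2298

open CL.GL2

/-- Over a finite field F with q elements, every irreducible complex character of GL₂ has degree 1, q − 1, q or q + 1; and when q ≥ 3 (so that these four numbers are distinct) there are exactly q − 1 irreducible characters of degree 1, exactly q − 1 of degree q, exactly (q − 1)(q − 2)/2 of degree q + 1 and exactly q(q − 1)/2 of degree q − 1. -/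
theorem result {F : Type*} [Field F] [Fintype F] :
    (∀ χ : Matrix.GeneralLinearGroup (Fin 2) F → ℂ, Cfsg.IsIrrCharacter (Matrix.GeneralLinearGroup (Fin 2) F) χ →
      χ 1 = 1 ∨ χ 1 = (Fintype.card F : ℂ) - 1 ∨ χ 1 = (Fintype.card F : ℂ) ∨ χ 1 = (Fintype.card F : ℂ) + 1) ∧
    (3 ≤ Fintype.card F →
      Nat.card {χ : Cfsg.IrrCharacter (Matrix.GeneralLinearGroup (Fin 2) F) // (χ : Matrix.GeneralLinearGroup (Fin 2) F → ℂ) 1 = 1} = Fintype.card F - 1 ∧
      Nat.card {χ : Cfsg.IrrCharacter (Matrix.GeneralLinearGroup (Fin 2) F) // (χ : Matrix.GeneralLinearGroup (Fin 2) F → ℂ) 1 = (Fintype.card F : ℂ)} = Fintype.card F - 1 ∧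
      Nat.card {χ : Cfsg.IrrCharacter (Matrix.GeneralLinearGroup (Fin 2) F) // (χ : Matrix.GeneralLinearGroup (Fin 2) F → ℂ) 1 = (Fintype.card F : ℂ) + 1} = (Fintype.card F - 1) * (Fintype.card F - 2) / 2 ∧
      Nat.card {χ : Cfsg.IrrCharacter (Matrix.GeneralLinearGroup (Fin 2) F) // (χ : Matrix.GeneralLinearGroup (Fin 2) F → ℂ) 1 = (Fintype.card F : ℂ) - 1} = Fintype.card F * (Fintype.card F - 1) / 2) := by
  classical
  obtain ⟨𝔢⟩ := nonemptyEll (F := F)
  have hu : Nat.card (Fˣ →* ℂˣ) = Fintype.card F - 1 := by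
    rw [card_hom_units, Nat.card_eq_fintype_card, Fintype.card_units]
  refine ⟨fun χ hχ => ?_, fun hq => ?_⟩
  · rcases GL_irr_cases 𝔢 hχ with ⟨α, rfl⟩ | ⟨α, rfl⟩ | ⟨lam, -, rfl⟩ | ⟨θ, -, rfl⟩
    · exact Or.inl (Amb.lin_one _ _)
    · exact Or.inr (Or.inr (Or.inl (Amb.St_one _ _)))
    · exact Or.inr (Or.inr (Or.inr (Torus.chi_one _ _)))
    · exact Or.inr (Or.inl (by rw [Torus.chi_one, Ell.torGL_ε]; ring))
  have h3 : (3 : ℝ) ≤ Fintype.card F := by exact_mod_cast hq
  have re : ∀ {a b : ℂ}, a = b → a.re = b.re := fun h => congrArg _ h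
  refine ⟨?_, ?_, ?_, ?_⟩
  · rw [← hu]
    refine card_irr_of_param _ lin_GL_injective (ambGL F).isIrr_lin (fun χ => χ 1 = 1)
      fun χ hχ => ⟨fun h => ?_, ?_⟩
    · rcases GL_irr_cases 𝔢 hχ with ⟨α, rfl⟩ | ⟨α, rfl⟩ | ⟨lam, -, rfl⟩ | ⟨θ, -, rfl⟩
      · exact ⟨α, rfl⟩
      all_goals
        have := re h
        simp only [Amb.St_one, Torus.chi_one, splitGL_ε, Ell.torGL_ε, Complex.add_re,
          Complex.natCast_re, Complex.one_re, Complex.neg_re] at this
        linarith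
    · rintro ⟨α, rfl⟩
      exact Amb.lin_one _ _
  · rw [← hu]
    refine card_irr_of_param _ St_GL_injective isIrr_St_GL (fun χ => χ 1 = Fintype.card F)
      fun χ hχ => ⟨fun h => ?_, ?_⟩
    · rcases GL_irr_cases 𝔢 hχ with ⟨α, rfl⟩ | ⟨α, rfl⟩ | ⟨lam, -, rfl⟩ | ⟨θ, -, rfl⟩
      swap
      · exact ⟨α, rfl⟩
      all_goals
        have := re h
        simp only [Amb.lin_one, Torus.chi_one, splitGL_ε, Ell.torGL_ε, Complex.add_re,
          Complex.natCast_re, Complex.one_re, Complex.neg_re] at this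
        linarith
    · rintro ⟨α, rfl⟩
      exact Amb.St_one _ _
  · have h := (splitGL F).card_chi (fun lam => (isCharacter_splitGL_R lam).isGeneralizedCharacter)
      (fun χ => χ 1 = Fintype.card F + 1) fun χ hχ => ⟨fun h => ?_, ?_⟩
    · rw [card_fixed_splitGL, Nat.card_prod, Nat.card_eq_fintype_card (α := Fˣ),
        Fintype.card_units] at h
      generalize Nat.card {χ : IrrCharacter (GL2 F) //
        (χ : GL2 F → ℂ) 1 = Fintype.card F + 1} = c at h ⊢
      obtain ⟨n, hn⟩ : ∃ n, Fintype.card F = n + 2 := ⟨Fintype.card F - 2, by omega⟩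
      rw [hn] at h ⊢
      simp only [show n + 2 - 1 = n + 1 from rfl, Nat.add_sub_cancel] at h ⊢
      have : (n + 1) * (n + 1) = (n + 1) * n + (n + 1) := by ring
      omega
    · rcases GL_irr_cases 𝔢 hχ with ⟨α, rfl⟩ | ⟨α, rfl⟩ | ⟨lam, hl, rfl⟩ | ⟨θ, -, rfl⟩
      on_goal 3 => exact ⟨lam, hl, rfl⟩
      all_goals
        have := re h
        simp only [Amb.lin_one, Amb.St_one, Torus.chi_one, Ell.torGL_ε, Complex.add_re,
          Complex.natCast_re, Complex.one_re, Complex.neg_re] at this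
        linarith
    · rintro ⟨lam, -, rfl⟩
      exact Torus.chi_one _ _
  · have h := 𝔢.torGL.card_chi 𝔢.isGeneralizedCharacter_torGL_R
      (fun χ => χ 1 = Fintype.card F - 1) fun χ hχ => ⟨fun h => ?_, ?_⟩
    · rw [Ell.card_fixed_torGL, Ell.card_units_E] at h
      generalize Nat.card {χ : IrrCharacter (GL2 F) //
        (χ : GL2 F → ℂ) 1 = Fintype.card F - 1} = c at h ⊢
      obtain ⟨n, hn⟩ : ∃ n, Fintype.card F = n + 1 := ⟨Fintype.card F - 1, by omega⟩
      rw [hn] at h ⊢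
      simp only [Nat.add_sub_cancel] at h ⊢
      have : (n + 1) ^ 2 = (n + 1) * n + n + 1 := by ring
      omega
    · rcases GL_irr_cases 𝔢 hχ with ⟨α, rfl⟩ | ⟨α, rfl⟩ | ⟨lam, -, rfl⟩ | ⟨θ, hl, rfl⟩
      on_goal 4 => exact ⟨θ, hl, rfl⟩
      all_goals
        have := re h
        simp only [Amb.lin_one, Amb.St_one, Torus.chi_one, splitGL_ε, Complex.add_re,
          Complex.sub_re, Complex.natCast_re, Complex.one_re, Complex.neg_re] at this
        linarith
    · rintro ⟨lam, -, rfl⟩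
      rw [Torus.chi_one, Ell.torGL_ε]; ring

end Cfsg.Agent.S2298
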