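import Cfsg.Statements.S2299
import Cfsg.Agent.Known.SL2Irr

set_option autoImplicit false
open Cfsg

namespace Cfsg.Agent.S2299

open CL.GL2

/-- Over a finite field F with q elements, q odd, every irreducible complex character of SL₂ has degree 1, q, q + 1, q − 1, (q + 1)/2 or (q − 1)/2; and when q ≥ 5 (so that these six numbers are distinct) there are exactly one irreducible character of degree 1, one of degree q, (q − 3)/2 of degree q + 1, (q − 1)/2 of degree q − 1, two of degree (q + 1)/2 and two of degree (q − 1)/2. -/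
theorem result {F : Type*} [Field F] [Fintype F] (hodd : Odd (Fintype.card F)) :
    (∀ χ : Matrix.SpecialLinearGroup (Fin 2) F → ℂ, Cfsg.IsIrrCharacter (Matrix.SpecialLinearGroup (Fin 2) F) χ →
      χ 1 = 1 ∨ χ 1 = (Fintype.card F : ℂ) ∨ χ 1 = (Fintype.card F : ℂ) + 1 ∨ χ 1 = (Fintype.card F : ℂ) - 1 ∨
        χ 1 = (((Fintype.card F + 1) / 2 : ℕ) : ℂ) ∨ χ 1 = (((Fintype.card F - 1) / 2 : ℕ) : ℂ)) ∧
    (5 ≤ Fintype.card F →
      Nat.card {χ : Cfsg.IrrCharacter (Matrix.SpecialLinearGroup (Fin 2) F) // (χ : Matrix.SpecialLinearGroup (Fin 2) F → ℂ) 1 = 1} = 1 ∧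
      Nat.card {χ : Cfsg.IrrCharacter (Matrix.SpecialLinearGroup (Fin 2) F) // (χ : Matrix.SpecialLinearGroup (Fin 2) F → ℂ) 1 = (Fintype.card F : ℂ)} = 1 ∧
      Nat.card {χ : Cfsg.IrrCharacter (Matrix.SpecialLinearGroup (Fin 2) F) // (χ : Matrix.SpecialLinearGroup (Fin 2) F → ℂ) 1 = (Fintype.card F : ℂ) + 1} = (Fintype.card F - 3) / 2 ∧
      Nat.card {χ : Cfsg.IrrCharacter (Matrix.SpecialLinearGroup (Fin 2) F) // (χ : Matrix.SpecialLinearGroup (Fin 2) F → ℂ) 1 = (Fintype.card F : ℂ) - 1} = (Fintype.card F - 1) / 2 ∧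
      Nat.card {χ : Cfsg.IrrCharacter (Matrix.SpecialLinearGroup (Fin 2) F) // (χ : Matrix.SpecialLinearGroup (Fin 2) F → ℂ) 1 = (((Fintype.card F + 1) / 2 : ℕ) : ℂ)} = 2 ∧
      Nat.card {χ : Cfsg.IrrCharacter (Matrix.SpecialLinearGroup (Fin 2) F) // (χ : Matrix.SpecialLinearGroup (Fin 2) F → ℂ) 1 = (((Fintype.card F - 1) / 2 : ℕ) : ℂ)} = 2) := by
  classical
  obtain ⟨𝔢⟩ := nonemptyEll (F := F)
  refine ⟨fun χ hχ => ?_, fun hq => ?_⟩
  · obtain ⟨d, -, hd⟩ := hχ.exists_nat_one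
    rcases SL_irr_cases 𝔢 hχ hd with h | h | h | h | h | h
    · exact Or.inl (by rw [hd, h.1, Nat.cast_one])
    · exact Or.inr (Or.inl (by rw [hd, h.1]))
    · exact Or.inr (Or.inr (Or.inl (by rw [hd, h.1, Nat.cast_add, Nat.cast_one])))
    · exact Or.inr (Or.inr (Or.inr (Or.inl (by rw [hd, ← h.1]; push_cast; ring))))
    · exact Or.inr (Or.inr (Or.inr (Or.inr (Or.inl (by rw [hd]; congr 1; omega)))))
    · exact Or.inr (Or.inr (Or.inr (Or.inr (Or.inr (by rw [hd]; congr 1; omega)))))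
  have hq4 : 4 ≤ Fintype.card F := by omega
  refine ⟨?_, ?_, ?_, ?_, ?_, ?_⟩
  · exact card_irr_eq_one CL.Char.isIrrCharacter_one (fun χ => χ 1 = 1) fun χ hχ =>
      ⟨SL_irr_of_deg_one hχ hq4, fun h => by rw [h]⟩
  · exact card_irr_eq_one isIrr_StSL (fun χ => χ 1 = Fintype.card F) fun χ hχ =>
      ⟨SL_irr_of_deg_card hχ, fun h => by rw [h, StSL_one]⟩
  · have := card_chi_splitSL (F := F)
    rw [if_pos hodd] at this
    exact (fun c (h : 2 * c + 2 = Fintype.card F - 1) => by omega : ∀ c, _ → c = _) _ this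
  · have := card_chi_torSL hq4
    rw [if_pos hodd] at this
    exact (fun c (h : 2 * c + 2 = Fintype.card F + 1) => by omega : ∀ c, _ → c = _) _ this
  · obtain ⟨lam, h2, h1⟩ := (splitSL F).exists_quad hodd
    obtain ⟨χ₁, χ₂, h⟩ := exists_halves_splitSL h2 h1
    refine h.card_eq_two (fun χ => χ 1 = ((Fintype.card F + 1) / 2 : ℕ)) fun χ hχ => ⟨fun hd => ?_, ?_⟩
    · obtain ⟨mu, χ', h3, h4, h5⟩ := SL_irr_of_deg_half_add hχ hodd hq4 hd
      obtain rfl := ((splitSL F).quad_unique h2 h1 h3 h4).2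
      exact h.eq_or_eq h5
    · rintro (rfl | rfl)
      · exact h.deg_split hodd
      · exact h.symm.deg_split hodd
  · obtain ⟨lam, h2, h1⟩ := 𝔢.torSL.exists_quad hodd
    obtain ⟨χ₁, χ₂, h⟩ := 𝔢.exists_halves_torSL h2 h1
    refine h.card_eq_two (fun χ => χ 1 = ((Fintype.card F - 1) / 2 : ℕ)) fun χ hχ => ⟨fun hd => ?_, ?_⟩
    · obtain ⟨mu, χ', h3, h4, h5⟩ := SL_irr_of_deg_half_sub 𝔢 hχ hodd hq4 hd
      obtain rfl := (𝔢.torSL.quad_unique h2 h1 h3 h4).2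
      exact h.eq_or_eq h5
    · rintro (rfl | rfl)
      · exact h.deg_ell hodd
      · exact h.symm.deg_ell hodd

end Cfsg.Agent.S2299
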