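import Cfsg.Statements.S2300
import Cfsg.Agent.Known.SL2Irr

set_option autoImplicit false
open Cfsg

namespace Cfsg.Agent.S2300

open CL.GL2

/-- Over a finite field F with q elements, q even, every irreducible complex character of SL₂ has degree 1, q − 1, q or q + 1; and when q ≥ 4 (so that these four numbers are distinct) there are exactly one irreducible character of degree 1, one of degree q, (q − 2)/2 of degree q + 1 and q/2 of degree q − 1. -/
theorem result {F : Type*} [Field F] [Fintype F] [CharP F 2] :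
    (∀ χ : Matrix.SpecialLinearGroup (Fin 2) F → ℂ, Cfsg.IsIrrCharacter (Matrix.SpecialLinearGroup (Fin 2) F) χ →
      χ 1 = 1 ∨ χ 1 = (Fintype.card F : ℂ) - 1 ∨ χ 1 = (Fintype.card F : ℂ) ∨ χ 1 = (Fintype.card F : ℂ) + 1) ∧
    (4 ≤ Fintype.card F →
      Nat.card {χ : Cfsg.IrrCharacter (Matrix.SpecialLinearGroup (Fin 2) F) // (χ : Matrix.SpecialLinearGroup (Fin 2) F → ℂ) 1 = 1} = 1 ∧
      Nat.card {χ : Cfsg.IrrCharacter (Matrix.SpecialLinearGroup (Fin 2) F) // (χ : Matrix.SpecialLinearGroup (Fin 2) F → ℂ) 1 = (Fintype.card F : ℂ)} = 1 ∧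
      Nat.card {χ : Cfsg.IrrCharacter (Matrix.SpecialLinearGroup (Fin 2) F) // (χ : Matrix.SpecialLinearGroup (Fin 2) F → ℂ) 1 = (Fintype.card F : ℂ) + 1} = (Fintype.card F - 2) / 2 ∧
      Nat.card {χ : Cfsg.IrrCharacter (Matrix.SpecialLinearGroup (Fin 2) F) // (χ : Matrix.SpecialLinearGroup (Fin 2) F → ℂ) 1 = (Fintype.card F : ℂ) - 1} = Fintype.card F / 2) := by
  classical
  obtain ⟨𝔢⟩ := nonemptyEll (F := F)
  have hev : ¬ Odd (Fintype.card F) := fun h => two_ne_zero_of_odd h CharTwo.two_eq_zero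
  have hev' : Fintype.card F % 2 = 0 := Nat.even_iff.1 (Nat.not_odd_iff_even.1 hev)
  refine ⟨fun χ hχ => ?_, fun hq => ?_⟩
  · obtain ⟨d, -, hd⟩ := hχ.exists_nat_one
    rcases SL_irr_cases 𝔢 hχ hd with h | h | h | h | h | h
    · exact Or.inl (by rw [hd, h.1, Nat.cast_one])
    · exact Or.inr (Or.inr (Or.inl (by rw [hd, h.1])))
    · exact Or.inr (Or.inr (Or.inr (by rw [hd, h.1, Nat.cast_add, Nat.cast_one])))
    · exact Or.inr (Or.inl (by rw [hd, ← h.1]; push_cast; ring))
    · omega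
    · omega
  refine ⟨?_, ?_, ?_, ?_⟩
  · exact card_irr_eq_one CL.Char.isIrrCharacter_one (fun χ => χ 1 = 1) fun χ hχ =>
      ⟨SL_irr_of_deg_one hχ hq, fun h => by rw [h]⟩
  · exact card_irr_eq_one isIrr_StSL (fun χ => χ 1 = Fintype.card F) fun χ hχ =>
      ⟨SL_irr_of_deg_card hχ, fun h => by rw [h, StSL_one]⟩
  · have := card_chi_splitSL (F := F)
    rw [if_neg hev] at this
    exact (fun c (h : 2 * c + 1 = Fintype.card F - 1) => by omega : ∀ c, _ → c = _) _ this
  · have := card_chi_torSL hq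
    rw [if_neg hev] at this
    exact (fun c (h : 2 * c + 1 = Fintype.card F + 1) => by omega : ∀ c, _ → c = _) _ this

end Cfsg.Agent.S2300
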