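import Cfsg.Statements.S2301
import Cfsg.Agent.Known.GL2Classes

set_option autoImplicit false
open Cfsg

namespace Cfsg.Agent.S2301

/-- Over a finite field with q elements of odd characteristic p, the elements of order p of SL₂ (the non-identity unipotent elements) fall into exactly two conjugacy classes, each of size (q² − 1)/2; two upper unitriangular matrices with non-zero off-diagonal entries b and b′ are conjugate exactly when bb′ is a square. -/
theorem result {F : Type*} [Field F] [Fintype F] (p : ℕ) [Fact p.Prime] [CharP F p] (hp : p ≠ 2) :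
    Nat.card {C : ConjClasses (Matrix.SpecialLinearGroup (Fin 2) F) // ∃ g : Matrix.SpecialLinearGroup (Fin 2) F, orderOf g = p ∧ ConjClasses.mk g = C} = 2 ∧
    (∀ g : Matrix.SpecialLinearGroup (Fin 2) F, orderOf g = p → Nat.card (ConjClasses.mk g).carrier = (Fintype.card F ^ 2 - 1) / 2) ∧
    ∀ g h : Matrix.SpecialLinearGroup (Fin 2) F, (g : Matrix (Fin 2) (Fin 2) F) 0 0 = 1 → (g : Matrix (Fin 2) (Fin 2) F) 1 1 = 1 → (g : Matrix (Fin 2) (Fin 2) F) 1 0 = 0 → (g : Matrix (Fin 2) (Fin 2) F) 0 1 ≠ 0 →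
      (h : Matrix (Fin 2) (Fin 2) F) 0 0 = 1 → (h : Matrix (Fin 2) (Fin 2) F) 1 1 = 1 → (h : Matrix (Fin 2) (Fin 2) F) 1 0 = 0 → (h : Matrix (Fin 2) (Fin 2) F) 0 1 ≠ 0 →
      (IsConj g h ↔ IsSquare ((g : Matrix (Fin 2) (Fin 2) F) 0 1 * (h : Matrix (Fin 2) (Fin 2) F) 0 1)) := by
  classical
  have hodd : Odd (Fintype.card F) := CL.GL2.odd_of_charP hp
  have h2 := CL.GL2.two_ne_zero_of_odd hodd
  refine ⟨?_, ?_, ?_⟩
  · obtain ⟨ν, hν⟩ := FiniteField.exists_nonsquare (CL.GL2.ringChar_ne_two_of_odd hodd)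
    have hν0 : ν ≠ 0 := by rintro rfl; exact hν IsSquare.zero
    let c : Bool → F := fun b => if b then 1 else ν
    have hc0 : ∀ b, c b ≠ 0 := by rintro (_ | _) <;> simp [c, hν0]
    rw [CL.GL2.card_conjClasses_subtype_of_reps (fun g => orderOf g = p)
      (fun b : Bool => CL.GL2.upSL (1 : F) (c b) (one_mul 1))]
    · simp
    · intro b
      rw [CL.GL2.orderOf_SL_eq_char_iff]
      simp [CL.GL2.IsScal, hc0, Matrix.trace_fin_two, one_add_one_eq_two]
    · intro g hg
      rw [CL.GL2.orderOf_SL_eq_char_iff] at hg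
      obtain ⟨b, hb, hb'⟩ := CL.GL2.exists_isConj_upSL hg.1 (one_mul (1 : F))
        (by rw [hg.2, one_add_one_eq_two])
      by_cases hs : IsSquare b
      · refine ⟨true, IsConj.trans ?_ hb'⟩
        exact (CL.GL2.isConj_upSL_iff _ (hc0 _) hb).2 (by simpa [c] using hs)
      · refine ⟨false, IsConj.trans ?_ hb'⟩
        exact (CL.GL2.isConj_upSL_iff _ (hc0 _) hb).2
          (by simpa [c] using CL.GL2.isSquare_mul_of_not_isSquare hν hs)
    · intro b b' h
      have hs := (CL.GL2.isConj_upSL_iff _ (hc0 _) (hc0 _)).1 h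
      rcases b with _ | _ <;> rcases b' with _ | _ <;> simp [c, hν] at hs ⊢
  · intro g hg
    rw [CL.GL2.orderOf_SL_eq_char_iff] at hg
    rw [CL.Fgs.card_carrier_mk]
    have h1 := CL.Fgs.card_cent_mul_cs g
    rw [CL.GL2.card_cent_SL_unip_odd hg.1 h2 (by rw [hg.2]; norm_num), CL.GL2.card_SL2,
      mul_comm 2, mul_assoc] at h1
    have := Nat.eq_of_mul_eq_mul_left Fintype.card_pos h1
    omega
  · intro g h g00 g11 g10 g01 h00 h11 h10 h01
    exact CL.GL2.isConj_upper_iff g00 g11 g10 h00 h11 h10 g01 h01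

end Cfsg.Agent.S2301
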