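import Cfsg.Statements.S2305
import Cfsg.Agent.Known.GL2Irr

set_option autoImplicit false
open Cfsg

namespace Cfsg.Agent.S2305

/-- Over a finite field F, for multiplicative characters α, β, α′, β′ of F, the characters of GL₂ induced from the linear characters b ↦ α(b₁₁) β(b₂₂) and b ↦ α′(b₁₁) β′(b₂₂) of the upper triangular subgroup coincide exactly when {α, β} = {α′, β′} as unordered pairs. -/
theorem result {F : Type*} [Field F] [Fintype F] [DecidableEq F] (α β α' β' : MulChar F ℂ) :
    Cfsg.indFun (Cfsg.upperTriangularGL 2 F) (fun b => α (((b : Matrix.GeneralLinearGroup (Fin 2) F) : Matrix (Fin 2) (Fin 2) F) 0 0) * β (((b : Matrix.GeneralLinearGroup (Fin 2) F) : Matrix (Fin 2) (Fin 2) F) 1 1)) = Cfsg.indFun (Cfsg.upperTriangularGL 2 F) (fun b => α' (((b : Matrix.GeneralLinearGroup (Fin 2) F) : Matrix (Fin 2) (Fin 2) F) 0 0) * β' (((b : Matrix.GeneralLinearGroup (Fin 2) F) : Matrix (Fin 2) (Fin 2) F) 1 1)) ↔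
      (α = α' ∧ β = β') ∨ (α = β' ∧ β = α') := by
  open CL.GL2 in
  rw [indFun_upperTriangularGL (fun a b => α a * β b),
    indFun_upperTriangularGL (fun a b => α' a * β' b)]
  open CL.GL2 in
  have h := (splitGL F).R_eq_R_iff (α.toUnitHom.coprod β.toUnitHom)
    (α'.toUnitHom.coprod β'.toUnitHom)
  simp only [MonoidHom.coprod_apply, Units.val_mul, MulChar.coe_toUnitHom] at h
  rw [h]
  refine or_congr ⟨fun h => ⟨?_, ?_⟩, ?_⟩ ⟨fun h => ⟨?_, ?_⟩, ?_⟩
  · ext a
    simpa using (congrArg Units.val (DFunLike.congr_fun h (a, 1))).symm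
  · ext a
    simpa using (congrArg Units.val (DFunLike.congr_fun h (1, a))).symm
  · rintro ⟨rfl, rfl⟩; rfl
  · ext a
    simpa using (congrArg Units.val (DFunLike.congr_fun h (1, a))).symm
  · ext a
    simpa using (congrArg Units.val (DFunLike.congr_fun h (a, 1))).symm
  · rintro ⟨rfl, rfl⟩
    refine MonoidHom.ext fun p => ?_
    simp [mul_comm]

end Cfsg.Agent.S2305
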