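import Cfsg.Statements.S2306
import Cfsg.Agent.Known.SL2Irr

set_option autoImplicit false
open Cfsg

namespace Cfsg.Agent.S2306

open CL.GL2

/-- Over a finite field F, for a multiplicative character α of F, the function induced to SL₂ from the linear character b ↦ α(b₁₁) of the upper triangular subgroup is an irreducible character if and only if α² ≠ 1. -/
theorem result {F : Type*} [Field F] [Fintype F] [DecidableEq F] (α : MulChar F ℂ) :
    Cfsg.IsIrrCharacter (Matrix.SpecialLinearGroup (Fin 2) F) (Cfsg.indFun ((Cfsg.upperTriangularGL 2 F).comap Matrix.SpecialLinearGroup.toGL) (fun b => α (((b : Matrix.SpecialLinearGroup (Fin 2) F) : Matrix (Fin 2) (Fin 2) F) 0 0))) ↔ α ^ 2 ≠ 1 := by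
  rw [indFun_comap_upperTriangularGL (fun a => α a)]
  have e : ((splitSL F).R fun a => α a) = (splitSL F).chi α.toUnitHom := by
    rw [splitSL_chi]; simp
  have e2 : α ^ 2 = 1 ↔ α.toUnitHom ^ 2 = 1 := by
    rw [hom_sq_eq_one_iff, MulChar.ext_iff]
    refine forall_congr' fun a => ?_
    rw [MulChar.pow_apply_coe, MulChar.one_apply_coe, Units.ext_iff]
    simp
  rw [e, ne_eq, e2]
  refine ⟨fun h h2 => ?_, isIrr_chi_splitSL⟩
  have := (splitSL F).classInner_chi_quad h2
  rw [h.classInner_self] at this
  norm_num at this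

end Cfsg.Agent.S2306
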