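import Cfsg.Statements.S2307
import Cfsg.Agent.Known.SL2Irr

set_option autoImplicit false
open Cfsg

namespace Cfsg.Agent.S2307

open CL.GL2

/-- Over a finite field F with q elements, q odd, let α be the multiplicative character of F of order 2. The character of SL₂ induced from the linear character b ↦ α(b₁₁) of the upper triangular subgroup is the sum of two distinct irreducible characters, each of degree (q + 1)/2, which are conjugate under GL₂: some fixed element of GL₂ conjugates the one into the other. -/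
theorem result {F : Type*} [Field F] [Fintype F] [DecidableEq F] (hodd : Odd (Fintype.card F)) (α : MulChar F ℂ)
    (hα : α ^ 2 = 1) (hα1 : α ≠ 1) :
    ∃ χ₁ χ₂ : Matrix.SpecialLinearGroup (Fin 2) F → ℂ, Cfsg.IsIrrCharacter (Matrix.SpecialLinearGroup (Fin 2) F) χ₁ ∧ Cfsg.IsIrrCharacter (Matrix.SpecialLinearGroup (Fin 2) F) χ₂ ∧ χ₁ ≠ χ₂ ∧
      Cfsg.indFun ((Cfsg.upperTriangularGL 2 F).comap Matrix.SpecialLinearGroup.toGL) (fun b => α (((b : Matrix.SpecialLinearGroup (Fin 2) F) : Matrix (Fin 2) (Fin 2) F) 0 0)) = χ₁ + χ₂ ∧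
      χ₁ 1 = (((Fintype.card F + 1) / 2 : ℕ) : ℂ) ∧ χ₂ 1 = (((Fintype.card F + 1) / 2 : ℕ) : ℂ) ∧
      ∃ x : Matrix.GeneralLinearGroup (Fin 2) F, ∀ g h : Matrix.SpecialLinearGroup (Fin 2) F,
        Matrix.SpecialLinearGroup.toGL h = x * Matrix.SpecialLinearGroup.toGL g * x⁻¹ → χ₂ h = χ₁ g := by
  rw [indFun_comap_upperTriangularGL (fun a => α a)]
  have e : ((splitSL F).R fun a => α a) = (splitSL F).chi α.toUnitHom := by
    rw [splitSL_chi]; simp
  have e2 : α.toUnitHom ^ 2 = 1 := by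
    rw [hom_sq_eq_one_iff]
    intro a
    have := DFunLike.congr_fun hα (a : F)
    rw [MulChar.pow_apply_coe, MulChar.one_apply_coe] at this
    exact Units.ext (by simpa using this)
  have e1 : α.toUnitHom ≠ 1 := fun h => hα1 (MulChar.ext fun a => by
    rw [← MulChar.coe_toUnitHom, h, MulChar.one_apply_coe]; rfl)
  obtain ⟨χ₁, χ₂, h⟩ := exists_halves_splitSL e2 e1
  obtain ⟨x, hx⟩ := exists_det_not_isSquare hodd
  refine ⟨χ₁, χ₂, h.irr₁, h.irr₂, h.ne, e.trans h.sum, h.deg_split hodd, h.symm.deg_split hodd, x,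
    fun g g' hg => ?_⟩
  rw [eq_conjSL_iff.1 hg, h.swap x hx]

end Cfsg.Agent.S2307
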