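import Cfsg.Statements.S2309
import Cfsg.Agent.Known.GL2Irr

set_option autoImplicit false
open Cfsg

namespace Cfsg.Agent.S2309

/-- Over a finite field F with q elements: every irreducible complex character of GL₂ of degree q − 1 vanishes at every diagonal matrix with two distinct entries, and every irreducible complex character of degree q + 1 vanishes at every element with no eigenvector in F². -/
theorem result {F : Type*} [Field F] [Fintype F] (χ : Matrix.GeneralLinearGroup (Fin 2) F → ℂ) (hχ : Cfsg.IsIrrCharacter (Matrix.GeneralLinearGroup (Fin 2) F) χ) (g : Matrix.GeneralLinearGroup (Fin 2) F) :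
    (χ 1 = (Fintype.card F : ℂ) - 1 → (g : Matrix (Fin 2) (Fin 2) F) 0 1 = 0 → (g : Matrix (Fin 2) (Fin 2) F) 1 0 = 0 → (g : Matrix (Fin 2) (Fin 2) F) 0 0 ≠ (g : Matrix (Fin 2) (Fin 2) F) 1 1 → χ g = 0) ∧
    (χ 1 = (Fintype.card F : ℂ) + 1 → (∀ (c : F) (v : Fin 2 → F), v ≠ 0 → (g : Matrix (Fin 2) (Fin 2) F).mulVec v ≠ c • v) → χ g = 0) := by
  classical
  obtain ⟨𝔢⟩ := CL.GL2.nonemptyEll (F := F)
  open CL.GL2 in
  rcases GL_irr_cases 𝔢 hχ with ⟨α, rfl⟩ | ⟨α, rfl⟩ | ⟨lam, -, rfl⟩ | ⟨θ, -, rfl⟩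
  · rw [CL.GL2.Amb.lin_one]
    refine ⟨fun h h1 h2 h3 => ?_, fun h => ?_⟩
    · exfalso
      have hq : Fintype.card F = 2 := by
        have : (Fintype.card F : ℂ) = 2 := by linear_combination -h
        exact_mod_cast this
      have hd := CL.GL2.det_GL_ne_zero g
      rw [Matrix.det_fin_two, h1, zero_mul, sub_zero] at hd
      have : ({0, (g : CL.GL2.M2 F) 0 0, (g : CL.GL2.M2 F) 1 1} : Finset F).card = 3 := by
        rw [Finset.card_eq_three]
        exact ⟨_, _, _, (left_ne_zero_of_mul hd).symm, (right_ne_zero_of_mul hd).symm, h3, rfl⟩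
      have h4 := Finset.card_le_univ ({0, (g : CL.GL2.M2 F) 0 0, (g : CL.GL2.M2 F) 1 1} : Finset F)
      omega
    · have : (Fintype.card F : ℂ) = 0 := by linear_combination -h
      exact absurd (by exact_mod_cast this) Fintype.card_ne_zero
  · rw [CL.GL2.Amb.St_one]
    exact ⟨fun h => absurd (show (1 : ℂ) = 0 by linear_combination h) one_ne_zero,
      fun h => absurd (show (1 : ℂ) = 0 by linear_combination -h) one_ne_zero⟩
  · rw [CL.GL2.Torus.chi_one, CL.GL2.splitGL_ε]
    refine ⟨fun h => absurd (show (2 : ℂ) = 0 by linear_combination h) two_ne_zero, fun _ h => ?_⟩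
    apply CL.GL2.Torus.chi_of_nroots
    rw [CL.GL2.ambGL_toM, CL.GL2.IsEll.nroots h]; simp
  · rw [CL.GL2.Torus.chi_one, CL.GL2.Ell.torGL_ε]
    refine ⟨fun _ _ h1 h2 => ?_,
      fun h => absurd (show (2 : ℂ) = 0 by linear_combination -h) two_ne_zero⟩
    apply CL.GL2.Torus.chi_of_nroots
    rw [CL.GL2.ambGL_toM, CL.GL2.nroots_upper_ne h1 h2]; norm_num

end Cfsg.Agent.S2309
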