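import Cfsg.Statements.S2310
import Cfsg.Agent.Known.GL2Irr

set_option autoImplicit false
open Cfsg

namespace Cfsg.Agent.S2310

/-- Over a finite field F with q ≥ 3 elements, let u be the upper unitriangular matrix of GL₂ with off-diagonal entry 1. An irreducible complex character χ of GL₂ takes at u the value 1 if χ has degree 1 or q + 1, the value −1 if χ has degree q − 1, and the value 0 if χ has degree q. -/
theorem result {F : Type*} [Field F] [Fintype F] (hq : 3 ≤ Fintype.card F) (χ : Matrix.GeneralLinearGroup (Fin 2) F → ℂ) (hχ : Cfsg.IsIrrCharacter (Matrix.GeneralLinearGroup (Fin 2) F) χ)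
    (u : Matrix.GeneralLinearGroup (Fin 2) F) (hu : (u : Matrix (Fin 2) (Fin 2) F) = !![1, 1; 0, 1]) :
    (χ 1 = 1 → χ u = 1) ∧ (χ 1 = (Fintype.card F : ℂ) + 1 → χ u = 1) ∧
    (χ 1 = (Fintype.card F : ℂ) - 1 → χ u = -1) ∧ (χ 1 = (Fintype.card F : ℂ) → χ u = 0) := by
  classical
  obtain ⟨𝔢⟩ := CL.GL2.nonemptyEll (F := F)
  have hs : ¬ CL.GL2.IsScal (u : CL.GL2.M2 F) := fun h => by
    have := h.1
    rw [hu] at this
    simp at this
  have ht : (u : CL.GL2.M2 F).trace = 2 := by rw [hu]; simp; norm_num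
  have hd : (u : CL.GL2.M2 F).det = 1 := by rw [hu]; simp
  have hdU : (CL.GL2.ambGL F).detU u = 1 := Units.ext hd
  have h3 : (3 : ℝ) ≤ Fintype.card F := by exact_mod_cast hq
  have re : ∀ {a b : ℂ}, a = b → a.re = b.re := fun h => congrArg _ h
  open CL.GL2 in
  rcases GL_irr_cases 𝔢 hχ with ⟨α, rfl⟩ | ⟨α, rfl⟩ | ⟨lam, -, rfl⟩ | ⟨θ, -, rfl⟩
  · rw [CL.GL2.Amb.lin_one, CL.GL2.Amb.lin_apply, hdU, map_one]
    refine ⟨fun _ => rfl, fun _ => rfl, fun h => ?_, fun h => ?_⟩ <;>
    · have := re h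
      simp only [Complex.sub_re, Complex.natCast_re, Complex.one_re] at this
      linarith
  · rw [CL.GL2.Amb.St_one, CL.GL2.Amb.St_apply, CL.GL2.ambGL_toM,
      CL.GL2.st0_of_nroots_one hs (CL.GL2.nroots_upper (by simp [hu]) (by simp [hu])), mul_zero]
    refine ⟨fun h => ?_, fun h => ?_, fun h => ?_, fun _ => rfl⟩ <;>
    · have := re h
      simp only [Complex.sub_re, Complex.add_re, Complex.natCast_re, Complex.one_re] at this
      linarith
  · rw [CL.GL2.Torus.chi_one, CL.GL2.Torus.chi_unip _ _ hs ht hd, CL.GL2.splitGL_ε]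
    refine ⟨fun _ => rfl, fun _ => rfl, fun h => ?_, fun h => ?_⟩ <;>
    · have := re h
      simp only [Complex.sub_re, Complex.add_re, Complex.natCast_re, Complex.one_re] at this
      linarith
  · rw [CL.GL2.Torus.chi_one, CL.GL2.Torus.chi_unip _ _ hs ht hd, CL.GL2.Ell.torGL_ε]
    refine ⟨fun h => ?_, fun h => ?_, fun _ => rfl, fun h => ?_⟩ <;>
    · have := re h
      simp only [Complex.sub_re, Complex.add_re, Complex.natCast_re, Complex.one_re,
        Complex.neg_re] at this
      linarith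

end Cfsg.Agent.S2310
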