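import Cfsg.Statements.S2317
import Cfsg.Agent.Known.GLUnip1

set_option autoImplicit false
open Cfsg

namespace Cfsg.Agent.S2317


/-- Over a finite field of characteristic p, the conjugacy classes of GL_n consisting of elements of p-power order (the unipotent classes) are as many as the partitions of n. -/
theorem result {F : Type*} [Field F] [Fintype F] (p : ℕ) [Fact p.Prime] [CharP F p] (n : ℕ) :
    Nat.card {C : ConjClasses (Matrix.GeneralLinearGroup (Fin n) F) //
      ∃ g : Matrix.GeneralLinearGroup (Fin n) F, (∃ k : ℕ, orderOf g = p ^ k) ∧ ConjClasses.mk g = C} =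
      Fintype.card (Nat.Partition n) := by
  have h := CL.GLn.card_conjClasses_unipotent (F := F) (n := Fin n)
    (fun g => ∃ k : ℕ, orderOf g = p ^ k) (fun _ => True)
    (fun g hg => (CL.GLn.GL_orderOf_eq_pow_iff p g).1 hg)
    (fun g μ hμ => ⟨fun _ => trivial, fun _ => (CL.GLn.GL_orderOf_eq_pow_iff p g).2
      ((CL.GLn.isNilpotent_sub_one_iff _).2 ⟨μ, hμ⟩)⟩)
  simp only [and_comm (a := ∃ k : ℕ, _)]
  rw [h, Nat.card_congr (Equiv.subtypeUnivEquiv fun _ => trivial), Fintype.card_fin,
    Nat.card_eq_fintype_card]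

end Cfsg.Agent.S2317
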