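import Cfsg.Statements.S2319
import Cfsg.Agent.Chev.HkCentre
import Cfsg.Agent.Chev.RealAll
import Cfsg.Agent.Chev.WeylReal
import Cfsg.Agent.Chev.StSharp

set_option autoImplicit false
open Cfsg

namespace Cfsg.Agent.S2319

open CL.Chev

theorem card_conjClasses_congr {A B : Type*} [Group A] [Group B] (e : A ≃* B) :
    Nat.card (ConjClasses A) = Nat.card (ConjClasses B) :=
  Nat.card_congr (Quotient.congr e.toEquiv fun a b => ⟨fun h => e.toMonoidHom.map_isConj h,
    fun h => show IsConj a b by simpa using e.symm.toMonoidHom.map_isConj h⟩)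

theorem key {F : Type*} [Field F] [Fintype F] {D : Cfsg.Lie.ChevalleyDatum} (E : Real D)
    {M : CoxeterMatrix (Fin D.rank)} (hM : CL.Cox.IsCartan M (datCartan D)) :
    Nat.card {χ : Cfsg.IrrCharacter ↥(D.group F) //
      ∃ φ : ↥(D.group F) → ℂ, Cfsg.IsCharacter ↥(D.group F) φ ∧
        Cfsg.fixedPointCharacter ((D.borelSubgroup F).subgroupOf (D.group F)) = (χ : ↥(D.group F) → ℂ) + φ} =
      Nat.card (ConjClasses M.Group) := by
  rw [E.group_eq, E.borelSubgroup_eq]
  exact (HD.card_constituents (E.faithful F).bn).trans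
    (card_conjClasses_congr ((E.faithful F).weylEquiv.trans (E.cs hM).mulEquiv))

/-- In a Chevalley group of type G₂, B₂, D₄, F₄, E₆, E₇ or E₈ over a finite field, the number of distinct irreducible constituents of the permutation character on the cosets of B = UH equals the number of conjugacy classes (equivalently, of irreducible characters) of the Weyl group, the Coxeter group of the type with nodes numbered as the fundamental roots. -/
theorem result {F : Type*} [Field F] [Fintype F]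
    (dw : Cfsg.Lie.ChevalleyDatum × (Σ n : ℕ, CoxeterMatrix (Fin n)))
    (hdw : dw ∈ [(Cfsg.Lie.chevG2, ⟨2, CoxeterMatrix.G₂⟩), (Cfsg.Lie.chevB2, ⟨2, CoxeterMatrix.B 2⟩), (Cfsg.Lie.chevD4, ⟨4, Cfsg.Lie.coxeterD4⟩), (Cfsg.Lie.chevF4, ⟨4, CoxeterMatrix.F₄⟩),
      (Cfsg.Lie.chevE6, ⟨6, CoxeterMatrix.E₆⟩), (Cfsg.Lie.chevE7, ⟨7, CoxeterMatrix.E₇⟩), (Cfsg.Lie.chevE8, ⟨8, CoxeterMatrix.E₈⟩)]) :
    Nat.card {χ : Cfsg.IrrCharacter ↥(dw.1.group F) //
      ∃ φ : ↥(dw.1.group F) → ℂ, Cfsg.IsCharacter ↥(dw.1.group F) φ ∧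
        Cfsg.fixedPointCharacter ((dw.1.borelSubgroup F).subgroupOf (dw.1.group F)) = (χ : ↥(dw.1.group F) → ℂ) + φ} =
      Nat.card (ConjClasses dw.2.2.Group) := by
  simp only [List.mem_cons, List.not_mem_nil, or_false] at hdw
  rcases hdw with rfl | rfl | rfl | rfl | rfl | rfl | rfl
  exacts [key realG2 isCartan_datG2, key realB2 isCartan_datB2, key realD4 isCartan_datD4, key realF4 isCartan_datF4,
    key realE6 isCartan_datE6, key realE7 isCartan_datE7, key realE8 isCartan_datE8]

end Cfsg.Agent.S2319
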