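import Cfsg.Statements.S2320
import Cfsg.Agent.Known.GL2Irr

set_option autoImplicit false
open Cfsg

namespace Cfsg.Agent.S2320

/-- Over a finite field F with q elements, every irreducible complex character of GL₂ of degree q takes a value of absolute value 1 at every diagonal matrix with two different diagonal entries and at every element with no eigenvector in F². -/
theorem result {F : Type*} [Field F] [Fintype F] (χ : Matrix.GeneralLinearGroup (Fin 2) F → ℂ) (hχ : Cfsg.IsIrrCharacter (Matrix.GeneralLinearGroup (Fin 2) F) χ) (hdeg : χ 1 = (Fintype.card F : ℂ)) (g : Matrix.GeneralLinearGroup (Fin 2) F) :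
    ((g : Matrix (Fin 2) (Fin 2) F) 0 1 = 0 → (g : Matrix (Fin 2) (Fin 2) F) 1 0 = 0 → (g : Matrix (Fin 2) (Fin 2) F) 0 0 ≠ (g : Matrix (Fin 2) (Fin 2) F) 1 1 → ‖χ g‖ = 1) ∧
    ((∀ (c : F) (v : Fin 2 → F), v ≠ 0 → (g : Matrix (Fin 2) (Fin 2) F).mulVec v ≠ c • v) → ‖χ g‖ = 1) := by
  classical
  obtain ⟨𝔢⟩ := CL.GL2.nonemptyEll (F := F)
  have h2 : (2 : ℝ) ≤ Fintype.card F := by exact_mod_cast CL.GL2.two_le_card (F := F)
  have re : ∀ {a b : ℂ}, a = b → a.re = b.re := fun h => congrArg _ h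
  open CL.GL2 in
  rcases GL_irr_cases 𝔢 hχ with ⟨α, rfl⟩ | ⟨α, rfl⟩ | ⟨lam, -, rfl⟩ | ⟨θ, -, rfl⟩
  · rw [CL.GL2.Amb.lin_one] at hdeg
    have := re hdeg
    simp only [Complex.natCast_re, Complex.one_re] at this
    linarith
  · rw [CL.GL2.Amb.St_apply, CL.GL2.ambGL_toM, norm_mul, CL.GL2.norm_hom, one_mul]
    refine ⟨fun _ h1 h2 => ?_, fun h => ?_⟩
    · rw [CL.GL2.st0_of_nroots_two (CL.GL2.nroots_upper_ne h1 h2), norm_one]
    · rw [CL.GL2.st0_of_isEll h, norm_neg, norm_one]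
  · rw [CL.GL2.Torus.chi_one] at hdeg
    exact absurd (add_eq_left.1 hdeg) (CL.GL2.Torus.eps_ne_zero _)
  · rw [CL.GL2.Torus.chi_one] at hdeg
    exact absurd (add_eq_left.1 hdeg) (CL.GL2.Torus.eps_ne_zero _)

end Cfsg.Agent.S2320
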