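import Cfsg.Statements.S2322
import Cfsg.Agent.Known.SL2Irr2

set_option autoImplicit false
open Cfsg

namespace Cfsg.Agent.S2322

open CL.GL2

theorem three_lt {F : Type*} [Field F] [Fintype F] {a : F} (h0 : a ≠ 0) (h : a ^ 2 ≠ 1)
    (hodd : Odd (Fintype.card F)) : 4 ≤ Fintype.card F := by
  classical
  have h1 : a ≠ 1 := by rintro rfl; simp at h
  have h2 : a ≠ -1 := by rintro rfl; simp at h
  have h3 : (1 : F) ≠ -1 := fun h => two_ne_zero_of_odd hodd (by linear_combination h)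
  have : ({0, 1, -1, a} : Finset F).card = 4 := by
    rw [Finset.card_insert_of_notMem (by simp [h0.symm]),
      Finset.card_insert_of_notMem (by simp [h1.symm, h3]), Finset.card_pair h2.symm]
  exact this ▸ Finset.card_le_univ _

/-- Over a finite field F with q elements, q odd: every irreducible complex character of SL₂ of degree q − 1 or (q − 1)/2 vanishes at every diagonal matrix whose diagonal entry a has a² ≠ 1, and every irreducible complex character of degree q + 1 or (q + 1)/2 vanishes at every element with no eigenvector in F². -/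
theorem result {F : Type*} [Field F] [Fintype F] (hodd : Odd (Fintype.card F)) (χ : Matrix.SpecialLinearGroup (Fin 2) F → ℂ) (hχ : Cfsg.IsIrrCharacter (Matrix.SpecialLinearGroup (Fin 2) F) χ) (g : Matrix.SpecialLinearGroup (Fin 2) F) :
    ((χ 1 = (Fintype.card F : ℂ) - 1 ∨ χ 1 = (((Fintype.card F - 1) / 2 : ℕ) : ℂ)) →
      (g : Matrix (Fin 2) (Fin 2) F) 0 1 = 0 → (g : Matrix (Fin 2) (Fin 2) F) 1 0 = 0 → (g : Matrix (Fin 2) (Fin 2) F) 0 0 ^ 2 ≠ 1 → χ g = 0) ∧
    ((χ 1 = (Fintype.card F : ℂ) + 1 ∨ χ 1 = (((Fintype.card F + 1) / 2 : ℕ) : ℂ)) →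
      (∀ (c : F) (v : Fin 2 → F), v ≠ 0 → (g : Matrix (Fin 2) (Fin 2) F).mulVec v ≠ c • v) → χ g = 0) := by
  classical
  have ha := cast_half_add hodd
  refine ⟨fun h h1 h2 h3 => ?_, fun h hg => ?_⟩
  · obtain ⟨𝔢⟩ := nonemptyEll (F := F)
    obtain ⟨a, -, e, -⟩ := exists_diagSL_eq h1 h2
    have hq := three_lt (e ▸ a.ne_zero) h3 hodd
    have hn := nroots_diag_SL h2 h3
    have hz : ∀ θ, 𝔢.torSL.chi θ g = 0 := fun θ =>
      Torus.chi_of_nroots _ _ (by rw [ambSL_toM, hn]; norm_num)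
    rcases h with h | h
    · obtain ⟨θ, -, rfl⟩ := SL_irr_of_deg_sub_one 𝔢 hχ hq h
      exact hz θ
    · obtain ⟨θ, χ', -, -, h⟩ := SL_irr_of_deg_half_sub 𝔢 hχ hodd hq h
      rw [h.apply_of_semisimple hodd (Or.inr (trace_sq_ne_four_of_nroots (by rw [hn]; decide))),
        hz, zero_div]
  · obtain ⟨𝔢, h𝔢⟩ : ∃ 𝔢 : Ell F, 𝔢.M = g := ⟨⟨g, hg⟩, rfl⟩
    have hn := IsEll.nroots hg
    have hz : ∀ θ, (splitSL F).chi θ g = 0 := fun θ =>
      Torus.chi_of_nroots _ _ (by rw [ambSL_toM, hn]; norm_num)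
    rcases h with h | h
    · obtain ⟨θ, -, rfl⟩ := SL_irr_of_deg_add_one hχ h
      exact hz θ
    · have := two_le_card (F := F)
      rcases SL_irr_cases 𝔢 hχ h with h | h | h | ⟨h, θ, h1, rfl⟩ | ⟨-, θ, χ', -, -, h⟩ | h
      · omega
      · omega
      · omega
      · obtain ⟨z, rfl⟩ := 𝔢.exists_embSL_eq (g := g) (by rw [h𝔢])
        exact 𝔢.chi_eq_zero_of_card_three (by omega) h1 (by
          rw [ne_eq, ← 𝔢.torSL.isScal_SL_iff']
          exact IsEll.not_isScal hg)
      · rw [h.apply_of_semisimple hodd (Or.inr (trace_sq_ne_four_of_nroots (by rw [hn]; decide))),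
          hz, zero_div]
      · omega

end Cfsg.Agent.S2322
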