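import Cfsg.Statements.S2324
import Cfsg.Agent.Known.SL2Irr

set_option autoImplicit false
open Cfsg

namespace Cfsg.Agent.S2324

open CL.GL2

/-- Over a finite field F with q elements, q odd and q ≥ 5, let u be the upper unitriangular matrix of SL₂ with off-diagonal entry 1 and let δ = (−1)^((q−1)/2). Every irreducible complex character χ of SL₂ of degree (q + 1)/2 satisfies (2χ(u) − 1)² = δq, and every irreducible complex character χ of degree (q − 1)/2 satisfies (2χ(u) + 1)² = δq; that is, χ(u) = (1 ± √(δq))/2 in the first case and χ(u) = (−1 ± √(δq))/2 in the second. Moreover two different irreducible characters of degree (q + 1)/2 take the two different values (their values at u add up to 1), and likewise for degree (q − 1)/2 (values adding up to −1). -/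
theorem result {F : Type*} [Field F] [Fintype F] (hodd : Odd (Fintype.card F)) (hq : 5 ≤ Fintype.card F)
    (u : Matrix.SpecialLinearGroup (Fin 2) F) (hu : (u : Matrix (Fin 2) (Fin 2) F) = !![1, 1; 0, 1]) :
    (∀ χ : Matrix.SpecialLinearGroup (Fin 2) F → ℂ, Cfsg.IsIrrCharacter (Matrix.SpecialLinearGroup (Fin 2) F) χ → χ 1 = (((Fintype.card F + 1) / 2 : ℕ) : ℂ) → (2 * χ u - 1) ^ 2 = (-1 : ℂ) ^ ((Fintype.card F - 1) / 2) * (Fintype.card F : ℂ)) ∧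
    (∀ χ : Matrix.SpecialLinearGroup (Fin 2) F → ℂ, Cfsg.IsIrrCharacter (Matrix.SpecialLinearGroup (Fin 2) F) χ → χ 1 = (((Fintype.card F - 1) / 2 : ℕ) : ℂ) → (2 * χ u + 1) ^ 2 = (-1 : ℂ) ^ ((Fintype.card F - 1) / 2) * (Fintype.card F : ℂ)) ∧
    (∀ χ₁ χ₂ : Matrix.SpecialLinearGroup (Fin 2) F → ℂ, Cfsg.IsIrrCharacter (Matrix.SpecialLinearGroup (Fin 2) F) χ₁ → Cfsg.IsIrrCharacter (Matrix.SpecialLinearGroup (Fin 2) F) χ₂ → χ₁ ≠ χ₂ →
      χ₁ 1 = (((Fintype.card F + 1) / 2 : ℕ) : ℂ) → χ₂ 1 = (((Fintype.card F + 1) / 2 : ℕ) : ℂ) → χ₁ u + χ₂ u = 1) ∧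
    (∀ χ₁ χ₂ : Matrix.SpecialLinearGroup (Fin 2) F → ℂ, Cfsg.IsIrrCharacter (Matrix.SpecialLinearGroup (Fin 2) F) χ₁ → Cfsg.IsIrrCharacter (Matrix.SpecialLinearGroup (Fin 2) F) χ₂ → χ₁ ≠ χ₂ →
      χ₁ 1 = (((Fintype.card F - 1) / 2 : ℕ) : ℂ) → χ₂ 1 = (((Fintype.card F - 1) / 2 : ℕ) : ℂ) → χ₁ u + χ₂ u = -1) := by
  classical
  obtain ⟨𝔢⟩ := nonemptyEll (F := F)
  have hq4 : 4 ≤ Fintype.card F := by omega
  have hs : ¬ IsScal (u : M2 F) := fun h => by simpa [hu] using h.1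
  have ht : (u : M2 F).trace = 2 := by rw [hu]; simp; norm_num
  have ht4 : (u : M2 F).trace ^ 2 = 4 := by rw [ht]; norm_num
  have key : ∀ {ψ χ₁ χ₂ χ₁' χ₂' : SL2 F → ℂ}, Halves ψ χ₁ χ₁' → Halves ψ χ₂ χ₂' → χ₁ ≠ χ₂ →
      χ₁ u + χ₂ u = ψ u := fun h h' hne => by
    rw [(h.eq_or_eq h').resolve_left hne.symm, h.sum]; rfl
  refine ⟨fun χ hχ h => ?_, fun χ hχ h => ?_, fun χ₁ χ₂ h₁ h₂ hne d₁ d₂ => ?_,
    fun χ₁ χ₂ h₁ h₂ hne d₁ d₂ => ?_⟩
  · obtain ⟨lam, χ', -, -, h⟩ := SL_irr_of_deg_half_add hχ hodd hq4 h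
    have := congrFun h.sum u
    rw [Torus.chi_unip_SL _ _ hs ht, splitSL_ε, Pi.add_apply] at this
    rw [← h.sub_sq hodd hs ht4]
    congr 1
    linear_combination -this
  · obtain ⟨lam, χ', -, -, h⟩ := SL_irr_of_deg_half_sub 𝔢 hχ hodd hq4 h
    have := congrFun h.sum u
    rw [Torus.chi_unip_SL _ _ hs ht, Ell.torSL_ε, Pi.add_apply] at this
    rw [← h.sub_sq hodd hs ht4]
    congr 1
    linear_combination -this
  · obtain ⟨lam, χ', a1, a2, h⟩ := SL_irr_of_deg_half_add h₁ hodd hq4 d₁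
    obtain ⟨mu, χ'', b1, b2, h'⟩ := SL_irr_of_deg_half_add h₂ hodd hq4 d₂
    obtain rfl := ((splitSL F).quad_unique a1 a2 b1 b2).2
    rw [key h h' hne, Torus.chi_unip_SL _ _ hs ht, splitSL_ε]
  · obtain ⟨lam, χ', a1, a2, h⟩ := SL_irr_of_deg_half_sub 𝔢 h₁ hodd hq4 d₁
    obtain ⟨mu, χ'', b1, b2, h'⟩ := SL_irr_of_deg_half_sub 𝔢 h₂ hodd hq4 d₂
    obtain rfl := (𝔢.torSL.quad_unique a1 a2 b1 b2).2
    rw [key h h' hne, Torus.chi_unip_SL _ _ hs ht, Ell.torSL_ε]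

end Cfsg.Agent.S2324
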