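import Cfsg.Statements.S2363
import Cfsg.Agent.Known.LieOrd

set_option autoImplicit false
open Cfsg

namespace Cfsg.Agent.S2363

/-- Let G be a finite simple group of Lie type in characteristic p and let p^k be the exact power of p dividing the order of G. Then the order of G is less than p^(3k); and unless G is isomorphic to PSL(2, F) for the field F with p^k elements, the cube of the order of G is less than p^(8k) (that is, the order is below p^(8k/3)). -/
theorem result {G : Type*} [Group G] [Finite G] (p : ℕ) (hp : p.Prime) (hG : Cfsg.IsLieTypeChar p G) :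
    Nat.card G < p ^ (3 * (Nat.card G).factorization p) ∧
      ((¬ ∃ (F : Type) (_ : Field F) (_ : Fintype F), Fintype.card F = p ^ (Nat.card G).factorization p ∧
          Nonempty (G ≃* Matrix.ProjectiveSpecialLinearGroup (Fin 2) F)) →
        Nat.card G ^ 3 < p ^ (8 * (Nat.card G).factorization p)) := by
  rcases CL.Chev.Ord.cube_lt_or hp hG with h | ⟨F, _, _, _, ⟨e⟩⟩
  · refine ⟨lt_of_pow_lt_pow_left' 3 (h.trans_le ?_), fun _ => h⟩
    rw [← pow_mul]
    exact Nat.pow_le_pow_right hp.pos (by omega)
  · obtain ⟨h1, h2⟩ := CL.Chev.Ord.psl_two hp e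
    exact ⟨by rwa [mul_comm, pow_mul, ← h1], fun h => (h ⟨F, _, _, h1, ⟨e⟩⟩).elim⟩

end Cfsg.Agent.S2363
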