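import Cfsg.Statements.S2364
import Cfsg.Agent.Known.SpecLU2
import Cfsg.Agent.Perm.SpecThree
import Cfsg.Agent.Cls.SLnCard

set_option autoImplicit false
open Cfsg

namespace Cfsg.Agent.S2364

/-- Let F be a finite field of characteristic p, n ≥ 4, and let a, b be commuting elements of PSL(n, F) with a of order p. Then every prime divisor of the order of b divides the order of SL(n − 2, F). -/
theorem result {F : Type*} [Field F] [Fintype F] (p : ℕ) [Fact p.Prime] [CharP F p] (n : ℕ) (hn : 4 ≤ n)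
    (a b : Matrix.ProjectiveSpecialLinearGroup (Fin n) F) (ha : orderOf a = p) (hab : Commute a b) :
    (orderOf b).primeFactors ⊆ (Nat.card (Matrix.SpecialLinearGroup (Fin (n - 2)) F)).primeFactors := by
  intro r hr'
  obtain ⟨hr, hb, -⟩ := Nat.mem_primeFactors.1 hr'
  refine Nat.mem_primeFactors.2 ⟨hr, ?_, Nat.card_pos.ne'⟩
  have h := CL.Spec.lu_PSL (F := F) p (n := n) (by omega)
  rw [CL.SLn.card_SL, Fintype.card_fin]
  by_cases hrp : r = p
  · subst hrp
    refine ((Int.natCast_dvd_natCast.1 h.char.dvd).trans (dvd_pow_self _ ?_)).mul_right _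
    have : 2 * 1 ≤ (n - 2) * (n - 2 - 1) := Nat.mul_le_mul (by omega) (by omega)
    omega
  obtain ⟨-, d, d0, d1, d2⟩ := h.exists_dvd_char (CL.Perm.mul_mem_spec_of_commute_of_dvd hab
    ((Nat.coprime_primes Fact.out hr).2 (Ne.symm hrp)) ha.symm.dvd hb) hr hrp (dvd_mul_left _ _) (dvd_mul_right _ _)
  obtain ⟨i, i1, i2⟩ : ∃ i, i < n - 2 - 1 ∧ d ∣ i + 2 := by
    by_cases d1 : d = 1
    · exact ⟨0, by omega, by simp [d1]⟩
    · exact ⟨d - 2, by omega, by rw [Nat.sub_add_cancel (by omega)]⟩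
  refine (Dvd.dvd.trans ?_ (Finset.dvd_prod_of_mem _ (Finset.mem_range.2 i1))).mul_left _
  rw [← Int.natCast_dvd_natCast, Nat.cast_sub (Nat.one_le_pow _ _ Fintype.card_pos)]
  rw [CL.Spec.int_dvd_pow_sub_one_iff] at d2
  simpa using (CL.Spec.int_dvd_pow_sub_one_iff _ _ _).2 (d2.trans i2)

end Cfsg.Agent.S2364
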