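import Cfsg.Statements.S2365
import Cfsg.Agent.Known.SpecLU2
import Cfsg.Agent.Perm.SpecThree

set_option autoImplicit false
open Cfsg

namespace Cfsg.Agent.S2365

/-- Let q be a power of the prime p, F the field with q² elements, m ≥ 4, and let a, b be commuting elements of PSU(m, q) with a of order p. Then every prime divisor of the order of b divides the order of SU(m − 2, q). -/
theorem result {F : Type*} [Field F] [Fintype F] (p : ℕ) [Fact p.Prime] [CharP F p] (m q : ℕ) (hm : 4 ≤ m) (hF : Fintype.card F = q ^ 2)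
    (a b : Cfsg.PSU m F q) (ha : orderOf a = p) (hab : Commute a b) :
    (orderOf b).primeFactors ⊆ (Nat.card ↥(Cfsg.SU (m - 2) F q)).primeFactors := by
  intro r hr'
  obtain ⟨hr, hb, -⟩ := Nat.mem_primeFactors.1 hr'
  refine Nat.mem_primeFactors.2 ⟨hr, ?_, Nat.card_pos.ne'⟩
  have h := CL.Spec.lu_PSU (F := F) p hF (n := m) (by omega)
  have hq := CL.Uni.two_le_q hF
  have hc := CL.Uni.card_SU hF (n := m - 2) (by omega)
  obtain ⟨n, hn⟩ := Nat.exists_eq_succ_of_ne_zero (show m - 2 ≠ 0 by omega)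
  rw [CL.Uni.guOrder, hn, Finset.prod_range_succ', if_pos Even.zero, zero_add, pow_one, ← mul_assoc, mul_comm,
    mul_left_inj' (by omega)] at hc
  rw [hn, hc]
  by_cases hrp : r = p
  · subst hrp
    refine ((Int.natCast_dvd_natCast.1 (dvd_neg.1 h.char.dvd)).trans (dvd_pow_self _ ?_)).mul_right _
    have : 2 * 1 ≤ n.succ * (n.succ - 1) := Nat.mul_le_mul (by omega) (by omega)
    omega
  obtain ⟨-, d, d0, d1, d2⟩ := h.exists_dvd_char (CL.Perm.mul_mem_spec_of_commute_of_dvd hab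
    ((Nat.coprime_primes Fact.out hr).2 (Ne.symm hrp)) ha.symm.dvd hb) hr hrp (dvd_mul_left _ _) (dvd_mul_right _ _)
  obtain ⟨i, i1, i2⟩ : ∃ i, i < n ∧ d ∣ i + 1 + 1 := by
    by_cases d1 : d = 1
    · exact ⟨0, by omega, by simp [d1]⟩
    · exact ⟨d - 2, by omega, dvd_of_eq (by omega)⟩
  refine (Dvd.dvd.trans ?_ (Finset.dvd_prod_of_mem _ (Finset.mem_range.2 i1))).mul_left _
  rw [CL.Spec.int_dvd_pow_sub_one_iff] at d2
  have h1 := (CL.Spec.int_dvd_pow_sub_one_iff _ _ _).2 (d2.trans i2)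
  rw [← Int.natCast_dvd_natCast]
  split_ifs with e
  · rw [e.add_one.neg_pow, ← dvd_neg] at h1
    exact h1.trans (dvd_of_eq (by push_cast; ring))
  · rw [(Nat.not_even_iff_odd.1 e).add_one.neg_pow] at h1
    rw [Nat.cast_sub (Nat.one_le_pow _ _ (by omega))]
    simpa using h1

end Cfsg.Agent.S2365
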