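import Cfsg.Statements.S2367
import Cfsg.Agent.Base

set_option autoImplicit false
open Cfsg

namespace Cfsg.Agent.S2367

lemma spor_aux (N a : ℕ) (L : List ℕ) (hL : L.prod = N) (hN : N ≠ 0) (hpr : ∀ q ∈ L, q.Prime) (ha : 2 ^ a ∣ N)
    (hc : ∀ q ∈ L, q ≠ 2 → q ^ 3 ∣ N → ¬ q ^ 4 ∣ N → q ^ 3 < 2 ^ a)
    (p : ℕ) (hp : p.Prime) (hodd : p ≠ 2) (h3 : N.factorization p = 3) :
    p ^ 3 < 2 ^ N.factorization 2 := by
  have h1 : p ^ 3 ∣ N := (hp.pow_dvd_iff_le_factorization hN).2 h3.ge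
  have h2 : ¬ p ^ 4 ∣ N := fun h => by
    have := (hp.pow_dvd_iff_le_factorization hN).1 h
    omega
  have h0 : p ∣ L.prod := hL ▸ (dvd_pow_self p (by norm_num)).trans h1
  obtain ⟨q, hq, hpq⟩ := (Prime.dvd_prod_iff hp.prime).1 h0
  have hpq' : p = q := (Nat.prime_dvd_prime_iff_eq hp (hpr q hq)).1 hpq
  subst hpq'
  have h4 := hc p hq hodd h1 h2
  have h5 : a ≤ N.factorization 2 := (Nat.prime_two.pow_dvd_iff_le_factorization hN).1 ha
  exact h4.trans_le (Nat.pow_le_pow_right (by norm_num) h5)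

lemma two_pow_dvd_fact (k : ℕ) : 2 ^ (3 * k) ∣ (4 * k).factorial := by
  induction k with
  | zero => simp
  | succ k ih =>
    have : (4 * (k + 1)).factorial = (4 * k + 4) * ((4 * k + 3) * ((4 * k + 2) * ((4 * k + 1) * (4 * k).factorial))) := by
      rw [show 4 * (k + 1) = 4 * k + 3 + 1 by ring]
      simp only [Nat.factorial_succ]
    rw [this]
    obtain ⟨c, hc⟩ := ih
    rw [hc]
    exact ⟨(k + 1) * (4 * k + 3) * (2 * k + 1) * (4 * k + 1) * c, by ring⟩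

lemma cube_lt (k : ℕ) (hk : 3 ≤ k) : 2 * (4 * k + 3) ^ 3 < 27 * 8 ^ k := by
  induction k, hk using Nat.le_induction with
  | base => norm_num
  | succ k hk ih =>
    have : (4 * (k + 1) + 3) ^ 3 ≤ 8 * (4 * k + 3) ^ 3 := by
      have h1 : 4 * (k + 1) + 3 ≤ 2 * (4 * k + 3) := by omega
      calc (4 * (k + 1) + 3) ^ 3 ≤ (2 * (4 * k + 3)) ^ 3 := Nat.pow_le_pow_left h1 3
        _ = 8 * (4 * k + 3) ^ 3 := by ring
    rw [pow_succ 8 k]
    omega

lemma alt_aux (n N : ℕ) (hN : 2 * N = n.factorial)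
    (p : ℕ) (hp : p.Prime) (hodd : p ≠ 2) (h3 : N.factorization p = 3) :
    p ^ 3 < 2 ^ N.factorization 2 := by
  have hN0 : N ≠ 0 := by
    rintro rfl
    exact n.factorial_ne_zero (by simpa using hN.symm)
  have hf : n.factorial.factorization p = 3 := by
    rw [← hN, Nat.factorization_mul (by norm_num) hN0]
    simp [h3, Nat.prime_two.factorization, Finsupp.single_apply, Ne.symm hodd]
  have hp3 : p ≠ 3 := by
    rintro rfl
    by_cases h9 : 9 ≤ n
    · have h1 : 3 ^ 4 ∣ n.factorial := Dvd.dvd.trans (by decide) (Nat.factorial_dvd_factorial h9)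
      have := (hp.pow_dvd_iff_le_factorization n.factorial_ne_zero).1 h1
      omega
    · have h1 : 3 ^ 3 ∣ n.factorial := (hp.pow_dvd_iff_le_factorization n.factorial_ne_zero).2 hf.ge
      have h2 := h1.trans (Nat.factorial_dvd_factorial (show n ≤ 8 by omega))
      revert h2; decide
  have hp5 : 5 ≤ p := by
    have := hp.two_le
    by_contra h
    have : p = 4 := by omega
    subst this
    revert hp; decide
  have hn : 3 * p ≤ n := by
    by_contra h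
    push Not at h
    have hlog : Nat.log p n < 2 := by
      rcases Nat.eq_zero_or_pos n with rfl | hn0
      · simp
      · apply Nat.log_lt_of_lt_pow hn0.ne'
        nlinarith
    rw [Nat.factorization_factorial hp hlog] at hf
    simp at hf
    have : n / p < 3 := (Nat.div_lt_iff_lt_mul hp.pos).2 h
    omega
  set k := 3 * p / 4 with hk
  have hk3 : 3 ≤ k := by omega
  have h1 : 2 ^ (3 * k) ∣ n.factorial :=
    (two_pow_dvd_fact k).trans (Nat.factorial_dvd_factorial (by omega))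
  have h2 : 2 ^ (3 * k - 1) ∣ N := by
    rw [← hN, show 3 * k = (3 * k - 1) + 1 by omega, pow_succ, mul_comm] at h1
    exact Nat.dvd_of_mul_dvd_mul_left (by norm_num) h1
  have h5 : 3 * k - 1 ≤ N.factorization 2 := (Nat.prime_two.pow_dvd_iff_le_factorization hN0).1 h2
  refine lt_of_lt_of_le ?_ (Nat.pow_le_pow_right (by norm_num) h5)
  have h6 := cube_lt k hk3
  have h7 : 3 * p ≤ 4 * k + 3 := by omega
  have h8 : (3 * p) ^ 3 ≤ (4 * k + 3) ^ 3 := Nat.pow_le_pow_left h7 3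
  have h9 : 8 ^ k = 2 * 2 ^ (3 * k - 1) := by
    rw [← pow_succ', show 3 * k - 1 + 1 = 3 * k by omega, pow_mul]; norm_num
  rw [h9] at h6
  nlinarith

/-- Let G be an alternating group of degree at least 5 or a simple group with the order of one of the 26 sporadic groups, and let p be an odd prime such that p³ is the exact power of p dividing the order of G. Then p³ is less than the 2-part of the order of G. -/
theorem result {G : Type*} [Group G] [Finite G] (hG : Cfsg.IsAlternating G ∨ Cfsg.IsSporadic G)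
    (p : ℕ) (hp : p.Prime) (hodd : p ≠ 2) (h3 : (Nat.card G).factorization p = 3) :
    p ^ 3 < 2 ^ (Nat.card G).factorization 2 := by
  rcases hG with ⟨n, hn, ⟨e⟩⟩ | hG
  · refine alt_aux n _ ?_ p hp hodd h3
    haveI : Nontrivial (Fin n) := Fin.nontrivial_iff_two_le.2 (by omega)
    rw [Nat.card_congr e.toEquiv, two_mul_nat_card_alternatingGroup, Nat.card_perm]
    simp
  · rcases hG with ⟨-, h⟩ | ⟨-, h⟩ | ⟨-, h⟩ | ⟨-, h⟩ | ⟨-, h⟩ | ⟨-, h⟩ | ⟨-, h⟩ | ⟨-, h⟩ | ⟨-, h⟩ | ⟨-, h⟩ | ⟨-, h⟩ | ⟨-, h⟩ | ⟨-, h⟩ | ⟨-, h⟩ | ⟨-, h⟩ | ⟨-, h⟩ | ⟨-, h⟩ | ⟨-, h⟩ | ⟨-, h⟩ | ⟨-, h⟩ | ⟨-, h⟩ | ⟨-, h⟩ | ⟨-, h⟩ | ⟨-, h⟩ | ⟨-, h⟩ | ⟨-, h⟩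
    · rw [h] at h3 ⊢
      exact spor_aux _ 4 [2, 2, 2, 2, 3, 3, 5, 11] (by norm_num) (by norm_num) (by simp only [List.mem_cons, List.not_mem_nil, or_false, forall_eq_or_imp, forall_eq]; norm_num) (by norm_num) (by decide +kernel) p hp hodd h3
    · rw [h] at h3 ⊢
      exact spor_aux _ 6 [2, 2, 2, 2, 2, 2, 3, 3, 3, 5, 11] (by norm_num) (by norm_num) (by simp only [List.mem_cons, List.not_mem_nil, or_false, forall_eq_or_imp, forall_eq]; norm_num) (by norm_num) (by decide +kernel) p hp hodd h3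
    · rw [h] at h3 ⊢
      exact spor_aux _ 7 [2, 2, 2, 2, 2, 2, 2, 3, 3, 5, 7, 11] (by norm_num) (by norm_num) (by simp only [List.mem_cons, List.not_mem_nil, or_false, forall_eq_or_imp, forall_eq]; norm_num) (by norm_num) (by decide +kernel) p hp hodd h3
    · rw [h] at h3 ⊢
      exact spor_aux _ 7 [2, 2, 2, 2, 2, 2, 2, 3, 3, 5, 7, 11, 23] (by norm_num) (by norm_num) (by simp only [List.mem_cons, List.not_mem_nil, or_false, forall_eq_or_imp, forall_eq]; norm_num) (by norm_num) (by decide +kernel) p hp hodd h3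
    · rw [h] at h3 ⊢
      exact spor_aux _ 10 [2, 2, 2, 2, 2, 2, 2, 2, 2, 2, 3, 3, 3, 5, 7, 11, 23] (by norm_num) (by norm_num) (by simp only [List.mem_cons, List.not_mem_nil, or_false, forall_eq_or_imp, forall_eq]; norm_num) (by norm_num) (by decide +kernel) p hp hodd h3
    · rw [h] at h3 ⊢
      exact spor_aux _ 3 [2, 2, 2, 3, 5, 7, 11, 19] (by norm_num) (by norm_num) (by simp only [List.mem_cons, List.not_mem_nil, or_false, forall_eq_or_imp, forall_eq]; norm_num) (by norm_num) (by decide +kernel) p hp hodd h3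
    · rw [h] at h3 ⊢
      exact spor_aux _ 7 [2, 2, 2, 2, 2, 2, 2, 3, 3, 3, 5, 5, 7] (by norm_num) (by norm_num) (by simp only [List.mem_cons, List.not_mem_nil, or_false, forall_eq_or_imp, forall_eq]; norm_num) (by norm_num) (by decide +kernel) p hp hodd h3
    · rw [h] at h3 ⊢
      exact spor_aux _ 7 [2, 2, 2, 2, 2, 2, 2, 3, 3, 3, 3, 3, 5, 17, 19] (by norm_num) (by norm_num) (by simp only [List.mem_cons, List.not_mem_nil, or_false, forall_eq_or_imp, forall_eq]; norm_num) (by norm_num) (by decide +kernel) p hp hodd h3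
    · rw [h] at h3 ⊢
      exact spor_aux _ 21 [2, 2, 2, 2, 2, 2, 2, 2, 2, 2, 2, 2, 2, 2, 2, 2, 2, 2, 2, 2, 2, 3, 3, 3, 5, 7, 11, 11, 11, 23, 29, 31, 37, 43] (by norm_num) (by norm_num) (by simp only [List.mem_cons, List.not_mem_nil, or_false, forall_eq_or_imp, forall_eq]; norm_num) (by norm_num) (by decide +kernel) p hp hodd h3
    · rw [h] at h3 ⊢
      exact spor_aux _ 21 [2, 2, 2, 2, 2, 2, 2, 2, 2, 2, 2, 2, 2, 2, 2, 2, 2, 2, 2, 2, 2, 3, 3, 3, 3, 3, 3, 3, 3, 3, 5, 5, 5, 5, 7, 7, 11, 13, 23] (by norm_num) (by norm_num) (by simp only [List.mem_cons, List.not_mem_nil, or_false, forall_eq_or_imp, forall_eq]; norm_num) (by norm_num) (by decide +kernel) p hp hodd h3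
    · rw [h] at h3 ⊢
      exact spor_aux _ 18 [2, 2, 2, 2, 2, 2, 2, 2, 2, 2, 2, 2, 2, 2, 2, 2, 2, 2, 3, 3, 3, 3, 3, 3, 5, 5, 5, 7, 11, 23] (by norm_num) (by norm_num) (by simp only [List.mem_cons, List.not_mem_nil, or_false, forall_eq_or_imp, forall_eq]; norm_num) (by norm_num) (by decide +kernel) p hp hodd h3
    · rw [h] at h3 ⊢
      exact spor_aux _ 10 [2, 2, 2, 2, 2, 2, 2, 2, 2, 2, 3, 3, 3, 3, 3, 3, 3, 5, 5, 5, 7, 11, 23] (by norm_num) (by norm_num) (by simp only [List.mem_cons, List.not_mem_nil, or_false, forall_eq_or_imp, forall_eq]; norm_num) (by norm_num) (by decide +kernel) p hp hodd h3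
    · rw [h] at h3 ⊢
      exact spor_aux _ 17 [2, 2, 2, 2, 2, 2, 2, 2, 2, 2, 2, 2, 2, 2, 2, 2, 2, 3, 3, 3, 3, 3, 3, 3, 3, 3, 5, 5, 7, 11, 13] (by norm_num) (by norm_num) (by simp only [List.mem_cons, List.not_mem_nil, or_false, forall_eq_or_imp, forall_eq]; norm_num) (by norm_num) (by decide +kernel) p hp hodd h3
    · rw [h] at h3 ⊢
      exact spor_aux _ 18 [2, 2, 2, 2, 2, 2, 2, 2, 2, 2, 2, 2, 2, 2, 2, 2, 2, 2, 3, 3, 3, 3, 3, 3, 3, 3, 3, 3, 3, 3, 3, 5, 5, 7, 11, 13, 17, 23] (by norm_num) (by norm_num) (by simp only [List.mem_cons, List.not_mem_nil, or_false, forall_eq_or_imp, forall_eq]; norm_num) (by norm_num) (by decide +kernel) p hp hodd h3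
    · rw [h] at h3 ⊢
      exact spor_aux _ 21 [2, 2, 2, 2, 2, 2, 2, 2, 2, 2, 2, 2, 2, 2, 2, 2, 2, 2, 2, 2, 2, 3, 3, 3, 3, 3, 3, 3, 3, 3, 3, 3, 3, 3, 3, 3, 3, 5, 5, 7, 7, 7, 11, 13, 17, 23, 29] (by norm_num) (by norm_num) (by simp only [List.mem_cons, List.not_mem_nil, or_false, forall_eq_or_imp, forall_eq]; norm_num) (by norm_num) (by decide +kernel) p hp hodd h3
    · rw [h] at h3 ⊢
      exact spor_aux _ 9 [2, 2, 2, 2, 2, 2, 2, 2, 2, 3, 3, 5, 5, 5, 7, 11] (by norm_num) (by norm_num) (by simp only [List.mem_cons, List.not_mem_nil, or_false, forall_eq_or_imp, forall_eq]; norm_num) (by norm_num) (by decide +kernel) p hp hodd h3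
    · rw [h] at h3 ⊢
      exact spor_aux _ 7 [2, 2, 2, 2, 2, 2, 2, 3, 3, 3, 3, 3, 3, 5, 5, 5, 7, 11] (by norm_num) (by norm_num) (by simp only [List.mem_cons, List.not_mem_nil, or_false, forall_eq_or_imp, forall_eq]; norm_num) (by norm_num) (by decide +kernel) p hp hodd h3
    · rw [h] at h3 ⊢
      exact spor_aux _ 10 [2, 2, 2, 2, 2, 2, 2, 2, 2, 2, 3, 3, 3, 5, 5, 7, 7, 7, 17] (by norm_num) (by norm_num) (by simp only [List.mem_cons, List.not_mem_nil, or_false, forall_eq_or_imp, forall_eq]; norm_num) (by norm_num) (by decide +kernel) p hp hodd h3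
    · rw [h] at h3 ⊢
      exact spor_aux _ 14 [2, 2, 2, 2, 2, 2, 2, 2, 2, 2, 2, 2, 2, 2, 3, 3, 3, 5, 5, 5, 7, 13, 29] (by norm_num) (by norm_num) (by simp only [List.mem_cons, List.not_mem_nil, or_false, forall_eq_or_imp, forall_eq]; norm_num) (by norm_num) (by decide +kernel) p hp hodd h3
    · rw [h] at h3 ⊢
      exact spor_aux _ 13 [2, 2, 2, 2, 2, 2, 2, 2, 2, 2, 2, 2, 2, 3, 3, 3, 3, 3, 3, 3, 5, 5, 7, 11, 13] (by norm_num) (by norm_num) (by simp only [List.mem_cons, List.not_mem_nil, or_false, forall_eq_or_imp, forall_eq]; norm_num) (by norm_num) (by decide +kernel) p hp hodd h3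
    · rw [h] at h3 ⊢
      exact spor_aux _ 9 [2, 2, 2, 2, 2, 2, 2, 2, 2, 3, 3, 3, 3, 5, 7, 7, 7, 11, 19, 31] (by norm_num) (by norm_num) (by simp only [List.mem_cons, List.not_mem_nil, or_false, forall_eq_or_imp, forall_eq]; norm_num) (by norm_num) (by decide +kernel) p hp hodd h3
    · rw [h] at h3 ⊢
      exact spor_aux _ 14 [2, 2, 2, 2, 2, 2, 2, 2, 2, 2, 2, 2, 2, 2, 3, 3, 3, 3, 3, 3, 5, 5, 5, 5, 5, 5, 7, 11, 19] (by norm_num) (by norm_num) (by simp only [List.mem_cons, List.not_mem_nil, or_false, forall_eq_or_imp, forall_eq]; norm_num) (by norm_num) (by decide +kernel) p hp hodd h3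
    · rw [h] at h3 ⊢
      exact spor_aux _ 8 [2, 2, 2, 2, 2, 2, 2, 2, 3, 3, 3, 3, 3, 3, 3, 5, 5, 5, 5, 5, 5, 7, 11, 31, 37, 67] (by norm_num) (by norm_num) (by simp only [List.mem_cons, List.not_mem_nil, or_false, forall_eq_or_imp, forall_eq]; norm_num) (by norm_num) (by decide +kernel) p hp hodd h3
    · rw [h] at h3 ⊢
      exact spor_aux _ 15 [2, 2, 2, 2, 2, 2, 2, 2, 2, 2, 2, 2, 2, 2, 2, 3, 3, 3, 3, 3, 3, 3, 3, 3, 3, 5, 5, 5, 7, 7, 13, 19, 31] (by norm_num) (by norm_num) (by simp only [List.mem_cons, List.not_mem_nil, or_false, forall_eq_or_imp, forall_eq]; norm_num) (by norm_num) (by decide +kernel) p hp hodd h3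
    · rw [h] at h3 ⊢
      exact spor_aux _ 41 [2, 2, 2, 2, 2, 2, 2, 2, 2, 2, 2, 2, 2, 2, 2, 2, 2, 2, 2, 2, 2, 2, 2, 2, 2, 2, 2, 2, 2, 2, 2, 2, 2, 2, 2, 2, 2, 2, 2, 2, 2, 3, 3, 3, 3, 3, 3, 3, 3, 3, 3, 3, 3, 3, 5, 5, 5, 5, 5, 5, 7, 7, 11, 13, 17, 19, 23, 31, 47] (by norm_num) (by norm_num) (by simp only [List.mem_cons, List.not_mem_nil, or_false, forall_eq_or_imp, forall_eq]; norm_num) (by norm_num) (by decide +kernel) p hp hodd h3
    · rw [h] at h3 ⊢
      exact spor_aux _ 46 [2, 2, 2, 2, 2, 2, 2, 2, 2, 2, 2, 2, 2, 2, 2, 2, 2, 2, 2, 2, 2, 2, 2, 2, 2, 2, 2, 2, 2, 2, 2, 2, 2, 2, 2, 2, 2, 2, 2, 2, 2, 2, 2, 2, 2, 2, 3, 3, 3, 3, 3, 3, 3, 3, 3, 3, 3, 3, 3, 3, 3, 3, 3, 3, 3, 3, 5, 5, 5, 5, 5, 5, 5, 5, 5, 7, 7, 7, 7, 7, 7, 11, 11, 13, 13, 13, 17, 19, 23, 29, 31, 41, 47, 59, 71] (by norm_num) (by norm_num) (by simp only [List.mem_cons, List.not_mem_nil, or_false, forall_eq_or_imp, forall_eq]; norm_num) (by norm_num)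 (by decide +kernel) p hp hodd h3

end Cfsg.Agent.S2367
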