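import Cfsg.Statements.S2368
import Cfsg.Agent.Known.GLUnip1

set_option autoImplicit false
open Cfsg

namespace Cfsg.Agent.S2368


/-- Let F be a finite field of characteristic p and m ≥ 1. Every element of GL(m, F) of p-power order has order less than p·m, and GL(m, F) has an element of p-power order at least m; so the largest order of a p-element of GL(m, F) is the least power of p that is at least m. -/
theorem result {F : Type*} [Field F] [Fintype F] (p : ℕ) [Fact p.Prime] [CharP F p] (m : ℕ) (hm : 1 ≤ m) :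
    (∀ g : Matrix.GeneralLinearGroup (Fin m) F, (∃ j : ℕ, orderOf g = p ^ j) → orderOf g < p * m) ∧
      ∃ g : Matrix.GeneralLinearGroup (Fin m) F, (∃ j : ℕ, orderOf g = p ^ j) ∧ m ≤ orderOf g := by
  have hp : p.Prime := Fact.out
  constructor
  · intro g hg
    have h0 := CL.GLn.pow_card_eq_zero_of_isNilpotent ((CL.GLn.GL_orderOf_eq_pow_iff p g).1 hg)
    rw [Fintype.card_fin] at h0
    have h1 : g ^ p ^ Nat.clog p m = 1 := (CL.GLn.GL_pow_char_pow_eq_one_iff p g _).2
      (pow_eq_zero_of_le (Nat.le_pow_clog hp.one_lt m) h0)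
    refine (Nat.le_of_dvd (pow_pos hp.pos _) (orderOf_dvd_of_pow_eq_one h1)).trans_lt ?_
    rcases hm.eq_or_lt with rfl | hm
    · simpa using hp.one_lt
    · have h2 := Nat.pow_pred_clog_lt_self hp.one_lt hm
      have h3 := Nat.clog_pos hp.one_lt hm
      obtain ⟨c, hc⟩ : ∃ c, Nat.clog p m = c + 1 := ⟨Nat.clog p m - 1, by omega⟩
      rw [hc] at h2 ⊢
      rw [pow_succ']
      exact Nat.mul_lt_mul_of_pos_left h2 hp.pos
  · obtain ⟨g, hg⟩ := CL.GLn.exists_GL_of_partition (F := F) (n := Fin m) (Nat.Partition.indiscrete _)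
    have hu := (CL.GLn.isNilpotent_sub_one_iff _).2 ⟨_, hg⟩
    obtain ⟨k, hk⟩ := (CL.GLn.GL_orderOf_eq_pow_iff p g).2 hu
    refine ⟨g, ⟨k, hk⟩, ?_⟩
    have h3 := (CL.GLn.GL_pow_char_pow_eq_one_iff p g k).1 (hk ▸ pow_orderOf_eq_one g)
    rw [CL.GLn.sub_one_pow_eq_zero_iff_of_type hg, Nat.Partition.indiscrete_parts (by simp; omega)] at h3
    simpa [hk] using h3

end Cfsg.Agent.S2368
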