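import Cfsg.Statements.S2369
import Cfsg.Agent.Chev.InvTw2
import Cfsg.Agent.Chev.TwPar

set_option autoImplicit false
open Cfsg

namespace Cfsg.Agent.S2369

open CL.Chev CL.Chev.Cert Cfsg.Lie

/-- Let q = 2^(2m+1) with m ≥ 1 and let a, b be commuting elements of the large Ree group ²F₄(q) with a an involution. Then every prime divisor of the order of b divides q(q⁴ − 1). -/
theorem result {K : Type*} [Field K] [Fintype K] (m : ℕ) (hm : 1 ≤ m) (hK : Fintype.card K = 2 ^ (2 * m + 1))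
    (a b : ↥(Cfsg.Lie.twistedF4 K (2 ^ m))) (ha : orderOf a = 2) (hab : Commute a b) :
    (orderOf b).primeFactors ⊆ (2 ^ (2 * m + 1) * ((2 ^ (2 * m + 1)) ^ 4 - 1)).primeFactors := by
  have E := realF4
  have h := isTwF4 E hK
  obtain ⟨h2, h3, -, h5⟩ := twistedF4_data E hK
  obtain ⟨σ, θ, c, d, h1, W, -⟩ := h.ex'
  obtain ⟨L, hL, g, hg, e⟩ := h5 a a.2 (by rwa [Subgroup.orderOf_coe])
  have h6 : g * b * g⁻¹ ∈ twistedF4 K (2 ^ m) := mul_mem (mul_mem hg b.2) (inv_mem hg)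
  have h7 : g * b * g⁻¹ ∈ (E.S K).grp ⊓ Subgroup.centralizer {E.px K L} :=
    ⟨h3 h6, Subgroup.mem_centralizer_singleton_iff.2 (by
      rw [← e]; simpa [← mul_assoc] using congrArg (g * ·.1) hab.symm.eq)⟩
  obtain ⟨k, hk⟩ : ∃ k, g * b * g⁻¹ ∈ (E.S K).P (jF4 k) := by
    have h8 : ∀ J, (E.S K).U ⊓ Subgroup.centralizer {E.px K L} ⊔ (E.S K).XS (E.R.PhiJ J) ≤ (E.S K).P J := fun J =>
      sup_le (inf_le_left.trans (le_sup_left.trans ((E.S K).B_le_P J))) (le_sup_right.trans ((E.S K).LJ_le_P J))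
    rcases List.mem_pair.1 hL with rfl | rfl
    · rw [tabF4.centralizer_eq E h2 (Z := []) (α := 47) (β := 44) (a := 1) (b := 1) (K := [(3, 1, 0), (0, 0, 1)])
        (by decide +kernel)] at h7
      exact ⟨1, (E.S K).P_mono (fun i hi => (mem_jF4 1 i).2 ((by decide : ∀ i : Fin 4, Aux.inK _ i = false → i ∈ wF4 _) i hi)) (h8 _ h7)⟩
    · rw [tabF4.centralizer_eq E h2 (Z := [40, 44, 46, 47]) (α := 39) (β := 45) (a := 3) (b := 2)
        (K := [(1, 1, 1), (2, 2, 1)]) (by decide +kernel)] at h7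
      exact ⟨0, (E.S K).P_mono (fun i hi => (mem_jF4 0 i).2 ((by decide : ∀ i : Fin 4, Aux.inK _ i = false → i ∈ wF4 _) i hi)) (h8 _ h7)⟩
  have h8 := (Subgroup.orderOf_dvd_natCard _ (Subgroup.mem_inf.2 ⟨hk, h6⟩)).trans (W.card_P h.faithful h.le k).dvd
  rw [h.card_U, h.card_H, h1.fixCard_eq, h.card, show g * b * g⁻¹ = MulAut.conj g b from rfl,
    MulEquiv.orderOf_eq, Subgroup.orderOf_coe] at h8
  have hq := h.one_lt
  generalize 2 ^ (2 * m + 1) = q at h8 hq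
  obtain ⟨n, rfl⟩ := Nat.exists_eq_add_of_lt hq
  have e1 : (1 + n + 1) ^ 4 - 1 = (n + 1) * (1 + (1 + n + 1)) * (1 + (1 + n + 1) ^ 2) := Nat.sub_eq_of_eq_add (by ring)
  rw [e1, ← Nat.primeFactors_pow (_ * _) (k := 12) (by norm_num)]
  refine Nat.primeFactors_mono (h8.trans ?_) (by positivity)
  rw [show 1 + n + 1 - 1 = n + 1 by omega, mul_pow, mul_assoc, mul_pow, mul_pow, mul_assoc]
  refine mul_dvd_mul_left _ (mul_dvd_mul (pow_dvd_pow _ (by norm_num)) ?_)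
  fin_cases k
  exacts [(dvd_pow_self _ (by norm_num)).mul_right _, (dvd_pow_self _ (by norm_num)).mul_left _]

end Cfsg.Agent.S2369
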