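import Cfsg.Statements.S2370
import Cfsg.Agent.Chev.StSylow
import Cfsg.Agent.Chev.InvTab

set_option autoImplicit false
open Cfsg

namespace Cfsg.Agent.S2370

open CL.Chev CL.Chev.Cert Cfsg.Lie

/-- Let q = 2^(2m+1) with m ≥ 1. Every element of 2-power order of the large Ree group ²F₄(q) has order at most 32. -/
theorem result {K : Type*} [Field K] [Fintype K] (m : ℕ) (hm : 1 ≤ m) (hK : Fintype.card K = 2 ^ (2 * m + 1))
    (x : ↥(Cfsg.Lie.twistedF4 K (2 ^ m))) (hx : ∃ j : ℕ, orderOf x = 2 ^ j) : orderOf x ≤ 32 := by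
  have E := realF4
  have : CharP K 2 := by
    obtain ⟨p, hp⟩ := CharP.exists K
    obtain ⟨n, hpp, e⟩ := FiniteField.card K p
    have := (Nat.prime_dvd_prime_iff_eq hpp Nat.prime_two).1 (hpp.dvd_of_dvd_pow (hK ▸ e ▸ dvd_pow_self p n.ne_zero))
    exact this ▸ hp
  obtain ⟨j, hj⟩ := hx
  have h1 : twistedF4 K (2 ^ m) ≤ (E.S K).grp := by
    rw [twistedF4, E.genSubgroup_eq, Subgroup.closure_le]
    rintro _ ⟨w, -, rfl⟩
    refine list_prod_mem fun g hg => ?_
    obtain ⟨p, -, rfl⟩ := List.mem_map.1 hg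
    exact E.xN_mem_grp _ _
  have h2 : ∀ r, E.R.ht r < 2 ^ 4 := fun r => by
    have : allLt auxF4.n (fun r => ltZ (sumTo 4 (auxF4.rt r)) 16) = true := by decide +kernel
    simp only [allLt_iff, ltZ_iff, sumTo_eq] at this
    have h3 := this r (tabF4.lt_n r)
    rw [← Fin.sum_univ_eq_sum_range] at h3
    simp only [RS.ht, tabF4.root E]
    exact h3
  rw [← Subgroup.orderOf_coe] at hj ⊢
  exact (Nat.le_of_dvd (by norm_num) ((E.faithful K).orderOf_dvd (E.hMul K) 2 h2 (h1 x.2) hj)).trans (by norm_num)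

end Cfsg.Agent.S2370
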