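import Cfsg.Statements.S2371
import Cfsg.Agent.Chev.AlgCycData

set_option autoImplicit false
open Cfsg

namespace Cfsg.Agent.S2371

/-- The group G₂(q), q ≥ 3, contains a cyclic subgroup of order q² + q + 1 which is its own centralizer. -/
theorem result {F : Type*} [Field F] [Fintype F] (q : ℕ) (hF : Fintype.card F = q) (hq : 3 ≤ q) :
    ∃ H : Subgroup ↥(Cfsg.Lie.chevG2.group F), IsCyclic ↥H ∧ Nat.card ↥H = q ^ 2 + q + 1 ∧
      Subgroup.centralizer (H : Set ↥(Cfsg.Lie.chevG2.group F)) = H := by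
  have := CL.Chev.tabG2.selfCent CL.Chev.realG2 (F := F) (by decide) (CL.Chev.ker_torus_G2 _) CL.Chev.cycCheckG2
  rw [hF] at this
  refine this.imp fun H h => ⟨h.1, h.2.1.trans (Int.natAbs_eq_iff.2 (Or.inl ?_)), h.2.2⟩
  change (q : ℤ) ^ 2 + CL.Chev.pval 2 _ _ = _
  simp [CL.Chev.pval, Finset.sum_range_succ]
  ring

end Cfsg.Agent.S2371
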