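import Cfsg.Statements.S2373
import Cfsg.Agent.Chev.AlgCycData
import Cfsg.Agent.S1079

set_option autoImplicit false
open Cfsg

namespace Cfsg.Agent.S2373

/-- The group E₆(q) (the simple Chevalley group of type E₆) contains a cyclic subgroup of order (q⁴ − q² + 1)(q² + q + 1)/gcd(3, q − 1) which is its own centralizer. -/
theorem result {F : Type*} [Field F] [Fintype F] (q : ℕ) (hF : Fintype.card F = q) :
    ∃ H : Subgroup ↥(Cfsg.Lie.chevE6.group F), IsCyclic ↥H ∧ Nat.card ↥H = (q ^ 4 - q ^ 2 + 1) * (q ^ 2 + q + 1) / Nat.gcd 3 (q - 1) ∧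
      Subgroup.centralizer (H : Set ↥(Cfsg.Lie.chevE6.group F)) = H := by
  have := CL.Chev.tabE6.selfCent_SS CL.Chev.realE6 (F := F) (by decide)
    (CL.Chev.realE6.SS_torus_injective CL.Chev.realE8 CL.Chev.embE6 (CL.Chev.ker_torus_E8 _))
    (fun z hz => CL.Chev.pow_eq_one_of_matPow (P := !![4, 3, 5, 6, 4, 2; 3, 6, 6, 9, 6, 3; 5, 6, 10, 12, 8, 4;
      6, 9, 12, 18, 12, 6; 4, 6, 8, 12, 10, 5; 2, 3, 4, 6, 5, 4]) (by decide +kernel)
      (((CL.Chev.realE6.full F).hMul.torus_eq_one_iff (CL.Chev.realE6.full F).faithful.uFaithful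
        (CL.Chev.realE6.full F).adjoint CL.Chev.realE6.cartanM_eq z).1 hz)) CL.Chev.cycCheckE6
  rw [S1079.card_E6, Nat.card_eq_fintype_card (α := F), hF] at this
  have hq : 1 ≤ q := hF ▸ Fintype.card_pos
  refine this.imp fun H h => ⟨h.1, (Nat.div_eq_of_eq_mul_left (Nat.gcd_pos_of_pos_left _ (by norm_num))
    (h.2.1.trans (Int.natAbs_eq_iff.2 (Or.inl ?_))).symm).symm, h.2.2⟩
  change (q : ℤ) ^ 6 + CL.Chev.pval 6 _ _ = _
  simp [CL.Chev.pval, Finset.sum_range_succ, Nat.cast_sub (Nat.pow_le_pow_right hq (show 2 ≤ 4 by norm_num))]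
  ring

end Cfsg.Agent.S2373
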