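import Cfsg.Statements.S2375
import Cfsg.Agent.Chev.AlgCycData

set_option autoImplicit false
open Cfsg

namespace Cfsg.Agent.S2375

/-- The group E₈(q) contains a cyclic subgroup of order q⁸ + q⁷ − q⁵ − q⁴ − q³ + q + 1 which is its own centralizer. -/
theorem result {F : Type*} [Field F] [Fintype F] (q : ℕ) (hF : Fintype.card F = q) :
    ∃ H : Subgroup ↥(Cfsg.Lie.chevE8.group F), IsCyclic ↥H ∧ Nat.card ↥H = q ^ 8 + q ^ 7 - q ^ 5 - q ^ 4 - q ^ 3 + q + 1 ∧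
      Subgroup.centralizer (H : Set ↥(Cfsg.Lie.chevE8.group F)) = H := by
  have := CL.Chev.tabE8.selfCent CL.Chev.realE8 (F := F) (by decide) (CL.Chev.ker_torus_E8 _) CL.Chev.cycCheckE8
  rw [hF] at this
  have hq : 2 ≤ q := hF ▸ Fintype.one_lt_card
  refine this.imp fun H h => ⟨h.1, h.2.1.trans (Int.natAbs_eq_iff.2 (Or.inl ?_)), h.2.2⟩
  change (q : ℤ) ^ 8 + CL.Chev.pval 8 _ _ = _
  have h3 : q ^ 3 ≤ q ^ 7 := Nat.pow_le_pow_right (by omega) (by norm_num)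
  have h4 : q ^ 4 ≤ q ^ 7 := Nat.pow_le_pow_right (by omega) (by norm_num)
  have h5 : q ^ 5 ≤ q ^ 7 := Nat.pow_le_pow_right (by omega) (by norm_num)
  have h8 : 2 * q ^ 7 ≤ q ^ 8 := by rw [pow_succ' q 7]; exact Nat.mul_le_mul_right _ hq
  rw [Nat.cast_add, Nat.cast_add, Nat.cast_sub (by omega), Nat.cast_sub (by omega), Nat.cast_sub (by omega)]
  simp [CL.Chev.pval, Finset.sum_range_succ]
  ring

end Cfsg.Agent.S2375
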