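import Cfsg.Statements.S2379
import Cfsg.Agent.Known.SpecSyl

set_option autoImplicit false
open Cfsg

namespace Cfsg.Agent.S2379

/-- Sylow subgroups of `SL_n(q)` for large primes. Let `F` be a field with `q` elements and `r` a prime with `r > n` and `r ∤ q` (so `r` does not divide the order `n!` of the Weyl group). Let `d` be the multiplicative order of `q` modulo `r`, `a` the number of integers `i` with `2 ≤ i ≤ n` divisible by `d` (the degrees of the Weyl group are `2, …, n`), and `m` the `r`-part of the value at `q` of the `d`-th cyclotomic polynomial. Then every Sylow `r`-subgroup of `SL_n(q)` is a direct product of `a` cyclic groups of order `m`. -/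
theorem result {F : Type*} [Field F] [Fintype F] {q : ℕ} (hq : Fintype.card F = q) (n : ℕ)
    (r : ℕ) [Fact r.Prime] (hrn : n < r) (hrq : ¬ r ∣ q) (P : Sylow r (Matrix.SpecialLinearGroup (Fin n) F)) :
    Nonempty (↥(P : Subgroup (Matrix.SpecialLinearGroup (Fin n) F)) ≃*
      (Fin ((Finset.Icc 2 n).filter (fun i => orderOf (q : ZMod r) ∣ i)).card →
        Multiplicative (ZMod (r ^ padicValNat r ((Polynomial.cyclotomic (orderOf (q : ZMod r)) ℤ).eval (q : ℤ)).natAbs)))) := by
  subst hq
  have hq : 1 < Fintype.card F := Fintype.one_lt_card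
  rw [CL.Spec.val_cyclotomic hq hrq]
  have hd := CL.Spec.orderOf_pos_of_not_dvd hrq
  have hm := CL.Spec.natCast_pow_ne_zero (F := F) Fact.out hrq
    (padicValNat r (Fintype.card F ^ orderOf (Fintype.card F : ZMod r) - 1))
  have key : ∃ φ : (Fin ((Finset.Icc 2 n).filter (fun i => orderOf (Fintype.card F : ZMod r) ∣ i)).card →
      Multiplicative (ZMod (r ^ padicValNat r (Fintype.card F ^ orderOf (Fintype.card F : ZMod r) - 1)))) →*
        Matrix.SpecialLinearGroup (Fin n) F, Function.Injective φ := by
    by_cases h1 : orderOf (Fintype.card F : ZMod r) = 1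
    · rw [h1]
      rcases n with _ | n
      · exact ⟨1, fun x y _ => by
          have : IsEmpty (Fin ((Finset.Icc 2 0).filter (fun i => 1 ∣ i)).card) := by simp; infer_instance
          exact Subsingleton.elim _ _⟩
      have e : ((Finset.Icc 2 (n + 1)).filter (fun i => 1 ∣ i)).card = n := by simp
      rw [e]
      obtain ⟨φ, hφ⟩ := CL.Spec.exists_sl_diag (F := F) n
      obtain ⟨g, hg⟩ : ∃ g : Fˣ, orderOf g = r ^ padicValNat r (Fintype.card F ^ 1 - 1) := by
        obtain ⟨g, hg⟩ := IsCyclic.exists_ofOrder_eq_natCard (α := Fˣ)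
        have hdvd : r ^ padicValNat r (Fintype.card F ^ 1 - 1) ∣ orderOf g := by
          rw [hg, Nat.card_units, Nat.card_eq_fintype_card, pow_one]; exact pow_padicValNat_dvd
        exact ⟨g ^ (orderOf g / _), orderOf_pow_orderOf_div (orderOf_pos g).ne' hdvd⟩
      obtain ⟨ρ, hρ, -⟩ := CL.Spec.exists_injective_zmod hg
      exact ⟨_, CL.Spec.exists_pi_comp ρ hρ φ hφ⟩
    · obtain ⟨g, hg⟩ := CL.Spec.exists_gl_orderOf hm
      obtain ⟨ρ, hρ, -⟩ := CL.Spec.exists_injective_zmod hg
      have e := CL.Spec.orderOf_zmod_pow_val hq hrq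
      rw [← Nat.card_eq_fintype_card] at e
      obtain ⟨φ, hφ⟩ := CL.Spec.exists_gl_pi (by rw [← Nat.card_eq_fintype_card] at hd ⊢; rwa [e]) ρ hρ
        (a := ((Finset.Icc 2 n).filter (fun i => orderOf (Fintype.card F : ZMod r) ∣ i)).card) (n := n) (by
          rw [← Nat.card_eq_fintype_card, e, Nat.card_eq_fintype_card]
          refine le_trans (Nat.mul_le_mul_right _ ?_) (Nat.div_mul_le_self n _)
          rw [← Nat.Ioc_filter_dvd_card_eq_div]
          exact Finset.card_le_card (Finset.filter_subset_filter _ fun i hi => by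
            simp only [Finset.mem_Icc, Finset.mem_Ioc] at hi ⊢; omega))
      refine CL.Spec.exists_sl_of_det φ hφ fun a => ?_
      have h2 : (Matrix.GeneralLinearGroup.det (φ a)) ^
          (r ^ padicValNat r (Fintype.card F ^ orderOf (Fintype.card F : ZMod r) - 1)) = 1 := by
        rw [← map_pow, ← map_pow]
        have : a ^ (r ^ padicValNat r (Fintype.card F ^ orderOf (Fintype.card F : ZMod r) - 1)) = 1 := by
          ext i
          simp only [Pi.pow_apply, toAdd_pow, Pi.one_apply, toAdd_one, nsmul_eq_mul, ZMod.natCast_self, zero_mul]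
        rw [this, map_one, map_one]
      have h3 : (Matrix.GeneralLinearGroup.det (φ a)) ^ (Fintype.card F - 1) = 1 := by
        generalize Matrix.GeneralLinearGroup.det (φ a) = u
        rw [← Nat.card_eq_fintype_card, ← Nat.card_units]; exact pow_card_eq_one'
      have h4 : Nat.Coprime (r ^ padicValNat r (Fintype.card F ^ orderOf (Fintype.card F : ZMod r) - 1))
          (Fintype.card F - 1) := by
        refine Nat.Coprime.pow_left _ ((Nat.Prime.coprime_iff_not_dvd Fact.out).2 fun h => h1 ?_)
        rw [← pow_one (Fintype.card F)] at h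
        exact Nat.dvd_one.1 ((CL.Spec.dvd_pow_sub_one_iff hq.le _).1 h)
      have h5 := pow_gcd_eq_one.2 ⟨h2, h3⟩
      rw [h4, pow_one] at h5
      exact congrArg Units.val h5
  obtain ⟨φ, hφ⟩ := key
  refine CL.Spec.nonempty_sylow_equiv_of_card φ hφ ?_ P
  rw [CL.Spec.card_homocyclic, CL.SLn.card_SL, CL.Spec.val_formula hq hrq _ _ (fun i => i + 2) (by simp)
    (fun i hi => Nat.not_dvd_of_pos_of_lt (by omega) (by simp at hi; omega)), ← pow_mul, mul_comm,
    Fintype.card_fin, CL.Spec.card_filter_Icc]
  rfl

end Cfsg.Agent.S2379
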