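import Cfsg.Statements.S2380
import Cfsg.Agent.Known.SpecSyl

set_option autoImplicit false
open scoped MatrixGroups
open Cfsg

namespace Cfsg.Agent.S2380

/-- Sylow subgroups of `GL_n(q)` for large primes. Let `F` be a field with `q` elements and `r` a prime with `r > n` and `r ∤ q`. Let `d` be the multiplicative order of `q` modulo `r` and `m` the `r`-part of the value at `q` of the `d`-th cyclotomic polynomial. Then every Sylow `r`-subgroup of `GL_n(q)` is a direct product of `⌊n/d⌋` cyclic groups of order `m` (the degrees of the Weyl group being `1, …, n`). -/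
theorem result {F : Type*} [Field F] [Fintype F] {q : ℕ} (hq : Fintype.card F = q) (n : ℕ)
    (r : ℕ) [Fact r.Prime] (hrn : n < r) (hrq : ¬ r ∣ q) (P : Sylow r (GL (Fin n) F)) :
    Nonempty (↥(P : Subgroup (GL (Fin n) F)) ≃*
      (Fin (n / orderOf (q : ZMod r)) →
        Multiplicative (ZMod (r ^ padicValNat r ((Polynomial.cyclotomic (orderOf (q : ZMod r)) ℤ).eval (q : ℤ)).natAbs)))) := by
  subst hq
  have hq : 1 < Fintype.card F := Fintype.one_lt_card
  rw [CL.Spec.val_cyclotomic hq hrq]
  have hd := CL.Spec.orderOf_pos_of_not_dvd hrq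
  obtain ⟨g, hg⟩ := CL.Spec.exists_gl_orderOf (CL.Spec.natCast_pow_ne_zero (F := F) Fact.out hrq
    (padicValNat r (Fintype.card F ^ orderOf (Fintype.card F : ZMod r) - 1)))
  obtain ⟨ρ, hρ, -⟩ := CL.Spec.exists_injective_zmod hg
  have e := CL.Spec.orderOf_zmod_pow_val hq hrq
  rw [← Nat.card_eq_fintype_card] at e
  obtain ⟨φ, hφ⟩ := CL.Spec.exists_gl_pi (by rw [← Nat.card_eq_fintype_card] at hd ⊢; rwa [e]) ρ hρ
    (a := n / orderOf (Fintype.card F : ZMod r)) (n := n)
    (by rw [← Nat.card_eq_fintype_card, e]; exact Nat.div_mul_le_self _ _)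
  refine CL.Spec.nonempty_sylow_equiv_of_card φ hφ ?_ P
  rw [CL.Spec.card_homocyclic, CL.SLn.card_GL', CL.Spec.val_formula hq hrq _ _ (fun i => i + 1) (by simp)
    (fun i hi => Nat.not_dvd_of_pos_of_lt (by omega) (by simp at hi; omega)), ← pow_mul, mul_comm,
    Fintype.card_fin, Nat.card_multiples]

end Cfsg.Agent.S2380
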