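import Cfsg.Statements.S2381
import Cfsg.Agent.Known.SpecSyl

set_option autoImplicit false
open Cfsg

namespace Cfsg.Agent.S2381

/-- Sylow subgroups of `Sp_{2n}(q)` for large primes. Let `F` be a field with `q` elements and `r` an odd prime with `r > n` and `r ∤ q` (so `r` does not divide the order `2^n n!` of the Weyl group). Let `d` be the multiplicative order of `q` modulo `r`, `a` the number of `i` with `1 ≤ i ≤ n` and `d ∣ 2i` (the degrees being `2, 4, …, 2n`), and `m` the `r`-part of the value at `q` of the `d`-th cyclotomic polynomial. Then every Sylow `r`-subgroup of the symplectic group `Sp_{2n}(q)` is a direct product of `a` cyclic groups of order `m`. -/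
theorem result {F : Type*} [Field F] [Fintype F] {q : ℕ} (hq : Fintype.card F = q) (n : ℕ)
    (r : ℕ) [Fact r.Prime] (hr2 : r ≠ 2) (hrn : n < r) (hrq : ¬ r ∣ q) (P : Sylow r ↥(Matrix.symplecticGroup (Fin n) F)) :
    Nonempty (↥(P : Subgroup ↥(Matrix.symplecticGroup (Fin n) F)) ≃*
      (Fin ((Finset.Icc 1 n).filter (fun i => orderOf (q : ZMod r) ∣ 2 * i)).card →
        Multiplicative (ZMod (r ^ padicValNat r ((Polynomial.cyclotomic (orderOf (q : ZMod r)) ℤ).eval (q : ℤ)).natAbs)))) := by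
  subst hq
  have hq : 1 < Fintype.card F := Fintype.one_lt_card
  have hr : r.Prime := Fact.out
  rw [CL.Spec.val_cyclotomic hq hrq]
  have hd := CL.Spec.orderOf_pos_of_not_dvd hrq
  have hv := CL.Spec.val_pos hq hrq
  have hm := CL.Spec.natCast_pow_ne_zero (F := F) Fact.out hrq
    (padicValNat r (Fintype.card F ^ orderOf (Fintype.card F : ZMod r) - 1))
  have e := CL.Spec.orderOf_zmod_pow_val hq hrq
  have h2 : 2 < r ^ padicValNat r (Fintype.card F ^ orderOf (Fintype.card F : ZMod r) - 1) :=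
    lt_of_lt_of_le (by have := hr.two_le; omega) (Nat.le_self_pow (by omega) r)
  obtain ⟨η, h0, hη, g, hg⟩ : ∃ η, 0 < η ∧ (∀ i, orderOf (Fintype.card F : ZMod r) ∣ 2 * i → η ∣ i) ∧
      ∃ g : Matrix.symplecticGroup (Fin η) F,
        orderOf g = r ^ padicValNat r (Fintype.card F ^ orderOf (Fintype.card F : ZMod r) - 1) := by
    rcases Nat.even_or_odd' (orderOf (Fintype.card F : ZMod r)) with ⟨η, h | h⟩
    · refine ⟨η, by omega, fun i hi => Nat.dvd_of_mul_dvd_mul_left two_pos (h ▸ hi),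
        CL.Spec.exists_sp_orderOf hm h2 (Or.inr ⟨by rw [Nat.card_eq_fintype_card, e, h], ?_⟩)⟩
      rw [Nat.card_eq_fintype_card]
      have h3 : Fintype.card F ^ orderOf (Fintype.card F : ZMod r) - 1 =
          (Fintype.card F ^ η + 1) * (Fintype.card F ^ η - 1) := by
        rw [h, mul_comm 2, pow_mul, ← Nat.sq_sub_sq, one_pow]
      refine (Nat.Coprime.pow_left _ (hr.coprime_iff_not_dvd.2 fun h' => ?_)).dvd_of_dvd_mul_right
        (pow_padicValNat_dvd.trans h3.dvd)
      have := Nat.le_of_dvd (by omega) ((CL.Spec.dvd_pow_sub_one_iff hq.le _).1 h')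
      omega
    · refine ⟨_, hd, fun i hi => Nat.Coprime.dvd_of_dvd_mul_left (by rw [h]; simp) hi,
        CL.Spec.exists_sp_orderOf hm h2 (Or.inl (by rw [Nat.card_eq_fintype_card, e]))⟩
  obtain ⟨ρ, hρ, -⟩ := CL.Spec.exists_injective_zmod hg
  obtain ⟨φ, hφ⟩ := CL.Spec.exists_sp_pi h0 ρ hρ
    (a := ((Finset.Icc 1 n).filter (fun i => orderOf (Fintype.card F : ZMod r) ∣ 2 * i)).card) (n := n) (by
      refine le_trans (Nat.mul_le_mul_right _ ?_) (Nat.div_mul_le_self n _)
      rw [← Nat.Ioc_filter_dvd_card_eq_div]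
      exact Finset.card_le_card fun i hi => by
        simp only [Finset.mem_Icc, Finset.mem_Ioc, Finset.mem_filter] at hi ⊢
        exact ⟨⟨by omega, hi.1.2⟩, hη i hi.2⟩)
  refine CL.Spec.nonempty_sylow_equiv_of_card φ hφ ?_ P
  rw [CL.Spec.card_homocyclic, CL.Sp.card_symplecticGroup, Nat.card_eq_fintype_card,
    CL.Spec.val_formula hq hrq _ _ (fun i => 2 * (i + 1)) (by simp)
    (fun i hi h => (hr.dvd_mul.1 h).elim (fun h => hr2 ((Nat.prime_dvd_prime_iff_eq hr Nat.prime_two).1 h))
      (Nat.not_dvd_of_pos_of_lt (by omega) (by omega))), ← pow_mul, mul_comm,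
    CL.Spec.card_filter_Icc]
  rfl

end Cfsg.Agent.S2381
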