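import Cfsg.Statements.S2382
import Cfsg.Agent.Known.CurRich3
import Cfsg.Agent.S1035

set_option autoImplicit false
open Cfsg

namespace Cfsg.Agent.S2382


/-- Steinberg's count of semisimple classes for the three types whose simply connected and adjoint groups coincide: in the Chevalley group of type G₂, F₄ or E₈ over a field with `q` elements of characteristic `p`, the conjugacy classes of elements of order prime to `p` number exactly `q^l`, `l = 2, 4, 8` the rank. -/
theorem result {F : Type*} [Field F] [Fintype F] {q : ℕ} (hq : Fintype.card F = q) (p : ℕ) [Fact p.Prime] [CharP F p]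
    (D : Cfsg.Lie.ChevalleyDatum) (hD : D ∈ [Cfsg.Lie.chevG2, Cfsg.Lie.chevF4, Cfsg.Lie.chevE8]) :
    Nat.card {c : ConjClasses ↥(D.group F) // ∃ g : ↥(D.group F), ConjClasses.mk g = c ∧ (orderOf g).Coprime p} = q ^ D.rank := by
  classical
  simp only [List.mem_cons, List.not_mem_nil, or_false] at hD
  rcases hD with rfl | rfl | rfl
  · obtain ⟨E⟩ := CL.Chev.exists_real (D := Cfsg.Lie.chevG2) (by simp)
    exact CL.CurRich.real_card_regular_classes E hq
      (by simpa using Cfsg.Agent.S1035.result hq (Cfsg.Lie.chevG2, 1) (by simp)) p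
  · obtain ⟨E⟩ := CL.Chev.exists_real (D := Cfsg.Lie.chevF4) (by simp)
    exact CL.CurRich.real_card_regular_classes E hq
      (by simpa using Cfsg.Agent.S1035.result hq (Cfsg.Lie.chevF4, 1) (by simp)) p
  · obtain ⟨E⟩ := CL.Chev.exists_real (D := Cfsg.Lie.chevE8) (by simp)
    exact CL.CurRich.real_card_regular_classes E hq
      (by simpa using Cfsg.Agent.S1035.result hq (Cfsg.Lie.chevE8, 1) (by simp)) p

end Cfsg.Agent.S2382
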