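import Cfsg.Statements.S2383
import Cfsg.Agent.Known.CurRich3
import Cfsg.Agent.S1035

set_option autoImplicit false
open Cfsg

namespace Cfsg.Agent.S2383


/-- Steinberg's count of semisimple classes in characteristic 2 for the types B₂, D₄, E₇, where the finite simply connected group has trivial centre and so coincides with the Chevalley group: for the Chevalley group of type B₂, D₄ or E₇ over a field with `q` elements of characteristic 2, the conjugacy classes of elements of odd order number exactly `q^l`, `l` the rank. -/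
theorem result {F : Type*} [Field F] [Fintype F] {q : ℕ} (hq : Fintype.card F = q) [CharP F 2]
    (D : Cfsg.Lie.ChevalleyDatum) (hD : D ∈ [Cfsg.Lie.chevB2, Cfsg.Lie.chevD4, Cfsg.Lie.chevE7]) :
    Nat.card {c : ConjClasses ↥(D.group F) // ∃ g : ↥(D.group F), ConjClasses.mk g = c ∧ Odd (orderOf g)} = q ^ D.rank := by
  classical
  have h2 : Nat.gcd 2 (q - 1) = 1 := by
    obtain ⟨n, -, hn⟩ := FiniteField.card F 2
    have h1 : Even q := by rw [← hq, hn]; exact (Nat.even_pow' n.ne_zero).2 even_two
    have h3 : 0 < q := hq ▸ Fintype.card_pos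
    exact (Nat.coprime_two_left.2 (Nat.Even.sub_odd h3 h1 odd_one))
  simp only [← Nat.coprime_two_right]
  simp only [List.mem_cons, List.not_mem_nil, or_false] at hD
  rcases hD with rfl | rfl | rfl
  · obtain ⟨E⟩ := CL.Chev.exists_real (D := Cfsg.Lie.chevB2) (by simp)
    exact CL.CurRich.real_card_regular_classes E hq
      (by simpa [h2] using Cfsg.Agent.S1035.result hq (Cfsg.Lie.chevB2, Nat.gcd 2 (q - 1)) (by simp)) 2
  · obtain ⟨E⟩ := CL.Chev.exists_real (D := Cfsg.Lie.chevD4) (by simp)
    exact CL.CurRich.real_card_regular_classes E hq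
      (by
        have := Cfsg.Agent.S1035.result hq (Cfsg.Lie.chevD4, Nat.gcd 2 (q - 1) ^ 2) (by simp)
        rw [h2, Nat.one_pow, one_mul] at this
        exact this) 2
  · obtain ⟨E⟩ := CL.Chev.exists_real (D := Cfsg.Lie.chevE7) (by simp)
    exact CL.CurRich.real_card_regular_classes E hq
      (by simpa [h2] using Cfsg.Agent.S1035.result hq (Cfsg.Lie.chevE7, Nat.gcd 2 (q - 1)) (by simp)) 2

end Cfsg.Agent.S2383
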