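import Cfsg.Statements.S2384
import Cfsg.Agent.Known.GLSemi1

set_option autoImplicit false
open Cfsg

namespace Cfsg.Agent.S2384


/-- In `SL_n(q)`, `q` a power of the prime `p`, the number of conjugacy classes of elements of order prime to `p` (the semisimple classes) is `q^(n-1)`. -/
theorem result {F : Type*} [Field F] [Fintype F] {q : ℕ} (hq : Fintype.card F = q) (p : ℕ) [Fact p.Prime] [CharP F p] (n : ℕ) (hn : 1 ≤ n) :
    Nat.card {c : ConjClasses (Matrix.SpecialLinearGroup (Fin n) F) //
      ∃ g : Matrix.SpecialLinearGroup (Fin n) F, ConjClasses.mk g = c ∧ (orderOf g).Coprime p} = q ^ (n - 1) := by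
  have h := CL.GLn.card_conjClasses_semisimple_SL (F := F) (n := Fin n) p (fun _ => True)
    (fun _ => True) (fun _ _ => Iff.rfl)
  simp only [and_true, Fintype.card_fin] at h
  obtain ⟨m, rfl⟩ : ∃ m, n = m + 1 := ⟨n - 1, by omega⟩
  rw [h, CL.GLn.card_monic_coeff_zero m (fun a : F => a = (-1) ^ (m + 1)),
    Nat.card_eq_fintype_card (α := F), hq, Nat.add_sub_cancel]
  simp

end Cfsg.Agent.S2384
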