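import Cfsg.Statements.S2386
import Cfsg.Agent.Known.SemiClass

set_option autoImplicit false
open Cfsg

namespace Cfsg.Agent.S2386

open CL.Known CL.Cls CL.GLn Module Polynomial

/-- In the special unitary group `SU_n(q)` (matrices of determinant one over the field with `q²` elements preserving the standard Hermitian form), `q` a power of the prime `p`, the number of conjugacy classes of elements of order prime to `p` is `q^(n-1)`. -/
theorem result {F : Type*} [Field F] [Fintype F] {q : ℕ} (hF : Fintype.card F = q ^ 2) (p : ℕ) [Fact p.Prime] [CharP F p] (n : ℕ) (hn : 1 ≤ n) :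
    Nat.card {c : ConjClasses ↥(Cfsg.SU n F q) // ∃ g : ↥(Cfsg.SU n F q), ConjClasses.mk g = c ∧ (orderOf g).Coprime p} = q ^ (n - 1) := by
  have h := CL.Uni.isBar_bar hF
  obtain ⟨n, rfl⟩ : ∃ n', n = n' + 1 := ⟨n - 1, by omega⟩
  have hc : (-1 : F) ^ (n + 1) * CL.Uni.bar hF ((-1) ^ (n + 1)) = 1 := by simp [← mul_pow]
  rw [card_classes_eq _ (fun g : Cfsg.SU (n + 1) F q => g.1.1.charpoly)
    (fun f => f.Monic ∧ f.natDegree = n + 1 ∧ f.coeff 0 = (-1) ^ (n + 1) ∧ recip (CL.Uni.bar hF) f = f),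
    card_selfRecip hc]
  · obtain ⟨c, hc'⟩ := h.exists_ne
    have := card_fixed_semilinear (σ := CL.Uni.bar hF) (V := Fin n → F)
      ⟨⟨fun a i => (-1) ^ (n + 1) * CL.Uni.bar hF (a i.rev), fun a b => by ext; simp [mul_add]⟩,
        fun c a => by ext; simp [mul_left_comm]⟩ (fun a => by ext; simp [h.bar_bar, ← mul_assoc, ← mul_pow])
      h.bar_bar hc'
    rw [Nat.card_fun, h.card, Nat.card_eq_fintype_card (α := Fin n), Fintype.card_fin, ← pow_mul, mul_comm,
      pow_mul] at this
    rw [add_tsub_cancel_right, ← Nat.pow_left_injective two_ne_zero this]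
    exact Nat.card_congr (Equiv.subtypeEquivRight fun a => funext_iff.symm)
  · exact fun a b ha hb => ⟨fun H => IsConj.charpoly_eq (isConj_of_isConj_SL ((Cfsg.SU _ F q).subtype.map_isConj H)),
      isConj_SU_of_charpoly_eq h p ha hb⟩
  · intro f
    constructor
    · rintro ⟨f1, f2, f3, f4⟩
      obtain ⟨s, s1, rfl⟩ := exists_multiset_prod_eq f1
      obtain ⟨A, hA⟩ := exists_GU_elemDiv (n := n + 1) h (s := s) (fun P hP => ⟨(s1 P hP).1, (s1 P hP).2, fun e => by
        have := X_dvd_iff.1 ((X_dvd_iff.2 e).trans (Multiset.dvd_prod hP))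
        simp [f3] at this⟩) f4 (by rw [← natDegree_multiset_prod_of_monic _ fun P hP => (s1 P hP).1, f2])
      have h1 := (prod_elemDiv _).symm.trans (congrArg _ hA)
      refine ⟨⟨⟨A.1.1, by rw [Matrix.det_eq_sign_charpoly_coeff, h1, f3]; simp [← mul_pow]⟩, A.2⟩, ?_, h1⟩
      rw [← Subgroup.orderOf_coe, ← orderOf_toGL, GL_orderOf_coprime_iff]
      exact fun P hP => (s1 P (hA ▸ hP)).2
    · rintro ⟨g, -, rfl⟩
      refine ⟨Matrix.charpoly_monic _, by simp, ?_, GU_recip_charpoly h ⟨_, (CL.Uni.mem_SU_iff _).1 g.2⟩⟩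
      have := Matrix.det_eq_sign_charpoly_coeff (g.1 : Matrix (Fin (n + 1)) (Fin (n + 1)) F)
      rw [g.1.2, Fintype.card_fin] at this
      have e : (-1 : F) ^ (n + 1) * (-1) ^ (n + 1) = 1 := by simp [← mul_pow]
      linear_combination (-(-1) ^ (n + 1)) * this - g.1.1.charpoly.coeff 0 * e

end Cfsg.Agent.S2386
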