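import Cfsg.Statements.S2391
import Cfsg.Agent.Base

set_option autoImplicit false
open Cfsg

namespace Cfsg.Agent.S2391

/-- The Borel–Tits property of `SL_n(q)` in flag form: for a field `F` of characteristic `p` with finitely many elements and a non-trivial `p`-subgroup `U` of `SL_n(F)`, there is a flag `0 = V₀ < V₁ < ⋯ < V_{k+1} = F^n` with at least one proper non-zero member such that every element of the normaliser of `U` maps each `V_i` onto itself and every element of `U` acts trivially on each quotient `V_{i+1}/V_i` (so the normaliser lies in the parabolic subgroup of the flag and `U` in its unipotent radical). -/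
theorem result {F : Type*} [Field F] [Fintype F] (p : ℕ) [Fact p.Prime] [CharP F p] (n : ℕ)
    (U : Subgroup (Matrix.SpecialLinearGroup (Fin n) F)) (hU : IsPGroup p ↥U) (hne : U ≠ ⊥) :
    ∃ (k : ℕ) (V : Fin (k + 2) → Submodule F (Fin n → F)), 1 ≤ k ∧ StrictMono V ∧ V 0 = ⊥ ∧ V (Fin.last (k + 1)) = ⊤ ∧
      (∀ g ∈ Subgroup.normalizer (U : Set (Matrix.SpecialLinearGroup (Fin n) F)), ∀ i, (V i).map (Matrix.mulVecLin (g : Matrix (Fin n) (Fin n) F)) = V i) ∧
      (∀ u ∈ U, ∀ i : Fin (k + 1), ∀ v ∈ V i.succ, (u : Matrix (Fin n) (Fin n) F).mulVec v - v ∈ V (Fin.castSucc i)) := by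
  let ρ : Representation F (Matrix.SpecialLinearGroup (Fin n) F) (Fin n → F) :=
    LinearEquiv.automorphismGroup.toLinearMapMonoidHom.comp Matrix.SpecialLinearGroup.toLin'
  have hρ : ∀ g v, ρ g v = (g : Matrix (Fin n) (Fin n) F).mulVec v := fun _ _ => rfl
  obtain ⟨W, h0, hs⟩ : ∃ W : ℕ → Submodule F (Fin n → F), W 0 = ⊥ ∧
      ∀ i v, v ∈ W (i + 1) ↔ ∀ u ∈ U, ρ u v - v ∈ W i :=
    ⟨fun i => i.rec ⊥ fun _ X => ⨅ u ∈ U, X.comap (ρ u - 1), rfl, fun i v => by simp⟩
  have hN : ∀ i, ∀ g ∈ Subgroup.normalizer (U : Set (Matrix.SpecialLinearGroup (Fin n) F)), ∀ v ∈ W i, ρ g v ∈ W i := by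
    intro i g hg
    induction i with
    | zero => simp [h0]
    | succ i ih =>
      refine fun v hv => (hs _ _).2 fun u hu => ?_
      have := ih _ ((hs _ _).1 hv (g⁻¹ * u * g) ((Subgroup.mem_normalizer_iff''.1 hg u).1 hu))
      rwa [map_sub, ← Module.End.mul_apply, ← map_mul, ← mul_assoc, mul_inv_cancel_left, map_mul] at this
  have hm : ∀ i, W i ≤ W (i + 1) := fun i v hv => (hs _ _).2 fun u hu => sub_mem (hN i u (U.le_normalizer hu) v hv) hv
  have hlt : ∀ i, W i ≠ ⊤ → W i < W (i + 1) := fun i hi => by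
    let _ : MulAction U ((Fin n → F) ⧸ W i) := MulAction.compHom _
      (Representation.quotient (ρ.comp U.subtype) (W i) fun u v hv => hN i u (U.le_normalizer u.2) v hv)
    have : Finite ((Fin n → F) ⧸ W i) := Finite.of_surjective _ (W i).mkQ_surjective
    have := Submodule.Quotient.nontrivial_iff.2 hi
    obtain ⟨v, hv⟩ := exists_ne (0 : (Fin n → F) ⧸ W i)
    have h1 : addOrderOf v = p :=
      addOrderOf_eq_prime (by rw [← Nat.cast_smul_eq_nsmul F, CharP.cast_eq_zero, zero_smul]) hv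
    obtain ⟨x, hx, hx0⟩ := hU.exists_fixed_point_of_prime_dvd_card_of_fixed_point ((Fin n → F) ⧸ W i)
      (h1 ▸ addOrderOf_dvd_natCard v) (a := 0) fun u => map_zero
        (Representation.quotient (ρ.comp U.subtype) (W i) (fun u v hv => hN i u (U.le_normalizer u.2) v hv) u)
    obtain ⟨x, rfl⟩ := (W i).mkQ_surjective x
    exact SetLike.lt_iff_le_and_exists.2 ⟨hm i, x, (hs _ _).2 fun u hu => (Submodule.Quotient.eq _).1 (hx ⟨u, hu⟩),
      fun h => hx0 ((Submodule.Quotient.mk_eq_zero _).2 h).symm⟩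
  have hex : ∃ N, W N = ⊤ := by
    obtain ⟨N, h⟩ := monotone_stabilizes_iff_noetherian.2 inferInstance ⟨W, monotone_nat_of_le_succ hm⟩
    exact ⟨N, by_contra fun e => (hlt N e).ne (h (N + 1) N.le_succ)⟩
  classical
  have h2 : 2 ≤ Nat.find hex := by
    by_contra h
    have : W 1 = ⊤ := top_le_iff.1 (Nat.find_spec hex ▸ monotone_nat_of_le_succ hm (by omega))
    refine hne ((Subgroup.eq_bot_iff_forall _).2 fun u hu => Matrix.SpecialLinearGroup.toLin'_injective
      (LinearEquiv.ext fun v => ?_))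
    have := (hs 0 v).1 (this ▸ Submodule.mem_top) u hu
    rw [h0, Submodule.mem_bot, sub_eq_zero] at this
    rw [map_one]; exact this
  obtain ⟨k, hk⟩ : ∃ k, Nat.find hex = k + 1 := ⟨_, (Nat.sub_add_cancel (one_le_two.trans h2)).symm⟩
  refine ⟨k, fun i => W i, by omega, Fin.strictMono_iff_lt_succ.2 fun i => hlt i (Nat.find_min hex (i.2.trans_eq hk.symm)), h0,
    (congrArg W hk).symm.trans (Nat.find_spec hex), fun g hg i => le_antisymm ?_ fun v hv => ?_,
    fun u hu i v hv => (hs i v).1 hv u hu⟩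
  · rintro _ ⟨v, hv, rfl⟩
    exact hN i g hg v hv
  · exact ⟨_, hN i g⁻¹ (inv_mem hg) v hv, (hρ g _).symm.trans
      (by rw [← Module.End.mul_apply, ← map_mul, mul_inv_cancel, map_one]; rfl)⟩

end Cfsg.Agent.S2391
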