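import Cfsg.Statements.S2398
import Cfsg.Agent.Known.StbPres
import Cfsg.Agent.Chev.RealAll

set_option autoImplicit false
open Cfsg

namespace Cfsg.Agent.S2398

/-- Universality of the group Δ presented by Steinberg's generators with relators (R1), (R2), over a field with more than four elements (types G₂, B₂, D₄, F₄, E₆, E₇, E₈): for every central extension `π₁ : E → G₁` (surjective, central kernel) and every homomorphism `σ : Δ → G₁` there is exactly one homomorphism `τ : Δ → E` with `π₁ ∘ τ = σ`. In particular every central extension of Δ splits; together with the fact that Δ maps onto the Chevalley group with central kernel, this makes Δ the universal central extension of the Chevalley group. -/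
theorem result {K : Type*} [Field K] (hK5 : ∃ s : Finset K, 4 < s.card) (D : Cfsg.Lie.ChevalleyDatum) (hD : D ∈ [Cfsg.Lie.chevG2, Cfsg.Lie.chevB2, Cfsg.Lie.chevD4, Cfsg.Lie.chevF4, Cfsg.Lie.chevE6, Cfsg.Lie.chevE7, Cfsg.Lie.chevE8])
    {G₁ E : Type*} [Group G₁] [Group E] (π₁ : E →* G₁) (hπ : Function.Surjective π₁) (hc : π₁.ker ≤ Subgroup.center E)
    (σ : D.SteinbergCover K →* G₁) : ∃! τ : D.SteinbergCover K →* E, π₁.comp τ = σ := by
  classical
  obtain ⟨R⟩ := CL.Chev.exists_real hD
  have hp : Group.IsPerfect (D.SteinbergCover K) := R.isPerfect_of_grp (R.SC_faithful K).uFaithful (R.SC_grp K) hD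
    fun _ => by
      obtain ⟨s, hs⟩ := hK5
      obtain ⟨v, -, hv⟩ := Finset.exists_mem_notMem_of_card_lt_card (s := {(0 : K), 1}) (t := s)
        (lt_of_le_of_lt Finset.card_le_two (by omega))
      exact ⟨v, by simpa [not_or] using hv⟩
  have h1 := CL.Schur.pbFst_surjective σ hπ
  have h2 := CL.Schur.pbFst_ker_le_center σ hc
  have h3 := CL.Chev.surjective_commutator h1 hp
  obtain ⟨τ, hτ⟩ := R.exists_hom_of_lifts (CL.Chev.StSys.lifts_big
    (π := (R.θC K).comp ((CL.Schur.pbFst σ π₁).comp (commutator _).subtype)) ((R.θC_surjective K).comp h3)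
    (CL.Schur.comp_ker_le_center (CL.Chev.isPerfect_commutator h1 h2 hp) (CL.Chev.ker_comp_subtype_le h2 _)
      (R.θC_ker K).le) R.SG_faithful.uFaithful R.SG_hMul R.irred R.two_le_card hK5)
  have h4 := CL.Schur.lift_unique_of_perfect (R.θC_ker K).le hp
    (((CL.Schur.pbFst σ π₁).comp (Subgroup.subtype _)).comp τ) (MonoidHom.id _) hτ
  have h5 : π₁.comp (((CL.Schur.pbSnd σ π₁).comp (Subgroup.subtype _)).comp τ) = σ := by
    rw [← MonoidHom.comp_assoc, ← MonoidHom.comp_assoc, ← CL.Schur.pb_comm, MonoidHom.comp_assoc,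
      MonoidHom.comp_assoc, ← MonoidHom.comp_assoc τ, h4, MonoidHom.comp_id]
  exact ⟨_, h5, fun τ' h => CL.Schur.lift_unique_of_perfect hc hp _ _ (h.trans h5.symm)⟩

end Cfsg.Agent.S2398
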