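import Cfsg.Statements.S2399
import Cfsg.Agent.Known.StbPres
import Cfsg.Agent.Chev.RealAll

set_option autoImplicit false
open scoped MatrixGroups
open Cfsg

namespace Cfsg.Agent.S2399

/-- Projective representations in the natural characteristic lift: for each of the types G₂, B₂, D₄, F₄, E₆, E₇, E₈ over any field `K` (for types B₂ and G₂ the field must have more than two elements — the cases where the Chevalley group is not simple are set aside), every homomorphism from the Chevalley group to `PGL_n(L) = GL_n(L)/Z`, `L` a field of the same characteristic as `K`, lifts uniquely to a homomorphism from the group Δ presented by (R1), (R2) to `GL_n(L)`, compatibly with the projection Δ → Chevalley group sending x̄_r(t) to x_r(t). -/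
theorem result {K : Type*} [Field K] (D : Cfsg.Lie.ChevalleyDatum) (hD : D ∈ [Cfsg.Lie.chevG2, Cfsg.Lie.chevB2, Cfsg.Lie.chevD4, Cfsg.Lie.chevF4, Cfsg.Lie.chevE6, Cfsg.Lie.chevE7, Cfsg.Lie.chevE8]) (hK : D ∈ [Cfsg.Lie.chevB2, Cfsg.Lie.chevG2] → ∃ x : K, x ≠ 0 ∧ x ≠ 1)
    (θ : D.SteinbergCover K →* ↥(D.group K))
    (hθ : ∀ (r : ℕ) (t : K), r < D.nroots → ((θ (D.scGen K r t) : GL D.Idx K) : Matrix D.Idx D.Idx K) = D.x K r t)
    {L : Type*} [Field L] (hL : ringChar L = ringChar K) {n : ℕ}
    (φ : ↥(D.group K) →* GL (Fin n) L ⧸ Subgroup.center (GL (Fin n) L)) :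
    ∃! ψ : D.SteinbergCover K →* GL (Fin n) L, (QuotientGroup.mk' (Subgroup.center (GL (Fin n) L))).comp ψ = φ.comp θ := by
  classical
  obtain ⟨R⟩ := CL.Chev.exists_real hD
  have hp : Group.IsPerfect (D.SteinbergCover K) := R.isPerfect_of_grp (R.SC_faithful K).uFaithful (R.SC_grp K) hD hK
  have hG : Group.IsPerfect (D.group K) := R.isPerfect_of_grp R.SG_faithful.uFaithful R.SG_grp hD hK
  have hθ' : θ = R.θC K := PresentedGroup.ext fun ⟨r, t⟩ => by
    rw [CL.Chev.Real.θC, R.homC_of, ← CL.Chev.Real.scGen_coe]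
    exact R.eq_SG (hθ r t r.2)
  subst hθ'
  set π₁ := QuotientGroup.mk' (Subgroup.center (GL (Fin n) L))
  have hc : π₁.ker ≤ Subgroup.center _ := (QuotientGroup.ker_mk' _).le
  have h1 := CL.Schur.pbFst_surjective φ (QuotientGroup.mk'_surjective (Subgroup.center (GL (Fin n) L)))
  have h2 := CL.Schur.pbFst_ker_le_center φ hc
  have h3 := CL.Chev.surjective_commutator h1 hG
  have h4 := CL.Chev.ker_comp_subtype_le h2 (commutator _)
  have h5 : (R.SG K).Lifts ((CL.Schur.pbFst φ π₁).comp (commutator _).subtype) := by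
    by_cases hK5 : ∃ s : Finset K, 4 < s.card
    · exact CL.Chev.StSys.lifts_big h3 h4 R.SG_faithful.uFaithful R.SG_hMul R.irred R.two_le_card hK5
    have : Finite K := by
      by_contra h
      have : Infinite K := not_finite_iff_infinite.1 h
      obtain ⟨s, hs⟩ := Infinite.exists_subset_card_eq K 5
      exact hK5 ⟨s, by omega⟩
    have := (R.SG K).finite_of_grp R.SG_grp
    have := CL.Schur.finite_commutator_of_central h2
    have hpr : Fact (ringChar K).Prime := ⟨CharP.char_is_prime K _⟩
    have : CharP L (ringChar K) := hL ▸ ringChar.charP L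
    have hz : ∀ z : commutator (CL.Schur.pb φ π₁), ((CL.Schur.pbFst φ π₁).comp (commutator _).subtype) z = 1 →
        z ^ ringChar K = 1 → z = 1 := fun z e1 e2 => by
      have a1 : z.1.1.1 = 1 := e1
      have a2 : z.1.1.2 ∈ Subgroup.center (GL (Fin n) L) := by
        have : φ z.1.1.1 = π₁ z.1.1.2 := z.1.2
        rw [a1, map_one] at this
        exact (QuotientGroup.eq_one_iff _).1 this.symm
      have a3 : z.1.1.2 ^ ringChar K = 1 := congrArg (fun y => y.1.1.2) e2
      obtain ⟨c, hc⟩ := (Matrix.GeneralLinearGroup.center_eq_range_scalar).le a2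
      refine Subtype.ext (Subtype.ext (Prod.ext a1 ?_))
      change z.1.1.2 = 1
      rcases Nat.eq_zero_or_pos n with rfl | hn
      · exact Subsingleton.elim _ _
      have a4 := congrArg (fun A : GL (Fin n) L => A.1 ⟨0, hn⟩ ⟨0, hn⟩) a3
      rw [← hc, ← map_pow] at a4
      have a5 : (c : L) ^ ringChar K = 1 := by simpa [Matrix.diagonal_pow] using a4
      have a6 : c = 1 := Units.ext (frobenius_inj L (ringChar K) (by simpa [frobenius_def] using a5))
      rw [← hc, a6, map_one]
    refine CL.Chev.StSys.lifts_of_torsion h3 h4 R.SG_faithful.uFaithful (p := ringChar K) hz fun z hz1 => ?_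
    let f : ((CL.Schur.pbFst φ π₁).comp (commutator _).subtype).ker → ((CL.Schur.pbFst φ π₁).comp
      (commutator _).subtype).ker := fun y => y ^ ringChar K
    have hf : Function.Injective f := fun a b e => by
      have c1 : Commute a.1 b.1⁻¹ := Subgroup.mem_center_iff.1 (inv_mem (h4 b.2)) a.1
      have := hz _ (mul_mem a.2 (inv_mem b.2)) (by
        rw [c1.mul_pow, inv_pow, mul_inv_eq_one]; exact congrArg Subtype.val e)
      exact Subtype.ext (mul_inv_eq_one.1 this)
    obtain ⟨y, hy⟩ := Finite.injective_iff_surjective.1 hf ⟨z, hz1⟩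
    exact ⟨y, y.2, congrArg Subtype.val hy⟩
  obtain ⟨τ, hτ⟩ := R.exists_hom_of_lifts h5
  have h6 : π₁.comp (((CL.Schur.pbSnd φ π₁).comp (Subgroup.subtype _)).comp τ) = φ.comp (R.θC K) := by
    rw [← MonoidHom.comp_assoc, ← MonoidHom.comp_assoc, ← CL.Schur.pb_comm, MonoidHom.comp_assoc,
      MonoidHom.comp_assoc, ← MonoidHom.comp_assoc τ, hτ]
  exact ⟨_, h6, fun τ' h => CL.Schur.lift_unique_of_perfect hc hp _ _ (h.trans h6.symm)⟩

end Cfsg.Agent.S2399
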