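import Cfsg.Statements.S2402
import Cfsg.Agent.Known.Gen2SL

set_option autoImplicit false
open Cfsg

namespace Cfsg.Agent.S2402

/-- Explicit two-element generation of `PSL_{n+1}(K)` for a finite field `K` with more than three elements: let `k` generate the multiplicative group of `K`, `h = diag(k, k⁻¹, 1, …, 1)`, `x = 1 + E₁₂` (the elementary transvection) and `w` the monomial matrix with entries `1` in positions `(i, i+1)` and `(−1)^n` in position `(n+1, 1)`. Then `h` and `x·w` generate `SL_{n+1}(K)` modulo its centre: the subgroup they generate together with the centre is everything. -/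
theorem result {K : Type*} [Field K] [Fintype K] (hK : 3 < Fintype.card K) (n : ℕ) (hn : 1 ≤ n)
    (k : Kˣ) (hk : ∀ u : Kˣ, u ∈ Subgroup.zpowers k)
    (h x w : Matrix.SpecialLinearGroup (Fin (n + 1)) K)
    (hh : (h : Matrix (Fin (n + 1)) (Fin (n + 1)) K) =
      Matrix.diagonal (fun i => if i.val = 0 then (k : K) else if i.val = 1 then ((k⁻¹ : Kˣ) : K) else 1))
    (hx : (x : Matrix (Fin (n + 1)) (Fin (n + 1)) K) = Matrix.transvection (0 : Fin (n + 1)) (1 : Fin (n + 1)) 1)
    (hw : (w : Matrix (Fin (n + 1)) (Fin (n + 1)) K) =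
      Matrix.of (fun i j => if j.val = i.val + 1 then 1 else if i.val = n ∧ j.val = 0 then (-1) ^ n else 0)) :
    Subgroup.closure ({h, x * w} : Set (Matrix.SpecialLinearGroup (Fin (n + 1)) K)) ⊔
      Subgroup.center (Matrix.SpecialLinearGroup (Fin (n + 1)) K) = ⊤ := by
  have n01 : (0 : Fin (n + 1)) ≠ 1 := by obtain ⟨n, rfl⟩ := Nat.exists_eq_add_of_le' hn; simp
  obtain rfl : x = CL.Known.elt 0 1 1 := Subtype.ext (hx.trans (CL.Known.elt_val n01 1).symm)
  have ho : ∀ m : ℕ, (k : K) ^ m = 1 → Nat.card K - 1 ∣ m := fun m hm => by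
    rw [← Nat.card_units, ← orderOf_eq_card_of_forall_mem_zpowers hk]
    exact orderOf_dvd_of_pow_eq_one (Units.ext (by simpa using hm))
  rw [CL.Known.closure_eq_top_big k.ne_zero (CL.Known.sq_ne_one_of_card (hK.trans_eq Nat.card_eq_fintype_card.symm) ho)
    (CL.Known.powGen_pow k.ne_zero ho two_pos (Or.inl le_rfl)) hn (fun i => by split_ifs <;> simp) (hh.trans ?_)
    (hw.trans (CL.Known.cycle_matrix_eq n _)), top_sup_eq]
  congr 1
  funext i
  obtain ⟨n, rfl⟩ := Nat.exists_eq_add_of_le' hn
  simp only [CL.Known.dgl, Fin.ext_iff, Fin.val_zero, Fin.val_one, Units.val_inv_eq_inv_val]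

end Cfsg.Agent.S2402
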