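import Cfsg.Statements.S2410
import Cfsg.Agent.Chev.SzSub2

set_option autoImplicit false
open Cfsg

namespace Cfsg.Agent.S2410

/-- The Suzuki group over the field with `2^(2m+1)` elements, `m ≥ 1` (realised as the stabiliser in `SL₄` of the Suzuki–Tits ovoid), is generated by two of its elements. -/
theorem result {F : Type*} [Field F] [Fintype F] {m : ℕ} (hm : 1 ≤ m) (hF : Fintype.card F = 2 ^ (2 * m + 1)) :
    ∃ a b : ↥(Cfsg.Sz F m), Subgroup.closure ({a, b} : Set ↥(Cfsg.Sz F m)) = ⊤ := by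
  have M := CL.Chev.Sz.modelSz hm hF
  obtain ⟨c, hc⟩ := IsCyclic.exists_generator (α := Fˣ)
  refine ⟨M.D c, M.T 1 0 * M.w, ?_⟩
  generalize hL : Subgroup.closure ({M.D c, M.T 1 0 * M.w} : Set ↥(Cfsg.Sz F m)) = L
  have h1 : M.D c ∈ L := hL ▸ Subgroup.subset_closure (by simp)
  have h2 : M.T 1 0 * M.w ∈ L := hL ▸ Subgroup.subset_closure (by simp)
  have hD : ∀ d, M.D d ∈ L := fun d => by
    obtain ⟨n, rfl⟩ := hc d
    rw [map_zpow]; exact zpow_mem h1 n
  obtain ⟨e, he⟩ := M.toTits.exists_unit_ne_one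
  have hs : M.σ e * 1 + 1 ≠ 0 := fun h => he (Units.ext (M.toTits.σ_eq_one (by simpa using M.toTits.add_eq_zero.1 h)))
  have h3 : M.D e * M.T 1 0 * (M.D e)⁻¹ * (M.T 1 0)⁻¹ ∈ L := by
    have := mul_mem (hD e) (mul_mem (mul_mem h2 (hD e)) (inv_mem h2))
    rw [← M.w_conj_D]
    convert this using 1
    rw [mul_inv_rev, M.w_inv]
    group
  rw [M.D_conj_T, M.T_inv, M.T_mul] at h3
  have h4 : ∀ a, a ≠ 0 → ∃ b, M.T a b ∈ L := fun a ha => by
    obtain ⟨d, hd⟩ := M.toTits.exists_unit_σ_mul hs ha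
    have := mul_mem (mul_mem (hD d) h3) (inv_mem (hD d))
    rw [M.D_conj_T, hd] at this
    exact ⟨_, this⟩
  have h5 : ∀ b, M.T 0 b ∈ L := fun b => by
    obtain ⟨a, rfl⟩ := M.toTits.exists_σ_mul_self b
    by_cases ha : a = 0
    · simp [ha]
    · obtain ⟨b, hb⟩ := h4 a ha
      rw [← M.T_sq a b]; exact mul_mem hb hb
  refine M.eq_top_of_U_le ?_ fun h => ?_
  · intro u hu
    obtain ⟨a, b, rfl⟩ := M.mem_U.1 hu
    by_cases ha : a = 0
    · rw [ha]; exact h5 b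
    · obtain ⟨b', hb⟩ := h4 a ha
      have := mul_mem hb (h5 (b' + b))
      rwa [M.T_mul_T_zero, ← add_assoc, M.toTits.add_self, zero_add] at this
  · exact M.w_not_mem_B ((Subgroup.mul_mem_cancel_left _ (M.T_mem_B 1 0)).1 (h h2))

end Cfsg.Agent.S2410
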