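import Cfsg.Statements.S2416
import Cfsg.Agent.Chev.TabGenN

set_option autoImplicit false
open scoped MatrixGroups
open Cfsg

namespace Cfsg.Agent.S2416

/-- A Chevalley group of type G₂, B₂, D₄, F₄, E₆, E₇ or E₈ over a finite field lies in (indeed equals) the subgroup generated by its monomial subgroup `N` and a single fundamental root subgroup `X_p`, where `p` is a short fundamental root if there are two root lengths (any fundamental root otherwise), provided the characteristic is not 2 for types B₂, F₄ and not 3 for type G₂ (and the field has more than two elements for B₂, G₂). -/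
theorem result {K : Type*} [Field K] [Finite K] (D : Cfsg.Lie.ChevalleyDatum) (hD : D ∈ [Cfsg.Lie.chevG2, Cfsg.Lie.chevB2, Cfsg.Lie.chevD4, Cfsg.Lie.chevF4, Cfsg.Lie.chevE6, Cfsg.Lie.chevE7, Cfsg.Lie.chevE8])
    (hK : D ∈ [Cfsg.Lie.chevB2, Cfsg.Lie.chevG2] → ∃ x : K, x ≠ 0 ∧ x ≠ 1)
    (h2 : D ∈ [Cfsg.Lie.chevB2, Cfsg.Lie.chevF4] → ringChar K ≠ 2) (h3 : D = Cfsg.Lie.chevG2 → ringChar K ≠ 3)
    (i : ℕ) (hi : i < D.rank) (hshort : D.isLong (D.simple i) = false) :
    D.group K ≤ D.monomialSubgroup K ⊔ D.rootSubgroup K (D.simple i) := by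
  obtain ⟨E⟩ := CL.Chev.exists_real hD
  rw [E.group_eq, E.monomialSubgroup_eq]
  have h : ∀ t, E.xN (D.simple i) t ∈ (E.S K).N ⊔ D.rootSubgroup K (D.simple i) := fun t =>
    Subgroup.mem_sup_right (Subgroup.subset_closure ⟨t, E.xN_val _ t⟩)
  have hc : ∀ p : ℕ, p.Prime → ringChar K ≠ p → ((p : ℤ) : K) ≠ 0 := fun p hp h e =>
    h (CharP.ringChar_of_prime_eq_zero hp (by simpa using e))
  simp only [List.mem_cons, List.not_mem_nil, or_false] at hD
  rcases hD with rfl | rfl | rfl | rfl | rfl | rfl | rfl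
  · exact CL.Chev.tabG2.grp_le_short E le_sup_left 7 9 10 3 (hc 3 Nat.prime_three (h3 rfl))
      (by clear * - hi hshort; revert i; decide +kernel) h
  · exact CL.Chev.tabB2.grp_le_short E le_sup_left 5 6 7 2 (hc 2 Nat.prime_two (h2 (by simp)))
      (by clear * - hi hshort; revert i; decide +kernel) h
  · exact CL.Chev.tabD4.grp_le_two E le_sup_left (by clear * - hi; revert i; decide +kernel) h h
  · exact CL.Chev.tabF4.grp_le_short E le_sup_left 27 28 30 2 (hc 2 Nat.prime_two (h2 (by simp)))
      (by clear * - hi hshort; revert i; decide +kernel) h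
  · exact CL.Chev.tabE6.grp_le_two E le_sup_left (by clear * - hi; revert i; decide +kernel) h h
  · exact CL.Chev.tabE7.grp_le_two E le_sup_left (by clear * - hi; revert i; decide +kernel) h h
  · exact CL.Chev.tabE8.grp_le_two E le_sup_left (by clear * - hi; revert i; decide +kernel) h h

end Cfsg.Agent.S2416
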