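import Cfsg.Statements.S2417
import Cfsg.Agent.Chev.TabGenN

set_option autoImplicit false
open scoped MatrixGroups
open Cfsg

namespace Cfsg.Agent.S2417

/-- In the characteristics with an exceptional graph symmetry — type B₂ or F₄ in characteristic 2 (field of more than two elements for B₂) and type G₂ in characteristic 3 — the Chevalley group lies in the subgroup generated by its monomial subgroup `N` and the two fundamental root subgroups `X_a`, `X_b` of a short root `a` and a long root `b` joined in the Dynkin diagram. -/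
theorem result {K : Type*} [Field K] [Finite K] (e : Cfsg.Lie.ChevalleyDatum × ℕ)
    (he : e ∈ [(Cfsg.Lie.chevB2, 2), (Cfsg.Lie.chevF4, 2), (Cfsg.Lie.chevG2, 3)]) [CharP K e.2]
    (hK : e.1 = Cfsg.Lie.chevB2 → ∃ x : K, x ≠ 0 ∧ x ≠ 1)
    (i j : ℕ) (hi : i < e.1.rank) (hj : j < e.1.rank) (hshort : e.1.isLong (e.1.simple i) = false)
    (hlong : e.1.isLong (e.1.simple j) = true) (hbond : e.1.bonds i j ≠ 0) :
    e.1.group K ≤ e.1.monomialSubgroup K ⊔ e.1.rootSubgroup K (e.1.simple i) ⊔ e.1.rootSubgroup K (e.1.simple j) := by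
  obtain ⟨D, p⟩ := e
  obtain ⟨E⟩ := CL.Chev.exists_real (D := D) (by
    simp only [List.mem_cons, List.not_mem_nil, or_false, Prod.mk.injEq] at he ⊢; tauto)
  rw [E.group_eq, E.monomialSubgroup_eq]
  have h : ∀ r t, E.xN r t ∈ D.rootSubgroup K r := fun r t => Subgroup.subset_closure ⟨t, E.xN_val _ t⟩
  have h1 := fun t => Subgroup.mem_sup_left (T := D.rootSubgroup K (D.simple j))
    (Subgroup.mem_sup_right (S := (E.S K).N) (h (D.simple i) t))
  have h2 := fun t => Subgroup.mem_sup_right (S := (E.S K).N ⊔ D.rootSubgroup K (D.simple i)) (h (D.simple j) t)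
  simp only [List.mem_cons, List.not_mem_nil, or_false, Prod.mk.injEq] at he hi hj hshort hlong
  rcases he with ⟨rfl, -⟩ | ⟨rfl, -⟩ | ⟨rfl, -⟩
  · exact CL.Chev.tabB2.grp_le_two E (le_sup_left.trans le_sup_left)
      (by clear * - hi hj hshort hlong; revert hshort hlong; revert j; revert i; decide +kernel) h1 h2
  · exact CL.Chev.tabF4.grp_le_two E (le_sup_left.trans le_sup_left)
      (by clear * - hi hj hshort hlong; revert hshort hlong; revert j; revert i; decide +kernel) h1 h2
  · exact CL.Chev.tabG2.grp_le_two E (le_sup_left.trans le_sup_left)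
      (by clear * - hi hj hshort hlong; revert hshort hlong; revert j; revert i; decide +kernel) h1 h2

end Cfsg.Agent.S2417
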