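import Cfsg.Statements.S2418
import Cfsg.Agent.Chev.CoxTables
import Cfsg.Agent.Chev.CoxWordEq

set_option autoImplicit false
open Cfsg

namespace Cfsg.Agent.S2418

open CL.Cox in
theorem center_two {n : ℕ} {M : CoxeterMatrix (Fin n)} {A : Matrix (Fin n) (Fin n) ℤ} (h : RepOK M A) (i₀ : Fin n)
    (hconn : ∀ x : Fin n → ℤ, (∀ i j, A i j ≠ 0 → x i = x j) → ∀ i, x i = x i₀) (k : ℕ)
    (hc : (∀ i, nf A (i :: wpow (List.finRange n) k) = nf A (wpow (List.finRange n) k ++ [i])) ∧
      nf A (wpow (List.finRange n) k) ≠ nf A []) :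
    Nat.card (Subgroup.center M.Group) = 2 ∧
      Subgroup.center M.Group ≤ Subgroup.zpowers ((List.finRange n).map M.simple).prod := by
  let cs := M.toCoxeterSystem
  set z := cs.wordProd (wpow (List.finRange n) k) with hz
  have hzc : z ∈ Subgroup.center M.Group := (wordProd_mem_center_iff cs h _).mpr hc.1
  have hz1 : z ≠ 1 := fun e => hc.2 ((wordProd_eq_iff cs h _ _).mp (by rw [← hz, e, cs.wordProd_nil]))
  have hzr : rho cs h z = -1 := (rho_eq_of_mem_center cs h i₀ hconn hzc).resolve_left fun e =>
    hz1 (rho_injective cs h (by rw [e, map_one]))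
  have key : ∀ y, y ∈ Subgroup.center M.Group ↔ y = 1 ∨ y = z := by
    intro y
    constructor
    · intro hy
      rcases rho_eq_of_mem_center cs h i₀ hconn hy with e | e
      · exact Or.inl (rho_injective cs h (by rw [e, map_one]))
      · exact Or.inr (rho_injective cs h (by rw [e, hzr]))
    · rintro (rfl | rfl)
      exacts [one_mem _, hzc]
  constructor
  · have : (Subgroup.center M.Group : Set M.Group) = {1, z} := Set.ext key
    rw [← Set.ncard_pair hz1.symm, ← this]; rfl
  · intro y hy
    rcases (key y).mp hy with rfl | rfl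
    · exact one_mem _
    · rw [hz, wordProd_wpow]
      exact Subgroup.npow_mem_zpowers _ k

open CL.Cox in
theorem center_one {n : ℕ} {M : CoxeterMatrix (Fin n)} {A : Matrix (Fin n) (Fin n) ℤ} (h : RepOK M A) (i₀ : Fin n)
    (hconn : ∀ x : Fin n → ℤ, (∀ i j, A i j ≠ 0 → x i = x j) → ∀ i, x i = x i₀) (ω : List (Fin n))
    (hc : nf A ω = ofVec (fun _ : Fin n => (-1 : ℤ)) ∧ ¬ ∀ i, nf A (i :: ω) = nf A (ω ++ [i])) :
    Nat.card (Subgroup.center M.Group) = 1 ∧
      Subgroup.center M.Group ≤ Subgroup.zpowers ((List.finRange n).map M.simple).prod := by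
  let cs := M.toCoxeterSystem
  have key : Subgroup.center M.Group = ⊥ := by
    rw [eq_bot_iff]
    intro y hy
    rcases rho_eq_of_mem_center cs h i₀ hconn (inv_mem hy) with e | e
    · exact inv_eq_one.mp (rho_injective cs h (by rw [e, map_one]))
    · exfalso
      apply hc.2
      rw [← wordProd_mem_center_iff cs h]
      have h1 := hc.1
      rw [nf, actL_ofVec cs h, ofVec_injective.eq_iff] at h1
      have : y = cs.wordProd ω := eq_of_dact_one_eq cs h (by
        rw [h1, dact, e]; ext j; simp [Matrix.vecMul_neg])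
      exact this ▸ hy
  rw [key]
  exact ⟨Subgroup.card_bot, bot_le⟩

/-- For the Coxeter groups of types B₂, G₂, D₄, F₄, E₇, E₈ the centre has order 2 (the element acting as −1 on the root system) and is generated by a power of the Coxeter element `s₁ s₂ ⋯ s_l`; the Coxeter group of type E₆ has trivial centre. -/
theorem result (c : (Σ n : ℕ, CoxeterMatrix (Fin n)) × ℕ)
    (hc : c ∈ [(⟨2, CoxeterMatrix.B 2⟩, 2), (⟨2, CoxeterMatrix.G₂⟩, 2), (⟨4, Cfsg.Lie.coxeterD4⟩, 2), (⟨4, CoxeterMatrix.F₄⟩, 2),
      (⟨6, CoxeterMatrix.E₆⟩, 1), (⟨7, CoxeterMatrix.E₇⟩, 2), (⟨8, CoxeterMatrix.E₈⟩, 2)]) :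
    Nat.card (Subgroup.center c.1.2.Group) = c.2 ∧
      Subgroup.center c.1.2.Group ≤ Subgroup.zpowers ((List.finRange c.1.1).map c.1.2.simple).prod := by
  simp only [List.mem_cons, List.not_mem_nil, or_false] at hc
  rcases hc with rfl | rfl | rfl | rfl | rfl | rfl | rfl
  · exact center_two CL.Cox.isCartan_B2.repOK 0 (fun x hx i => by
      have := hx 0 1 (by decide); fin_cases i <;> simp <;> omega)
      2 (by decide +kernel)
  · exact center_two CL.Cox.isCartan_G2.repOK 0 (fun x hx i => by
      have := hx 0 1 (by decide); fin_cases i <;> simp <;> omega)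
      3 (by decide +kernel)
  · exact center_two CL.Cox.isCartan_D4.repOK 0 (fun x hx i => by
      have := hx 0 1 (by decide); have := hx 1 2 (by decide); have := hx 1 3 (by decide); fin_cases i <;> simp <;> omega)
      3 (by decide +kernel)
  · exact center_two CL.Cox.isCartan_F4.repOK 0 (fun x hx i => by
      have := hx 0 1 (by decide); have := hx 1 2 (by decide); have := hx 2 3 (by decide); fin_cases i <;> simp <;> omega)
      6 (by decide +kernel)
  · exact center_one CL.Cox.isCartan_E6.repOK 0 (fun x hx i => by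
      have := hx 0 2 (by decide); have := hx 1 3 (by decide); have := hx 2 3 (by decide); have := hx 3 4 (by decide); have := hx 4 5 (by decide); fin_cases i <;> simp <;> omega)
      [0, 1, 2, 0, 3, 1, 2, 0, 3, 2, 4, 3, 1, 2, 0, 3, 2, 4, 3, 1, 5, 4, 3, 1, 2, 0, 3, 2, 4, 3, 1, 5, 4, 3, 2, 0]
      (by decide +kernel)
  · exact center_two CL.Cox.isCartan_E7.repOK 0 (fun x hx i => by
      have := hx 0 2 (by decide); have := hx 1 3 (by decide); have := hx 2 3 (by decide); have := hx 3 4 (by decide); have := hx 4 5 (by decide); have := hx 5 6 (by decide); fin_cases i <;> simp <;> omega)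
      9 (by decide +kernel)
  · exact center_two CL.Cox.isCartan_E8.repOK 0 (fun x hx i => by
      have := hx 0 2 (by decide); have := hx 1 3 (by decide); have := hx 2 3 (by decide); have := hx 3 4 (by decide); have := hx 4 5 (by decide); have := hx 5 6 (by decide); have := hx 6 7 (by decide); fin_cases i <;> simp <;> omega)
      15 (by decide +kernel)

end Cfsg.Agent.S2418
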