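import Cfsg.Statements.S2419
import Cfsg.Agent.Chev.CoxTables
import Cfsg.Agent.Chev.CoxWordEq

set_option autoImplicit false
open Cfsg

namespace Cfsg.Agent.S2419

open CL.Cox in
theorem one_refl {n : ℕ} {M : CoxeterMatrix (Fin n)} {A : Matrix (Fin n) (Fin n) ℤ} (h : RepOK M A)
    (u : List (Fin n)) (i : Fin n) (sts : List (ℕ × ℕ × List (Fin n)))
    (hrun : ((slpRun A [List.finRange n, u ++ [i] ++ u.reverse] sts).any
      fun out => decide (∀ i : Fin n, [i] ∈ out)) = true) :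
    ∃ T : Finset M.Group, T.card = 1 ∧ (∀ t ∈ T, ∃ (g : M.Group) (i : Fin n), t = g * M.simple i * g⁻¹) ∧
      Subgroup.closure (({((List.finRange n).map M.simple).prod} : Set M.Group) ∪ ↑T) = ⊤ := by
  let cs := M.toCoxeterSystem
  have e : cs.wordProd (u ++ [i] ++ u.reverse) = cs.wordProd u * M.simple i * (cs.wordProd u)⁻¹ := by
    rw [cs.wordProd_append, cs.wordProd_append, cs.wordProd_reverse, cs.wordProd_singleton]; rfl
  refine ⟨{cs.wordProd u * M.simple i * (cs.wordProd u)⁻¹}, Finset.card_singleton _, ?_, ?_⟩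
  · intro t ht
    exact ⟨_, _, Finset.mem_singleton.mp ht⟩
  · refine eq_top_of_slp cs h _ sts ?_ hrun
    intro ω hω
    apply Subgroup.subset_closure
    simp only [List.mem_cons, List.not_mem_nil, or_false] at hω
    rcases hω with rfl | rfl
    · exact Or.inl rfl
    · right; rw [e]; simp

open CL.Cox in
theorem two_refl {n : ℕ} {M : CoxeterMatrix (Fin n)} {A : Matrix (Fin n) (Fin n) ℤ} (h : RepOK M A)
    (i j : Fin n) (hij : i ≠ j) (sts : List (ℕ × ℕ × List (Fin n)))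
    (hrun : ((slpRun A [List.finRange n, [i], [j]] sts).any
      fun out => decide (∀ i : Fin n, [i] ∈ out)) = true) :
    ∃ T : Finset M.Group, T.card = 2 ∧ (∀ t ∈ T, ∃ (g : M.Group) (i : Fin n), t = g * M.simple i * g⁻¹) ∧
      Subgroup.closure (({((List.finRange n).map M.simple).prod} : Set M.Group) ∪ ↑T) = ⊤ := by
  classical
  let cs := M.toCoxeterSystem
  refine ⟨{M.simple i, M.simple j}, Finset.card_pair fun e => hij (simple_injective cs h e), ?_, ?_⟩
  · intro t ht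
    simp only [Finset.mem_insert, Finset.mem_singleton] at ht
    rcases ht with rfl | rfl
    exacts [⟨1, i, by simp⟩, ⟨1, j, by simp⟩]
  · refine eq_top_of_slp cs h _ sts ?_ hrun
    intro ω hω
    apply Subgroup.subset_closure
    simp only [List.mem_cons, List.not_mem_nil, or_false] at hω
    rcases hω with rfl | rfl | rfl
    · exact Or.inl rfl
    · right; rw [cs.wordProd_singleton]; simp [cs]
    · right; rw [cs.wordProd_singleton]; simp [cs]

theorem rank_two (M : CoxeterMatrix (Fin 2)) :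
    ∃ T : Finset M.Group, T.card = 1 ∧ (∀ t ∈ T, ∃ (g : M.Group) (i : Fin 2), t = g * M.simple i * g⁻¹) ∧
      Subgroup.closure (({((List.finRange 2).map M.simple).prod} : Set M.Group) ∪ ↑T) = ⊤ := by
  let cs := M.toCoxeterSystem
  refine ⟨{M.simple 0}, Finset.card_singleton _, ?_, ?_⟩
  · intro t ht
    exact ⟨1, 0, by simpa using ht⟩
  · rw [← top_le_iff, ← cs.subgroup_closure_range_simple, Subgroup.closure_le]
    have h0 : M.simple 0 ∈ Subgroup.closure (({((List.finRange 2).map M.simple).prod} : Set M.Group) ∪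
        ↑({M.simple 0} : Finset M.Group)) := Subgroup.subset_closure (by simp)
    have h1 : M.simple 0 * M.simple 1 ∈ Subgroup.closure (({((List.finRange 2).map M.simple).prod} : Set M.Group) ∪
        ↑({M.simple 0} : Finset M.Group)) := Subgroup.subset_closure (Or.inl (by simp [List.finRange]))
    rintro _ ⟨i, rfl⟩
    fin_cases i
    · exact h0
    · exact (Subgroup.mul_mem_cancel_left _ h0).mp h1

/-- The Coxeter groups of types B₂, G₂, E₆, E₇, E₈ are generated by the Coxeter element `s₁ s₂ ⋯ s_l` together with one suitable reflection (a conjugate of a simple reflection); for types D₄ and F₄ the Coxeter element together with two suitable reflections suffices. -/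
theorem result (c : (Σ n : ℕ, CoxeterMatrix (Fin n)) × ℕ)
    (hc : c ∈ [(⟨2, CoxeterMatrix.B 2⟩, 1), (⟨2, CoxeterMatrix.G₂⟩, 1), (⟨4, Cfsg.Lie.coxeterD4⟩, 2), (⟨4, CoxeterMatrix.F₄⟩, 2),
      (⟨6, CoxeterMatrix.E₆⟩, 1), (⟨7, CoxeterMatrix.E₇⟩, 1), (⟨8, CoxeterMatrix.E₈⟩, 1)]) :
    ∃ T : Finset c.1.2.Group, T.card = c.2 ∧ (∀ t ∈ T, ∃ (g : c.1.2.Group) (i : Fin c.1.1), t = g * c.1.2.simple i * g⁻¹) ∧
      Subgroup.closure (({((List.finRange c.1.1).map c.1.2.simple).prod} : Set c.1.2.Group) ∪ ↑T) = ⊤ := by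
  simp only [List.mem_cons, List.not_mem_nil, or_false] at hc
  rcases hc with rfl | rfl | rfl | rfl | rfl | rfl | rfl
  · exact rank_two _
  · exact rank_two _
  · exact two_refl CL.Cox.isCartan_D4.repOK 0 2 (by decide)
      [(0, 1, [1]), (0, 2, [0, 1, 2, 1, 0]), (0, 3, [0, 2, 1, 3, 1, 0, 2]), (4, 5, [3])] (by decide +kernel)
  · exact two_refl CL.Cox.isCartan_F4.repOK 0 2 (by decide) [(0, 1, [1]), (0, 2, [3])] (by decide +kernel)
  · exact one_refl CL.Cox.isCartan_E6.repOK [] 0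
      [(0, 1, [2]), (0, 2, [1, 3, 1]), (0, 3, [0, 2, 3, 4, 3, 2, 0]), (0, 4, [1, 2, 3, 4, 5, 4, 3, 1, 2]), (0, 5, [3]),
        (0, 6, [4]), (3, 6, [1]), (0, 7, [5])] (by decide +kernel)
  · exact one_refl CL.Cox.isCartan_E7.repOK [5, 4, 3, 2] 0
      [(0, 1, [1, 2, 3, 4, 5, 6, 5, 4, 3, 1, 2]), (0, 2, [3]), (0, 3, [4]), (0, 4, [5]), (0, 5, [6]),
        (0, 6, [0, 1, 2, 3, 4, 5, 6, 5, 4, 3, 1, 2, 0]), (1, 6, [0, 2, 3, 4, 5, 6, 5, 4, 3, 2, 0]), (0, 7, [2, 3, 2]),
        (2, 7, [0]), (7, 8, [1]), (3, 9, [2])] (by decide +kernel)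
  · exact one_refl CL.Cox.isCartan_E8.repOK [6, 5, 4, 3, 2] 0
      [(0, 1, [1, 2, 3, 4, 5, 6, 7, 6, 5, 4, 3, 1, 2]), (0, 2, [3]), (0, 3, [4]), (0, 4, [5]), (0, 5, [6]), (0, 6, [7]),
        (0, 7, [0, 1, 2, 3, 4, 5, 6, 7, 6, 5, 4, 3, 1, 2, 0]), (1, 7, [0, 2, 3, 4, 5, 6, 7, 6, 5, 4, 3, 2, 0]),
        (0, 8, [2, 3, 2]), (2, 8, [0]), (8, 9, [1]), (3, 10, [2])] (by decide +kernel)

end Cfsg.Agent.S2419
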