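import Cfsg.Statements.S2426
import Cfsg.Agent.Chev.SL2Pres

set_option autoImplicit false
open Cfsg CL.Chev.SL2

namespace Cfsg.Agent.S2426

/-- The rank-one Steinberg presentation of `SL₂` over a finite field `K`: generators `x(t)`, `y(t)` (`t ∈ K`; the two opposite root subgroups) subject to additivity `x(t)x(u) = x(t+u)`, `y(t)y(u) = y(t+u)` and, with `w(t) = x(t) y(−t⁻¹) x(t)` and `w'(t) = y(t) x(−t⁻¹) y(t)` for `t ≠ 0`, the relations `w(t) x(u) w(t)⁻¹ = y(−t⁻² u)` and `w'(t) y(u) w'(t)⁻¹ = x(−t⁻² u)`, present `SL₂(K)`, with `x(t) ↦ (1 t; 0 1)` and `y(t) ↦ (1 0; t 1)`. -/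
theorem result {K : Type*} [Field K] [Finite K] :
    ∃ e : PresentedGroup
        ({g : FreeGroup (Bool × K) | ∃ (b : Bool) (t u : K), g = FreeGroup.of (b, t) * FreeGroup.of (b, u) * (FreeGroup.of (b, t + u))⁻¹} ∪
          {g | ∃ (b : Bool) (t u : K), t ≠ 0 ∧
            g = (FreeGroup.of (b, t) * FreeGroup.of (!b, -t⁻¹) * FreeGroup.of (b, t)) * FreeGroup.of (b, u) *
                  (FreeGroup.of (b, t) * FreeGroup.of (!b, -t⁻¹) * FreeGroup.of (b, t))⁻¹ * (FreeGroup.of (!b, -(t⁻¹ ^ 2 * u)))⁻¹})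
        ≃* Matrix.SpecialLinearGroup (Fin 2) K,
      (∀ t : K, ((e (PresentedGroup.of (true, t)) : Matrix (Fin 2) (Fin 2) K)) = !![1, t; 0, 1]) ∧
      (∀ t : K, ((e (PresentedGroup.of (false, t)) : Matrix (Fin 2) (Fin 2) K)) = !![1, 0; t, 1]) := by
  let rels : Set (FreeGroup (Bool × K)) :=
    {g | ∃ (b : Bool) (t u : K), g = FreeGroup.of (b, t) * FreeGroup.of (b, u) * (FreeGroup.of (b, t + u))⁻¹} ∪
      {g | ∃ (b : Bool) (t u : K), t ≠ 0 ∧
        g = (FreeGroup.of (b, t) * FreeGroup.of (!b, -t⁻¹) * FreeGroup.of (b, t)) * FreeGroup.of (b, u) *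
          (FreeGroup.of (b, t) * FreeGroup.of (!b, -t⁻¹) * FreeGroup.of (b, t))⁻¹ * (FreeGroup.of (!b, -(t⁻¹ ^ 2 * u)))⁻¹}
  let f : Bool × K → Matrix.SpecialLinearGroup (Fin 2) K := fun p => if p.1 then up p.2 else lo p.2
  have hf : ∀ r ∈ rels, FreeGroup.lift f r = 1 := by
    rintro _ (⟨b, t, u, rfl⟩ | ⟨b, t, u, ht, rfl⟩) <;> simp only [map_mul, map_inv, FreeGroup.lift_apply_of, mul_inv_eq_one]
    · cases b <;> simp [f, up_add, lo_add]
    · rw [mul_inv_eq_iff_eq_mul]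
      cases b <;> apply ext2 <;> simp only [f, Bool.not_true, Bool.not_false, Bool.false_eq_true, if_true, if_false,
        mul_apply2, up_00, up_01, up_10, up_11, lo_00, lo_01, lo_10, lo_11] <;> field_simp <;> ring
  have h1 : ∀ (b : Bool) (t u : K), (PresentedGroup.of (b, t + u) : PresentedGroup rels) = .of (b, t) * .of (b, u) :=
    fun b t u => (mul_inv_eq_one.1 (PresentedGroup.one_of_mem (rels := rels) (.inl ⟨b, t, u, rfl⟩))).symm
  obtain ⟨φ, h2, h3⟩ := Rel.exists_hom_of_finite (Y := PresentedGroup rels) (x := fun t => .of (true, t))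
    (y := fun t => .of (false, t)) ⟨h1 true, h1 false, fun t ht u =>
      mul_inv_eq_one.1 (PresentedGroup.one_of_mem (rels := rels) (.inr ⟨true, t, u, ht, rfl⟩))⟩
  refine ⟨MonoidHom.toMulEquiv (PresentedGroup.toGroup hf) φ (PresentedGroup.ext fun ⟨b, t⟩ => ?_)
    (MonoidHom.ext fun g => induction_on (P := fun g => PresentedGroup.toGroup hf (φ g) = g) (fun t => ?_) (fun t => ?_)
      (fun a b ha hb => by rw [map_mul, map_mul, ha, hb]) g), fun t => ?_, fun t => ?_⟩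
  · cases b <;> simp [f, h2, h3]
  · simp [f, h2]
  · simp [f, h3]
  · simp [f, up_val]
  · simp [f, lo_val]

end Cfsg.Agent.S2426
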