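import Cfsg.Statements.S2427
import Cfsg.Agent.Known.SL2Norm2
import Cfsg.Agent.Transfer.SL23

set_option autoImplicit false
open Cfsg

namespace Cfsg.Agent.S2427

open CL.GL2 CL.Transfer
open scoped commutatorElement

theorem aux1 : ∀ g h : SL2 (ZMod 3), ∃ q, q8ToSL23 q * (h * g) = g * h := by decide +kernel

theorem aux2 : ∀ q, ∃ g h : SL2 (ZMod 3), q8ToSL23 q * (h * g) = g * h := by decide +kernel

theorem aux3 : ∀ g : SL2 (ZMod 3), g = 1 ∨ g = -1 ∨
    ∃ a c : SL2 (ZMod 3), c * (a * g) = g * a ∧ c * c = -1 := by decide +kernel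

theorem aux4 : ∀ c : SL2 (ZMod 3), c * c = -1 → ∀ q, q8ToSL23 q = 1 ∨ q8ToSL23 q = -1 ∨
    ∃ a, q8ToSL23 q * a = a * c := by decide +kernel

theorem comm_eq : commutator (SL2 (ZMod 3)) = q8ToSL23.range := by
  apply le_antisymm
  · refine Subgroup.commutator_le.2 fun g _ h _ => ?_
    obtain ⟨q, hq⟩ := aux1 g h
    refine ⟨q, ?_⟩
    rw [commutatorElement_def, ← hq]; group
  · rintro _ ⟨q, rfl⟩
    obtain ⟨g, h, hq⟩ := aux2 q
    have : q8ToSL23 q = ⁅g, h⁆ := by rw [commutatorElement_def, ← hq]; group
    rw [this]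
    exact Subgroup.commutator_mem_commutator (Subgroup.mem_top _) (Subgroup.mem_top _)

/-- The group SL₂ over the field with 3 elements has order 24 and centre of order 2; its commutator subgroup has order 8, is isomorphic to the quaternion group of order 8 and is complemented by every Sylow 3-subgroup (so the group is a semidirect product of a quaternion group of order 8 by a cyclic group of order 3); and its only normal subgroups besides the trivial subgroup and the whole group are the centre and the commutator subgroup. -/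
theorem result :
    Nat.card (Matrix.SpecialLinearGroup (Fin 2) (ZMod 3)) = 24 ∧
    Nat.card (Subgroup.center (Matrix.SpecialLinearGroup (Fin 2) (ZMod 3))) = 2 ∧
    Nat.card (commutator (Matrix.SpecialLinearGroup (Fin 2) (ZMod 3))) = 8 ∧
    Nonempty (commutator (Matrix.SpecialLinearGroup (Fin 2) (ZMod 3)) ≃* QuaternionGroup 2) ∧
    (∀ P : Sylow 3 (Matrix.SpecialLinearGroup (Fin 2) (ZMod 3)),
      Subgroup.IsComplement' (commutator (Matrix.SpecialLinearGroup (Fin 2) (ZMod 3)))
        (P : Subgroup (Matrix.SpecialLinearGroup (Fin 2) (ZMod 3)))) ∧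
    ∀ N : Subgroup (Matrix.SpecialLinearGroup (Fin 2) (ZMod 3)), N.Normal →
      N = ⊥ ∨ N = ⊤ ∨ N = Subgroup.center (Matrix.SpecialLinearGroup (Fin 2) (ZMod 3)) ∨
        N = commutator (Matrix.SpecialLinearGroup (Fin 2) (ZMod 3)) := by
  have e : commutator (SL2 (ZMod 3)) ≃* QuaternionGroup 2 :=
    (MulEquiv.subgroupCongr comm_eq).trans (MonoidHom.ofInjective q8ToSL23_injective).symm
  have h8 : Nat.card (commutator (SL2 (ZMod 3))) = 8 := by
    rw [Nat.card_congr e.toEquiv, Nat.card_eq_fintype_card, QuaternionGroup.card]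
  refine ⟨card_SL23, card_center_SL2 (by decide), h8, ⟨e⟩, fun P => ?_, fun N hN => ?_⟩
  · have h3 : Nat.card P = 3 := by
      rw [P.card_eq_multiplicity, card_SL23,
        show (24 : ℕ) = 3 * 8 from rfl, Nat.factorization_mul (by norm_num) (by norm_num)]
      simp [Nat.Prime.factorization_self Nat.prime_three,
        Nat.factorization_eq_zero_of_not_dvd (show ¬ 3 ∣ 8 by norm_num)]
    exact Subgroup.isComplement'_of_coprime (by rw [h8, h3, card_SL23]) (by rw [h8, h3]; norm_num)
  · by_cases h : ∀ g ∈ N, g = 1 ∨ g = -1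
    · by_cases h1 : (-1 : SL2 (ZMod 3)) ∈ N
      · refine Or.inr (Or.inr (Or.inl (le_antisymm (fun g hg => ?_) fun g hg => ?_)))
        · exact mem_center_SL_iff.2 (isScal_SL_iff.2 (h g hg))
        · rcases isScal_SL_iff.1 (mem_center_SL_iff.1 hg) with rfl | rfl
          · exact N.one_mem
          · exact h1
      · refine Or.inl ((Subgroup.eq_bot_iff_forall _).2 fun g hg => (h g hg).resolve_right ?_)
        rintro rfl; exact h1 hg
    · push Not at h
      obtain ⟨g, hg, h1, h2⟩ := h
      obtain ⟨a, c, hc, hc2⟩ := ((aux3 g).resolve_left h1).resolve_left h2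
      have hcN : c ∈ N := by
        have : c = g * (a * g⁻¹ * a⁻¹) := by rw [← mul_assoc, ← mul_assoc, ← hc]; group
        rw [this]
        exact N.mul_mem hg (hN.conj_mem _ (N.inv_mem hg) a)
      have hle : commutator (SL2 (ZMod 3)) ≤ N := by
        rw [comm_eq]
        rintro _ ⟨q, rfl⟩
        rcases aux4 c hc2 q with h | h | ⟨b, h⟩
        · rw [h]; exact N.one_mem
        · rw [h, ← hc2]; exact N.mul_mem hcN hcN
        · rw [← mul_inv_cancel_right (q8ToSL23 q) b, h]; exact hN.conj_mem _ hcN b
      have d1 := Subgroup.card_dvd_of_le hle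
      have d2 := N.card_subgroup_dvd_card
      rw [h8] at d1
      rw [card_SL23] at d2
      have : Nat.card N = 8 ∨ Nat.card N = 24 := by
        have := Nat.le_of_dvd (by norm_num) d2
        obtain ⟨k, hk⟩ := d1
        have hk3 : k ≤ 3 := by rw [hk] at this; omega
        rw [hk] at d2 ⊢
        interval_cases k <;> simp_all
      rcases this with h | h
      · exact Or.inr (Or.inr (Or.inr (Subgroup.eq_of_le_of_card_ge hle (by rw [h, h8])).symm))
      · exact Or.inr (Or.inl (Subgroup.eq_top_of_card_eq _ (by rw [h, card_SL23])))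

end Cfsg.Agent.S2427
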