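import Cfsg.Statements.S2428
import Cfsg.Agent.Known.SL2Norm

set_option autoImplicit false
open Cfsg

namespace Cfsg.Agent.S2428

open CL.GL2

/-- Let F be a finite field with q elements, q odd, and let d be a diagonal element of SL₂ over F whose diagonal entry a has a² ≠ 1 (such d exist exactly when q > 3). Then the centraliser of d is precisely the diagonal subgroup T; the normaliser of T has order 2(q − 1) and exactly (q + 5)/2 conjugacy classes; and every element of that normaliser outside T has square equal to −1. -/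
theorem result {F : Type*} [Field F] [Fintype F] (hodd : Odd (Fintype.card F))
    (d : Matrix.SpecialLinearGroup (Fin 2) F) (hd01 : (d : Matrix (Fin 2) (Fin 2) F) 0 1 = 0) (hd10 : (d : Matrix (Fin 2) (Fin 2) F) 1 0 = 0) (hda : (d : Matrix (Fin 2) (Fin 2) F) 0 0 ^ 2 ≠ 1) :
    (∀ g : Matrix.SpecialLinearGroup (Fin 2) F, g ∈ Subgroup.centralizer ({d} : Set (Matrix.SpecialLinearGroup (Fin 2) F)) ↔ ((g : Matrix (Fin 2) (Fin 2) F) 0 1 = 0 ∧ (g : Matrix (Fin 2) (Fin 2) F) 1 0 = 0)) ∧
    Nat.card (Subgroup.normalizer ((Subgroup.centralizer ({d} : Set (Matrix.SpecialLinearGroup (Fin 2) F))) : Set (Matrix.SpecialLinearGroup (Fin 2) F))) = 2 * (Fintype.card F - 1) ∧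
    Nat.card (ConjClasses (Subgroup.normalizer ((Subgroup.centralizer ({d} : Set (Matrix.SpecialLinearGroup (Fin 2) F))) : Set (Matrix.SpecialLinearGroup (Fin 2) F)))) = (Fintype.card F + 5) / 2 ∧
    ∀ g : Matrix.SpecialLinearGroup (Fin 2) F, g ∈ Subgroup.normalizer ((Subgroup.centralizer ({d} : Set (Matrix.SpecialLinearGroup (Fin 2) F))) : Set (Matrix.SpecialLinearGroup (Fin 2) F)) →
      g ∉ Subgroup.centralizer ({d} : Set (Matrix.SpecialLinearGroup (Fin 2) F)) → ((g * g) : Matrix (Fin 2) (Fin 2) F) = -1 := by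
  classical
  obtain ⟨a, rfl, ha, -⟩ := exists_diagSL_eq hd01 hd10
  have hz : a ^ 2 ≠ 1 := by rw [ne_eq, Units.ext_iff, Units.val_pow_eq_pow_val, ha]; exact hda
  have hc := (splitSL F).cent_emb hz
  rw [splitSL_emb] at hc
  obtain ⟨h1, h2⟩ := (splitSL F).card_normalizer hz
  rw [if_pos hodd, card_units_eq] at h2
  rw [card_units_eq] at h1
  rw [hc]
  refine ⟨fun g => mem_range_diagSL_iff, h1, ?_, fun g h3 h4 => ?_⟩
  · have := two_le_card (F := F)
    exact (fun c (h : 2 * c = Fintype.card F - 1 + 3 * 2) => by omega : ∀ c, _ → c = _) _ h2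
  · exact congrArg Subtype.val ((splitSL F).mul_self_eq_neg_one hz h3 h4)

end Cfsg.Agent.S2428
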