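import Cfsg.Statements.S2430
import Cfsg.Agent.Known.SL2Norm

set_option autoImplicit false
open Cfsg

namespace Cfsg.Agent.S2430

open CL.GL2

/-- Let F be a finite field with q elements, q odd, ℓ an odd prime, and P a Sylow ℓ-subgroup of SL₂ over F. If ℓ divides q − 1, the centraliser of P is cyclic of order q − 1 (a split torus) and the normaliser of P has order 2(q − 1); if ℓ divides q + 1, the centraliser of P is cyclic of order q + 1 (a non-split torus) and the normaliser of P has order 2(q + 1). -/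
theorem result {F : Type*} [Field F] [Fintype F] (hodd : Odd (Fintype.card F)) (ℓ : ℕ) [Fact ℓ.Prime] (hℓ : ℓ ≠ 2)
    (P : Sylow ℓ (Matrix.SpecialLinearGroup (Fin 2) F)) :
    (ℓ ∣ Fintype.card F - 1 →
      Nat.card (Subgroup.centralizer ((P : Subgroup (Matrix.SpecialLinearGroup (Fin 2) F)) : Set (Matrix.SpecialLinearGroup (Fin 2) F))) = Fintype.card F - 1 ∧
      IsCyclic (Subgroup.centralizer ((P : Subgroup (Matrix.SpecialLinearGroup (Fin 2) F)) : Set (Matrix.SpecialLinearGroup (Fin 2) F))) ∧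
      Nat.card (Subgroup.normalizer ((P : Subgroup (Matrix.SpecialLinearGroup (Fin 2) F)) : Set (Matrix.SpecialLinearGroup (Fin 2) F))) = 2 * (Fintype.card F - 1)) ∧
    (ℓ ∣ Fintype.card F + 1 →
      Nat.card (Subgroup.centralizer ((P : Subgroup (Matrix.SpecialLinearGroup (Fin 2) F)) : Set (Matrix.SpecialLinearGroup (Fin 2) F))) = Fintype.card F + 1 ∧
      IsCyclic (Subgroup.centralizer ((P : Subgroup (Matrix.SpecialLinearGroup (Fin 2) F)) : Set (Matrix.SpecialLinearGroup (Fin 2) F))) ∧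
      Nat.card (Subgroup.normalizer ((P : Subgroup (Matrix.SpecialLinearGroup (Fin 2) F)) : Set (Matrix.SpecialLinearGroup (Fin 2) F))) = 2 * (Fintype.card F + 1)) := by
  classical
  obtain ⟨𝔢⟩ := nonemptyEll (F := F)
  refine ⟨fun h => ?_, fun h => ?_⟩
  · obtain ⟨T, z, -, hz, -, h1, h2⟩ := (splitSL F).sylow_structure hℓ (by rwa [card_units_eq]) P
    rw [h1, h2, ← card_units_eq]
    exact ⟨T.card_range, T.isCyclic_range, (T.card_normalizer hz).1⟩
  · obtain ⟨T, z, -, hz, -, h1, h2⟩ := 𝔢.torSL.sylow_structure hℓ (by rwa [𝔢.card_K]) P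
    rw [h1, h2, ← 𝔢.card_K]
    exact ⟨T.card_range, T.isCyclic_range, (T.card_normalizer hz).1⟩

end Cfsg.Agent.S2430
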