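import Cfsg.Statements.S2433
import Cfsg.Agent.Known.SL2Irr

set_option autoImplicit false
open Cfsg

namespace Cfsg.Agent.S2433

open CL.GL2

/-- Let F be a finite field with q elements, q odd, α a multiplicative character of F, and R(α) the function on SL₂ induced from the linear character b ↦ α(b₁₁) of the upper triangular subgroup. Then R(α) takes the value α(a) + α(a⁻¹) at a diagonal element with entries a, a⁻¹, a² ≠ 1; the value 0 at every element with no eigenvector in F²; the value α(ε) at an upper triangular element with both diagonal entries ε and non-zero upper right entry; and the value (q + 1)α(ε) at the scalar element ε (ε = ±1). -/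
theorem result {F : Type*} [Field F] [Fintype F] [DecidableEq F] (hodd : Odd (Fintype.card F)) (α : MulChar F ℂ) (g : Matrix.SpecialLinearGroup (Fin 2) F) :
    ((g : Matrix (Fin 2) (Fin 2) F) 0 1 = 0 → (g : Matrix (Fin 2) (Fin 2) F) 1 0 = 0 → (g : Matrix (Fin 2) (Fin 2) F) 0 0 ^ 2 ≠ 1 →
      (Cfsg.indFun ((Cfsg.upperTriangularGL 2 F).comap Matrix.SpecialLinearGroup.toGL) (fun b => α (((b : Matrix.SpecialLinearGroup (Fin 2) F) : Matrix (Fin 2) (Fin 2) F) 0 0))) g = α ((g : Matrix (Fin 2) (Fin 2) F) 0 0) + α ((g : Matrix (Fin 2) (Fin 2) F) 1 1)) ∧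
    ((∀ (c : F) (v : Fin 2 → F), v ≠ 0 → (g : Matrix (Fin 2) (Fin 2) F).mulVec v ≠ c • v) → (Cfsg.indFun ((Cfsg.upperTriangularGL 2 F).comap Matrix.SpecialLinearGroup.toGL) (fun b => α (((b : Matrix.SpecialLinearGroup (Fin 2) F) : Matrix (Fin 2) (Fin 2) F) 0 0))) g = 0) ∧
    ((g : Matrix (Fin 2) (Fin 2) F) 1 0 = 0 → (g : Matrix (Fin 2) (Fin 2) F) 0 0 = (g : Matrix (Fin 2) (Fin 2) F) 1 1 → (g : Matrix (Fin 2) (Fin 2) F) 0 1 ≠ 0 →
      (Cfsg.indFun ((Cfsg.upperTriangularGL 2 F).comap Matrix.SpecialLinearGroup.toGL) (fun b => α (((b : Matrix.SpecialLinearGroup (Fin 2) F) : Matrix (Fin 2) (Fin 2) F) 0 0))) g = α ((g : Matrix (Fin 2) (Fin 2) F) 0 0)) ∧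
    ((g : Matrix (Fin 2) (Fin 2) F) 0 1 = 0 → (g : Matrix (Fin 2) (Fin 2) F) 1 0 = 0 → (g : Matrix (Fin 2) (Fin 2) F) 0 0 = (g : Matrix (Fin 2) (Fin 2) F) 1 1 →
      (Cfsg.indFun ((Cfsg.upperTriangularGL 2 F).comap Matrix.SpecialLinearGroup.toGL) (fun b => α (((b : Matrix.SpecialLinearGroup (Fin 2) F) : Matrix (Fin 2) (Fin 2) F) 0 0))) g = ((Fintype.card F : ℂ) + 1) * α ((g : Matrix (Fin 2) (Fin 2) F) 0 0)) := by
  rw [indFun_comap_upperTriangularGL (fun a => α a)]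
  refine ⟨fun h1 h2 h3 => ?_, fun h => ?_, fun h1 h2 h3 => ?_, fun h1 h2 h3 => ?_⟩
  · obtain ⟨a, rfl, ha, hb⟩ := exists_diagSL_eq h1 h2
    rw [← ha, ← hb]
    refine ((splitSL F).R_emb_reg _ ?_).trans (by simp)
    rw [Torus.isScal_SL_iff', Units.ext_iff, Units.val_pow_eq_pow_val, ha]
    exact h3
  · exact (splitSL F).R_of_nroots _ (by rw [ambSL_toM, IsEll.nroots h]; simp)
  · have hd := det_SL g
    rw [Matrix.det_fin_two, h1, mul_zero, sub_zero, ← h2] at hd
    have hi := inv_eq_of_mul_eq_one_right hd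
    refine (splitSL F).R_of_agree_scal _ (fun h => h3 h.1)
      (z := Units.mk0 _ (left_ne_zero_of_mul_eq_one hd)) ?_ ?_
    · rw [splitSL_mat, ambSL_toM, Units.val_mk0, hi]
      exact ⟨by rw [Matrix.trace_fin_two, ← h2]; simp, by rw [det_SL]; simp [hd]⟩
    · rw [splitSL_mat, Units.val_mk0, hi, isScal_diag_iff]
  · obtain ⟨a, rfl, ha, hb⟩ := exists_diagSL_eq h1 h2
    rw [← ha]
    exact ((splitSL F).R_emb_scal _ ⟨h1, h2, h3⟩).trans (by simp [add_comm])

end Cfsg.Agent.S2433
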