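import Cfsg.Statements.S2434
import Cfsg.Agent.Known.SL2Irr2

set_option autoImplicit false
open Cfsg

namespace Cfsg.Agent.S2434

open CL.GL2

/-- Let F be a finite field with q elements, q odd, and C a cyclic subgroup of order q + 1 of SL₂ over F (a non-split torus; it contains the centre). For every homomorphism θ from C to the non-zero complex numbers with θ² ≠ 1 there is an irreducible complex character χ of degree q − 1 such that χ(c) = −θ(c) − θ(c)⁻¹ for every non-central c in C, χ(zg) = θ(z)χ(g) for central z in C, χ vanishes at diagonal elements with entry a, a² ≠ 1, and χ takes the value −1 at every upper unitriangular element other than 1. Conversely every irreducible character of degree q − 1 has, for some such θ, the values −θ(c) − θ(c)⁻¹ at the non-central elements c of C (for q ≥ 5 these are exactly the cuspidal characters of degree q − 1). -/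
theorem result {F : Type*} [Field F] [Fintype F] (hodd : Odd (Fintype.card F))
    (C : Subgroup (Matrix.SpecialLinearGroup (Fin 2) F)) (hC : IsCyclic C) (hcard : Nat.card C = Fintype.card F + 1) :
    (∀ θ : C →* ℂˣ, (∃ c : C, θ c ^ 2 ≠ 1) →
      ∃ χ : Matrix.SpecialLinearGroup (Fin 2) F → ℂ, Cfsg.IsIrrCharacter (Matrix.SpecialLinearGroup (Fin 2) F) χ ∧ χ 1 = (Fintype.card F : ℂ) - 1 ∧
        (∀ c : C, (c : Matrix.SpecialLinearGroup (Fin 2) F) ∉ Subgroup.center (Matrix.SpecialLinearGroup (Fin 2) F) → χ c = -((θ c).val + (θ c)⁻¹.val)) ∧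
        (∀ c : C, (c : Matrix.SpecialLinearGroup (Fin 2) F) ∈ Subgroup.center (Matrix.SpecialLinearGroup (Fin 2) F) → ∀ g : Matrix.SpecialLinearGroup (Fin 2) F, χ ((c : Matrix.SpecialLinearGroup (Fin 2) F) * g) = (θ c).val * χ g) ∧
        (∀ g : Matrix.SpecialLinearGroup (Fin 2) F, (g : Matrix (Fin 2) (Fin 2) F) 0 1 = 0 → (g : Matrix (Fin 2) (Fin 2) F) 1 0 = 0 → (g : Matrix (Fin 2) (Fin 2) F) 0 0 ^ 2 ≠ 1 → χ g = 0) ∧
        (∀ g : Matrix.SpecialLinearGroup (Fin 2) F, (g : Matrix (Fin 2) (Fin 2) F) 1 0 = 0 → (g : Matrix (Fin 2) (Fin 2) F) 0 0 = 1 → (g : Matrix (Fin 2) (Fin 2) F) 1 1 = 1 → (g : Matrix (Fin 2) (Fin 2) F) 0 1 ≠ 0 → χ g = -1)) ∧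
    (∀ χ : Matrix.SpecialLinearGroup (Fin 2) F → ℂ, Cfsg.IsIrrCharacter (Matrix.SpecialLinearGroup (Fin 2) F) χ → χ 1 = (Fintype.card F : ℂ) - 1 →
      ∃ θ : C →* ℂˣ, (∃ c : C, θ c ^ 2 ≠ 1) ∧
        ∀ c : C, (c : Matrix.SpecialLinearGroup (Fin 2) F) ∉ Subgroup.center (Matrix.SpecialLinearGroup (Fin 2) F) → χ c = -((θ c).val + (θ c)⁻¹.val)) := by
  classical
  obtain ⟨𝔢, rfl⟩ := exists_ell_range_eq C hC hcard
  let e : 𝔢.K ≃* 𝔢.embSL.range := MonoidHom.ofInjective 𝔢.embSL_injective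
  have he : ∀ z, ((e z : 𝔢.embSL.range) : SL2 F) = 𝔢.embSL z := fun _ => rfl
  have hz : ∀ z, 𝔢.embSL z ∈ Subgroup.center (SL2 F) ↔ z ^ 2 = 1 := fun z => by
    rw [mem_center_SL_iff, ← 𝔢.torSL.isScal_SL_iff']; rfl
  have val : ∀ (θ : 𝔢.K →* ℂˣ) z, z ^ 2 ≠ 1 →
      𝔢.torSL.chi θ (𝔢.embSL z) = -((θ z).val + (θ z)⁻¹.val) := fun θ z h => by
    have := 𝔢.torSL.chi_emb_reg θ h
    rwa [Ell.torSL_ε, neg_one_mul] at this
  refine ⟨fun θ ⟨c₀, hc₀⟩ => ?_, fun χ hχ hd => ?_⟩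
  · have h1 : (θ.comp e.toMonoidHom) ^ 2 ≠ 1 := fun h => hc₀ (by
      simpa using hom_sq_eq_one_iff.1 h (e.symm c₀))
    have h2 := 𝔢.isIrr_chi_torSL h1
    refine ⟨_, h2, by rw [Torus.chi_one, Ell.torSL_ε]; ring, fun c hc => ?_, fun c hc g => ?_,
      fun g _ h10 h => ?_, fun g h10 h00 h11 h01 => ?_⟩
    · obtain ⟨z, rfl⟩ := e.surjective c
      exact val _ z (mt (hz z).2 hc)
    · obtain ⟨z, rfl⟩ := e.surjective c
      exact 𝔢.torSL.chi_mul_scal h2 (mem_center_SL_iff.1 hc) g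
    · exact Torus.chi_of_nroots _ _ (by rw [ambSL_toM, nroots_diag_SL h10 h]; norm_num)
    · exact Torus.chi_unip_SL _ _ (fun h => h01 h.1)
        (by rw [Matrix.trace_fin_two, h00, h11]; norm_num)
  · have h2 := two_le_card (F := F)
    have h3 := cast_half_add hodd
    have key : ∀ θ : 𝔢.K →* ℂˣ, θ ^ 2 ≠ 1 →
        (∀ z, z ^ 2 ≠ 1 → χ (𝔢.embSL z) = 𝔢.torSL.chi θ (𝔢.embSL z)) →
        ∃ θ : 𝔢.embSL.range →* ℂˣ, (∃ c, θ c ^ 2 ≠ 1) ∧ ∀ c : 𝔢.embSL.range,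
          (c : SL2 F) ∉ Subgroup.center (SL2 F) → χ c = -((θ c).val + (θ c)⁻¹.val) := by
      intro θ h1 h
      refine ⟨θ.comp e.symm.toMonoidHom, ?_, fun c hc => ?_⟩
      · obtain ⟨z, hz⟩ := not_forall.1 (mt hom_sq_eq_one_iff.2 h1)
        exact ⟨e z, by simpa using hz⟩
      · obtain ⟨z, rfl⟩ := e.surjective c
        have := mt (hz z).2 hc
        rw [he, h z this, val θ z this]
        simp
    rcases SL_irr_cases 𝔢 hχ (hd.trans cast_card_sub_one.symm) with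
      h | h | h | ⟨-, θ, h1, rfl⟩ | ⟨h, lam, χ', -, -, h'⟩ | h
    · omega
    · omega
    · omega
    · exact key θ h1 fun _ _ => rfl
    · have hq : Fintype.card F = 3 := by omega
      obtain ⟨θ, a, h1⟩ := exists_hom_pow_ne_one 𝔢.K (n := 2) (by rw [𝔢.card_K, hq]; norm_num)
      have h1' : θ ^ 2 ≠ 1 := fun h => h1 (hom_sq_eq_one_iff.1 h a)
      refine key θ h1' fun z hz => ?_
      have hell : IsEll (𝔢.embSL z : M2 F) := 𝔢.isEll_φ (by
        rwa [ne_eq, ← 𝔢.isScal_φ_iff, ← 𝔢.torSL_mat, 𝔢.torSL.isScal_SL_iff'])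
      rw [𝔢.chi_eq_zero_of_card_three hq h1' hz, h'.apply_of_semisimple hodd
        (Or.inr (trace_sq_ne_four_of_nroots (by rw [hell.nroots]; decide))),
        Torus.chi_of_nroots _ _ (by rw [ambSL_toM, hell.nroots]; simp), zero_div]
    · omega

end Cfsg.Agent.S2434
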