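import Cfsg.Statements.S2435
import Cfsg.Agent.Known.SL2Irr

set_option autoImplicit false
open Cfsg

namespace Cfsg.Agent.S2435

open CL.GL2

/-- Let F be a finite field with q elements, q odd and q ≥ 5, and χ an irreducible complex character of SL₂ over F. If χ has degree (q + 1)/2, then at a diagonal element with entry a, a² ≠ 1, χ takes the value 1 when a is a square in F and −1 otherwise. If χ has degree (q − 1)/2, then at an element g with no eigenvector in F² (so g has order dividing q + 1), χ takes the value −1 when g raised to the power (q + 1)/2 is the identity and the value 1 otherwise. -/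
theorem result {F : Type*} [Field F] [Fintype F] (hodd : Odd (Fintype.card F)) (hq : 5 ≤ Fintype.card F)
    (χ : Matrix.SpecialLinearGroup (Fin 2) F → ℂ) (hχ : Cfsg.IsIrrCharacter (Matrix.SpecialLinearGroup (Fin 2) F) χ) (g : Matrix.SpecialLinearGroup (Fin 2) F) :
    (χ 1 = (((Fintype.card F + 1) / 2 : ℕ) : ℂ) → (g : Matrix (Fin 2) (Fin 2) F) 0 1 = 0 → (g : Matrix (Fin 2) (Fin 2) F) 1 0 = 0 → (g : Matrix (Fin 2) (Fin 2) F) 0 0 ^ 2 ≠ 1 →
      (IsSquare ((g : Matrix (Fin 2) (Fin 2) F) 0 0) → χ g = 1) ∧ (¬ IsSquare ((g : Matrix (Fin 2) (Fin 2) F) 0 0) → χ g = -1)) ∧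
    (χ 1 = (((Fintype.card F - 1) / 2 : ℕ) : ℂ) → (∀ (c : F) (v : Fin 2 → F), v ≠ 0 → (g : Matrix (Fin 2) (Fin 2) F).mulVec v ≠ c • v) →
      (((g ^ ((Fintype.card F + 1) / 2)) : Matrix (Fin 2) (Fin 2) F) = 1 → χ g = -1) ∧ (((g ^ ((Fintype.card F + 1) / 2)) : Matrix (Fin 2) (Fin 2) F) ≠ 1 → χ g = 1)) := by
  classical
  have hq4 : 4 ≤ Fintype.card F := by omega
  refine ⟨fun h h1 h2 h3 => ?_, fun h hg => ?_⟩
  · obtain ⟨lam, χ', a1, a2, h⟩ := SL_irr_of_deg_half_add hχ hodd hq4 h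
    rw [h.apply_of_semisimple hodd (Or.inr (trace_sq_ne_four_of_nroots (by
      rw [nroots_diag_SL h2 h3]; decide)))]
    obtain ⟨a, rfl, ha, hb⟩ := exists_diagSL_eq h1 h2
    have := (splitSL F).chi_emb_reg lam (z := a) (by
      rw [ne_eq, Units.ext_iff, Units.val_pow_eq_pow_val, ha]; exact h3)
    rw [splitSL_emb, ← map_inv, hom_inv_of_sq a1, splitSL_ε] at this
    rw [this, ← ha, ← quad_units_eq_one_iff a1 a2]
    refine ⟨fun h => by rw [h]; norm_num, fun h => ?_⟩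
    rw [(hom_eq_one_or a1 a).resolve_left h]; norm_num
  · obtain ⟨𝔢, h𝔢⟩ : ∃ 𝔢 : Ell F, 𝔢.M = g := ⟨⟨g, hg⟩, rfl⟩
    obtain ⟨θ, χ', a1, a2, h⟩ := SL_irr_of_deg_half_sub 𝔢 hχ hodd hq4 h
    rw [h.apply_of_semisimple hodd (Or.inr (trace_sq_ne_four_of_nroots (by
      rw [IsEll.nroots hg]; decide)))]
    obtain ⟨z, hz⟩ := 𝔢.exists_embSL_eq (g := g) (by rw [h𝔢])
    have := 𝔢.torSL.chi_emb_reg θ (z := z) (by
      rw [ne_eq, ← 𝔢.torSL.isScal_SL_iff', Torus.mat, Ell.torSL_emb, hz]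
      exact IsEll.not_isScal hg)
    rw [Ell.torSL_emb, hz, ← map_inv, hom_inv_of_sq a1, Ell.torSL_ε] at this
    have e : (g : M2 F) ^ ((Fintype.card F + 1) / 2) = 1 ↔ (θ z : ℂ) = 1 := by
      rw [quad_eq_one_iff a1 a2 (𝔢.card_K.trans (cast_half_add hodd).symm),
        ← 𝔢.embSL_injective.eq_iff, map_pow, map_one, hz, ← Matrix.SpecialLinearGroup.coe_pow]
      exact ⟨fun h => ext_SL h, fun h => by rw [h]; rfl⟩
    rw [this, ne_eq, e]
    refine ⟨fun h => by rw [h]; norm_num, fun h => ?_⟩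
    rw [(hom_eq_one_or a1 z).resolve_left h]; norm_num

end Cfsg.Agent.S2435
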