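import Cfsg.Statements.S2436
import Cfsg.Agent.S2299
import Cfsg.Agent.S2427
import Cfsg.Agent.Known.PSL2Classes
import Cfsg.Agent.Cls.SL2Sylow2
import Cfsg.Agent.Char.Ito
import Cfsg.Agent.Char.Linear
import Cfsg.Agent.Char.Integrality
import Cfsg.Agent.Grp.PGroupDQS

set_option autoImplicit false
open Cfsg

namespace Cfsg.Agent.S2436

open CL.GL2 CL.Char Subgroup

/-- Number of irreducible characters whose degree satisfies `P`. -/
noncomputable def cnt (G : Type*) [Group G] (P : ℕ → Prop) : ℕ :=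
  Nat.card {χ : IrrCharacter G // P (charDegree (χ : G → ℂ))}

section General
variable {G : Type*} [Group G]

theorem cnt_congr {P Q : ℕ → Prop} (h : ∀ d ∈ charDegrees G, P d ↔ Q d) : cnt G P = cnt G Q :=
  Nat.card_congr (Equiv.subtypeEquivRight fun χ => h _ ⟨χ, rfl⟩)

theorem cnt_eq (n : ℕ) : cnt G (· = n) = Nat.card {χ : IrrCharacter G // (χ : G → ℂ) 1 = n} :=
  Nat.card_congr (Equiv.subtypeEquivRight fun χ => χ.2.isCharacter.charDegree_eq_iff)

variable [Finite G]

theorem cnt_or {P Q : ℕ → Prop} (h : ∀ d, P d → ¬ Q d) :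
    cnt G (fun d => P d ∨ Q d) = cnt G P + cnt G Q := by
  classical
  unfold cnt
  rw [← Nat.card_sum]
  exact Nat.card_congr (subtypeOrEquiv _ _ (by
    rw [Pi.disjoint_iff]; intro χ; rw [Prop.disjoint_iff]; exact fun h' => h _ h'.1 h'.2))

theorem cnt_true : cnt G (fun _ => True) = Nat.card (ConjClasses G) := by
  rw [← card_irr_eq_card_conjClasses]
  exact Nat.card_congr (Equiv.subtypeUnivEquiv fun _ => trivial)

theorem cnt_not_add (P : ℕ → Prop) :
    cnt G (fun d => ¬ P d) + cnt G P = Nat.card (ConjClasses G) := by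
  rw [← cnt_or fun d h => h, ← cnt_true]
  exact cnt_congr fun d _ => by tauto

theorem cnt_normalizer_of_comm {l : ℕ} [Fact l.Prime] (S : Sylow l G)
    (h : ∀ a ∈ (S : Subgroup G), ∀ b ∈ (S : Subgroup G), a * b = b * a) :
    cnt (normalizer ((S : Subgroup G) : Set G)) (fun d => ¬ l ∣ d) =
      Nat.card (ConjClasses (normalizer ((S : Subgroup G) : Set G))) := by
  rw [← cnt_true]
  refine cnt_congr fun d hd => iff_true_intro fun hl => ?_
  obtain ⟨χ, hχ, h1⟩ := mem_charDegrees_iff.1 hd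
  have := isIrr_degree_dvd_index_of_abelian_normal hχ h1
    ((S : Subgroup G).subgroupOf (normalizer ((S : Subgroup G) : Set G)))
    fun a ha b hb => Subtype.ext (h _ ha _ hb)
  exact (S.subtype le_normalizer).not_dvd_index (hl.trans this)

theorem cnt_odd_of_two_group (hG : IsPGroup 2 G) :
    cnt G (fun d => ¬ 2 ∣ d) = (commutator G).index := by
  rw [← card_linear_irr, ← Nat.cast_one (R := ℂ), ← cnt_eq]
  refine cnt_congr fun d hd => ⟨fun h => ?_, fun h => by rw [h]; norm_num⟩
  obtain ⟨χ, hχ, h1⟩ := mem_charDegrees_iff.1 hd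
  obtain ⟨n, hn⟩ := IsPGroup.iff_card.1 hG
  have := isIrr_degree_dvd_card hχ h1
  rw [hn] at this
  obtain ⟨k, -, rfl⟩ := (Nat.dvd_prime_pow Nat.prime_two).1 this
  cases k with
  | zero => rfl
  | succ k => exact absurd (Dvd.intro_left _ (pow_succ 2 k).symm) h

end General

theorem cnt_equiv {G H : Type*} [Group G] [Group H] (e : G ≃* H) (P : ℕ → Prop) :
    cnt G P = cnt H P := card_irr_congr e P

theorem card_conjClasses_congr {G H : Type*} [Group G] [Group H] [Finite G] [Finite H]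
    (e : G ≃* H) : Nat.card (ConjClasses G) = Nat.card (ConjClasses H) := by
  rw [← cnt_true, ← cnt_true, cnt_equiv e]

variable {F : Type*} [Field F] [Fintype F] [DecidableEq F]

theorem cnt_card : cnt (SL2 F) (· = Fintype.card F) = 1 := by
  rw [cnt_eq]
  exact card_irr_eq_one isIrr_StSL (fun χ => χ 1 = Fintype.card F) fun χ hχ =>
    ⟨SL_irr_of_deg_card hχ, fun h => by rw [h, StSL_one]⟩

theorem cnt_SL23 : cnt (SL2 (ZMod 3)) (fun d => ¬ 2 ∣ d) = 4 := by
  have h1 : cnt (SL2 (ZMod 3)) (· = 1) = 3 := by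
    rw [cnt_eq, Nat.cast_one, card_linear_irr]
    have := (commutator (SL2 (ZMod 3))).index_mul_card
    rw [S2427.result.2.2.1, S2427.result.1] at this
    omega
  have h2 : cnt (SL2 (ZMod 3)) (· = 3) = 1 := by
    have := cnt_card (F := ZMod 3)
    rwa [ZMod.card] at this
  rw [cnt_congr (Q := fun d => d = 1 ∨ d = 3), cnt_or (by omega), h1, h2]
  intro d hd
  have := charDegrees_SL2_cases hd
  rw [ZMod.card] at this
  omega

theorem cnts (hodd : Odd (Fintype.card F)) (hq : 5 ≤ Fintype.card F) :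
    cnt (SL2 F) (· = 1) = 1 ∧
    cnt (SL2 F) (· = Fintype.card F + 1) = (Fintype.card F - 3) / 2 ∧
    cnt (SL2 F) (· = Fintype.card F - 1) = (Fintype.card F - 1) / 2 ∧
    cnt (SL2 F) (· = (Fintype.card F + 1) / 2) = 2 ∧
    cnt (SL2 F) (· = (Fintype.card F - 1) / 2) = 2 := by
  obtain ⟨h1, -, h3, h4, h5, h6⟩ := (S2299.result hodd).2 hq
  simp only [cnt_eq]
  refine ⟨by rw [Nat.cast_one, h1], by rw [Nat.cast_add, Nat.cast_one, h3],
    by rw [cast_card_sub_one, h4], h5, h6⟩

theorem cnt_odd (hodd : Odd (Fintype.card F)) (hq : 5 ≤ Fintype.card F) :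
    cnt (SL2 F) (fun d => ¬ 2 ∣ d) = 4 := by
  obtain ⟨h1, -, -, h5, h6⟩ := cnts hodd hq
  have h2 := cnt_card (F := F)
  obtain ⟨m, hm⟩ := hodd
  by_cases h : Fintype.card F % 4 = 1
  · rw [cnt_congr (Q := fun d => (d = 1 ∨ d = Fintype.card F) ∨ d = (Fintype.card F + 1) / 2)
      fun d hd => by have := charDegrees_SL2_cases hd; omega, cnt_or (by omega), cnt_or (by omega),
      h1, h2, h5]
  · rw [cnt_congr (Q := fun d => (d = 1 ∨ d = Fintype.card F) ∨ d = (Fintype.card F - 1) / 2)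
      fun d hd => by have := charDegrees_SL2_cases hd; omega, cnt_or (by omega), cnt_or (by omega),
      h1, h2, h6]

theorem torus_case (hodd : Odd (Fintype.card F)) {A : Type*} [CommGroup A] [Fintype A] [IsCyclic A]
    (T : Torus (ambSL F) A) {l : ℕ} [Fact l.Prime] (h2 : l ≠ 2) (h : l ∣ Nat.card A)
    (S : Sylow l (SL2 F)) :
    2 * cnt (normalizer ((S : Subgroup (SL2 F)) : Set (SL2 F))) (fun d => ¬ l ∣ d) =
      Nat.card A + 6 := by
  obtain ⟨T', z, -, hz, hle, -, hN⟩ := T.sylow_structure h2 h S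
  rw [cnt_normalizer_of_comm S fun a ha b hb => T'.range_comm (hle ha) (hle hb), hN,
    (T'.card_normalizer hz).2, if_pos hodd]

/-- Let F be a finite field with q elements, q odd, ℓ any prime and S a Sylow ℓ-subgroup of SL₂ over F with normaliser N. Then SL₂ and N have the same number of irreducible complex characters of degree not divisible by ℓ (the McKay equality holds for SL₂ over F at every prime). -/
theorem result {F : Type*} [Field F] [Fintype F] (hodd : Odd (Fintype.card F)) (ℓ : ℕ) [Fact ℓ.Prime] (S : Sylow ℓ (Matrix.SpecialLinearGroup (Fin 2) F)) :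
    Nat.card {χ : Cfsg.IrrCharacter (Matrix.SpecialLinearGroup (Fin 2) F) // ¬ ℓ ∣ Cfsg.charDegree (χ : Matrix.SpecialLinearGroup (Fin 2) F → ℂ)} =
      Nat.card {ψ : Cfsg.IrrCharacter (Subgroup.normalizer ((S : Subgroup (Matrix.SpecialLinearGroup (Fin 2) F)) : Set (Matrix.SpecialLinearGroup (Fin 2) F))) //
        ¬ ℓ ∣ Cfsg.charDegree (ψ : Subgroup.normalizer ((S : Subgroup (Matrix.SpecialLinearGroup (Fin 2) F)) : Set (Matrix.SpecialLinearGroup (Fin 2) F)) → ℂ)} := by
  classical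
  change cnt (SL2 F) (fun d => ¬ ℓ ∣ d) =
    cnt (normalizer ((S : Subgroup (SL2 F)) : Set (SL2 F))) (fun d => ¬ ℓ ∣ d)
  have hl : ℓ.Prime := Fact.out
  have htop : normalizer ((S : Subgroup (SL2 F)) : Set (SL2 F)) = ⊤ →
      cnt (SL2 F) (fun d => ¬ ℓ ∣ d) =
        cnt (normalizer ((S : Subgroup (SL2 F)) : Set (SL2 F))) (fun d => ¬ ℓ ∣ d) := fun h =>
    cnt_equiv ((MulEquiv.subgroupCongr h).trans topEquiv).symm _
  have hq2 := two_le_card (F := F)
  have hk := cnt_not_add (G := SL2 F) (ℓ ∣ ·)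
  rw [card_conjClasses_SL2_odd hodd] at hk
  obtain ⟨m, hm⟩ := id hodd
  by_cases h2 : ℓ = 2
  · subst h2
    by_cases h3 : Fintype.card F = 3
    · refine htop (eq_top_of_card_eq _ ?_)
      rw [(card_normalizer_sylow_two hodd (by omega) S).2, card_SL2, h3]; rfl
    rw [cnt_odd hodd (by omega)]
    by_cases h8 : Fintype.card F % 8 = 1 ∨ Fintype.card F % 8 = 7
    · rw [cnt_equiv (MulEquiv.subgroupCongr (normalizer_sylow_two_eq hodd h8 S)),
        cnt_odd_of_two_group S.isPGroup']
      obtain ⟨k, ⟨e⟩, -⟩ := sylow_two_quaternion hodd S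
      obtain ⟨a, b, h, -⟩ := CL.Grp.exists_dqsGen_of_quaternion (n := k + 2) (by omega) e
      exact h.index_commutator.symm
    · obtain ⟨e⟩ := nonempty_normalizer_sylow_two_equiv hodd (by omega) S
      rw [cnt_equiv e, cnt_SL23]
  have hl3 : 3 ≤ ℓ := by have := hl.two_le; omega
  have hcop : ∀ {d : ℕ}, ℓ ∣ 2 * d → ℓ ∣ d := fun h =>
    ((Nat.coprime_primes hl Nat.prime_two).2 h2).dvd_of_dvd_mul_left h
  have hnd : ∀ {a b : ℕ}, ℓ ∣ a → ℓ ∣ b → a = b + 1 ∨ a = b + 2 → False := by
    rintro a b ha hb (rfl | rfl) <;>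
    · have := Nat.le_of_dvd (by norm_num) ((Nat.dvd_add_right hb).1 ha); omega
  have hn1 : ¬ ℓ ∣ 1 := hl.one_lt.ne' ∘ Nat.dvd_one.1
  by_cases hp : ℓ ∣ Fintype.card F
  · have : CharP F ℓ := (CharP.charP_iff_prime_eq_zero hl).2 (by
      obtain ⟨p, hp'⟩ := CharP.exists F
      obtain ⟨n, hp1, hn⟩ := FiniteField.card F p
      rw [hn] at hp
      rw [(Nat.prime_dvd_prime_iff_eq hl hp1).1 (hl.dvd_of_dvd_pow hp)]
      exact CharP.cast_eq_zero F p)
    have hU := CL.SL2.uhyp_sl (F := F) ℓ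
    obtain ⟨S₀, hS₀⟩ := hU.exists_sylow (CL.SL2.Q_sl_ne_bot ℓ CL.SL2.pinf)
    obtain ⟨e⟩ := nonempty_normalizer_sylow_equiv S S₀
    have hB : normalizer ((S₀ : Subgroup (SL2 F)) : Set (SL2 F)) = (ambSL F).borel := by
      rw [hS₀, hU.normalizer_Q (CL.SL2.Q_sl_ne_bot ℓ CL.SL2.pinf)]
      ext g
      exact CL.SL2.sl_smul_pinf_eq_pinf g
    rw [cnt_equiv e, cnt_normalizer_of_comm S₀ fun a ha b hb => by
      rw [hS₀] at ha hb
      exact congrArg Subtype.val ((hU.isMulCommutative_Q _).is_comm.comm ⟨a, ha⟩ ⟨b, hb⟩),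
      hB, card_conjClasses_borel hodd]
    rw [cnt_congr (P := (ℓ ∣ ·)) (Q := (· = Fintype.card F)), cnt_card] at hk
    · omega
    · intro d hd
      refine ⟨fun h => ?_, fun h => h ▸ hp⟩
      rcases charDegrees_SL2_cases hd with h1 | h1 | h1 | h1 | h1 | h1
      · exact absurd (h1 ▸ h) hn1
      · exact h1
      · exact (hnd h hp (Or.inl h1)).elim
      · exact (hnd hp h (Or.inl h1.symm)).elim
      · exact (hnd (h.mul_left 2) hp (Or.inl h1)).elim
      · exact (hnd hp (h.mul_left 2) (Or.inl h1.symm)).elim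
  by_cases hs : ℓ ∣ Fintype.card F - 1
  · have h := torus_case hodd (splitSL F) h2 (by rwa [card_units_eq]) S
    rw [card_units_eq] at h
    have h5 : 5 ≤ Fintype.card F := by have := Nat.le_of_dvd (by omega) hs; omega
    obtain ⟨-, -, h3, -, h4⟩ := cnts hodd h5
    rw [cnt_congr (P := (ℓ ∣ ·)) (Q := fun d => d = Fintype.card F - 1 ∨ d = (Fintype.card F - 1) / 2),
      cnt_or (by omega), h3, h4] at hk
    · omega
    · intro d hd
      refine ⟨fun h => ?_, ?_⟩
      · rcases charDegrees_SL2_cases hd with h1 | h1 | h1 | h1 | h1 | h1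
        · exact absurd (h1 ▸ h) hn1
        · exact absurd (h1 ▸ h) hp
        · exact (hnd h hs (by omega)).elim
        · omega
        · exact (hnd (h.mul_left 2) hs (by omega)).elim
        · omega
      · rintro (rfl | rfl)
        · exact hs
        · exact hcop (by rwa [show 2 * ((Fintype.card F - 1) / 2) = Fintype.card F - 1 by omega])
  by_cases ha : ℓ ∣ Fintype.card F + 1
  · obtain ⟨𝔢⟩ := nonemptyEll (F := F)
    have h := torus_case hodd 𝔢.torSL h2 (by rwa [𝔢.card_K]) S
    rw [𝔢.card_K] at h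
    have h5 : 5 ≤ Fintype.card F := by
      by_contra h5
      rw [show Fintype.card F + 1 = 2 * (2 * 1) by omega] at ha
      exact hn1 (hcop (hcop ha))
    obtain ⟨-, h3, -, h4, -⟩ := cnts hodd h5
    rw [cnt_congr (P := (ℓ ∣ ·)) (Q := fun d => d = Fintype.card F + 1 ∨ d = (Fintype.card F + 1) / 2),
      cnt_or (by omega), h3, h4] at hk
    · omega
    · intro d hd
      refine ⟨fun h => ?_, ?_⟩
      · rcases charDegrees_SL2_cases hd with h1 | h1 | h1 | h1 | h1 | h1
        · exact absurd (h1 ▸ h) hn1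
        · exact absurd (h1 ▸ h) hp
        · omega
        · exact (hnd ha h (by omega)).elim
        · omega
        · exact (hnd ha (h.mul_left 2) (by omega)).elim
      · rintro (rfl | rfl)
        · exact ha
        · exact hcop (by rwa [show 2 * ((Fintype.card F + 1) / 2) = Fintype.card F + 1 by omega])
  · have hS : (S : Subgroup (SL2 F)) = ⊥ := by
      refine (S.isPGroup'.card_eq_or_dvd.resolve_right fun h => ?_) |> eq_bot_of_card_eq _
      have := h.trans (card_subgroup_dvd_card (S : Subgroup (SL2 F)))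
      rw [card_SL2, sq_sub_one_eq] at this
      rcases (Nat.Prime.dvd_mul hl).1 this with h | h
      · exact hp h
      · exact ((Nat.Prime.dvd_mul hl).1 h).elim ha hs
    refine htop ?_
    rw [hS]
    exact normalizer_eq_top _

end Cfsg.Agent.S2436
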