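import Cfsg.Statements.S2438
import Cfsg.Agent.Known.SL2Irr

set_option autoImplicit false
open Cfsg

namespace Cfsg.Agent.S2438

open CL.GL2

/-- Let F be a finite field with q elements, q odd, q ≥ 5, U the upper unitriangular subgroup of SL₂ over F, and χ an irreducible complex character. The sum of the values of χ over U equals 2q, q, 0, q, 0 according as the degree of χ is q + 1, q, q − 1, (q + 1)/2, (q − 1)/2; so among these five degrees the sum vanishes exactly for the degrees q − 1 and (q − 1)/2, i.e. the irreducible characters of those two degrees are the ones whose restriction to U does not contain the trivial character (the cuspidal characters), while those of degree q + 1, q and (q + 1)/2 are not cuspidal. -/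
theorem result {F : Type*} [Field F] [Fintype F] [DecidableEq F] (hodd : Odd (Fintype.card F)) (hq : 5 ≤ Fintype.card F)
    (χ : Matrix.SpecialLinearGroup (Fin 2) F → ℂ) (hχ : Cfsg.IsIrrCharacter (Matrix.SpecialLinearGroup (Fin 2) F) χ) :
    (χ 1 = (Fintype.card F : ℂ) + 1 →
      (∑ g : Matrix.SpecialLinearGroup (Fin 2) F, if (g : Matrix (Fin 2) (Fin 2) F) 1 0 = 0 ∧ (g : Matrix (Fin 2) (Fin 2) F) 0 0 = 1 ∧ (g : Matrix (Fin 2) (Fin 2) F) 1 1 = 1 then χ g else 0) = 2 * (Fintype.card F : ℂ)) ∧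
    (χ 1 = (Fintype.card F : ℂ) →
      (∑ g : Matrix.SpecialLinearGroup (Fin 2) F, if (g : Matrix (Fin 2) (Fin 2) F) 1 0 = 0 ∧ (g : Matrix (Fin 2) (Fin 2) F) 0 0 = 1 ∧ (g : Matrix (Fin 2) (Fin 2) F) 1 1 = 1 then χ g else 0) = (Fintype.card F : ℂ)) ∧
    (χ 1 = (Fintype.card F : ℂ) - 1 →
      (∑ g : Matrix.SpecialLinearGroup (Fin 2) F, if (g : Matrix (Fin 2) (Fin 2) F) 1 0 = 0 ∧ (g : Matrix (Fin 2) (Fin 2) F) 0 0 = 1 ∧ (g : Matrix (Fin 2) (Fin 2) F) 1 1 = 1 then χ g else 0) = 0) ∧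
    (χ 1 = (((Fintype.card F + 1) / 2 : ℕ) : ℂ) →
      (∑ g : Matrix.SpecialLinearGroup (Fin 2) F, if (g : Matrix (Fin 2) (Fin 2) F) 1 0 = 0 ∧ (g : Matrix (Fin 2) (Fin 2) F) 0 0 = 1 ∧ (g : Matrix (Fin 2) (Fin 2) F) 1 1 = 1 then χ g else 0) = (Fintype.card F : ℂ)) ∧
    (χ 1 = (((Fintype.card F - 1) / 2 : ℕ) : ℂ) →
      (∑ g : Matrix.SpecialLinearGroup (Fin 2) F, if (g : Matrix (Fin 2) (Fin 2) F) 1 0 = 0 ∧ (g : Matrix (Fin 2) (Fin 2) F) 0 0 = 1 ∧ (g : Matrix (Fin 2) (Fin 2) F) 1 1 = 1 then χ g else 0) = 0) := by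
  obtain ⟨𝔢⟩ := nonemptyEll (F := F)
  have hq4 : 4 ≤ Fintype.card F := by omega
  rw [sum_unip]
  refine ⟨fun h => ?_, fun h => ?_, fun h => ?_, fun h => ?_, fun h => ?_⟩
  · obtain ⟨lam, -, rfl⟩ := SL_irr_of_deg_add_one hχ h
    rw [sum_upSL fun g => Torus.chi_unip_SL _ _, h, splitSL_ε]; ring
  · obtain rfl := SL_irr_of_deg_card hχ h
    rw [sum_upSL (c := 0), h, mul_zero, add_zero]
    intro g h1 h2
    refine st0_of_nroots_one h1 ?_
    rw [h2, det_SL]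
    refine Eq.trans ?_ (nroots_same (1 : F))
    congr 1 <;> norm_num
  · obtain ⟨lam, -, rfl⟩ := SL_irr_of_deg_sub_one 𝔢 hχ hq4 h
    rw [sum_upSL fun g => Torus.chi_unip_SL _ _, h, Ell.torSL_ε]; ring
  · obtain ⟨lam, χ', -, -, h⟩ := SL_irr_of_deg_half_add hχ hodd hq4 h
    rw [h.sum_upSL hodd, sum_upSL fun g => Torus.chi_unip_SL _ _, Torus.chi_one, splitSL_ε]; ring
  · obtain ⟨lam, χ', -, -, h⟩ := SL_irr_of_deg_half_sub 𝔢 hχ hodd hq4 h
    rw [h.sum_upSL hodd, sum_upSL fun g => Torus.chi_unip_SL _ _, Torus.chi_one, Ell.torSL_ε]; ring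

end Cfsg.Agent.S2438
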