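import Cfsg.Statements.S2439
import Cfsg.Agent.Known.PSL2Classes
import Cfsg.Agent.Blk.Defect2
import Cfsg.Agent.Blk.Height
import Cfsg.Agent.Blk.DefectNum

set_option autoImplicit false
open Cfsg

namespace Cfsg.Agent.S2439

open CL.GL2 CL.Char CL.Blk Subgroup

variable {F : Type*} [Field F] [Fintype F] [DecidableEq F] {p : ℕ} [Fact p.Prime] [CharP F p]

omit [DecidableEq F] in
theorem dvd_card : p ∣ Fintype.card F := by
  obtain ⟨n, -, hn⟩ := FiniteField.card F p
  rw [hn]; exact dvd_pow_self p n.ne_zero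

theorem not_dvd_deg {χ : IrrCharacter (SL2 F)} (h : (χ : SL2 F → ℂ) 1 ≠ Fintype.card F) :
    ¬ p ∣ charDegree (χ : SL2 F → ℂ) := by
  intro hd
  have h1 := CL.SL2.not_dvd_card_add_one (F := F) p
  have h2 := CL.SL2.not_dvd_card_sub_one (F := F) p
  rcases charDegrees_SL2_cases ⟨χ, rfl⟩ with e | e | e | e | e | e
  · exact (Fact.out : p.Prime).one_lt.ne' (Nat.dvd_one.1 (e ▸ hd))
  · exact h (by rw [← e, χ.2.cast_charDegree])
  · exact h1 (e ▸ hd)
  · exact h2 (by rw [← e]; exact hd)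
  · exact h1 (e ▸ hd.mul_left 2)
  · exact h2 (by rw [← e]; exact hd.mul_left 2)

omit [DecidableEq F] in
theorem factorization_card : (Nat.card (SL2 F)).factorization p = (Fintype.card F).factorization p := by
  have h1 := CL.SL2.not_dvd_card_add_one (F := F) p
  have h2 := CL.SL2.not_dvd_card_sub_one (F := F) p
  have h3 := two_le_card (F := F)
  rw [card_SL2, sq_sub_one_eq, Nat.factorization_mul (by omega) (Nat.mul_ne_zero (by omega) (by omega)),
    Finsupp.add_apply, Nat.factorization_eq_zero_of_not_dvd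
      (fun h => ((Nat.Prime.dvd_mul Fact.out).1 h).elim h1 h2), add_zero]

omit [Fintype F] [DecidableEq F] in
theorem centralChar_of_isScal (χ : SL2 F → ℂ) {g : SL2 F} (hg : IsScal (g : M2 F)) :
    centralChar χ g = χ g / χ 1 := by
  rw [centralChar, index_eq_one.2 (centralizer_eq_top_iff_subset.2
    (Set.singleton_subset_iff.2 (mem_center_SL_iff.2 hg))), Nat.cast_one, one_mul]

theorem sameBlock_iff (hp : p ≠ 2) {M : Ideal AlgInt} (hM : IsPModular p M)
    {χ ψ : IrrCharacter (SL2 F)} (h1 : (χ : SL2 F → ℂ) 1 ≠ Fintype.card F)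
    (h2 : (ψ : SL2 F → ℂ) 1 ≠ Fintype.card F) :
    SameBlock M (χ : SL2 F → ℂ) ψ ↔
      (χ : SL2 F → ℂ) (-1) / (χ : SL2 F → ℂ) 1 = (ψ : SL2 F → ℂ) (-1) / (ψ : SL2 F → ℂ) 1 := by
  have hs : IsScal ((-1 : SL2 F) : M2 F) := isScal_SL_iff.2 (Or.inr rfl)
  have c1 := χ.2.one_ne_zero
  have c2 := ψ.2.one_ne_zero
  constructor
  · intro h
    have := h (-1)
    rw [centralChar_of_isScal _ hs, centralChar_of_isScal _ hs] at this
    have h2' : ¬ MemLocalIdeal M 2 := by
      rw [← Nat.cast_ofNat, memLocalIdeal_natCast_iff hM]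
      exact fun h => hp ((Nat.prime_dvd_prime_iff_eq Fact.out Nat.prime_two).1 h)
    rcases irr_neg_one_sq χ.2 with e1 | e1 <;> rcases irr_neg_one_sq ψ.2 with e2 | e2 <;>
      simp only [e1, e2, neg_div, div_self c1, div_self c2] at this ⊢
    · exact absurd (by convert this using 1; norm_num) h2'
    · exact absurd (by convert memLocalIdeal_neg hM this using 1; norm_num) h2'
  · intro h
    have d1 := blockDefect_eq_full_of_not_dvd (self_mem_blockOf hM χ) (not_dvd_deg (p := p) h1)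
    have d2 := blockDefect_eq_full_of_not_dvd (self_mem_blockOf hM ψ) (not_dvd_deg (p := p) h2)
    refine sameBlock_of_red_centralChar_eq_on_defect hM (by rw [d1, d2]) fun x hx hc => ?_
    have hx' : IsScal (x : M2 F) := by
      by_contra hn
      have hpos : (Nat.card (centralizer ({x} : Set (SL2 F)))).factorization p ≠ 0 := by
        rw [hc, d1, factorization_card]
        exact ((Fact.out : p.Prime).factorization_pos_of_dvd Fintype.card_ne_zero dvd_card).ne'
      refine hpos (Nat.factorization_eq_zero_of_not_dvd fun hd => ?_)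
      rcases nroots_cases (x : M2 F).trace 1 with h | ⟨a, e1, e2⟩ | ⟨a, b, hab, e1, e2⟩
      · rw [card_cent_SL_of_isEll (isEll_iff.2 (by rwa [det_SL]))] at hd
        exact CL.SL2.not_dvd_card_add_one p hd
      · rcases mul_self_eq_one_iff.1 e2.symm with rfl | rfl
        · exact hx (orderOf_SL_eq_char_iff.2 ⟨hn, by rw [e1]; norm_num⟩ ▸ dvd_rfl)
        · have : orderOf (-x) = p := orderOf_SL_eq_char_iff.2
            ⟨by rwa [coe_neg_SL, isScal_neg_iff], by rw [coe_neg_SL, Matrix.trace_neg, e1]; norm_num⟩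
          refine hx (((Nat.coprime_primes Fact.out Nat.prime_two).2 hp).dvd_of_dvd_mul_left ?_)
          rw [← this, orderOf_dvd_iff_pow_eq_one, pow_mul, neg_sq, ← pow_mul, mul_comm, pow_mul,
            pow_orderOf_eq_one, one_pow]
      · rw [card_cent_SL_of_split hab e1 e2.symm] at hd
        exact CL.SL2.not_dvd_card_sub_one p hd
    rw [centralChar_of_isScal _ hx', centralChar_of_isScal _ hx']
    rcases isScal_SL_iff.1 hx' with rfl | rfl
    · rw [div_self c1, div_self c2]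
    · rw [h]

theorem blockOf_St {M : Ideal AlgInt} (hM : IsPModular p M) {χ : IrrCharacter (SL2 F)}
    (h : (χ : SL2 F → ℂ) 1 = Fintype.card F) :
    blockOf M (χ : SL2 F → ℂ) = {χ : IrrCharacter (SL2 F) | (χ : SL2 F → ℂ) 1 = Fintype.card F} := by
  rw [blockOf_eq_singleton_of_defect_zero hM (by rw [CL.Char.charDegree_eq_of_eq h, factorization_card])]
  ext ψ
  refine ⟨fun e => e ▸ h, fun e => Subtype.ext ?_⟩
  rw [SL_irr_of_deg_card χ.2 h, SL_irr_of_deg_card ψ.2 e]

theorem not_sameBlock {M : Ideal AlgInt} (hM : IsPModular p M) {χ ψ : IrrCharacter (SL2 F)}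
    (h : (χ : SL2 F → ℂ) 1 ≠ Fintype.card F) (h' : SameBlock M (χ : SL2 F → ℂ) ψ) :
    (ψ : SL2 F → ℂ) 1 ≠ Fintype.card F := fun e => by
  have : χ ∈ blockOf M (ψ : SL2 F → ℂ) := sameBlock_symm hM h'
  rw [blockOf_St hM e] at this
  exact h this

theorem ne_card_of_neg {χ : IrrCharacter (SL2 F)}
    (h : (χ : SL2 F → ℂ) (-1) = -(χ : SL2 F → ℂ) 1) : (χ : SL2 F → ℂ) 1 ≠ Fintype.card F := fun e => by
  have c1 := χ.2.one_ne_zero
  rw [SL_irr_of_deg_card χ.2 e] at h c1
  rw [StSL_neg_one] at h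
  exact c1 (by linear_combination h / 2)

theorem blockOf_pos (hp : p ≠ 2) {M : Ideal AlgInt} (hM : IsPModular p M) {χ : IrrCharacter (SL2 F)}
    (h : (χ : SL2 F → ℂ) (-1) = (χ : SL2 F → ℂ) 1) (h' : (χ : SL2 F → ℂ) 1 ≠ Fintype.card F) :
    blockOf M (χ : SL2 F → ℂ) = {χ : IrrCharacter (SL2 F) |
      (χ : SL2 F → ℂ) (-1) = (χ : SL2 F → ℂ) 1 ∧ (χ : SL2 F → ℂ) 1 ≠ Fintype.card F} := by
  ext ψ
  have c1 := χ.2.one_ne_zero
  have c2 := ψ.2.one_ne_zero
  constructor
  · intro e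
    have h2 := not_sameBlock hM h' e
    have := (sameBlock_iff hp hM h' h2).1 e
    rw [h, div_self c1, eq_div_iff c2, one_mul] at this
    exact ⟨this.symm, h2⟩
  · rintro ⟨e, h2⟩
    exact (sameBlock_iff hp hM h' h2).2 (by rw [h, e, div_self c1, div_self c2])

theorem blockOf_neg (hp : p ≠ 2) {M : Ideal AlgInt} (hM : IsPModular p M) {χ : IrrCharacter (SL2 F)}
    (h : (χ : SL2 F → ℂ) (-1) = -(χ : SL2 F → ℂ) 1) :
    blockOf M (χ : SL2 F → ℂ) = {χ : IrrCharacter (SL2 F) |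
      (χ : SL2 F → ℂ) (-1) = -(χ : SL2 F → ℂ) 1} := by
  ext ψ
  have c1 := χ.2.one_ne_zero
  have c2 := ψ.2.one_ne_zero
  have h' := ne_card_of_neg h
  constructor
  · intro e
    have h2 := not_sameBlock hM h' e
    have := (sameBlock_iff hp hM h' h2).1 e
    rw [h, neg_div, div_self c1, eq_div_iff c2, neg_one_mul] at this
    exact this.symm
  · intro e
    exact (sameBlock_iff hp hM h' (ne_card_of_neg e)).2
      (by rw [h, e, neg_div, neg_div, div_self c1, div_self c2])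

/-- Let F be a finite field with q elements of odd characteristic p, and M a maximal ideal of the algebraic integers containing p. Then SL₂ over F has exactly three p-blocks relative to M: the irreducible character of degree q (the Steinberg character) alone; the other irreducible characters taking the same value at −1 as at 1 (the principal block); and the irreducible characters χ with χ(−1) = −χ(1). Every Sylow p-subgroup is a defect group of each of the last two blocks. -/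
theorem result {F : Type*} [Field F] [Fintype F] (p : ℕ) [Fact p.Prime] [CharP F p] (hp : p ≠ 2)
    (M : Ideal Cfsg.AlgInt) (hM : Cfsg.IsPModular p M) :
    (∀ B : Set (Cfsg.IrrCharacter (Matrix.SpecialLinearGroup (Fin 2) F)), Cfsg.IsPBlock M B ↔
      (B = {χ : Cfsg.IrrCharacter (Matrix.SpecialLinearGroup (Fin 2) F) | (χ : Matrix.SpecialLinearGroup (Fin 2) F → ℂ) 1 = (Fintype.card F : ℂ)} ∨
       B = {χ : Cfsg.IrrCharacter (Matrix.SpecialLinearGroup (Fin 2) F) | (χ : Matrix.SpecialLinearGroup (Fin 2) F → ℂ) (-1) = (χ : Matrix.SpecialLinearGroup (Fin 2) F → ℂ) 1 ∧ (χ : Matrix.SpecialLinearGroup (Fin 2) F → ℂ) 1 ≠ (Fintype.card F : ℂ)} ∨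
       B = {χ : Cfsg.IrrCharacter (Matrix.SpecialLinearGroup (Fin 2) F) | (χ : Matrix.SpecialLinearGroup (Fin 2) F → ℂ) (-1) = -(χ : Matrix.SpecialLinearGroup (Fin 2) F → ℂ) 1})) ∧
    Nat.card {B : Set (Cfsg.IrrCharacter (Matrix.SpecialLinearGroup (Fin 2) F)) // Cfsg.IsPBlock M B} = 3 ∧
    ∀ P : Sylow p (Matrix.SpecialLinearGroup (Fin 2) F),
      Cfsg.IsDefectGroup p M {χ : Cfsg.IrrCharacter (Matrix.SpecialLinearGroup (Fin 2) F) | (χ : Matrix.SpecialLinearGroup (Fin 2) F → ℂ) (-1) = (χ : Matrix.SpecialLinearGroup (Fin 2) F → ℂ) 1 ∧ (χ : Matrix.SpecialLinearGroup (Fin 2) F → ℂ) 1 ≠ (Fintype.card F : ℂ)} (P : Subgroup (Matrix.SpecialLinearGroup (Fin 2) F)) ∧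
      Cfsg.IsDefectGroup p M {χ : Cfsg.IrrCharacter (Matrix.SpecialLinearGroup (Fin 2) F) | (χ : Matrix.SpecialLinearGroup (Fin 2) F → ℂ) (-1) = -(χ : Matrix.SpecialLinearGroup (Fin 2) F → ℂ) 1} (P : Subgroup (Matrix.SpecialLinearGroup (Fin 2) F)) := by
  classical
  have hodd : Odd (Fintype.card F) := odd_of_charP hp
  have hq := two_le_card (F := F)
  let χ₀ : IrrCharacter (SL2 F) := ⟨StSL F, isIrr_StSL⟩
  let χ₁ : IrrCharacter (SL2 F) := irrOne _
  have h₀ : (χ₀ : SL2 F → ℂ) 1 = Fintype.card F := StSL_one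
  have h₁ : (χ₁ : SL2 F → ℂ) (-1) = (χ₁ : SL2 F → ℂ) 1 := rfl
  have h₁' : (χ₁ : SL2 F → ℂ) 1 ≠ Fintype.card F := by
    change (1 : ℂ) ≠ _
    rw [← Nat.cast_one, ne_eq, Nat.cast_inj]; omega
  obtain ⟨χ₂, h₂⟩ : ∃ χ : IrrCharacter (SL2 F), (χ : SL2 F → ℂ) (-1) = -(χ : SL2 F → ℂ) 1 := by
    by_contra h
    push Not at h
    have := (isConj_iff_forall_irr (-1 : SL2 F) 1).2 fun χ => (irr_neg_one_sq χ.2).resolve_right (h χ)
    exact one_ne_neg_one_SL hodd (isConj_one_left.1 this).symm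
  have b₀ := blockOf_St hM h₀
  have b₁ := blockOf_pos hp hM h₁ h₁'
  have b₂ := blockOf_neg hp hM h₂
  rw [← b₀, ← b₁, ← b₂]
  have key : ∀ B : Set (IrrCharacter (SL2 F)), IsPBlock M B ↔ B = blockOf M (χ₀ : SL2 F → ℂ) ∨
      B = blockOf M (χ₁ : SL2 F → ℂ) ∨ B = blockOf M (χ₂ : SL2 F → ℂ) := by
    intro B
    constructor
    · rintro ⟨χ, rfl⟩
      by_cases h : (χ : SL2 F → ℂ) 1 = Fintype.card F
      · exact Or.inl (by rw [b₀, blockOf_St hM h])
      rcases irr_neg_one_sq χ.2 with e | e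
      · exact Or.inr (Or.inl (by rw [b₁, blockOf_pos hp hM e h]))
      · exact Or.inr (Or.inr (by rw [b₂, blockOf_neg hp hM e]))
    · rintro (rfl | rfl | rfl) <;> exact ⟨_, rfl⟩
  refine ⟨key, ?_, fun P => ⟨?_, ?_⟩⟩
  · have m₁ := self_mem_blockOf hM χ₁
    have m₂ := self_mem_blockOf hM χ₂
    have : {B : Set (IrrCharacter (SL2 F)) | IsPBlock M B}.ncard = 3 := by
      refine Set.ncard_eq_three.2 ⟨_, _, _, ?_, ?_, ?_, Set.ext key⟩
      · intro e
        rw [← e, b₀] at m₁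
        exact h₁' m₁
      · intro e
        rw [← e, b₀] at m₂
        exact ne_card_of_neg h₂ m₂
      · intro e
        rw [← e, b₁] at m₂
        exact χ₂.2.one_ne_zero (by linear_combination (h₂ - m₂.1) / 2)
    exact this
  · exact (isDefectGroup_sylow_iff hM ⟨_, rfl⟩ P).2
      (blockDefect_eq_full_of_not_dvd (self_mem_blockOf hM χ₁) (not_dvd_deg h₁'))
  · exact (isDefectGroup_sylow_iff hM ⟨_, rfl⟩ P).2
      (blockDefect_eq_full_of_not_dvd (self_mem_blockOf hM χ₂) (not_dvd_deg (ne_card_of_neg h₂)))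

end Cfsg.Agent.S2439
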