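import Cfsg.Statements.S2442
import Cfsg.Agent.Char.Cusp4

set_option autoImplicit false
open scoped MatrixGroups
open Cfsg

namespace Cfsg.Agent.S2442

open Classical in
/-- Let F be a finite field with q elements and n ≥ 2. Call a complex character χ of GL_n over F cuspidal when, for every 0 < m < n, the sum of χ over the subgroup of matrices that agree with the identity outside the upper right m × (n − m) block vanishes (the restriction of χ to the unipotent radical of each maximal standard parabolic subgroup contains no principal constituent). Then GL_n has at least φ(qⁿ − 1)/n distinct cuspidal irreducible characters of degree (q − 1)(q² − 1)⋯(q^(n−1) − 1), φ being Euler's function (in particular at least one). -/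
theorem result {F : Type*} [Field F] [Fintype F] [DecidableEq F] (n : ℕ) (hn : 2 ≤ n) :
    Nat.totient (Fintype.card F ^ n - 1) / n ≤
      Nat.card {χ : Cfsg.IrrCharacter (GL (Fin n) F) //
        (χ : GL (Fin n) F → ℂ) 1 = ∏ i ∈ Finset.Ico 1 n, ((Fintype.card F : ℂ) ^ i - 1) ∧
        ∀ m : ℕ, 0 < m → m < n →
          (∑ g : GL (Fin n) F,
            if (∀ i j : Fin n, ¬ (i.val < m ∧ m ≤ j.val) → (g : Matrix (Fin n) (Fin n) F) i j = (1 : Matrix (Fin n) (Fin n) F) i j)
            then (χ : GL (Fin n) F → ℂ) g else 0) = 0} := by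
  obtain ⟨N, χ, N0, hd, h1, h2⟩ := CL.Green.exists_family (F := F) (n := n) (by omega)
  have q2 : 2 ≤ Fintype.card F := Fintype.one_lt_card
  set q := Fintype.card F
  have lt : ∀ i < n, q ^ i < q ^ n - 1 := fun i hi => by
    have a : q ^ (i + 1) ≤ q ^ n := Nat.pow_le_pow_right (by omega) hi
    have b : q ^ 2 ≤ q ^ n := Nat.pow_le_pow_right (by omega) hn
    have := Nat.mul_le_mul_left (q ^ i) q2
    rw [pow_succ] at a; rw [sq] at b
    have := Nat.mul_le_mul q2 q2
    omega
  have M1 : 1 < q ^ n - 1 := by simpa using lt 0 (by omega)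
  have : NeZero N := ⟨N0⟩
  have : NeZero (q ^ n - 1) := ⟨by omega⟩
  have ex : ∀ s : (ZMod (q ^ n - 1))ˣ, ∃ r : ℕ, r.Coprime N ∧ (r : ZMod (q ^ n - 1)) = s := fun s => by
    obtain ⟨t, rfl⟩ := ZMod.unitsMap_surjective hd s
    exact ⟨(t : ZMod N).val, ZMod.val_coe_unit_coprime t, by simp [ZMod.unitsMap_val]⟩
  choose r r1 r2 using ex
  have : Fact (1 < q ^ n - 1) := ⟨M1⟩
  have r0 : ∀ s, r s ≠ 0 := fun s e => s.ne_zero (by rw [← r2, e, Nat.cast_zero])
  have irr : ∀ s, IsIrrCharacter _ (χ (r s)) := fun s => by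
    obtain ⟨a, b, -⟩ := h1 _ (r0 s) (r1 s)
    refine (CL.Char.exc_irr_or_neg_of_norm_one a ?_).resolve_right fun t => ?_
    · rw [h2 _ _ (r0 s), Nat.cast_eq_one, Finset.card_eq_one]
      refine ⟨0, Finset.eq_singleton_iff_unique_mem.2 ⟨by simp [Nat.ModEq.refl]; omega, fun i hi => ?_⟩⟩
      obtain ⟨i1, i2⟩ := Finset.mem_filter.1 hi
      rw [← ZMod.natCast_eq_natCast_iff, Nat.cast_mul, r2, eq_comm, s.isUnit.mul_eq_right, ← Nat.cast_one (R := ZMod _),
        ZMod.natCast_eq_natCast_iff] at i2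
      exact Nat.pow_right_injective q2 (i2.eq_of_lt_of_lt (lt i (Finset.mem_range.1 i1)) M1)
    · obtain ⟨m, m0, e⟩ := t.exists_nat_one
      rw [Pi.neg_apply, b, Finset.prod_congr rfl (g := fun i => ((q ^ i - 1 : ℕ) : ℂ)) fun i _ => by
        simp [Nat.cast_sub (Nat.one_le_pow i q (by omega))], ← Nat.cast_prod, neg_eq_iff_add_eq_zero, ← Nat.cast_add,
        Nat.cast_eq_zero] at e
      omega
  refine Nat.div_le_of_le_mul ?_
  rw [← ZMod.card_units_eq_totient, ← Finset.card_univ, Nat.card_eq_fintype_card, ← Finset.card_univ]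
  refine Finset.card_le_mul_card_image_of_maps_to (f := fun s => ⟨⟨_, irr s⟩, (h1 _ (r0 s) (r1 s)).2.1, fun m a b => by
    convert (h1 _ (r0 s) (r1 s)).2.2 m a b⟩) (fun _ _ => Finset.mem_univ _) n fun ψ _ => ?_
  refine le_of_not_gt fun c => c.not_ge ?_
  obtain ⟨t, ht⟩ := Finset.card_pos.1 (Nat.zero_lt_of_lt c)
  refine (Finset.card_le_card_of_injOn (t := (Finset.range n).image fun i => ((q ^ i * r t : ℕ) : ZMod (q ^ n - 1)))
    Units.val (fun s hs => ?_) Units.val_injective.injOn).trans (Finset.card_image_le.trans_eq (Finset.card_range n))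
  have e : χ (r s) = χ (r t) := congrArg (·.1.1) ((Finset.mem_filter.1 hs).2.trans (Finset.mem_filter.1 ht).2.symm)
  have := h2 _ (r t) (r0 s)
  rw [← e, (irr s).classInner_self, eq_comm, Nat.cast_eq_one, Finset.card_eq_one] at this
  obtain ⟨i, hi⟩ := this
  obtain ⟨i1, i2⟩ := Finset.mem_filter.1 (hi.ge (Finset.mem_singleton_self i))
  exact Finset.mem_coe.2 (Finset.mem_image.2 ⟨i, i1, ((ZMod.natCast_eq_natCast_iff _ _ _).2 i2).symm.trans (r2 s)⟩)

end Cfsg.Agent.S2442
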