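import Cfsg.Statements.S2531
import Cfsg.Agent.Base

set_option autoImplicit false
open Cfsg

namespace Cfsg.Agent.S2531

open Projectivization

theorem card_points {F V : Type*} [Field F] [Finite F] [AddCommGroup V] [Module F V] [Finite V] (U : Submodule F V)
    (hU : U ≠ ⊥) : (({x : Projectivization F V | x.rep ∈ U}.ncard : ℕ) : F) = 1 := by
  have := Fintype.ofFinite F
  have h1 : {x : Projectivization F V | x.rep ∈ U} = Set.range (map U.subtype U.subtype_injective) :=
    Set.ext fun x => ⟨fun hx => ⟨mk F ⟨_, hx⟩ fun e => x.rep_nonzero (congrArg Subtype.val e), x.mk_rep⟩, by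
      rintro ⟨y, rfl⟩
      induction y using Projectivization.ind with | _ v hv => ?_
      obtain ⟨a, ha⟩ := exists_smul_eq_mk_rep F (v : V) fun e => hv (Subtype.ext e)
      exact (congrArg (· ∈ U) ha).mp (U.smul_mem _ v.2)⟩
  have h2 := Projectivization.card' F U
  have : Nontrivial U := Submodule.nontrivial_iff_ne_bot.2 hU
  have h3 : 0 < Module.finrank F U := Module.finrank_pos
  rw [Module.natCard_eq_pow_finrank (K := F) (V := U), Nat.card_eq_fintype_card (α := F)] at h2
  replace h2 := congrArg (Nat.cast : ℕ → F) h2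
  rw [Nat.cast_pow, Nat.cast_add, Nat.cast_mul, Nat.cast_pred Fintype.card_pos, FiniteField.cast_card_eq_zero,
    zero_pow h3.ne'] at h2
  rw [h1, Set.ncard_range_of_injective (map_injective _ _)]
  linear_combination h2

/-- Let `F` be a finite field and `n ≥ 3`. No set of permutations of the points of the projective space of `Fⁿ`, each induced by an invertible semilinear transformation of `Fⁿ` (so a subset of the full projective semilinear group), is sharply 2-transitive on the points: it is impossible that for all pairs of distinct points `(a, b)` and `(c, d)` exactly one member of the set sends `a` to `c` and `b` to `d`. -/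
theorem result {F : Type*} [Field F] [Finite F]
    (n : ℕ) (hn : 3 ≤ n) (S : Set (Equiv.Perm (Projectivization F (Fin n → F))))
    (hS : ∀ s ∈ S, ∃ (σ : F ≃+* F) (f : (Fin n → F) →ₛₗ[(σ : F →+* F)] (Fin n → F)) (hf : Function.Injective f),
      ∀ x, s x = Projectivization.map f hf x) :
    ¬ (∀ a b c d : Projectivization F (Fin n → F), a ≠ b → c ≠ d →
        ∃! s, s ∈ S ∧ s a = c ∧ s b = d) := by
  classical
  intro h
  have := Fintype.ofFinite F
  have := Fintype.ofFinite (Projectivization F (Fin n → F))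
  let i : Fin n := ⟨0, by omega⟩
  let U := LinearMap.ker (LinearMap.proj i : (Fin n → F) →ₗ[F] F)
  have h0 : (Pi.single i 1 : Fin n → F) ≠ 0 := by simp
  let α := Projectivization.mk F _ h0
  have hm : ∀ (W : Submodule F (Fin n → F)) v hv, (Projectivization.mk F v hv).rep ∈ W ↔ v ∈ W := fun W v hv => by
    obtain ⟨a, ha⟩ := exists_smul_eq_mk_rep F v hv
    rw [← ha, Units.smul_def, W.smul_mem_iff a.ne_zero]
  have hα : α.rep ∉ U := by simp [α, hm, U]
  let S₀ : Finset (Equiv.Perm (Projectivization F (Fin n → F))) := {s | s ∈ S ∧ s α = α}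
  have h1 : ∀ b, b ≠ α → ∀ T : Finset (Projectivization F (Fin n → F)), α ∉ T → (S₀.filter (· b ∈ T)).card = T.card :=
    fun b hb T hT => Finset.card_bij (fun s _ => s b) (fun s hs => (Finset.mem_filter.1 hs).2) (fun s hs t ht e => by
      simp only [S₀, Finset.mem_filter, Finset.mem_univ, true_and] at hs ht
      exact (h α b α (t b) hb.symm fun e => hT (e ▸ ht.2)).unique ⟨hs.1.1, hs.1.2, e⟩ ⟨ht.1.1, ht.1.2, rfl⟩)
      fun d hd => by
        obtain ⟨s, hs⟩ := (h α b α d hb.symm fun e => hT (e ▸ hd)).exists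
        exact ⟨s, by simp [S₀, hs, hd], hs.2.2⟩
  have ne : ∀ g : (Fin n → F) →+ F, ∃ v, v ≠ 0 ∧ v ∈ U ∧ g v = 0 := fun g => by
    by_contra! e
    have := Nat.card_le_card_of_injective _ ((injective_iff_map_eq_zero
      ((LinearMap.proj i : (Fin n → F) →ₗ[F] F).toAddMonoidHom.prod g)).2 fun v hv => by
        by_contra v0
        exact e v v0 (congrArg Prod.fst hv) (congrArg Prod.snd hv))
    rw [Nat.card_prod, Nat.card_fun, Nat.card_eq_fintype_card (α := Fin n), Fintype.card_fin, ← pow_two] at this
    exact absurd ((Nat.pow_le_pow_iff_right Finite.one_lt_card).1 this) (by omega)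
  obtain ⟨v, v0, v1, -⟩ := ne 0
  let B : Finset (Projectivization F (Fin n → F)) := {x | x.rep ∈ U}
  have hB : α ∉ B := by simpa [B] using hα
  have c1 : (B.card : F) = 1 := by
    rw [← card_points U ((Submodule.ne_bot_iff _).2 ⟨v, v1, v0⟩), ← Set.ncard_coe_finset, Finset.coe_filter_univ]
  have c2 : (S₀.card : F) = 0 := by
    have e1 := h1 (Projectivization.mk F v v0) (fun e => hα (e ▸ (hm U v v0).2 v1)) (Finset.univ.erase α) (by simp)
    have e2 := card_points (F := F) (V := Fin n → F) ⊤ ((Submodule.ne_bot_iff _).2 ⟨v, trivial, v0⟩)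
    rw [Finset.filter_true_of_mem fun s hs => by
      simpa using fun e : s (Projectivization.mk F v v0) = α =>
        hα ((s.injective (e.trans (Finset.mem_filter.1 hs).2.2.symm)) ▸ (hm U v v0).2 v1)] at e1
    rw [e1, Finset.card_erase_of_mem (Finset.mem_univ _), Nat.cast_pred (Finset.card_pos.2 ⟨α, Finset.mem_univ _⟩),
      ← e2]
    simp
  have h2 := congrArg (Nat.cast : ℕ → F) (Finset.sum_card_bipartiteAbove_eq_sum_card_bipartiteBelow
    (fun (s : Equiv.Perm (Projectivization F (Fin n → F))) b => s b ∈ B) (s := S₀) (t := B))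
  rw [Nat.cast_sum, Nat.cast_sum, Finset.sum_congr rfl (g := fun _ => (1 : F)) fun s hs => by
    obtain ⟨σ, f, hf, e⟩ := hS s (Finset.mem_filter.1 hs).2.1
    obtain ⟨w, w0, w1, w2⟩ := ne ((LinearMap.proj i : (Fin n → F) →ₗ[F] F).toAddMonoidHom.comp f.toAddMonoidHom)
    rw [← card_points (U ⊓ U.comap f) ((Submodule.ne_bot_iff _).2 ⟨w, ⟨w1, w2⟩, w0⟩), ← Set.ncard_coe_finset]
    refine congrArg _ (congrArg _ (Set.ext fun x => ?_))
    induction x using Projectivization.ind with | _ u hu => ?_
    rw [Set.mem_ofPred_eq, hm]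
    simp [B, e, Projectivization.map_mk, hm], Finset.sum_congr rfl (g := fun _ => (1 : F))
    (f := fun x => ((Finset.bipartiteBelow (fun (s : Equiv.Perm _) b => s b ∈ B) S₀ x).card : F)) fun b hb =>
    (congrArg _ (h1 b (fun e => hB (e ▸ hb)) B hB)).trans c1, Finset.sum_const, Finset.sum_const, nsmul_one, nsmul_one,
    c1, c2] at h2
  exact zero_ne_one h2

end Cfsg.Agent.S2531
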