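import Cfsg.Statements.S2532
import Cfsg.Agent.Known.AltSylowTools

set_option autoImplicit false
open Cfsg

namespace Cfsg.Agent.S2532

/-- There is a function `f` of two natural-number arguments such that, whenever `m ≥ f(n, r)`, every subgroup of order `n` of the alternating group of degree `m` centralizes some subgroup of that alternating group isomorphic to the alternating group of degree `r`. -/
theorem result :
    ∃ f : ℕ → ℕ → ℕ, ∀ (m r : ℕ) (H : Subgroup ↥(alternatingGroup (Fin m))), f (Nat.card H) r ≤ m →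
      ∃ K : Subgroup ↥(alternatingGroup (Fin m)), Nonempty (↥K ≃* ↥(alternatingGroup (Fin r))) ∧
        K ≤ Subgroup.centralizer (H : Set ↥(alternatingGroup (Fin m))) := by
  classical
  refine ⟨fun n r => 2 ^ n * n * r + 1, fun m r H hm => ?_⟩
  let rep : Fin m → Fin m := fun x => (Quotient.mk (MulAction.orbitRel H (Fin m)) x).out
  have hrep : ∀ x, ∃ h : H, h • rep x = x := fun x =>
    MulAction.orbitRel_apply.1 (Quotient.exact (Quotient.out_eq (Quotient.mk (MulAction.orbitRel H (Fin m)) x)).symm)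
  choose t ht using hrep
  haveI : Fintype H := Fintype.ofFinite _
  obtain ⟨⟨S, h0⟩, hS⟩ := Fintype.exists_lt_card_fiber_of_mul_lt_card
    (fun x : Fin m => (((MulAction.stabilizer H (rep x) : Set H), t x) : Set H × H)) (n := r) (by
      rw [Fintype.card_prod, Fintype.card_set, Fintype.card_fin, ← Nat.card_eq_fintype_card]
      exact hm)
  obtain ⟨e, he⟩ := Function.Embedding.exists_of_card_le_finset (α := Fin r) (by simpa using hS.le)
  have he' : ∀ i, (MulAction.stabilizer H (rep (e i)) : Set H) = S ∧ t (e i) = h0 := fun i => by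
    simpa using he ⟨i, rfl⟩
  have horb : ∀ i j (a b : H), a • rep (e i) = b • rep (e j) → i = j := by
    intro i j a b h
    have h1 : Quotient.mk (MulAction.orbitRel H (Fin m)) (rep (e i)) =
        Quotient.mk (MulAction.orbitRel H (Fin m)) (rep (e j)) :=
      Quotient.sound (MulAction.orbitRel_apply.2 ⟨a⁻¹ * b, by simp only [mul_smul, ← h, inv_smul_smul]⟩)
    simp only [rep, Quotient.out_eq] at h1
    have h2 : rep (e i) = rep (e j) := by simp only [rep, h1]
    apply e.injective
    rw [← ht (e i), ← ht (e j), (he' i).2, (he' j).2, h2]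
  have hst : ∀ i j (a b : H), a • rep (e i) = b • rep (e i) → a • rep (e j) = b • rep (e j) := by
    intro i j a b h
    have h1 : b⁻¹ * a ∈ (MulAction.stabilizer H (rep (e i)) : Set H) := by
      simp only [SetLike.mem_coe, MulAction.mem_stabilizer_iff, mul_smul, h, inv_smul_smul]
    rw [(he' i).1, ← (he' j).1] at h1
    simpa only [SetLike.mem_coe, MulAction.mem_stabilizer_iff, mul_smul, inv_smul_eq_iff] using h1
  let R : Setoid H := ⟨fun a b => ∀ i, a • rep (e i) = b • rep (e i),
    ⟨fun _ _ => rfl, fun h i => (h i).symm, fun h h' i => (h i).trans (h' i)⟩⟩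
  let ι : Quotient R × Fin r ↪ Fin m :=
    ⟨fun q => Quotient.lift (s := R) (fun a => a • rep (e q.2)) (fun a b h => h q.2) q.1, by
      rintro ⟨q, i⟩ ⟨q', j⟩ h
      induction q using Quotient.inductionOn with | _ a => ?_
      induction q' using Quotient.inductionOn with | _ b => ?_
      have h' : a • rep (e i) = b • rep (e j) := h
      obtain rfl := horb _ _ _ _ h'
      exact Prod.ext (Quotient.sound fun k => hst _ _ _ _ h') rfl⟩
  have hι : ∀ (a : H) i, ι (Quotient.mk R a, i) = a • rep (e i) := fun _ _ => rfl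
  let ψ : Equiv.Perm (Fin r) →* Equiv.Perm (Quotient R × Fin r) :=
    MonoidHom.mk' (fun σ => Equiv.prodCongrRight fun _ => σ) fun _ _ => Equiv.ext fun _ => rfl
  let φ : Equiv.Perm (Fin r) →* Equiv.Perm (Fin m) := (Equiv.Perm.viaEmbeddingHom ι).comp ψ
  have hφ : ∀ σ (a : H) i, φ σ (a • rep (e i)) = a • rep (e (σ i)) := fun σ a i => by
    rw [← hι, ← hι]
    exact Equiv.Perm.viaEmbedding_apply _ _ _
  have hφ' : ∀ σ x, x ∉ Set.range ι → φ σ x = x := fun σ x hx => Equiv.Perm.viaEmbedding_apply_of_notMem _ _ _ hx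
  let θ : alternatingGroup (Fin r) →* alternatingGroup (Fin m) :=
    (φ.comp (alternatingGroup (Fin r)).subtype).codRestrict _ fun σ => by
      change Equiv.Perm.sign ((ψ σ).viaEmbedding ι) = 1
      rw [CL.Known.sign_viaEmbedding]
      change Equiv.Perm.sign (Equiv.prodCongrRight fun _ : Quotient R => σ.1) = 1
      rw [Equiv.Perm.sign_prodCongrRight]
      simp [show Equiv.Perm.sign σ.1 = 1 from σ.2]
  have hθ : Function.Injective θ := by
    rw [injective_iff_map_eq_one]
    intro σ hσ
    have h1 : φ σ = 1 := congrArg Subtype.val hσ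
    refine Subtype.ext (Equiv.ext fun i => ?_)
    have := hφ σ 1 i
    rw [h1] at this
    exact (horb _ _ 1 1 this).symm
  refine ⟨θ.range, ⟨(MonoidHom.ofInjective hθ).symm⟩, ?_⟩
  rintro _ ⟨σ, rfl⟩ h hh
  refine Subtype.ext (Equiv.ext fun x => ?_)
  change (⟨h, hh⟩ : H) • φ σ x = φ σ ((⟨h, hh⟩ : H) • x)
  by_cases hx : x ∈ Set.range ι
  · obtain ⟨⟨q, i⟩, rfl⟩ := hx
    induction q using Quotient.inductionOn with | _ a => ?_
    rw [hι, hφ, ← mul_smul, ← mul_smul, hφ]
  · rw [hφ' _ _ hx, hφ']
    rintro ⟨⟨q, i⟩, hq⟩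
    induction q using Quotient.inductionOn with | _ a => ?_
    exact hx ⟨(Quotient.mk R ((⟨h, hh⟩ : H)⁻¹ * a), i), by rw [hι, mul_smul, ← hι, hq, inv_smul_smul]⟩

end Cfsg.Agent.S2532
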