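import Cfsg.Statements.S2533
import Cfsg.Agent.Base

set_option autoImplicit false
open Cfsg Matrix

namespace Cfsg.Agent.S2533

/-- the generalised dihedral group of an abelian group. -/
@[ext] structure GD (A : Type) where
  e : ℤˣ
  v : A

instance {A : Type} [AddCommGroup A] : Group (GD A) where
  mul a b := ⟨a.e * b.e, a.v + a.e • b.v⟩
  one := ⟨1, 0⟩
  inv a := ⟨a.e⁻¹, -(a.e⁻¹ • a.v)⟩
  mul_assoc a b c := GD.ext (mul_assoc _ _ _) (by
    change a.v + a.e • b.v + (a.e * b.e) • c.v = a.v + a.e • (b.v + b.e • c.v)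
    rw [smul_add, mul_smul, add_assoc])
  one_mul a := GD.ext (one_mul _) (by change 0 + (1 : ℤˣ) • a.v = a.v; simp)
  mul_one a := GD.ext (mul_one _) (by change a.v + a.e • (0 : A) = a.v; simp)
  inv_mul_cancel a := GD.ext (inv_mul_cancel _) (neg_add_cancel _)

def GD.equiv (A : Type) : GD A ≃ ℤˣ × A := ⟨fun a => (a.e, a.v), fun a => ⟨a.1, a.2⟩, fun _ => rfl, fun _ => rfl⟩

variable {F : Type} [Field F] {k : ℕ}

/-- the three matrices: identity, cyclic shift, a matrix unit. -/
def X (k : ℕ) (v : Fin 3 → F) : Matrix (Fin (k + 2)) (Fin (k + 2)) F :=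
  v 0 • 1 + v 1 • (of fun i j => if j = i + 1 then 1 else 0) + v 2 • single 0 0 1

theorem X_add (e : ℤˣ) (v w : Fin 3 → F) : X k (v + e • w) = X k v + e • X k w := by
  simp only [X, Pi.add_apply, Pi.smul_apply, add_smul, smul_add, smul_assoc]
  abel

theorem X_zero : X k (0 : Fin 3 → F) = 0 := by simp [X]

theorem X_inj {v : Fin 3 → F} (h : X k v = 0) : v = 0 := by
  have h0 := congrFun (congrFun h 0) 0
  have h1 := congrFun (congrFun h 1) 1
  have h2 := congrFun (congrFun h 0) 1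
  simp [X] at h0 h1 h2
  ext i
  fin_cases i <;> simp_all

theorem scalar_of_comm {a : Matrix (Fin (k + 2)) (Fin (k + 2)) F} (h : ∀ v, a * X k v = X k v * a) :
    a = a 0 0 • 1 := by
  have h1 : ∀ i j, a (i + 1) (j + 1) = a i j := fun i j => by
    simpa [X, mul_apply] using (congrFun (congrFun (h ![0, 1, 0]) i) (j + 1)).symm
  have h2 : ∀ j, j ≠ 0 → a 0 j = 0 := fun j hj => by
    simpa [X, hj] using (congrFun (congrFun (h ![0, 0, 1]) 0) j).symm
  have h3 : ∀ (n : ℕ) j, a (Fin.ofNat _ n) (j + Fin.ofNat _ n) = a 0 j := fun n j => by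
    induction n with
    | zero => simp
    | succ n ih => rw [show Fin.ofNat (k + 2) (n + 1) = Fin.ofNat _ n + 1 from by ext; simp [Fin.val_add],
        ← add_assoc, h1, ih]
  ext i j
  have h4 := h3 i (j - i)
  rw [Fin.ofNat_val_eq_self, sub_add_cancel] at h4
  by_cases e : i = j
  · subst e
    simp [h4]
  · simp [h4, e, h2 _ (sub_ne_zero.2 (Ne.symm e))]

/-- the representation. -/
def M (k : ℕ) : GD (Fin 3 → F) →* Matrix (Fin (k + 2) ⊕ Fin (k + 2)) (Fin (k + 2) ⊕ Fin (k + 2)) F where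
  toFun a := fromBlocks (a.e • 1) (X k a.v) 0 1
  map_one' := by
    change fromBlocks ((1 : ℤˣ) • 1) (X k 0) 0 1 = 1
    rw [X_zero, one_smul, fromBlocks_one]
  map_mul' a b := by
    change fromBlocks ((a.e * b.e) • 1) (X k (a.v + a.e • b.v)) 0 1 = _
    simp [fromBlocks_multiply, X_add, mul_smul, add_comm, smul_comm a.e b.e]

theorem det_M (hk : Even k) (a : GD (Fin 3 → F)) : (M k a).det = 1 := by
  change (fromBlocks (a.e • 1) (X k a.v) 0 1).det = 1
  rcases Int.units_eq_one_or a.e with e | e <;> simp [e, det_neg, (hk.add even_two).neg_one_pow]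

theorem eq_one_of_scalar (h2 : (2 : F) ≠ 0) {a : GD (Fin 3 → F)} {c : F} (h : M k a = c • 1) : a = 1 := by
  rw [← fromBlocks_one, fromBlocks_smul] at h
  obtain ⟨h1, h3, -, h4⟩ := fromBlocks_inj.1 h
  refine GD.ext ((Int.units_eq_one_or a.e).resolve_right fun e => h2 ?_) (X_inj (h3.trans (smul_zero _)))
  have := congrFun (congrFun (h1.trans h4.symm) 0) 0
  simp [e] at this
  linear_combination -this

theorem scalar_of_cent (h2 : (2 : F) ≠ 0) {g : Matrix (Fin (k + 2) ⊕ Fin (k + 2)) (Fin (k + 2) ⊕ Fin (k + 2)) F}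
    (hg : g.det ≠ 0) (h : ∀ a, ∃ c : F, g * M k a = c • (M k a * g)) : ∃ c : F, g = c • 1 := by
  rw [← fromBlocks_toBlocks g] at hg h ⊢
  generalize g.toBlocks₁₁ = a, g.toBlocks₁₂ = b, g.toBlocks₂₁ = c, g.toBlocks₂₂ = d at hg h
  have key : ∀ {l : F} {x : Matrix (Fin (k + 2)) (Fin (k + 2)) F}, x = l • x → l = 1 ∨ x = 0 := fun {l x} e => by
    rw [← sub_eq_zero, ← one_smul F x, smul_smul, mul_one, ← sub_smul, smul_eq_zero, sub_eq_zero] at e
    exact e.imp_left Eq.symm
  have h1 : ∀ v, X k v * c = 0 ∧ a * X k v = X k v * d := fun v => by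
    obtain ⟨l, e⟩ := h ⟨1, v⟩
    change _ * fromBlocks ((1 : ℤˣ) • 1) (X k v) 0 1 = l • (fromBlocks ((1 : ℤˣ) • 1) (X k v) 0 1 * _) at e
    simp only [fromBlocks_multiply, fromBlocks_smul, fromBlocks_inj, one_smul, mul_one, one_mul, mul_zero, zero_mul,
      add_zero, zero_add] at e
    obtain rfl : l = 1 := (key e.2.2.1).elim id fun e0 => by
      rw [e0, mul_zero, add_zero] at e
      exact (key e.1).resolve_right fun e1 => hg (by rw [e0, e1, det_fromBlocks_zero₂₁, det_zero, zero_mul])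
    simp only [one_smul] at e
    exact ⟨left_eq_add.1 e.1, add_right_cancel (e.2.1.trans (add_comm _ _))⟩
  have h3 := h1 ![1, 0, 0]
  simp [X] at h3
  obtain ⟨rfl, rfl⟩ := h3
  obtain ⟨l, e⟩ := h ⟨-1, 0⟩
  change _ * fromBlocks ((-1 : ℤˣ) • 1) (X k 0) 0 1 = l • (fromBlocks ((-1 : ℤˣ) • 1) (X k 0) 0 1 * _) at e
  simp only [fromBlocks_multiply, fromBlocks_smul, fromBlocks_inj, X_zero, mul_one, one_mul, mul_zero, zero_mul,
    add_zero, zero_add, Units.neg_smul, one_smul, neg_mul] at e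
  obtain rfl : l = 1 := (key e.2.2.2).resolve_right fun e1 => hg (by rw [e1, det_fromBlocks_zero₂₁, det_zero, zero_mul])
  have h4 : b = 0 := (smul_eq_zero.1 (show (2 : F) • b = 0 by
    rw [two_smul]; exact add_eq_zero_iff_eq_neg.2 (by simpa using e.2.1))).resolve_left h2
  exact ⟨a 0 0, by rw [← fromBlocks_one, fromBlocks_smul, ← scalar_of_comm fun v => (h1 v).2, h4, smul_zero]⟩

/-- For every odd prime `p` there is a finite group `H` of order `2p³` which, for infinitely many `n`, embeds in the projective special linear group `PSL(n, p)` as a subgroup with trivial centralizer. -/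
theorem result
    (p : ℕ) [Fact p.Prime] (hp : p ≠ 2) :
    ∃ (H : Type) (_ : Group H) (_ : Finite H), Nat.card H = 2 * p ^ 3 ∧
      ∀ N : ℕ, ∃ n, N ≤ n ∧ ∃ φ : H →* Matrix.ProjectiveSpecialLinearGroup (Fin n) (ZMod p),
        Function.Injective φ ∧ Subgroup.centralizer (φ.range : Set (Matrix.ProjectiveSpecialLinearGroup (Fin n) (ZMod p))) = ⊥ := by
  have h2 : (2 : ZMod p) ≠ 0 := fun e => hp ((Nat.prime_dvd_prime_iff_eq Fact.out Nat.prime_two).1
    ((ZMod.natCast_eq_zero_iff 2 p).1 e))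
  refine ⟨GD (Fin 3 → ZMod p), inferInstance, Finite.of_equiv _ (GD.equiv _).symm,
    by simp [Nat.card_congr (GD.equiv _)], fun N => ⟨2 * N + 2 + (2 * N + 2), by omega, ?_⟩⟩
  let r := reindexAlgEquiv (ZMod p) (ZMod p) (finSumFinEquiv (m := 2 * N + 2) (n := 2 * N + 2))
  let ψ : GD (Fin 3 → ZMod p) →* Matrix.SpecialLinearGroup (Fin (2 * N + 2 + (2 * N + 2))) (ZMod p) :=
    { toFun := fun a => ⟨r (M _ a), (det_reindexAlgEquiv _ _ _ _).trans (det_M (even_two_mul N) a)⟩
      map_one' := Subtype.ext (by simp)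
      map_mul' := fun a b => Subtype.ext ((congrArg r (map_mul _ a b)).trans (map_mul r _ _)) }
  have hs : ∀ c : ZMod p, r.symm (scalar _ c) = c • 1 := fun c => by
    rw [scalar_apply, ← smul_one_eq_diagonal, map_smul, map_one]
  refine ⟨(QuotientGroup.mk' _).comp ψ, (injective_iff_map_eq_one _).2 fun a ha => ?_, eq_bot_iff.2 fun g hg => ?_⟩
  · obtain ⟨c, -, e⟩ := Matrix.SpecialLinearGroup.mem_center_iff.1 ((QuotientGroup.eq_one_iff (ψ a)).1 ha)
    exact eq_one_of_scalar h2 (k := 2 * N) (c := c) (by rw [← hs, e]; exact (r.symm_apply_apply _).symm)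
  · obtain ⟨g, rfl⟩ := QuotientGroup.mk_surjective g
    obtain ⟨c, e⟩ := scalar_of_cent h2 (g := r.symm g.1) (by
      rw [← det_reindexAlgEquiv (ZMod p) (ZMod p) finSumFinEquiv]
      exact (congrArg det (r.apply_symm_apply _)).trans_ne (g.2.trans_ne one_ne_zero)) fun a => by
        have e := Subgroup.mem_centralizer_iff.1 hg _ ⟨a, rfl⟩
        obtain ⟨c, -, e⟩ := Matrix.SpecialLinearGroup.mem_center_iff.1
          ((QuotientGroup.eq (a := ψ a * g) (b := g * ψ a)).1 e)
        refine ⟨c, ?_⟩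
        have e1 : g.1 * r (M _ a) = r (M _ a) * g.1 * scalar _ c := by
          change (g * ψ a).1 = (ψ a * g).1 * scalar _ c
          rw [e, ← Matrix.SpecialLinearGroup.coe_mul, mul_inv_cancel_left]
        have e2 := congrArg r.symm e1
        rwa [map_mul, map_mul, map_mul, hs, r.symm_apply_apply, mul_smul_comm, mul_one] at e2
    refine Subgroup.mem_bot.2 ((QuotientGroup.eq_one_iff _).2 (Subgroup.mem_center_iff.2 fun x => Subtype.ext ?_))
    have e1 : g.1 = c • 1 := by rw [← r.apply_symm_apply g.1, e, map_smul, map_one]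
    simp [e1]

end Cfsg.Agent.S2533
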