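import Cfsg.Statements.S2534
import Cfsg.Agent.Known.HallSym3

set_option autoImplicit false
open Cfsg

namespace Cfsg.Agent.S2534

/-- For `n ≥ 5` and a set of primes `π`, the alternating group of degree `n` satisfies the full Sylow analogue for `π` (its maximal `π`-subgroups are pairwise conjugate; for a finite group this says Hall `π`-subgroups exist, are all conjugate, and contain every `π`-subgroup up to conjugacy) if and only if either at most one prime of `π` divides its order or every prime dividing its order lies in `π`. -/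
theorem result (n : ℕ) (hn : 5 ≤ n) (π : Set ℕ) :
    Cfsg.IsDPiGroup π ↥(alternatingGroup (Fin n)) ↔
      ((∀ r s : ℕ, r.Prime → s.Prime → r ∈ π → s ∈ π → r ∣ Nat.card ↥(alternatingGroup (Fin n)) → s ∣ Nat.card ↥(alternatingGroup (Fin n)) → r = s) ∨
        ∀ r : ℕ, r.Prime → r ∣ Nat.card ↥(alternatingGroup (Fin n)) → r ∈ π) := by
  refine ⟨fun h => by_contra fun h1 => ?_, fun h => h.elim (fun h => (CL.Known.HallSym.hallD_of_one h).isDPiGroup)
    fun h => (CL.Known.HallSym.hallD_of_all h).isDPiGroup⟩
  push Not at h1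
  obtain ⟨⟨r, s, hr, hs, e1, e2, e3, e4, e5⟩, t, ht, e6, e7⟩ := h1
  exact CL.Known.HallSym.not_isDPi hn ⟨r, s, hr, hs, e5, e1, e2, CL.Known.HallSym.le_card_of_dvd hr e3,
    CL.Known.HallSym.le_card_of_dvd hs e4⟩ ⟨t, ht, CL.Known.HallSym.le_card_of_dvd ht e6, e7⟩ h

end Cfsg.Agent.S2534
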