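import Cfsg.Statements.S2535
import Cfsg.Agent.Known.HallSym3

set_option autoImplicit false
open Cfsg

namespace Cfsg.Agent.S2535

/-- For every `n` and every set of primes `π`, the following are equivalent for the symmetric group `S` of degree `n` and its alternating subgroup `A`: `S` has a Hall `π`-subgroup; `S` has a Hall `π`-subgroup and all of them are conjugate; `A` has a Hall `π`-subgroup; `A` has a Hall `π`-subgroup and all of them are conjugate. -/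
theorem result (n : ℕ) (π : Set ℕ) :
    (Cfsg.IsEPiGroup π (Equiv.Perm (Fin n)) ↔ Cfsg.IsCPiGroup π (Equiv.Perm (Fin n))) ∧
    (Cfsg.IsEPiGroup π (Equiv.Perm (Fin n)) ↔ Cfsg.IsEPiGroup π ↥(alternatingGroup (Fin n))) ∧
    (Cfsg.IsEPiGroup π ↥(alternatingGroup (Fin n)) ↔ Cfsg.IsCPiGroup π ↥(alternatingGroup (Fin n))) := by
  rcases CL.Known.HallSym.hall_cases π (Fin n) with ⟨hD, hD'⟩ | ⟨h2, hns⟩
  · exact ⟨iff_of_true hD.exists_hall hD.isCPiGroup, iff_of_true hD.exists_hall hD'.exists_hall,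
      iff_of_true hD'.exists_hall hD'.isCPiGroup⟩
  refine ⟨⟨fun h => ⟨h, fun H K hH hK => ?_⟩, fun h => h.1⟩,
    ⟨fun ⟨H, h⟩ => ⟨_, CL.Grp.isPiHall_subgroupOf_normal h _⟩, fun ⟨M, h⟩ => ?_⟩,
    ⟨fun h => ⟨h, fun H K hH hK => ?_⟩, fun h => h.1⟩⟩
  · obtain ⟨h3, Δ, rfl, h4⟩ := CL.Known.HallSym.hall_perm h2 hns hH
    obtain ⟨-, Δ', rfl, h5⟩ := CL.Known.HallSym.hall_perm h2 hns hK
    obtain ⟨g, -, hg⟩ := CL.Known.HallSym.exists_conj_bip h3 h4 h5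
    exact ⟨g, hg.symm⟩
  · obtain ⟨h3, Δ, -, h4⟩ := CL.Known.HallSym.hall_alt h2 hns h
    exact ⟨_, CL.Known.HallSym.isPiHall_bip h3 h4⟩
  · obtain ⟨h3, Δ, rfl, h4⟩ := CL.Known.HallSym.hall_alt h2 hns hH
    obtain ⟨-, Δ', rfl, h5⟩ := CL.Known.HallSym.hall_alt h2 hns hK
    obtain ⟨g, h6, hg⟩ := CL.Known.HallSym.exists_conj_bip h3 h4 h5
    exact ⟨⟨g, h6⟩, hg ▸ CL.Grp.hall_comap_conj (alternatingGroup (Fin n)).subtype ⟨g, h6⟩ _⟩

end Cfsg.Agent.S2535
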