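import Cfsg.Statements.S2536
import Cfsg.Agent.Known.HallSym3

set_option autoImplicit false
open Cfsg

namespace Cfsg.Agent.S2536

/-- Let `π` be a set of primes and `n` a natural number such that at least two primes of `π` divide `n!` but not every prime dividing `n!` lies in `π`. Then the symmetric group of degree `n` has a Hall `π`-subgroup if and only if either `n` is prime and the primes of `π` dividing `n!` are exactly the primes smaller than `n` (a point stabilizer is then such a subgroup), or `n ∈ {7, 8}` and the primes of `π` dividing `n!` are exactly 2 and 3. -/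
theorem result (n : ℕ) (π : Set ℕ)
    (h2 : ∃ r s : ℕ, r.Prime ∧ s.Prime ∧ r ≠ s ∧ r ∈ π ∧ s ∈ π ∧ r ≤ n ∧ s ≤ n)
    (hns : ∃ r : ℕ, r.Prime ∧ r ≤ n ∧ r ∉ π) :
    Cfsg.IsEPiGroup π (Equiv.Perm (Fin n)) ↔
      ((n.Prime ∧ ∀ r : ℕ, r.Prime → r ≤ n → (r ∈ π ↔ r < n)) ∨
       ((n = 7 ∨ n = 8) ∧ ∀ r : ℕ, r.Prime → r ≤ n → (r ∈ π ↔ (r = 2 ∨ r = 3)))) := by
  constructor
  · rintro ⟨H, hH⟩
    obtain ⟨-, Δ, -, h⟩ := CL.Known.HallSym.hall_perm (by simpa using h2) (by simpa using hns) hH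
    rw [Fintype.card_fin] at h
    exact h.imp (fun h => h.2) fun h => ⟨h.1.imp (·.2) (·.2), h.2⟩
  · intro h
    obtain ⟨k, hk, h1, h3⟩ : ∃ k ≤ n, CL.Known.HallSym.Typ π n k ∧ 2 ∈ π := by
      obtain ⟨r, s, hr, hs, hrs, e1, e2, e3, e4⟩ := h2
      have := hr.two_le
      have := hs.two_le
      rcases h with h | ⟨rfl | rfl, h⟩
      · exact ⟨1, by omega, Or.inl ⟨rfl, h⟩, (h.2 2 Nat.prime_two (by omega)).2 (by omega)⟩
      · exact ⟨3, by omega, Or.inr ⟨Or.inl ⟨rfl, rfl⟩, h⟩, (h 2 Nat.prime_two (by omega)).2 (Or.inl rfl)⟩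
      · exact ⟨4, by omega, Or.inr ⟨Or.inr ⟨rfl, rfl⟩, h⟩, (h 2 Nat.prime_two (by omega)).2 (Or.inl rfl)⟩
    obtain ⟨Δ, -, rfl⟩ := Finset.exists_subset_card_eq (s := (Finset.univ : Finset (Fin n))) (n := k) (by simpa using hk)
    exact ⟨_, CL.Known.HallSym.isPiHall_bip h3 (by simpa using h1)⟩

end Cfsg.Agent.S2536
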