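import Cfsg.Statements.S2537
import Cfsg.Agent.Cls.SL2Class2


set_option autoImplicit false
open Cfsg Matrix Subgroup CL.GL2 CL.SL2

namespace Cfsg.Agent.S2537

theorem arith {n i q N : ℕ} (hN : N ≠ 0) (h2 : ¬ 2 ∣ q) (h3 : ¬ 3 ∣ q) (h : n * i = q * N) :
    ((∀ r : ℕ, r.Prime → r ∣ n → r ∈ ({2, 3} : Set ℕ)) ∧ ¬ 2 ∣ i ∧ ¬ 3 ∣ i) ↔
      n = 2 ^ N.factorization 2 * 3 ^ N.factorization 3 := by
  have hq : q ≠ 0 := by rintro rfl; exact h2 (dvd_zero 2)
  have hn : n ≠ 0 := left_ne_zero_of_mul (h ▸ mul_ne_zero hq hN)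
  have hi : i ≠ 0 := right_ne_zero_of_mul (h ▸ mul_ne_zero hq hN)
  have h1 : ∀ r, n.factorization r + i.factorization r = q.factorization r + N.factorization r :=
    fun r => by
      rw [← Finsupp.add_apply, ← Finsupp.add_apply, ← Nat.factorization_mul hn hi, h,
        Nat.factorization_mul hq hN]
  have h4 := h1 2
  have h5 := h1 3
  rw [Nat.factorization_eq_zero_of_not_dvd h2] at h4
  rw [Nat.factorization_eq_zero_of_not_dvd h3] at h5
  have h6 : ∀ a b r, (2 ^ a * 3 ^ b).factorization r =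
      (if 2 = r then a else 0) + if 3 = r then b else 0 := fun a b r => by
    rw [Nat.factorization_mul (by positivity) (by positivity), Nat.prime_two.factorization_pow,
      Nat.prime_three.factorization_pow, Finsupp.add_apply, Finsupp.single_apply,
      Finsupp.single_apply]
  constructor
  · rintro ⟨h7, h8, h9⟩
    rw [Nat.factorization_eq_zero_of_not_dvd h8] at h4
    rw [Nat.factorization_eq_zero_of_not_dvd h9] at h5
    refine Nat.eq_of_factorization_eq hn (by positivity) fun r => ?_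
    rw [h6]
    split_ifs with e1 e2 e2
    · omega
    · subst e1; omega
    · subst e2; omega
    · by_cases hr : r.Prime
      · exact Nat.factorization_eq_zero_of_not_dvd fun h => (h7 r hr h).elim (e1 ·.symm) (e2 ·.symm)
      · exact Nat.factorization_eq_zero_of_not_prime n hr
  · intro h7
    have h8 := h6 (N.factorization 2) (N.factorization 3)
    rw [← h7] at h8
    refine ⟨fun r hr h9 => ?_, fun h9 => ?_, fun h9 => ?_⟩
    · rcases (Nat.Prime.dvd_mul hr).1 (h7 ▸ h9) with h | h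
      · exact Or.inl ((Nat.prime_dvd_prime_iff_eq hr Nat.prime_two).1 (hr.dvd_of_dvd_pow h))
      · exact Or.inr ((Nat.prime_dvd_prime_iff_eq hr Nat.prime_three).1 (hr.dvd_of_dvd_pow h))
    · have := Nat.prime_two.factorization_pos_of_dvd hi h9
      have := h8 2
      simp at this
      omega
    · have := Nat.prime_three.factorization_pos_of_dvd hi h9
      have := h8 3
      simp at this
      omega

/-- Let `F` be a finite field with `q` elements of characteristic `p ≥ 5`, and `ε = 1` if `q ≡ 1 (mod 4)`, `ε = -1` otherwise. Then `PSL(2, F)` has a Hall `{2, 3}`-subgroup if and only if `3` divides `q − ε`, or the `{2,3}`-part of `q² − 1` is 24, or the `{2,3}`-part of `q² − 1` is 48 (the `{2,3}`-part of `m` being the largest divisor of `m` with no prime factor other than 2 and 3). -/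
theorem result {F : Type*} [Field F] [Fintype F] {p : ℕ} [Fact p.Prime] [CharP F p]
    (hp : 5 ≤ p) (q : ℕ) (hq : Fintype.card F = q) :
    (∃ H : Subgroup (Matrix.ProjectiveSpecialLinearGroup (Fin 2) F), Cfsg.IsPiHall ({2, 3} : Set ℕ) H) ↔
      (3 ∣ q - 1 ∧ q % 4 = 1) ∨ (3 ∣ q + 1 ∧ q % 4 = 3) ∨
        2 ^ (q ^ 2 - 1).factorization 2 * 3 ^ (q ^ 2 - 1).factorization 3 = 24 ∨
        2 ^ (q ^ 2 - 1).factorization 2 * 3 ^ (q ^ 2 - 1).factorization 3 = 48 := by
  subst hq
  have hpp : p.Prime := Fact.out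
  have hodd : Odd (Fintype.card F) := odd_of_charP (p := p) (by omega)
  have h2 := two_ne_zero_of_odd hodd
  have hG := card_psl_two_mul h2
  have hd := gcd_two_of_ne h2
  have hq5 := hp.trans (char_le_card (F := F) p)
  obtain ⟨n, -, hn⟩ := FiniteField.card F p
  have h3 : ¬ 3 ∣ Fintype.card F := fun h => by
    have := (Nat.prime_dvd_prime_iff_eq Nat.prime_three hpp).1 (Nat.prime_three.dvd_of_dvd_pow (hn ▸ h))
    omega
  have hsq : Fintype.card F ^ 2 - 1 = (Fintype.card F + 1) * (Fintype.card F - 1) := Nat.sq_sub_sq _ 1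
  have hN : Fintype.card F ^ 2 - 1 ≠ 0 := hsq ▸ mul_ne_zero (by omega) (by omega)
  have hall : ∀ H : Subgroup (ProjectiveSpecialLinearGroup (Fin 2) F), IsPiHall {2, 3} H ↔
      Nat.card H * 2 = 2 ^ (Fintype.card F ^ 2 - 1).factorization 2 *
        3 ^ (Fintype.card F ^ 2 - 1).factorization 3 := fun H => by
    rw [← arith (i := H.index) hN hodd.not_two_dvd_nat h3
      (by rw [mul_right_comm, card_mul_index, hG])]
    refine and_congr (forall₂_congr fun r hr => ⟨fun h h' => ?_, fun h h' => h (h'.mul_right 2)⟩)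
      ⟨fun h => ⟨h 2 Nat.prime_two (Or.inl rfl), h 3 Nat.prime_three (Or.inr rfl)⟩, ?_⟩
    · exact ((Nat.Prime.dvd_mul hr).1 h').elim h fun h =>
        Or.inl ((Nat.prime_dvd_prime_iff_eq hr Nat.prime_two).1 h)
    · rintro h r - (rfl | rfl)
      exacts [h.1, h.2]
  have ha := Nat.pow_succ_factorization_not_dvd hN Nat.prime_two
  have hb : (Fintype.card F ^ 2 - 1).factorization 3 ≠ 0 :=
    (Nat.prime_three.factorization_pos_of_dvd hN (by
      rw [hsq, Nat.prime_three.dvd_mul]; omega)).ne'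
  have hab : 2 ^ (Fintype.card F ^ 2 - 1).factorization 2 *
      3 ^ (Fintype.card F ^ 2 - 1).factorization 3 ∣ Fintype.card F ^ 2 - 1 :=
    (Nat.Coprime.pow _ _ (by decide)).mul_dvd_of_dvd_of_dvd (Nat.ordProj_dvd _ _) (Nat.ordProj_dvd _ _)
  have ha0 : 2 ≤ (Fintype.card F ^ 2 - 1).factorization 2 :=
    (Nat.prime_two.pow_dvd_iff_le_factorization hN).1 (by
      rw [hsq, sq]; exact Nat.mul_dvd_mul (by obtain ⟨k, hk⟩ := hodd; omega)
        (by obtain ⟨k, hk⟩ := hodd; omega))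
  generalize (Fintype.card F ^ 2 - 1).factorization 2 = a at *
  generalize (Fintype.card F ^ 2 - 1).factorization 3 = b at *
  obtain ⟨k, hk⟩ := id hodd
  have h21 : (Fintype.card F + 1) / 2 * 2 = Fintype.card F + 1 := by omega
  have h22 : (Fintype.card F - 1) / 2 * 2 = Fintype.card F - 1 := by omega
  constructor
  · rintro ⟨H, hH⟩
    have h1 := (hall H).1 hH
    have h4 : 2 ^ a ∣ Nat.card H * 2 := h1 ▸ Dvd.intro _ rfl
    have h5 : 3 ∣ Nat.card H * 2 := h1 ▸ (dvd_pow_self 3 hb).mul_left _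
    have hp' : ¬ p ∣ Nat.card H := fun h => by
      rcases hH.1 p hpp h with rfl | rfl <;> omega
    have e1 : ¬ 2 ^ a ∣ Fintype.card F + 1 := fun h =>
      ha (hsq ▸ pow_succ 2 a ▸ Nat.mul_dvd_mul h (by omega))
    have e2 : ¬ 2 ^ a ∣ Fintype.card F - 1 := fun h =>
      ha (hsq ▸ pow_succ' 2 a ▸ Nat.mul_dvd_mul (by omega) h)
    rcases dickson_psl p H with ⟨x, hx⟩ | ⟨-, h | h⟩ | ⟨m, h, ⟨e⟩⟩ | ⟨-, ⟨⟨e⟩⟩ | ⟨⟨e⟩⟩ | ⟨⟨e⟩⟩⟩ |
      ⟨h, -⟩ | h | ⟨L, m, -, -, -, h⟩
    · have h6 := Nat.mul_dvd_mul_right (card_dvd_of_le hx) 2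
      have h7 := card_stabilizer_psl_mul x
      rw [hd] at h7
      exact (e2 ((Nat.Coprime.pow_left a hodd.coprime_two_left).dvd_of_dvd_mul_left
        (h7 ▸ h4.trans h6))).elim
    · rw [hd] at h
      exact (e1 (h4.trans (h21 ▸ Nat.mul_dvd_mul_right h 2))).elim
    · rw [hd] at h
      exact (e2 (h4.trans (h22 ▸ Nat.mul_dvd_mul_right h 2))).elim
    · rw [Nat.card_congr e.toEquiv, DihedralGroup.nat_card, mul_assoc] at h4 h5
      rw [hd] at h
      rcases h with h | h
      · have h6 := Nat.mul_dvd_mul_left 2 (h21 ▸ Nat.mul_dvd_mul_right h 2)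
        refine Or.inr (Or.inl ⟨by have := h5.trans h6; omega, by_contra fun h7 => ha ?_⟩)
        refine Nat.dvd_of_mul_dvd_mul_left two_pos ?_
        rw [hsq, ← mul_assoc, show 2 * 2 ^ (a + 1) = 2 ^ a * 4 by ring]
        exact Nat.mul_dvd_mul (h4.trans h6) (by omega)
      · have h6 := Nat.mul_dvd_mul_left 2 (h22 ▸ Nat.mul_dvd_mul_right h 2)
        refine Or.inl ⟨by have := h5.trans h6; omega, by_contra fun h7 => ha ?_⟩
        refine Nat.dvd_of_mul_dvd_mul_left two_pos ?_
        rw [hsq, mul_comm (_ + 1), ← mul_assoc, show 2 * 2 ^ (a + 1) = 2 ^ a * 4 by ring]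
        exact Nat.mul_dvd_mul (h4.trans h6) (by omega)
    · rw [Nat.card_congr e.toEquiv, card_alt_four] at h1
      exact Or.inr (Or.inr (Or.inl h1.symm))
    · rw [Nat.card_congr e.toEquiv, card_perm_four] at h1
      exact Or.inr (Or.inr (Or.inr h1.symm))
    · have := hH.1 5 Nat.prime_five (by rw [Nat.card_congr e.toEquiv, card_alt_five]; decide)
      simp at this
    · omega
    · exact (hp' (by rw [h, card_top]; exact char_dvd_card_psl p)).elim
    · have := Fintype.ofFinite L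
      rcases h with ⟨⟨e⟩⟩ | ⟨⟨e⟩⟩
      · exact (hp' (Nat.card_congr e.toEquiv ▸ char_dvd_card_psl p)).elim
      · exact (hp' (Nat.card_congr e.toEquiv ▸ char_dvd_card_pgl p)).elim
  have key : ∀ (t : SpecialLinearGroup (Fin 2) F) (u : ℕ), Fintype.card F ^ 2 - 1 = 2 * u * orderOf t →
      ¬ 2 ∣ u → ¬ 3 ∣ u → ¬ p ∣ orderOf t →
      ∃ H : Subgroup (ProjectiveSpecialLinearGroup (Fin 2) F), IsPiHall {2, 3} H := by
    intro t u h1 h4 h5 h6
    obtain ⟨c, rfl⟩ := Nat.exists_eq_add_of_le' ha0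
    have h7 : 2 * (2 ^ c * 3 ^ b) ∣ orderOf t := by
      rw [h1, show 2 ^ (c + 2) * 3 ^ b = 2 * (2 ^ (c + 1) * 3 ^ b) by ring, mul_assoc] at hab
      rw [← mul_assoc, ← pow_succ']
      exact (Nat.Coprime.mul_left
        (Nat.Coprime.pow_left _ ((Nat.Prime.coprime_iff_not_dvd Nat.prime_two).2 h4))
        (Nat.Coprime.pow_left _ ((Nat.Prime.coprime_iff_not_dvd Nat.prime_three).2 h5))).dvd_of_dvd_mul_left
        (Nat.dvd_of_mul_dvd_mul_left two_pos hab)
    have h8 := orderOf_pow_orderOf_div (orderOf_pos t).ne' h7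
    obtain ⟨ψ, hψ⟩ := exists_dihedralHom p (fun h => h6 ((h8 ▸ h).trans h7)) (fun h => by
      have h9 := orderOf_dvd_of_pow_eq_one ((sq _).trans h)
      have := Nat.le_of_dvd two_pos (((dvd_pow_self 3 hb).mul_left _ |>.mul_left _).trans (h8 ▸ h9))
      omega) (orderOf_psl_mk_of_even h2 h8)
    exact ⟨_, (hall _).2 (by rw [card_range_of_injective ψ hψ, DihedralGroup.nat_card]; ring)⟩
  rintro (⟨h4, h5⟩ | ⟨h4, h5⟩ | h | h)
  · obtain ⟨t, ht⟩ := exists_sl_orderOf_sub_one (F := F)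
    exact key t ((Fintype.card F + 1) / 2) (by rw [mul_comm 2, h21, ht, hsq]) (by omega) (by omega)
      (ht ▸ not_dvd_card_sub_one p)
  · obtain ⟨t, ht⟩ := exists_sl_orderOf_add_one (F := F)
    exact key t ((Fintype.card F - 1) / 2) (by rw [mul_comm 2, h22, ht, hsq, mul_comm]) (by omega)
      (by omega) (ht ▸ not_dvd_card_add_one p)
  · obtain ⟨ψ, hψ⟩ := exists_alt_four h2
    exact ⟨_, (hall _).2 (by rw [card_range_of_injective ψ hψ, card_alt_four, h])⟩
  · obtain ⟨ψ, hψ⟩ := exists_perm_four h2 (FiniteField.isSquare_two_iff.2 (by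
      have h4 := (by decide : 16 ∣ 48).trans (h ▸ hab)
      have h5 : Fintype.card F ^ 2 % 16 = 1 := by omega
      constructor <;> intro h6 <;> rw [Nat.pow_mod] at h5
      · rcases (by omega : Fintype.card F % 16 = 3 ∨ Fintype.card F % 16 = 11) with h | h <;>
          rw [h] at h5 <;> omega
      · rcases (by omega : Fintype.card F % 16 = 5 ∨ Fintype.card F % 16 = 13) with h | h <;>
          rw [h] at h5 <;> omega))
    exact ⟨_, (hall _).2 (by rw [card_range_of_injective ψ hψ, card_perm_four, h])⟩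

end Cfsg.Agent.S2537
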