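import Cfsg.Statements.S2538
import Cfsg.Agent.Known.HallSym3

set_option autoImplicit false
open Cfsg

namespace Cfsg.Agent.S2538

/-- For every `n` and every set of primes `π`, a subgroup of the alternating group of degree `n` is a Hall `π`-subgroup of it if and only if it is the intersection with the alternating group of some Hall `π`-subgroup of the symmetric group of degree `n`. -/
theorem result (n : ℕ) (π : Set ℕ)
    (M : Subgroup ↥(alternatingGroup (Fin n))) :
    Cfsg.IsPiHall π M ↔ ∃ M₀ : Subgroup (Equiv.Perm (Fin n)), Cfsg.IsPiHall π M₀ ∧ M = M₀.subgroupOf (alternatingGroup (Fin n)) := by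
  refine ⟨fun h => ?_, by rintro ⟨M₀, h, rfl⟩; exact CL.Grp.isPiHall_subgroupOf_normal h _⟩
  rcases CL.Known.HallSym.hall_cases π (Fin n) with ⟨hD, -⟩ | ⟨h2, hns⟩
  · obtain ⟨M₀, h1, h3⟩ := hD.exists_hall_ge (CL.Known.HallSym.rich_map h).pi
    exact ⟨M₀, h1, CL.Grp.isPiHall_eq_of_le h (CL.Grp.isPiHall_subgroupOf_normal h1 _).1
      (Subgroup.map_le_iff_le_comap.1 h3)⟩
  · obtain ⟨h3, Δ, h4, h5⟩ := CL.Known.HallSym.hall_alt h2 hns h
    exact ⟨_, CL.Known.HallSym.isPiHall_bip h3 h5, h4⟩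

end Cfsg.Agent.S2538
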