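import Cfsg.Statements.S2540
import Cfsg.Agent.Known.GLAut5

set_option autoImplicit false
open Cfsg

namespace Cfsg.Agent.S2540

/-- Let F be a finite field and n ≥ 1, excluding the case n = 2 with #F ≤ 3. A subgroup of GL_n(F) that is normalized by every element of SL_n(F) either consists of scalar matrices or contains SL_n(F). -/
theorem result {F : Type*} [Field F] [Fintype F] (n : ℕ) (hn : 1 ≤ n) (hex : ¬ (n = 2 ∧ Fintype.card F ≤ 3)) (G : Subgroup (Matrix.GeneralLinearGroup (Fin n) F)) (hG : ∀ s : Matrix.SpecialLinearGroup (Fin n) F, ∀ g ∈ G, (Matrix.SpecialLinearGroup.toGL s) * g * (Matrix.SpecialLinearGroup.toGL s)⁻¹ ∈ G) : (∀ g ∈ G, ∃ c : F, (g : Matrix (Fin n) (Fin n) F) = c • (1 : Matrix (Fin n) (Fin n) F)) ∨ (Matrix.SpecialLinearGroup.toGL : Matrix.SpecialLinearGroup (Fin n) F →* _).range ≤ G := by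
  by_cases h1 : n = 1
  · subst h1
    left
    intro g _
    refine ⟨(g : Matrix (Fin 1) (Fin 1) F) 0 0, ?_⟩
    ext i j
    fin_cases i; fin_cases j; simp
  have hh : 3 ≤ Fintype.card (Fin n) ∨ ∃ a : F, a ≠ 0 ∧ a ^ 2 ≠ 1 := by
    by_cases h2 : n = 2
    · right
      apply CL.SLn.exists_sq_ne_one_of_four_le
      rw [Nat.card_eq_fintype_card]
      by_contra h
      exact hex ⟨h2, by omega⟩
    · left; simp; omega
  haveI : Nontrivial (Fin n) := Fin.nontrivial_iff_two_le.2 (by omega)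
  let N : Subgroup (Matrix.SpecialLinearGroup (Fin n) F) := G.comap Matrix.SpecialLinearGroup.toGL
  haveI : N.Normal := ⟨fun x hx s => by
    have := hG s _ hx
    change Matrix.SpecialLinearGroup.toGL (s * x * s⁻¹) ∈ G
    rwa [map_mul, map_mul, map_inv]⟩
  rcases CL.SLn.normal_le_center_or_eq_top hh N with h | h
  · left
    intro g hg
    have hc : g ∈ Subgroup.center (Matrix.GeneralLinearGroup (Fin n) F) := by
      rw [← CL.GLn.diagAut_eq_one_iff]
      ext x
      obtain ⟨s, rfl⟩ := QuotientGroup.mk_surjective x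
      rw [CL.GLn.diagAut_mk, MulAut.one_apply, QuotientGroup.eq]
      apply h
      have h1 := hG s _ (G.inv_mem hg)
      have h2 := G.mul_mem hg (hG s⁻¹ _ (G.inv_mem hg))
      change Matrix.SpecialLinearGroup.toGL _ ∈ G
      convert h2 using 1
      rw [map_mul, map_inv, map_inv, CL.GLn.toGL_slConj]
      group
    obtain ⟨a, rfl⟩ := CL.GLn.mem_center_GL_iff.1 hc
    exact ⟨a, CL.GLn.coe_scalarGL a⟩
  · right
    rintro _ ⟨s, rfl⟩
    have : s ∈ N := h ▸ Subgroup.mem_top s
    exact this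

end Cfsg.Agent.S2540
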