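import Cfsg.Statements.S2541
import Cfsg.Agent.Known.AltOrders

set_option autoImplicit false
open Cfsg

namespace Cfsg.Agent.S2541

/-- Let F be a field with 9 elements. The symmetric group S_6 is not isomorphic to PGL_2(F) (although both have index-2 subgroups isomorphic to A_6). -/
theorem result {F : Type*} [Field F] [Fintype F] (hF : Fintype.card F = 9) : ¬ Nonempty (Equiv.Perm (Fin 6) ≃* Matrix.ProjGenLinGroup (Fin 2) F) := by
  rintro ⟨e⟩
  classical
  obtain ⟨z, hz⟩ := IsCyclic.exists_ofOrder_eq_natCard (α := Fˣ)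
  rw [Nat.card_units, Nat.card_eq_fintype_card, hF] at hz
  let d : Fˣ →* GL (Fin 2) F := (Units.map (Matrix.diagonalRingHom (Fin 2) F).toMonoidHom).comp
    (Units.map (MonoidHom.mulSingle (fun _ : Fin 2 => F) 0))
  let φ : Fˣ →* Matrix.ProjGenLinGroup (Fin 2) F := Matrix.ProjGenLinGroup.mk.comp d
  have hφ : Function.Injective φ := by
    rw [injective_iff_map_eq_one]
    intro a ha
    have h1 : d a ∈ Subgroup.center (GL (Fin 2) F) := by
      rw [← Matrix.ProjGenLinGroup.ker_mk]; exact ha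
    have h2 := Subgroup.mem_center_iff.1 h1
      (Matrix.GeneralLinearGroup.mkOfDetNeZero !![1, 1; 0, 1] (by simp))
    have h3 := congrArg (fun M : GL (Fin 2) F => (M : Matrix (Fin 2) (Fin 2) F) 0 1) h2
    have h4 : (d a : Matrix (Fin 2) (Fin 2) F) = Matrix.diagonal (Pi.mulSingle 0 (a : F)) := rfl
    simp [h4, Matrix.mul_apply, Fin.sum_univ_two, Matrix.diagonal_apply] at h3
    exact Units.ext h3.symm
  have h8 : orderOf (e.symm (φ z)) = 8 := by
    rw [MulEquiv.orderOf_eq, orderOf_injective φ hφ, hz]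
  obtain ⟨m, h1, h2, h3⟩ := (CL.Known.mem_range_orderOf_perm_iff (α := Fin 6) 8).1 ⟨_, h8⟩
  have h4 : m.lcm ∣ 4 := by
    rw [Multiset.lcm_dvd]
    intro a ha
    have h5 : a ∣ 8 := h3 ▸ Multiset.dvd_lcm ha
    have h6 := Multiset.single_le_sum (s := m) (fun _ _ => Nat.zero_le _) a ha
    rw [Fintype.card_fin] at h1
    have h7 : a ≤ 6 := by omega
    interval_cases a <;> omega
  rw [h3] at h4
  omega

end Cfsg.Agent.S2541
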