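import Cfsg.Statements.S2542
import Cfsg.Agent.Cls.SL2Pair
import Cfsg.Agent.S0675


set_option autoImplicit false
open Cfsg Matrix Subgroup CL.GL2 CL.SL2
open scoped MatrixGroups

namespace Cfsg.Agent.S2542

/-- Let F be a field with 11 elements. PSL_2(F) has a subgroup H of index 11 isomorphic to the alternating group A_5, and the action of PSL_2(F) on the cosets of H is 2-transitive (of degree 11). -/
theorem result {F : Type*} [Field F] [Fintype F] (hF : Fintype.card F = 11) : ∃ H : Subgroup (Matrix.ProjectiveSpecialLinearGroup (Fin 2) F), H.index = 11 ∧ Nonempty (H ≃* alternatingGroup (Fin 5)) ∧ MulAction.IsMultiplyPretransitive (Matrix.ProjectiveSpecialLinearGroup (Fin 2) F) ((Matrix.ProjectiveSpecialLinearGroup (Fin 2) F) ⧸ H) 2 := by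
  classical
  obtain ⟨ψ, hψ⟩ := exists_alt_five (F := F) (by rw [hF]; decide)
  have hG := card_psl_two_mul (two_ne_zero_of_odd (F := F) (by rw [hF]; decide))
  have h1 := ψ.range.card_mul_index
  rw [card_range_of_injective ψ hψ, card_alt_five] at h1
  rw [hF] at hG
  have h2 : ψ.range.index = 11 := by omega
  refine ⟨ψ.range, h2, ⟨(MonoidHom.ofInjective hψ).symm⟩, ?_⟩
  have := CL.SLn.isSimpleGroup_PSL_fin (F := F) 2 le_rfl fun _ => by omega
  let f := MulAction.toPermHom PSL(2, F) (PSL(2, F) ⧸ ψ.range)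
  have := Fintype.ofFinite (PSL(2, F) ⧸ ψ.range)
  have : MulAction.IsPretransitive f.range (PSL(2, F) ⧸ ψ.range) := ⟨fun x y =>
    (MulAction.exists_smul_eq PSL(2, F) x y).elim fun g hg => ⟨⟨f g, g, rfl⟩, hg⟩⟩
  rcases Cfsg.Agent.S0675.result (by
    rw [← Nat.card_eq_fintype_card, ← index_eq_card, h2]; decide) f.range with h | h
  · refine absurd (isSolvable_of_equiv ⟨MonoidHom.ofInjective ?_⟩ h) (not_isSolvable_psl (by omega))
    rw [← MonoidHom.ker_eq_bot_iff, ← normalCore_eq_ker]
    refine (IsSimpleGroup.eq_bot_or_eq_top_of_normal _ (normalCore_normal _)).resolve_right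
      fun h => ?_
    rw [eq_top_iff.2 (h.symm.le.trans ψ.range.normalCore_le), index_top] at h2
    omega
  · exact ⟨fun x y => (h.exists_smul_eq x y).elim fun ⟨_, g, rfl⟩ hg => ⟨g, hg⟩⟩

end Cfsg.Agent.S2542
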