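import Cfsg.Statements.S2543
import Cfsg.Agent.Cls.SL2Pair


set_option autoImplicit false
open scoped Pointwise
open Cfsg Matrix Subgroup CL.GL2 CL.SL2
open scoped MatrixGroups

namespace Cfsg.Agent.S2543

/-- Let F be a field with 11 elements. PSL_2(F) has exactly 22 subgroups isomorphic to the alternating group A_5, and they form two conjugacy classes: there are two such subgroups that are not conjugate, and every such subgroup is conjugate to one of these two. -/
theorem result {F : Type*} [Field F] [Fintype F] (hF : Fintype.card F = 11) : Nat.card {H : Subgroup (Matrix.ProjectiveSpecialLinearGroup (Fin 2) F) // Nonempty (H ≃* alternatingGroup (Fin 5))} = 22 ∧ ∃ H K : Subgroup (Matrix.ProjectiveSpecialLinearGroup (Fin 2) F), Nonempty (H ≃* alternatingGroup (Fin 5)) ∧ Nonempty (K ≃* alternatingGroup (Fin 5)) ∧ (∀ g : Matrix.ProjectiveSpecialLinearGroup (Fin 2) F, MulAut.conj g • H ≠ K) ∧ ∀ L : Subgroup (Matrix.ProjectiveSpecialLinearGroup (Fin 2) F), Nonempty (L ≃* alternatingGroup (Fin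 5)) → ∃ g : Matrix.ProjectiveSpecialLinearGroup (Fin 2) F, MulAut.conj g • L = H ∨ MulAut.conj g • L = K := by
  have : Fact (Nat.Prime 11) := ⟨by decide⟩
  have := charP_of_card_eq hF
  have h2 := two_ne_zero_of_odd (F := F) (by rw [hF]; decide)
  have hG := card_psl_two_mul h2
  rw [hF] at hG
  have := CL.SLn.isSimpleGroup_PSL_fin (F := F) 2 le_rfl fun _ => by omega
  let ι : PSL(2, F) →* PGL(2, F) := ProjectiveSpecialLinearGroup.toPGL
  have hι : Function.Injective ι := ProjectiveSpecialLinearGroup.toPGL_injective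
  have hN : ∀ H : Subgroup PSL(2, F), Nonempty (H ≃* alternatingGroup (Fin 5)) →
      normalizer (H : Set PSL(2, F)) = H ∧ H.index = 11 := by
    rintro H ⟨e⟩
    have h3 := isCoatom_alt_five 11 (Or.inl ⟨hF, by decide⟩) (H.subtype.comp e.symm.toMonoidHom)
      (H.subtype_injective.comp e.symm.injective)
    rw [range_subtype_comp] at h3
    have h4 := H.card_mul_index
    have h5 := Nat.card_congr e.toEquiv
    rw [card_alt_five] at h5
    refine ⟨((h3.le_iff.1 le_normalizer).resolve_left fun h => ?_), by rw [h5] at h4; omega⟩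
    rcases IsSimpleGroup.eq_bot_or_eq_top_of_normal _ (normalizer_eq_top_iff.1 h) with h | h
    · rw [h, card_bot] at h5; omega
    · exact h3.1 h
  have hm : ∀ (g : PSL(2, F)) (H : Subgroup PSL(2, F)),
      (MulAut.conj g • H).map ι = (H.map ι).map (MulAut.conj (ι g)).toMonoidHom := fun g H => by
    change (H.map (MulAut.conj g).toMonoidHom).map ι = _
    rw [Subgroup.map_map, Subgroup.map_map]
    congr 1
    ext x
    simp
  have hi : (pslR F).index = 2 := by
    have h3 := (pslR F).card_mul_index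
    rw [card_pslR, card_pgl_eq_mul, gcd_two_of_ne h2] at h3
    exact Nat.eq_of_mul_eq_mul_left Nat.card_pos h3
  obtain ⟨ψ, hψ⟩ := exists_alt_five (F := F) (by rw [hF]; decide)
  have hH : Nonempty (ψ.range ≃* alternatingGroup (Fin 5)) := ⟨(MonoidHom.ofInjective hψ).symm⟩
  obtain ⟨c, hc⟩ : ∃ c, c ∉ pslR F := by
    by_contra! h
    exact pslR_ne_top h2 (eq_top_iff.2 fun c _ => h c)
  obtain ⟨χ, hχ⟩ := exists_psl_of_range_le ((MulAut.conj c).toMonoidHom.comp (ι.comp ψ)) (by
    rintro _ ⟨g, rfl⟩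
    exact pslR_normal.conj_mem _ ⟨_, rfl⟩ c)
  have hχ' : ι.comp χ = (MulAut.conj c).toMonoidHom.comp (ι.comp ψ) := MonoidHom.ext hχ
  have hK : Nonempty (χ.range ≃* alternatingGroup (Fin 5)) := ⟨(MonoidHom.ofInjective (
    Function.Injective.of_comp (f := ι) (by
      rw [← MonoidHom.coe_comp, hχ']
      exact (MulAut.conj c).injective.comp (hι.comp hψ)))).symm⟩
  have hK' : χ.range.map ι = (ψ.range.map ι).map (MulAut.conj c).toMonoidHom := by
    rw [MonoidHom.map_range, MonoidHom.map_range, MonoidHom.map_range, hχ']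
  have h6 : ∀ (a b : PGL(2, F)) (M : Subgroup PGL(2, F)), (M.map (MulAut.conj b).toMonoidHom).map
      (MulAut.conj a).toMonoidHom = M.map (MulAut.conj (a * b)).toMonoidHom := fun a b M => by
    rw [Subgroup.map_map, map_mul]; rfl
  have h3 : ∀ g : PSL(2, F), MulAut.conj g • ψ.range ≠ χ.range := fun g h => by
    have h4 : (c⁻¹ * ι g) ∈ normalizer (ψ.range.map ι : Set PGL(2, F)) := by
      rw [← conjAct_pointwise_smul_iff]
      change (ψ.range.map ι).map (MulAut.conj (c⁻¹ * ι g)).toMonoidHom = _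
      rw [← h6, ← hm, h, hK', h6, inv_mul_cancel, map_one]
      exact map_id _
    set N := normalizer (ψ.range.map ι : Set PGL(2, F))
    have h5 : ¬ Group.IsSolvable N := fun h => not_isSolvable_alt_five
      (Group.isSolvable_of_isSolvable_injective (f := (ι.comp ψ).codRestrict N fun x => le_normalizer ⟨_, ⟨x, rfl⟩, rfl⟩)
      fun x y h => hψ (hι (congrArg Subtype.val h)))
    by_cases h7 : 11 ∣ Nat.card N
    · obtain ⟨⟨x, hx⟩, h8⟩ := exists_prime_orderOf_dvd_card' 11 h7
      rw [← orderOf_coe] at h8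
      obtain ⟨y, rfl⟩ : x ∈ pslR F := by
        have := pgl_sq_mem_range (x ^ 6)
        rwa [← pow_add, show 6 + 6 = 11 + 1 from rfl, pow_succ, ← h8, pow_orderOf_eq_one,
          one_mul] at this
      have h9 : y ∈ normalizer (ψ.range : Set PSL(2, F)) := by
        rw [← conjAct_pointwise_smul_iff] at hx ⊢
        exact map_injective hι ((hm y _).trans hx)
      rw [(hN _ hH).1] at h9
      have := Subgroup.orderOf_dvd_natCard _ h9
      rw [card_range_of_injective ψ hψ, card_alt_five, ← orderOf_injective ι hι] at this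
      exact absurd (h8 ▸ this) (by decide)
    rcases dickson_coprime 11 N.subtype N.subtype_injective h7 with h | ⟨n, h⟩ | h | h | ⟨⟨e⟩⟩
    · exact h5 (Group.isSolvable_of_comm fun a b => (IsCyclic.isMulCommutative).is_comm.comm a b)
    · exact h5 (isSolvable_of_equiv h (isSolvable_dihedral n))
    · exact h5 (isSolvable_of_equiv h isSolvable_alt_four)
    · exact h5 (isSolvable_of_equiv h CL.Known.isSolvable_perm_fin_four)
    · have := range_le_pslR_alt_five (N.subtype.comp e.symm.toMonoidHom)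
      rw [range_subtype_comp] at this
      exact hc (inv_mem_iff.1 ((mul_mem_cancel_right (show ι g ∈ pslR F from ⟨g, rfl⟩)).1 (this h4)))
  have h4 : ∀ L : Subgroup PSL(2, F), Nonempty (L ≃* alternatingGroup (Fin 5)) →
      ∃ g : PSL(2, F), MulAut.conj g • L = ψ.range ∨ MulAut.conj g • L = χ.range := by
    rintro L ⟨e⟩
    obtain ⟨d, hd⟩ := exists_conj_alt_five h2 (ι.comp (L.subtype.comp e.symm.toMonoidHom))
      (ι.comp ψ) (hι.comp (L.subtype_injective.comp e.symm.injective)) (hι.comp hψ)
    rw [← MonoidHom.map_range, ← MonoidHom.map_range, range_subtype_comp] at hd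
    by_cases h : d ∈ pslR F
    · obtain ⟨g, rfl⟩ := h
      exact ⟨g, Or.inl (map_injective hι (by rw [hm, hd]))⟩
    · obtain ⟨g, hg⟩ := (mul_mem_iff_of_index_two hi).2 (iff_of_false hc h)
      exact ⟨g, Or.inr (map_injective hι (by rw [hm, hK', hd, h6, ← hg]))⟩
  refine ⟨?_, ψ.range, χ.range, hH, hK, h3, h4⟩
  let _ : MulAction PSL(2, F) (Subgroup PSL(2, F)) := MulAction.compHom _ (MulAut.conj)
  have h5 : ∀ H : Subgroup PSL(2, F), Nonempty (H ≃* alternatingGroup (Fin 5)) →
      (MulAction.orbit PSL(2, F) H).ncard = 11 := fun H h => by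
    rw [ncard_orbit_eq_index, ← (hN H h).2, ← (hN H h).1]
    congr 1
    ext g
    rw [(hN H h).1, ← (hN H h).1, ← conjAct_pointwise_smul_iff, (hN H h).1]
    rfl
  have h7 : {H : Subgroup PSL(2, F) | Nonempty (H ≃* alternatingGroup (Fin 5))} =
      MulAction.orbit PSL(2, F) ψ.range ∪ MulAction.orbit PSL(2, F) χ.range := by
    ext L
    refine ⟨fun h => ?_, ?_⟩
    · obtain ⟨g, h | h⟩ := h4 L h
      · exact Or.inl (MulAction.mem_orbit_symm.1 ⟨g, h⟩)
      · exact Or.inr (MulAction.mem_orbit_symm.1 ⟨g, h⟩)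
    · rintro (⟨g, rfl⟩ | ⟨g, rfl⟩)
      · exact hH.map fun e => (equivSMul (MulAut.conj g) _).symm.trans e
      · exact hK.map fun e => (equivSMul (MulAut.conj g) _).symm.trans e
  change Set.ncard {H : Subgroup PSL(2, F) | Nonempty (H ≃* alternatingGroup (Fin 5))} = 22
  rw [h7, Set.ncard_union_eq (Set.disjoint_left.2 fun L h h' => ?_), h5 _ hH, h5 _ hK]
  obtain ⟨g, hg⟩ := MulAction.mem_orbit_iff.1 ((MulAction.orbit_eq_iff.2 h) ▸
    MulAction.mem_orbit_symm.1 h')
  exact h3 g hg

end Cfsg.Agent.S2543
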