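import Cfsg.Statements.S2550
import Cfsg.Agent.Cls.PSL34
import Cfsg.Agent.Cls.SLnCard

set_option autoImplicit false
open Cfsg

namespace Cfsg.Agent.S2550

/-- an element of order six -/
def m6 : Matrix.SpecialLinearGroup (Fin 4) (ZMod 2) :=
  ⟨!![0,1,0,0;1,1,0,0;0,0,1,1;0,0,0,1], by decide⟩

theorem m6_pow_ne (k : ℕ) (hk : k = 3 ∨ k = 4 ∨ k = 5 ∨ k = 7) :
    m6 ^ k ∉ Subgroup.center (Matrix.SpecialLinearGroup (Fin 4) (ZMod 2)) := by
  intro h
  have hc : Nat.card (Subgroup.center (Matrix.SpecialLinearGroup (Fin 4) (ZMod 2))) = 1 := by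
    rw [CL.SLn.card_center_SL]; simp
  rw [Subgroup.card_eq_one] at hc
  rw [hc, Subgroup.mem_bot] at h
  have h2 := congrArg (fun x : Matrix.SpecialLinearGroup (Fin 4) (ZMod 2) => x.1) h
  simp only [Matrix.SpecialLinearGroup.coe_pow, Matrix.SpecialLinearGroup.coe_one] at h2
  revert h2
  rcases hk with rfl | rfl | rfl | rfl <;> decide


/-- Let F be a field with 2 elements and K a field with 4 elements. PSL_4(F) and PSL_3(K) have the same order (20160) but are not isomorphic. -/
theorem result {F K : Type*} [Field F] [Fintype F] [Field K] [Fintype K] (hF : Fintype.card F = 2) (hK : Fintype.card K = 4) : Nat.card (Matrix.ProjectiveSpecialLinearGroup (Fin 4) F) = Nat.card (Matrix.ProjectiveSpecialLinearGroup (Fin 3) K) ∧ ¬ Nonempty (Matrix.ProjectiveSpecialLinearGroup (Fin 4) F ≃* Matrix.ProjectiveSpecialLinearGroup (Fin 3) K) := by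
  constructor
  · have h1 := CL.SLn.card_PSL_mul (ι := Fin 4) (F := F)
    have h2 := CL.SLn.card_PSL_mul (ι := Fin 3) (F := K)
    rw [CL.SLn.card_SL_four, hF] at h1
    rw [CL.SLn.card_SL_three, hK] at h2
    simp at h1 h2
    omega
  · rintro ⟨e⟩
    haveI : Fact (Nat.Prime 2) := ⟨Nat.prime_two⟩
    obtain ⟨f⟩ := CL.SLn.nonempty_psl_equiv_of_card_eq (ι := Fin 4) (K := ZMod 2) (L := F) (by simp [hF])
    have key : ∀ k : ℕ, (k = 3 ∨ k = 4 ∨ k = 5 ∨ k = 7) → (e (f (QuotientGroup.mk m6))) ^ k ≠ 1 := by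
      intro k hk h
      rw [← map_pow, ← map_pow, MulEquiv.map_eq_one_iff, MulEquiv.map_eq_one_iff,
        ← QuotientGroup.mk_pow, QuotientGroup.eq_one_iff] at h
      exact m6_pow_ne k hk h
    rcases CL.Cls.pow_eq_one_PSL3_four hK (e (f (QuotientGroup.mk m6))) with h | h | h | h
    · exact key _ (by simp) h
    · exact key _ (by simp) h
    · exact key _ (by simp) h
    · exact key _ (by simp) h

end Cfsg.Agent.S2550
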