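import Cfsg.Statements.S2551
import Cfsg.Agent.S0256
import Cfsg.Agent.Perm.CKBasic

set_option autoImplicit false
open Cfsg

namespace Cfsg.Agent.S2551

open MulAction CL.Perm.CK

theorem even_ncard {X : Type*} [Finite X] (O : Set X) (τ : X → X) (h1 : ∀ x ∈ O, τ x ∈ O) (h2 : ∀ x, τ (τ x) = x)
    (h3 : ∀ x ∈ O, τ x ≠ x) : 2 ∣ O.ncard := by
  classical
  have := Fintype.ofFinite X
  rw [Set.ncard_eq_toFinset_card', ← ZMod.natCast_eq_zero_iff, Finset.card_eq_sum_ones, Nat.cast_sum]
  exact Finset.sum_involution (fun x _ => τ x) (fun _ _ => rfl) (fun x hx _ => h3 x (by simpa using hx))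
    (fun x hx => by simpa using h1 x (by simpa using hx)) fun x _ => h2 x

/-- Let F be the field with 2 elements. GL_4(F) (≅ A_8) has a subgroup isomorphic to the alternating group A_7, and every such subgroup acts 2-transitively on the 15 non-zero vectors of F⁴: any ordered pair of distinct non-zero vectors is carried to any other by some element of the subgroup. -/
theorem result {F : Type*} [Field F] [Fintype F] (hF : Fintype.card F = 2) : (∃ H : Subgroup (Matrix.GeneralLinearGroup (Fin 4) F), Nonempty (H ≃* alternatingGroup (Fin 7))) ∧ ∀ H : Subgroup (Matrix.GeneralLinearGroup (Fin 4) F), Nonempty (H ≃* alternatingGroup (Fin 7)) → ∀ v w v' w' : Fin 4 → F, v ≠ 0 → w ≠ 0 → v ≠ w → v' ≠ 0 → w' ≠ 0 → v' ≠ w' → ∃ g ∈ H, (g : Matrix (Fin 4) (Fin 4) F).mulVec v = v' ∧ (g : Matrix (Fin 4) (Fin 4) F).mulVec w = w' := by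
  classical
  have h1 : ∀ r : F, r ≠ 0 → r = 1 := fun r hr => by
    simpa [hF] using FiniteField.pow_card_sub_one_eq_one r hr
  have h2 : ∀ v : Fin 4 → F, v + v = 0 := fun v => by
    rw [← two_smul F, show (2 : F) = 0 by simpa [hF] using FiniteField.cast_card_eq_zero F, zero_smul]
  constructor
  · obtain ⟨e⟩ := Cfsg.Agent.S0256.result hF
    let f := MulEquiv.ofBijective (QuotientGroup.mk' (Subgroup.center (Matrix.SpecialLinearGroup (Fin 4) F)))
      ⟨(injective_iff_map_eq_one _).2 fun g hg => by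
        obtain ⟨r, hr, hg⟩ := Matrix.SpecialLinearGroup.mem_center_iff.1 ((QuotientGroup.eq_one_iff g).1 hg)
        rw [h1 r (by rintro rfl; simp at hr), map_one] at hg
        exact Subtype.ext hg.symm, QuotientGroup.mk'_surjective _⟩
    let a : Fin 7 ≃ (Finset.univ.erase (0 : Fin 8)) := (Fintype.equivFinOfCardEq (by simp)).symm
    exact ⟨_, ⟨(MonoidHom.ofInjective (f := Matrix.SpecialLinearGroup.toGL.comp ((e.symm.trans f.symm).toMonoidHom.comp
      ((alternatingGroup.ofSubtype _).comp a.altCongrHom.toMonoidHom))) (Matrix.SpecialLinearGroup.toGL_injective.comp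
      ((e.symm.trans f.symm).injective.comp (alternatingGroup.ofSubtype_injective.comp
        a.altCongrHom.injective)))).symm⟩⟩
  rintro H ⟨e⟩
  have c1 : Nat.card H = 2520 := by
    have := nat_card_alternatingGroup (α := Fin 7)
    rw [Nat.card_congr e.toEquiv, this, Nat.card_eq_fintype_card, Fintype.card_fin]; rfl
  have c2 : H.relIndex ⊤ = 8 := by
    have := H.index_mul_card
    rw [c1, Matrix.card_GL_field, hF] at this
    simp only [Fin.prod_univ_four] at this
    rw [Subgroup.relIndex_top_right]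
    norm_num at this
    omega
  have t2 : ∀ v w v' w' : Fin 4 → F, v ≠ 0 → w ≠ 0 → v ≠ w → v' ≠ 0 → w' ≠ 0 → v' ≠ w' →
      ∃ g : GL (Fin 4) F, g • v = v' ∧ g • w = w' := fun v w v' w' a b c a' b' c' => by
    have h3 : ∀ (v w : Fin 4 → F) a b, Projectivization.mk F v a = Projectivization.mk F w b → v = w :=
      fun v w a b e => by
        obtain ⟨u, rfl⟩ := (Projectivization.mk_eq_mk_iff' F v w a b).1 e
        rw [h1 u (by rintro rfl; simp at a), one_smul]
    have h4 := @Iff.mp _ _ is_two_pretransitive_iff (inferInstance : IsMultiplyPretransitive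
      (Matrix.SpecialLinearGroup (Fin 4) F) (Projectivization F (Fin 4 → F)) 2)
    obtain ⟨g, e1, e2⟩ := @h4 _ _ _ _ (mt (h3 v w a b) c) (mt (h3 v' w' a' b') c')
    exact ⟨g.toGL, h3 _ _ _ _ e1, h3 _ _ _ _ e2⟩
  obtain ⟨t, ht⟩ := exists_prime_orderOf_dvd_card' (G := H) 2 (by rw [c1]; norm_num)
  obtain ⟨x, hx⟩ : ∃ x : Fin 4 → F, t • x ≠ x := by
    by_contra! h
    rw [show t = 1 from Subtype.ext (Units.ext (Matrix.ext_of_mulVec_single fun i =>
      (h _).trans (Matrix.one_mulVec _).symm)), orderOf_one] at ht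
    omega
  have h5 : t • t • x = x := by rw [smul_smul, ← pow_two, ← ht, pow_orderOf_eq_one, one_smul]
  have x0 : x ≠ 0 := by rintro rfl; simp at hx
  have := h2 x
  have := h2 (t • x)
  have y0 : t • x ≠ 0 := fun e => x0 ((smul_eq_zero_iff_eq t).1 e)
  let Ω : Set ((Fin 4 → F) × (Fin 4 → F)) := {p | p.1 ≠ 0 ∧ p.2 ≠ 0 ∧ p.1 ≠ p.2}
  have o1 : orbit (⊤ : Subgroup (GL (Fin 4) F)) (x + t • x, x) = Ω := Set.ext fun p => mem_orb.trans ⟨by
      rintro ⟨g, -, rfl⟩
      exact ⟨fun e => by have := (smul_eq_zero_iff_eq g).1 e; grind, fun e => x0 ((smul_eq_zero_iff_eq g).1 e),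
        fun e => by have := smul_left_cancel g e; grind⟩, fun hp =>
    (t2 _ _ _ _ (by grind) x0 (by grind) hp.1 hp.2.1 hp.2.2).imp fun _ e => ⟨trivial, Prod.ext e.1 e.2⟩⟩
  have c3 : Ω.ncard = 210 := by
    rw [show Ω = ((Finset.univ.erase (0 : Fin 4 → F)).offDiag : Finset _) from Set.ext fun p => by simp [Ω],
      Set.ncard_coe_finset, Finset.offDiag_card, Finset.card_erase_of_mem (Finset.mem_univ _), Finset.card_univ,
      Fintype.card_fun, hF]
    rfl
  have d1 := ncard_orbit_dvd (le_top (a := H)) (x + t • x, x)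
  have l1 : orbit H (x + t • x, x) ⊆ Ω := o1 ▸ fun p hp => mem_orb.2 ((mem_orb.1 hp).imp fun _ e => ⟨trivial, e.2⟩)
  have d2 := even_ncard (orbit H (x + t • x, x)) (fun p => (p.1, p.1 + p.2)) (by
    rintro _ ⟨g, rfl⟩
    refine ⟨g * t, Prod.ext ?_ ?_⟩
    · change (g * t) • (x + t • x) = g • (x + t • x)
      rw [mul_smul, smul_add t, h5, add_comm]
    · change (g * t) • x = g • (x + t • x) + g • x
      rw [mul_smul, ← smul_add, add_comm x, add_assoc, h2, add_zero])
    (fun p => Prod.ext rfl (by simp only; rw [← add_assoc, h2, zero_add])) fun p hp e =>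
      (l1 hp).1 (add_eq_right.1 (congrArg Prod.snd e))
  rw [o1, c3, c2] at d1
  have o2 : orbit H (x + t • x, x) = Ω := Set.eq_of_subset_of_ncard_le l1 (by
    have : 0 < (orbit H (x + t • x, x)).ncard := (Set.ncard_pos).2 ⟨_, mem_orbit_self _⟩
    omega)
  intro v w v' w' a b c a' b' c'
  obtain ⟨g, hg⟩ := o2.ge (show (v, w) ∈ Ω from ⟨a, b, c⟩)
  obtain ⟨k, hk⟩ := o2.ge (show (v', w') ∈ Ω from ⟨a', b', c'⟩)
  have e : (k * g⁻¹) • (v, w) = (v', w') := by rw [← hg, ← hk, mul_smul, inv_smul_smul]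
  exact ⟨_, (k * g⁻¹).2, congrArg Prod.fst e, congrArg Prod.snd e⟩

end Cfsg.Agent.S2551
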