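import Cfsg.Statements.S2552
import Cfsg.Agent.Known.GLSemi1

set_option autoImplicit false
open Cfsg

namespace Cfsg.Agent.S2552

open Polynomial Module Matrix CL.GLn

/-- Let F be a finite field and n ≥ 1. For every k, the special linear group SL_n(F) acts transitively on the set of k-dimensional subspaces of F^n: any two subspaces of the same dimension are carried onto each other by some matrix of determinant 1. -/
theorem result {F : Type*} [Field F] [Fintype F] (n : ℕ) (hn : 1 ≤ n) (U₁ U₂ : Submodule F (Fin n → F)) (h : Module.finrank F U₁ = Module.finrank F U₂) : ∃ g : Matrix.SpecialLinearGroup (Fin n) F, U₁.map ((Matrix.SpecialLinearGroup.toLin' g : (Fin n → F) ≃ₗ[F] (Fin n → F)) : (Fin n → F) →ₗ[F] (Fin n → F)) = U₂ := by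
  classical
  have : Nonempty (Fin n) := ⟨⟨0, hn⟩⟩
  obtain ⟨W₁, h₁⟩ := U₁.exists_isCompl
  obtain ⟨W₂, h₂⟩ := U₂.exists_isCompl
  have hW : finrank F W₁ = finrank F W₂ := by
    have a := Submodule.finrank_add_eq_of_isCompl h₁
    have b := Submodule.finrank_add_eq_of_isCompl h₂
    omega
  let eU := LinearEquiv.ofFinrankEq U₁ U₂ h
  let eW := LinearEquiv.ofFinrankEq W₁ W₂ hW
  let e : (Fin n → F) ≃ₗ[F] (Fin n → F) :=
    (Submodule.prodEquivOfIsCompl U₁ W₁ h₁).symm.trans
      ((eU.prodCongr eW).trans (Submodule.prodEquivOfIsCompl U₂ W₂ h₂))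
  have he : ∀ u : U₁, e u = eU u := by
    intro u
    simp [e]
  -- the projection onto `U₂`
  let π : (Fin n → F) →ₗ[F] (Fin n → F) := U₂.subtype ∘ₗ U₂.projectionOnto W₂ h₂
  have hπ : ∀ v, π (π v) = π v := by intro v; simp [π]
  have hA : ∀ P ∈ elemDiv (LinearMap.toMatrix' π), Irreducible P := by
    refine irreducible_elemDiv_of_aeval_eq_zero (Q := X * (X - 1)) ?_ ?_
    · rw [squarefree_mul_iff]
      refine ⟨?_, irreducible_X.squarefree, irreducible_X_sub_one.squarefree⟩
      refine IsCoprime.isRelPrime ⟨1, -1, by ring⟩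
    · apply toLin'.injective
      ext1 i
      ext1
      simp [mul_sub, toLin'_mul, hπ]
  have hd : (LinearMap.toMatrix' (e : (Fin n → F) →ₗ[F] (Fin n → F))).det ≠ 0 := by
    rw [LinearMap.det_toMatrix']
    exact (LinearEquiv.isUnit_det' e).ne_zero
  obtain ⟨B, hB1, hB2⟩ := exists_commute_det_of_semisimple _ hA
    (LinearMap.toMatrix' (e : (Fin n → F) →ₗ[F] (Fin n → F))).det⁻¹
  let g : SpecialLinearGroup (Fin n) F :=
    ⟨B * LinearMap.toMatrix' (e : (Fin n → F) →ₗ[F] (Fin n → F)), by
      rw [det_mul, hB2, inv_mul_cancel₀ hd]⟩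
  refine ⟨g, ?_⟩
  apply Submodule.eq_of_le_of_finrank_eq
  · rintro _ ⟨u, hu, rfl⟩
    have h1 : (SpecialLinearGroup.toLin' g : (Fin n → F) ≃ₗ[F] (Fin n → F)) u = toLin' B (e u) := by
      change toLin' (B * LinearMap.toMatrix' (e : (Fin n → F) →ₗ[F] (Fin n → F))) u = _
      rw [toLin'_mul]; simp
    have h2 : π (e u) = e u := by
      have := he ⟨u, hu⟩
      simp only at this
      rw [this]; simp [π]
    have h3 : toLin' B (π (e u)) = π (toLin' B (e u)) := by
      have := congrArg (fun M => toLin' M (e u)) hB1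
      simpa only [toLin'_mul, LinearMap.comp_apply, toLin'_toMatrix'] using this
    change (SpecialLinearGroup.toLin' g : (Fin n → F) ≃ₗ[F] (Fin n → F)) u ∈ U₂
    rw [h1, ← h2, h3]
    exact Subtype.property _
  · rw [LinearEquiv.finrank_map_eq, h]

end Cfsg.Agent.S2552
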