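import Cfsg.Statements.S2561
import Cfsg.Agent.Known.QuadOm2

set_option autoImplicit false
open Cfsg

namespace Cfsg.Agent.S2561

/-- Fix the non-singular alternating form on the 2m-dimensional space over the field of two elements obtained by polarizing the plus-type form Σ xᵢyᵢ (m ≥ 1). The functions q on the space with q(u + v) = q(u) + q(v) + f(u, v) (the quadratic forms polarizing to f) number 2^(2m); each is equivalent under an invertible linear map either to the plus-type form or to the minus-type form Σ xᵢyᵢ + (z₁² + z₁z₂ + z₂²); and those of plus type number 2^(2m−1) + 2^(m−1), those of minus type 2^(2m−1) − 2^(m−1). -/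
theorem result (m : ℕ) (hm : 1 ≤ m) :
    Nat.card {q : (Fin m ⊕ Fin m → ZMod 2) → ZMod 2 // (∀ u v : (Fin m ⊕ Fin m → ZMod 2), q (u + v) = q u + q v + (Cfsg.quadFormPlus m (ZMod 2) (u + v) - Cfsg.quadFormPlus m (ZMod 2) u - Cfsg.quadFormPlus m (ZMod 2) v))} = 2 ^ (2 * m) ∧
    (∀ q : (Fin m ⊕ Fin m → ZMod 2) → ZMod 2, (∀ u v : (Fin m ⊕ Fin m → ZMod 2), q (u + v) = q u + q v + (Cfsg.quadFormPlus m (ZMod 2) (u + v) - Cfsg.quadFormPlus m (ZMod 2) u - Cfsg.quadFormPlus m (ZMod 2) v)) →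
      (∃ g : (Fin m ⊕ Fin m → ZMod 2) ≃ₗ[ZMod 2] (Fin m ⊕ Fin m → ZMod 2), ∀ v, q v = Cfsg.quadFormPlus m (ZMod 2) (g v)) ∨
      (∃ g : (Fin m ⊕ Fin m → ZMod 2) ≃ₗ[ZMod 2] ((Fin (m - 1) ⊕ Fin (m - 1)) ⊕ Fin 2 → ZMod 2), ∀ v, q v = Cfsg.quadFormMinus (m - 1) (ZMod 2) 1 1 (g v))) ∧
    Nat.card {q : (Fin m ⊕ Fin m → ZMod 2) → ZMod 2 // (∀ u v : (Fin m ⊕ Fin m → ZMod 2), q (u + v) = q u + q v + (Cfsg.quadFormPlus m (ZMod 2) (u + v) - Cfsg.quadFormPlus m (ZMod 2) u - Cfsg.quadFormPlus m (ZMod 2) v)) ∧ ∃ g : (Fin m ⊕ Fin m → ZMod 2) ≃ₗ[ZMod 2] (Fin m ⊕ Fin m → ZMod 2), ∀ v, q v = Cfsg.quadFormPlus m (ZMod 2) (g v)} = 2 ^ (2 * m - 1) + 2 ^ (m - 1) ∧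
    Nat.card {q : (Fin m ⊕ Fin m → ZMod 2) → ZMod 2 // (∀ u v : (Fin m ⊕ Fin m → ZMod 2), q (u + v) = q u + q v + (Cfsg.quadFormPlus m (ZMod 2) (u + v) - Cfsg.quadFormPlus m (ZMod 2) u - Cfsg.quadFormPlus m (ZMod 2) v)) ∧ ∃ g : (Fin m ⊕ Fin m → ZMod 2) ≃ₗ[ZMod 2] ((Fin (m - 1) ⊕ Fin (m - 1)) ⊕ Fin 2 → ZMod 2), ∀ v, q v = Cfsg.quadFormMinus (m - 1) (ZMod 2) 1 1 (g v)} = 2 ^ (2 * m - 1) - 2 ^ (m - 1) := by
  obtain ⟨m, rfl⟩ : ∃ k, m = k + 1 := ⟨m - 1, by omega⟩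
  have hab : ∀ z₁ z₂ : ZMod 2, z₁ ^ 2 + 1 * z₁ * z₂ + 1 * z₂ ^ 2 = 0 → z₁ = 0 ∧ z₂ = 0 := by decide
  set Q₀ := CL.Cls.qfPlus (m + 1) (ZMod 2) with hQ₀
  have hN : (QuadraticMap.polarBilin Q₀).Nondegenerate := CL.Cls.nondeg_qfPlus
  have hV : Module.finrank (ZMod 2) (Fin (m + 1) ⊕ Fin (m + 1) → ZMod 2) = 2 * m + 2 := by simp; omega
  set P : ((Fin (m + 1) ⊕ Fin (m + 1) → ZMod 2) → ZMod 2) → Prop := fun q => ∀ u v,
    q (u + v) = q u + q v + (Cfsg.quadFormPlus (m + 1) (ZMod 2) (u + v) - Cfsg.quadFormPlus (m + 1) (ZMod 2) u -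
      Cfsg.quadFormPlus (m + 1) (ZMod 2) v) with hP
  let f : (Fin (m + 1) ⊕ Fin (m + 1) → ZMod 2) → (Fin (m + 1) ⊕ Fin (m + 1) → ZMod 2) → ZMod 2 :=
    fun w v => Q₀ v + QuadraticMap.polar Q₀ v w
  have hf : ∀ w, P (f w) := fun w u v => by
    simp only [f, QuadraticMap.polar_add_left, ← CL.Cls.coe_qfPlus, ← hQ₀]
    ring
  have hinj : Function.Injective f := fun w w' e => sub_eq_zero.1 (CL.Cls.nondeg_iff.1 hN _ fun y => by
    rw [QuadraticMap.polar_comm, QuadraticMap.polar_sub_right, sub_eq_zero]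
    exact add_left_cancel (congrFun e y))
  have hsurj : ∀ q, P q → ∃ w, f w = q := fun q hq => by
    obtain ⟨Q, rfl, hQ⟩ := CL.Known.exists_quad_of_add Q₀ q hq
    let φ : (Fin (m + 1) ⊕ Fin (m + 1) → ZMod 2) →+ ZMod 2 := AddMonoidHom.mk' (fun v => Q v - Q₀ v) fun u v => by
      rw [hq, ← CL.Cls.coe_qfPlus, ← hQ₀]; ring
    obtain ⟨w, hw⟩ := CL.Cls.exists_repr_of_nondeg (σ := RingHom.id (ZMod 2)) (fun _ => rfl) _ hN.1
      (φ.toZModLinearMap 2)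
    refine ⟨w, funext fun v => ?_⟩
    have : QuadraticMap.polar Q₀ w v = Q v - Q₀ v := LinearMap.congr_fun hw v
    simp only [f]
    rw [QuadraticMap.polar_comm, this, add_sub_cancel]
  have count : ∀ R : ((Fin (m + 1) ⊕ Fin (m + 1) → ZMod 2) → ZMod 2) → Prop,
      Nat.card {q // P q ∧ R q} = Nat.card {w // R (f w)} := fun R =>
    (Nat.card_congr (Equiv.ofBijective (fun w : {w // R (f w)} => (⟨f w.1, hf w.1, w.2⟩ : {q // P q ∧ R q}))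
      ⟨fun w w' e => Subtype.ext (hinj (congrArg Subtype.val e)), fun q => by
        obtain ⟨w, hw⟩ := hsurj q.1 q.2.1
        exact ⟨⟨w, hw ▸ q.2.2⟩, Subtype.ext hw⟩⟩)).symm
  have hcard : Nat.card (Fin (m + 1) ⊕ Fin (m + 1) → ZMod 2) = 2 ^ (2 * (m + 1)) := by
    simp [two_mul]
  have hor : ∀ q, P q → (∃ g : (Fin (m + 1) ⊕ Fin (m + 1) → ZMod 2) ≃ₗ[ZMod 2] (Fin (m + 1) ⊕ Fin (m + 1) → ZMod 2),
      ∀ v, q v = Cfsg.quadFormPlus (m + 1) (ZMod 2) (g v)) ∨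
      ∃ g : (Fin (m + 1) ⊕ Fin (m + 1) → ZMod 2) ≃ₗ[ZMod 2] ((Fin m ⊕ Fin m) ⊕ Fin 2 → ZMod 2),
        ∀ v, q v = Cfsg.quadFormMinus m (ZMod 2) 1 1 (g v) := fun q hq => by
    obtain ⟨Q, rfl, hQ⟩ := CL.Known.exists_quad_of_add Q₀ q hq
    exact (CL.Cls.exists_equiv_qfPlus_or_qfMinus (Q := Q) (hQ ▸ hN) hV hab).imp
      (fun ⟨e, he⟩ => ⟨e, fun v => (he v).symm⟩) fun ⟨e, he⟩ => ⟨e, fun v => (he v).symm⟩
  have hplus := CL.Known.exists_equiv_add_polar_iff hN hV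
  have hz : Nat.card {w // Q₀ w = 0} = 2 ^ (2 * (m + 1) - 1) + 2 ^ (m + 1 - 1) := by
    have := CL.Cls.card_zeros_quadFormPlus (F := ZMod 2) (m + 1)
    rw [ZMod.card] at this
    refine this.trans ?_
    obtain ⟨k, hk⟩ := Nat.exists_eq_add_of_le (Nat.one_le_two_pow (n := m))
    rw [show 2 * (m + 1) - 1 = m + m + 1 by omega, add_tsub_cancel_right, pow_succ, pow_succ, pow_add, hk,
      show (1 + k) * 2 - 1 = 2 * k + 1 by omega]
    ring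
  refine ⟨?_, hor, ?_, ?_⟩
  · rw [← hcard]
    have := count fun _ => True
    simpa using this
  · rw [← hz]
    exact (count _).trans (Nat.card_congr (Equiv.subtypeEquivRight hplus))
  · refine (count _).trans ((Nat.card_congr (Equiv.subtypeEquivRight (q := fun w => ¬ Q₀ w = 0)
      fun w => ?_)).trans ?_)
    · rw [← hplus]
      refine ⟨fun ⟨g, hg⟩ ⟨g', hg'⟩ => CL.Known.not_isPlus_qfMinus m hab
        ((CL.Known.isPlus_qfPlus (m + 1)).congr (g'.symm ≪≫ₗ g) fun v hv => ?_),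
        fun h => (hor _ (hf w)).resolve_left h⟩
      refine (hg (g'.symm v)).symm.trans ((hg' _).trans ?_)
      rwa [LinearEquiv.apply_symm_apply]
    · have e2 := Nat.card_congr (Equiv.sumCompl fun v => Q₀ v = 0)
      rw [Nat.card_sum, hz, hcard] at e2
      have e3 : 2 ^ (2 * (m + 1)) = 2 ^ (2 * (m + 1) - 1) * 2 := by rw [← pow_succ]; congr 1
      omega

end Cfsg.Agent.S2561
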