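import Cfsg.Statements.S2562
import Cfsg.Agent.Known.QuadOm2

set_option autoImplicit false
open Cfsg

namespace Cfsg.Agent.S2562

/-- Witt indices over the field of two elements, m ≥ 1: for the plus-type form Σ xᵢyᵢ in dimension 2m some m-dimensional subspace is totally singular and no totally singular subspace has larger dimension; for the minus-type form Σ xᵢyᵢ + (z₁² + z₁z₂ + z₂²) in dimension 2m the maximal dimension of a totally singular subspace is m − 1. -/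
theorem result (m : ℕ) (hm : 1 ≤ m) :
    (∃ U : Submodule (ZMod 2) (Fin m ⊕ Fin m → ZMod 2), (∀ u ∈ U, Cfsg.quadFormPlus m (ZMod 2) u = 0) ∧ Module.finrank (ZMod 2) ↥U = m) ∧
    (∀ U : Submodule (ZMod 2) (Fin m ⊕ Fin m → ZMod 2), (∀ u ∈ U, Cfsg.quadFormPlus m (ZMod 2) u = 0) → Module.finrank (ZMod 2) ↥U ≤ m) ∧
    (∃ U : Submodule (ZMod 2) ((Fin (m - 1) ⊕ Fin (m - 1)) ⊕ Fin 2 → ZMod 2), (∀ u ∈ U, Cfsg.quadFormMinus (m - 1) (ZMod 2) 1 1 u = 0) ∧ Module.finrank (ZMod 2) ↥U = m - 1) ∧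
    (∀ U : Submodule (ZMod 2) ((Fin (m - 1) ⊕ Fin (m - 1)) ⊕ Fin 2 → ZMod 2), (∀ u ∈ U, Cfsg.quadFormMinus (m - 1) (ZMod 2) 1 1 u = 0) → Module.finrank (ZMod 2) ↥U ≤ m - 1) := by
  obtain ⟨m, rfl⟩ : ∃ k, m = k + 1 := ⟨m - 1, by omega⟩
  have hab : ∀ z₁ z₂ : ZMod 2, z₁ ^ 2 + 1 * z₁ * z₂ + 1 * z₂ ^ 2 = 0 → z₁ = 0 ∧ z₂ = 0 := by decide
  refine ⟨?_, fun U hU => ?_, ?_, fun U hU => ?_⟩
  · obtain ⟨X, h1, h2⟩ := CL.Known.isPlus_qfPlus (F := ZMod 2) (m + 1)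
    exact ⟨X, h2, h1⟩
  · have := (CL.Cls.isWittForm_of_nondeg (CL.Cls.nondeg_qfPlus (m := m + 1) (F := ZMod 2))).two_mul_finrank_le U
      (CL.Cls.polar_eq_zero_of_singular hU)
    simp only [Module.finrank_fintype_fun_eq_card, Fintype.card_sum, Fintype.card_fin] at this
    omega
  · obtain ⟨Y, -, h1, h2⟩ := CL.Cls.exists_singular_subspace (CL.Cls.nondeg_qfMinus (m := m) 1 1 hab) ⊥ (by simp)
    have := CL.Cls.finrank_le_of_singular_qfMinus m hab (by decide) Y h2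
    simp only [Module.finrank_fintype_fun_eq_card, Fintype.card_sum, Fintype.card_fin] at h1
    have h3 : Module.finrank (ZMod 2) Y = m := by omega
    exact ⟨Y, h2, h3⟩
  · exact CL.Cls.finrank_le_of_singular_qfMinus m hab (by decide) U hU

end Cfsg.Agent.S2562
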