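import Cfsg.Statements.S2563
import Cfsg.Agent.Cls.PermIso
import Cfsg.Agent.Cls.OrthCount
import Cfsg.Agent.Cls.QuadClass

set_option autoImplicit false
open Cfsg

namespace Cfsg.Agent.S2563

open CL.Cls QuadraticMap

section
variable {F : Type*} [Field F]

theorem e2_succ {n : ℕ} (w : Fin (n + 1) → F) :
    listE2 (List.ofFn w) = w 0 * ∑ i : Fin n, w i.succ + listE2 (List.ofFn fun i : Fin n => w i.succ) := by
  rw [List.ofFn_succ, listE2, List.sum_ofFn]

theorem e2_add {n : ℕ} (u v : Fin n → F) : listE2 (List.ofFn (u + v)) =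
    listE2 (List.ofFn u) + listE2 (List.ofFn v) + ((∑ i, u i) * (∑ i, v i) - ∑ i, u i * v i) := by
  induction n with
  | zero => simp [listE2]
  | succ n ih =>
    rw [e2_succ, e2_succ u, e2_succ v]
    have := ih (fun i => u i.succ) (fun i => v i.succ)
    rw [show (fun i : Fin n => (u + v) i.succ) = (fun i => u i.succ) + fun i => v i.succ from rfl, this]
    simp only [Fin.sum_univ_succ, Pi.add_apply, Finset.sum_add_distrib]
    ring

theorem e2_smul {n : ℕ} (a : F) (u : Fin n → F) :
    listE2 (List.ofFn (a • u)) = (a * a) * listE2 (List.ofFn u) := by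
  induction n with
  | zero => simp [listE2]
  | succ n ih =>
    rw [e2_succ, e2_succ u]
    have := ih (fun i => u i.succ)
    rw [show (fun i : Fin n => (a • u) i.succ) = a • (fun i => u i.succ) from rfl, this]
    simp only [Pi.smul_apply, smul_eq_mul, ← Finset.mul_sum]
    ring

theorem e2_const (n : ℕ) (c : F) : listE2 (List.ofFn fun _ : Fin n => c) = (n.choose 2 : ℕ) * c ^ 2 := by
  induction n with
  | zero => simp [listE2]
  | succ n ih =>
    rw [e2_succ, ih, Nat.choose_succ_succ' n 1]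
    simp
    ring

/-- the second elementary symmetric function as a quadratic form -/
def qE (n : ℕ) (F : Type*) [Field F] : QuadraticForm F (Fin n → F) where
  toFun w := listE2 (List.ofFn w)
  toFun_smul a w := e2_smul a w
  exists_companion' := ⟨LinearMap.mk₂ F (fun u v => (∑ i, u i) * (∑ i, v i) - ∑ i, u i * v i)
    (fun u u' v => by simp only [Pi.add_apply, add_mul, Finset.sum_add_distrib]; ring)
    (fun a u v => by simp only [Pi.smul_apply, smul_eq_mul, mul_assoc, ← Finset.mul_sum]; ring)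
    (fun u v v' => by simp only [Pi.add_apply, mul_add, Finset.sum_add_distrib]; ring)
    (fun a u v => by
      simp only [Pi.smul_apply, smul_eq_mul, mul_left_comm _ a, ← Finset.mul_sum]; ring),
    fun u v => e2_add u v⟩

theorem qE_apply {n : ℕ} (w : Fin n → F) : qE n F w = listE2 (List.ofFn w) := rfl

end

/-- the sign character -/
def chi (x : ZMod 2) : ℤ := if x = 0 then 1 else -1

theorem chi_one_add (x : ZMod 2) : chi (1 + x) = -chi x := by
  revert x; decide

theorem sum_chi {W : Type*} [Fintype W] (f : W → ZMod 2) :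
    ∑ w, chi (f w) = 2 * (Nat.card {w // f w = 0} : ℤ) - Fintype.card W := by
  classical
  have : ∀ w, chi (f w) = 2 * (if f w = 0 then 1 else 0) - 1 := fun w => by
    unfold chi; split_ifs <;> simp
  simp only [this, Finset.sum_sub_distrib, ← Finset.mul_sum, Finset.sum_boole, Nat.card_eq_fintype_card,
    Fintype.card_subtype]
  simp

/-- signed sums -/
def tA (n : ℕ) : ℤ := ∑ u : Fin n → ZMod 2, chi (listE2 (List.ofFn u))

/-- signed sums -/
def tB (n : ℕ) : ℤ := ∑ u : Fin n → ZMod 2, chi (∑ i, u i + listE2 (List.ofFn u))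

theorem sum_succ {n : ℕ} (f : (Fin (n + 1) → ZMod 2) → ℤ) :
    ∑ u, f u = ∑ u : Fin n → ZMod 2, f (Fin.cons 0 u) + ∑ u : Fin n → ZMod 2, f (Fin.cons 1 u) := by
  rw [← (Fin.consEquiv fun _ => ZMod 2).sum_comp, Fintype.sum_prod_type]
  exact Fin.sum_univ_two _

theorem tA_succ (n : ℕ) : tA (n + 1) = tA n + tB n := by
  rw [tA, sum_succ]
  simp only [e2_succ, Fin.cons_zero, Fin.cons_succ, zero_mul, zero_add, one_mul]
  rfl

theorem tB_succ (n : ℕ) : tB (n + 1) = tB n - tA n := by
  rw [tB, sum_succ]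
  simp only [e2_succ, Fin.sum_univ_succ, Fin.cons_zero, Fin.cons_succ, zero_mul, zero_add, one_mul]
  rw [sub_eq_add_neg, tA, ← Finset.sum_neg_distrib]
  congr 1
  refine Finset.sum_congr rfl fun u _ => ?_
  rw [← chi_one_add]
  congr 1
  have : ∀ x y : ZMod 2, 1 + x + (x + y) = 1 + y := by decide
  exact this _ _

theorem tAB (k : ℕ) : tA (4 * k) = (-4) ^ k ∧ tB (4 * k) = (-4) ^ k := by
  induction k with
  | zero => simp [tA, tB, listE2, chi]
  | succ k ih =>
    rw [show 4 * (k + 1) = 4 * k + 1 + 1 + 1 + 1 by ring]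
    simp only [tA_succ, tB_succ, ih.1, ih.2]
    constructor <;> ring

theorem tB_eq (k : ℕ) : tB (4 * k + 2) = -2 * (-4) ^ k := by
  simp only [tA_succ, tB_succ, (tAB k).1, (tAB k).2]
  ring

theorem hk2 (k : ℕ) : ((4 * k + 2 : ℕ) : ZMod 2) + 2 = 0 := by
  push_cast
  rw [show (4 : ZMod 2) = 0 from rfl, show (2 : ZMod 2) = 0 from rfl]
  simp

/-- the invariant quadratic form -/
def qP (k : ℕ) : QuadraticForm (ZMod 2) (Fin (4 * k + 2) → ZMod 2) :=
  (qE _ _).comp (stdPermModel (4 * k + 2) (hk2 k)).S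

theorem qP_apply (k : ℕ) (u : Fin (4 * k + 2) → ZMod 2) : qP k u = ∑ i, u i + listE2 (List.ofFn u) := by
  rw [qP, comp_apply, qE_apply, e2_succ, e2_succ]
  simp only [stdPermModel, LinearMap.coe_mk, AddHom.coe_mk, Fin.cons_zero, Fin.cons_succ, zero_mul, zero_add]
  congr 1
  have : ∀ x : ZMod 2, -x * x = x := by decide
  exact this _

theorem nondeg_qP (k : ℕ) : (polarBilin (qP k)).Nondegenerate := by
  rw [nondeg_iff]
  intro x hx
  apply stdPermForm_nondeg _ (hk2 k) x
  intro y
  have := hx y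
  rw [polar, qP, comp_apply, comp_apply, comp_apply, map_add, qE_apply, qE_apply, qE_apply, e2_add,
    PermModel.sum_S] at this
  rw [stdPermForm_apply]
  linear_combination -this

theorem exists_inj (k : ℕ) (hk : 1 ≤ k) :
    ∃ f : Equiv.Perm (Fin (4 * k + 4)) →* OG (qP k), Function.Injective f := by
  refine (stdPermModel (4 * k + 2) (hk2 k)).exists_injective_OG (by simp; omega) (qP k)
    (fun w => listE2 (List.ofFn w)) (fun σ w => listE2_ofFn_comp σ w) fun w hw => ?_
  obtain ⟨c, -, hc⟩ := (stdPermModel (4 * k + 2) (hk2 k)).S_P w hw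
  rw [qP, comp_apply, qE_apply, show (stdPermModel (4 * k + 2) (hk2 k)).S ((stdPermModel (4 * k + 2) (hk2 k)).P w)
    = w + fun _ => c from funext hc, e2_add, e2_const, ← Finset.sum_mul, hw]
  have : (4 * k + 2 + 2).choose 2 = 2 * ((k + 1) * (4 * k + 3)) := by
    rw [Nat.choose_two_right, show 4 * k + 2 + 2 - 1 = 4 * k + 3 by omega]
    apply Nat.div_eq_of_eq_mul_left (by norm_num)
    ring
  rw [this]
  push_cast
  rw [show (2 : ZMod 2) = 0 from rfl]
  simp

theorem card_zeros (k : ℕ) : 2 * (Nat.card {u // qP k u = 0} : ℤ) - 2 ^ (4 * k + 2) = -2 * (-4) ^ k := by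
  rw [← tB_eq, tB]
  simp only [← qP_apply]
  rw [sum_chi]
  simp

theorem card_congr {V W : Type*} (e : V ≃ W) (f : V → ZMod 2) (g : W → ZMod 2) (h : ∀ v, g (e v) = f v) :
    Nat.card {v // f v = 0} = Nat.card {w // g w = 0} :=
  Nat.card_congr (e.subtypeEquiv fun v => by rw [h])


/-- For k ≥ 1 the symmetric group of degree 4k + 4 embeds in a full orthogonal group in dimension 4k + 2 over the field of two elements: in the isometry group of the plus-type form Σ xᵢyᵢ when k is odd, and in that of the minus-type form Σ xᵢyᵢ + (z₁² + z₁z₂ + z₂²) when k is even (through its action on even partitions of a (4k+4)-set, with the form 'half the size of a part, modulo 2'). -/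
theorem result (k : ℕ) (hk : 1 ≤ k) :
    (Odd k → ∃ φ : Equiv.Perm (Fin (4 * k + 4)) →* ↥(Cfsg.isometryGroup (ZMod 2) (Cfsg.quadFormPlus (2 * k + 1) (ZMod 2))), Function.Injective φ) ∧
    (Even k → ∃ φ : Equiv.Perm (Fin (4 * k + 4)) →* ↥(Cfsg.isometryGroup (ZMod 2) (Cfsg.quadFormMinus (2 * k) (ZMod 2) 1 1)), Function.Injective φ) := by
  obtain ⟨f, hf⟩ := exists_inj k hk
  have hz := card_zeros k
  have h4 : (2 : ℤ) ^ (2 * k) = 4 ^ k := by rw [pow_mul]; norm_num
  have hpos : (0 : ℤ) < 4 ^ k := by positivity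
  have h1 : 1 ≤ 2 ^ (2 * k) := Nat.one_le_two_pow
  have h1' : 1 ≤ 2 ^ (2 * k + 1) := Nat.one_le_two_pow
  have hab := aniso_one_one_of_card_two (F := ZMod 2) (by simp)
  rcases exists_equiv_qfPlus_or_qfMinus (nondeg_qP k) (m := 2 * k) (by simp; ring) hab with ⟨e, he⟩ | ⟨e, he⟩
  · have hc := card_congr e.toEquiv (qP k) (Cfsg.quadFormPlus (2 * k + 1) (ZMod 2)) he
    rw [card_zeros_quadFormPlus] at hc
    rw [hc] at hz
    simp only [ZMod.card, Nat.add_sub_cancel] at hz
    push_cast [h1'] at hz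
    rw [show 4 * k + 2 = 2 * k + 2 * k + 2 by ring] at hz
    simp only [pow_add, h4] at hz
    refine ⟨fun _ => ⟨((isomEquiv (qfPlus (2 * k + 1) (ZMod 2))).symm.toMonoidHom.comp
      (OG.congr e he).toMonoidHom).comp f, ?_⟩, fun h => ?_⟩
    · exact ((isomEquiv _).symm.injective.comp (OG.congr e he).injective).comp hf
    · rw [h.neg_pow] at hz
      nlinarith
  · have hc := card_congr e.toEquiv (qP k) (Cfsg.quadFormMinus (2 * k) (ZMod 2) 1 1) he
    rw [card_zeros_quadFormMinus _ _ _ hab] at hc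
    rw [hc] at hz
    simp only [ZMod.card] at hz
    push_cast [h1] at hz
    rw [show 4 * k + 2 = 2 * k + 2 * k + 2 by ring] at hz
    simp only [pow_add, h4] at hz
    refine ⟨fun h => ?_, fun _ => ⟨((isomEquiv (qfMinus (2 * k) (ZMod 2) 1 1)).symm.toMonoidHom.comp
      (OG.congr e he).toMonoidHom).comp f, ?_⟩⟩
    · rw [h.neg_pow] at hz
      nlinarith
    · exact ((isomEquiv _).symm.injective.comp (OG.congr e he).injective).comp hf

end Cfsg.Agent.S2563
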