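import Cfsg.Statements.S2566
import Cfsg.Agent.Cls.OrthIso4
import Cfsg.Agent.Cls.SmallIso

set_option autoImplicit false
open Cfsg

namespace Cfsg.Agent.S2566

open CL.Cls Matrix

theorem transport {G H : Type*} [Group G] [Group H] (e : G ≃* H)
    (h : ∃ (A B : Subgroup G), Nonempty (↥A ≃* Equiv.Perm (Fin 3)) ∧ Nonempty (↥B ≃* Equiv.Perm (Fin 3)) ∧
      A ⊓ B = ⊥ ∧ (∀ a ∈ A, ∀ b ∈ B, a * b = b * a) ∧
      (A ⊔ B).index = 2 ∧ ∃ g : G, A.map (MulAut.conj g).toMonoidHom = B) :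
    ∃ (A B : Subgroup H), Nonempty (↥A ≃* Equiv.Perm (Fin 3)) ∧ Nonempty (↥B ≃* Equiv.Perm (Fin 3)) ∧
      A ⊓ B = ⊥ ∧ (∀ a ∈ A, ∀ b ∈ B, a * b = b * a) ∧
      (A ⊔ B).index = 2 ∧ ∃ g : H, A.map (MulAut.conj g).toMonoidHom = B := by
  obtain ⟨A, B, ⟨a⟩, ⟨b⟩, h1, h2, h3, g, h4⟩ := h
  refine ⟨A.map (e : G →* H), B.map (e : G →* H), ⟨(e.subgroupMap A).symm.trans a⟩,
    ⟨(e.subgroupMap B).symm.trans b⟩, ?_, ?_, ?_, e g, ?_⟩
  · rw [← Subgroup.map_inf _ _ _ e.injective, h1, Subgroup.map_bot]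
  · rintro _ ⟨x, hx, rfl⟩ _ ⟨y, hy, rfl⟩
    rw [← map_mul, h2 x hx y hy, map_mul]
  · rw [← Subgroup.map_sup, Subgroup.index_map_of_bijective (by exact e.bijective), h3]
  · rw [← h4, Subgroup.map_map, Subgroup.map_map]
    congr 1
    ext x
    simp

/-- the transpose map as an isometry of the determinant form -/
def tr : OG (qfDet (ZMod 2)) :=
  ⟨Matrix.transposeLinearEquiv (Fin 2) (Fin 2) (ZMod 2) (ZMod 2), fun X => by
    simp [qfDet_apply]⟩

theorem inj : Function.Injective (sl2sl2ToO4 (ZMod 2)) := by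
  rw [injective_iff_map_eq_one]
  intro p hp
  rcases sl2sl2ToO4_eq_one hp with h | h
  · exact h
  · rw [h]
    ext i j <;> fin_cases i <;> fin_cases j <;> simp <;> decide

theorem tr_conj (s : SpecialLinearGroup (Fin 2) (ZMod 2)) :
    tr * sl2sl2ToO4 (ZMod 2) (s, 1) * tr⁻¹ = sl2sl2ToO4 (ZMod 2) (1, s) := by
  rw [mul_inv_eq_iff_eq_mul]
  apply OG.ext'
  intro X
  rw [OG.mul_app, OG.mul_app, sl2sl2ToO4_app, sl2sl2ToO4_app]
  simp [tr]


/-- The full orthogonal group of the plus-type form x₁y₁ + x₂y₂ in dimension 4 over the field of two elements has order 72 and is isomorphic to the wreath product of the symmetric group of degree 3 by a group of order 2: it has a normal subgroup isomorphic to the direct product of two symmetric groups of degree 3, of index 2, whose two direct factors are interchanged by conjugation by some element. -/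
theorem result :
    Nat.card ↥(Cfsg.isometryGroup (ZMod 2) (Cfsg.quadFormPlus 2 (ZMod 2))) = 72 ∧
    ∃ (A B : Subgroup ↥(Cfsg.isometryGroup (ZMod 2) (Cfsg.quadFormPlus 2 (ZMod 2)))),
      Nonempty (↥A ≃* Equiv.Perm (Fin 3)) ∧ Nonempty (↥B ≃* Equiv.Perm (Fin 3)) ∧ A ⊓ B = ⊥ ∧ (∀ a ∈ A, ∀ b ∈ B, a * b = b * a) ∧
      (A ⊔ B).index = 2 ∧ ∃ g : ↥(Cfsg.isometryGroup (ZMod 2) (Cfsg.quadFormPlus 2 (ZMod 2))), A.map (MulAut.conj g).toMonoidHom = B := by
  rw [← coe_qfPlus]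
  let e : Cfsg.isometryGroup (ZMod 2) ⇑(qfPlus 2 (ZMod 2)) ≃* OG (qfDet (ZMod 2)) :=
    (isomEquiv _).trans (OG.congr (coord4 _) qfDet_coord4)
  obtain ⟨s⟩ := nonempty_SL2_two (F := ZMod 2) (by simp)
  have hs : Nat.card (SpecialLinearGroup (Fin 2) (ZMod 2)) = 6 := by
    rw [Nat.card_congr s.toEquiv, Nat.card_perm]; simp; rfl
  have hcard : Nat.card (OG (qfDet (ZMod 2))) = 72 := by
    rw [card_OG_qfDet, Nat.card_prod, hs]
  refine ⟨by rw [Nat.card_congr e.toEquiv, hcard], transport e.symm ?_⟩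
  let φ := sl2sl2ToO4 (ZMod 2)
  let l := φ.comp (MonoidHom.inl _ _)
  let r := φ.comp (MonoidHom.inr _ _)
  have hl : Function.Injective l := inj.comp (Prod.mk_left_injective _)
  have hr : Function.Injective r := inj.comp (Prod.mk_right_injective _)
  refine ⟨l.range, r.range, ⟨(MonoidHom.ofInjective hl).symm.trans s⟩,
    ⟨(MonoidHom.ofInjective hr).symm.trans s⟩, ?_, ?_, ?_, tr, ?_⟩
  · rw [eq_bot_iff]
    rintro _ ⟨⟨x, rfl⟩, ⟨y, hy⟩⟩
    have := inj hy
    simp only [MonoidHom.inr_apply, MonoidHom.inl_apply, Prod.mk.injEq] at this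
    rw [← this.1, map_one]
    exact Subgroup.one_mem _
  · rintro _ ⟨x, rfl⟩ _ ⟨y, rfl⟩
    simp only [l, r, MonoidHom.comp_apply, ← map_mul]
    simp
  · have : l.range ⊔ r.range = φ.range := by
      apply le_antisymm
      · refine sup_le ?_ ?_
        · rintro _ ⟨x, rfl⟩; exact ⟨_, rfl⟩
        · rintro _ ⟨x, rfl⟩; exact ⟨_, rfl⟩
      · rintro _ ⟨⟨x, y⟩, rfl⟩
        have : φ (x, y) = l x * r y := by
          simp only [l, r, MonoidHom.comp_apply, ← map_mul]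
          simp
        rw [this]
        exact Subgroup.mul_mem_sup ⟨x, rfl⟩ ⟨y, rfl⟩
    rw [this]
    have h1 := φ.range.card_mul_index
    rw [hcard, ← Nat.card_congr (MonoidHom.ofInjective inj).toEquiv, Nat.card_prod, hs] at h1
    omega
  · ext x
    constructor
    · rintro ⟨_, ⟨y, rfl⟩, rfl⟩
      exact ⟨y, (tr_conj y).symm⟩
    · rintro ⟨y, rfl⟩
      exact ⟨_, ⟨y, rfl⟩, tr_conj y⟩

end Cfsg.Agent.S2566
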