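import Cfsg.Statements.S2567
import Cfsg.Agent.Base

set_option autoImplicit false
open Cfsg

namespace Cfsg.Agent.S2567

theorem center_pow {F : Type*} [Field F] [Fintype F] {n : ℕ} {z : GL (Fin n) F}
    (hz : z ∈ Subgroup.center (GL (Fin n) F)) : z ^ (Fintype.card F - 1) = 1 := by
  rw [Matrix.GeneralLinearGroup.center_eq_range_scalar] at hz
  obtain ⟨a, rfl⟩ := hz
  rw [← map_pow, ← Nat.card_eq_fintype_card, ← Nat.card_units, pow_card_eq_one', map_one]

theorem lift_unique {G : Type*} [Group G] {m r : ℕ} (hm : ∀ z ∈ Subgroup.center G, z ^ m = 1)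
    (hc : r.Coprime m) (x : G ⧸ Subgroup.center G) (hx : orderOf x = r) :
    ∃! g : G, (QuotientGroup.mk g : G ⧸ Subgroup.center G) = x ∧ orderOf g = r := by
  have hroot : ∀ z ∈ Subgroup.center G, z ^ r = 1 → z = 1 := by
    intro z hz h
    have h1 := orderOf_dvd_of_pow_eq_one h
    have h2 := orderOf_dvd_of_pow_eq_one (hm z hz)
    exact orderOf_eq_one_iff.1 (Nat.eq_one_of_dvd_coprimes hc h1 h2)
  obtain ⟨g, rfl⟩ := QuotientGroup.mk_surjective x
  have hz : g ^ r ∈ Subgroup.center G := by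
    rw [← QuotientGroup.eq_one_iff, QuotientGroup.mk_pow, ← hx, pow_orderOf_eq_one]
  obtain ⟨k, hk⟩ : ∃ k, (g ^ r) ^ (r * k) = g ^ r := by
    have h2 := orderOf_dvd_of_pow_eq_one (hm _ hz)
    obtain ⟨k, hk⟩ := exists_pow_eq_self_of_coprime (x := g ^ r) (n := r)
      (Nat.Coprime.coprime_dvd_right h2 hc)
    exact ⟨k, by rw [pow_mul]; exact hk⟩
  have hw : (g ^ r) ^ k ∈ Subgroup.center G := Subgroup.pow_mem _ hz k
  have hmk : (QuotientGroup.mk (g * ((g ^ r) ^ k)⁻¹) : G ⧸ Subgroup.center G) =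
      QuotientGroup.mk g := by
    rw [QuotientGroup.mk_mul_of_mem _ (Subgroup.inv_mem _ hw)]
  have hwr : (g * ((g ^ r) ^ k)⁻¹) ^ r = 1 := by
    have hcm : Commute g ((g ^ r) ^ k)⁻¹ := (((Commute.refl g).pow_right r).pow_right k).inv_right
    rw [hcm.mul_pow, inv_pow, ← pow_mul _ k, mul_comm k, hk, mul_inv_cancel]
  refine ⟨g * ((g ^ r) ^ k)⁻¹, ⟨hmk, ?_⟩, ?_⟩
  · apply Nat.dvd_antisymm (orderOf_dvd_of_pow_eq_one hwr)
    have := orderOf_map_dvd (QuotientGroup.mk' (Subgroup.center G)) (g * ((g ^ r) ^ k)⁻¹)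
    rwa [QuotientGroup.mk'_apply, hmk, hx] at this
  · rintro y ⟨hy1, hy2⟩
    rw [← hmk, QuotientGroup.eq] at hy1
    generalize g * ((g ^ r) ^ k)⁻¹ = w at hy1 hwr
    have hcm : Commute y (y⁻¹ * w) := (Subgroup.mem_center_iff.1 hy1 y)
    have h3 : (y * (y⁻¹ * w)) ^ r = 1 := by simpa using hwr
    rw [hcm.mul_pow, ← hy2, pow_orderOf_eq_one, one_mul, hy2] at h3
    exact inv_mul_eq_one.1 (hroot _ hy1 h3)

/-- Lifting elements of prime order from PGL to GL: let F be a finite field with q elements, r a prime not dividing q − 1, and x an element of order r in GL_n(F) modulo its centre (the scalar matrices). Then x has exactly one preimage in GL_n(F) of order r. -/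
theorem result {F : Type*} [Field F] [Fintype F] {q n r : ℕ} (hF : Fintype.card F = q) (hr : r.Prime) (hdiv : ¬ r ∣ q - 1) (x : GL (Fin n) F ⧸ Subgroup.center (GL (Fin n) F)) (hx : orderOf x = r) : ∃! g : GL (Fin n) F, (QuotientGroup.mk g : GL (Fin n) F ⧸ Subgroup.center (GL (Fin n) F)) = x ∧ orderOf g = r := by
  subst hF
  exact lift_unique (fun z hz => center_pow hz) ((Nat.Prime.coprime_iff_not_dvd hr).2 hdiv) x hx

end Cfsg.Agent.S2567
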