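import Cfsg.Statements.S2568
import Cfsg.Agent.Known.GLOrd

set_option autoImplicit false
open Cfsg

namespace Cfsg.Agent.S2568

open Polynomial CL.GLn

/-- Number of conjugacy classes of elements of a given prime order r, coprime to the characteristic, in GL_n(q): if i is the multiplicative order of q modulo r and t = (r − 1)/i, the classes correspond to the non-zero t-tuples of natural numbers (a_1, …, a_t) with i(a_1 + ⋯ + a_t) ≤ n (a_j is the multiplicity of the j-th Frobenius orbit of nontrivial r-th roots of unity among the eigenvalues), so there are exactly C(⌊n/i⌋ + t, t) − 1 of them. -/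
theorem result {F : Type*} [Field F] [Fintype F] {p q : ℕ} [Fact p.Prime] [CharP F p] (hF : Fintype.card F = q) (n r i t : ℕ) (hr : r.Prime) (hrp : r ≠ p) (hi : i = orderOf (q : ZMod r)) (ht : t * i = r - 1) : Nat.card {C : ConjClasses (GL (Fin n) F) // ∃ g : GL (Fin n) F, ConjClasses.mk g = C ∧ orderOf g = r} = Nat.choose (n / i + t) t - 1 := by
  classical
  have : Fact r.Prime := ⟨hr⟩
  have hrF : (r : F) ≠ 0 := by
    rw [Ne, CharP.cast_eq_zero_iff F p, Nat.prime_dvd_prime_iff_eq Fact.out hr]
    exact hrp.symm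
  have hcard : Nat.card F = q := by rw [Nat.card_eq_fintype_card, hF]
  have hT := card_ordFactors_mul hrF
  rw [hcard, ← hi, Nat.totient_prime hr, ← ht] at hT
  have hi0 : 0 < i := by
    rcases Nat.eq_zero_or_pos i with h | h
    · rw [h, mul_zero] at ht
      have := hr.two_le; omega
    · exact h
  have hTt : (ordFactors F r).card = t := Nat.eq_of_mul_eq_mul_right hi0 hT
  have hdeg : ∀ P ∈ ordFactors F r, P.natDegree = i := fun P hP => by
    rw [natDegree_of_mem_ordFactors hrF hP, hcard, hi]
  have h1T : (X - 1 : F[X]) ∉ ordFactors F r := fun h => by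
    have := ((mem_ordFactors hrF).1 h).2.2
    rw [ordP_X_sub_one] at this
    exact hr.one_lt.ne this
  have hsep : Squarefree (X ^ r - 1 : F[X]) := (X_pow_sub_one_separable_iff.2 hrF).squarefree
  rw [card_conjClasses_GL (fun g => orderOf g = r)
    (fun s => (∀ P ∈ s, ordP P ∣ r) ∧ ¬ ∀ P ∈ s, ordP P ∣ 1) (fun g => by
      rw [orderOf_eq_prime_iff, ← GL_pow_eq_one_iff_ordP, ← GL_pow_eq_one_iff_ordP, pow_one])]
  rw [← hTt, ← card_multiset_card_le]
  have hfin : Finite {u : Multiset F[X] // (∀ x ∈ u, x ∈ ordFactors F r) ∧ Multiset.card u ≤ n / i} := by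
    apply Nat.finite_of_card_ne_zero
    rw [card_multiset_card_le]
    exact (Nat.choose_pos (Nat.le_add_left _ _)).ne'
  rw [← natCard_subtype_and_ne _ (a := 0) (by simp)]
  symm
  have hsum : ∀ u : Multiset F[X], (∀ x ∈ u, x ∈ ordFactors F r) →
      (u.map natDegree).sum = Multiset.card u * i := fun u hu => by
    rw [Multiset.map_congr rfl (fun P hP => hdeg P (hu P hP))]; simp
  refine Nat.card_congr (Equiv.ofBijective (fun u => ⟨u.1 + Multiset.replicate
    (n - Multiset.card u.1 * i) (X - 1), ?_, ?_, ?_, ?_⟩) ⟨?_, ?_⟩)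
  · intro P hP
    rcases Multiset.mem_add.1 hP with h | h
    · obtain ⟨a, b, c⟩ := (mem_ordFactors hrF).1 (u.2.1.1 P h)
      exact ⟨isPrimaryPoly_of_irreducible a b, not_X_dvd_of_ordP_pos (c ▸ hr.pos)⟩
    · rw [Multiset.eq_of_mem_replicate h]
      exact ⟨isPrimaryPoly_of_irreducible monic_X_sub_one irreducible_X_sub_one,
        not_X_dvd_of_ordP_pos (by rw [ordP_X_sub_one]; exact one_pos)⟩
  · have := (Nat.le_div_iff_mul_le hi0).1 u.2.1.2
    rw [Multiset.map_add, Multiset.sum_add, hsum _ u.2.1.1]
    simp only [Multiset.map_replicate, natDegree_X_sub_one', Multiset.sum_replicate, smul_eq_mul,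
      mul_one, Fintype.card_fin]
    omega
  · intro P hP
    rcases Multiset.mem_add.1 hP with h | h
    · rw [((mem_ordFactors hrF).1 (u.2.1.1 P h)).2.2]
    · rw [Multiset.eq_of_mem_replicate h, ordP_X_sub_one]; exact one_dvd _
  · intro h
    obtain ⟨P, hP⟩ := Multiset.exists_mem_of_ne_zero u.2.2
    have := h P (Multiset.mem_add.2 (Or.inl hP))
    rw [((mem_ordFactors hrF).1 (u.2.1.1 P hP)).2.2, Nat.dvd_one] at this
    exact hr.one_lt.ne' this
  · rintro ⟨u, ⟨hu, hu1⟩, hu2⟩ ⟨v, ⟨hv, hv1⟩, hv2⟩ h
    have h' := congrArg (fun s => Multiset.filter (· ∈ ordFactors F r) s.1) h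
    simp only [Multiset.filter_add] at h'
    rw [Multiset.filter_eq_self.2 hu, Multiset.filter_eq_self.2 hv, Multiset.filter_eq_nil.2,
      Multiset.filter_eq_nil.2] at h'
    · simpa using h'
    all_goals
      intro a ha
      rw [Multiset.eq_of_mem_replicate ha]; exact h1T
  · rintro ⟨s, h1, h2, h3, h4⟩
    have hs : ∀ P ∈ s, P ∉ ordFactors F r → P = X - 1 := by
      intro P hP hPT
      have hi := (h1 P hP).1.irreducible_of_squarefree (hsep.squarefree_of_dvd
        ((dvd_X_pow_sub_one_iff_ordP P r).2 (h3 P hP)))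
      rcases (Nat.dvd_prime hr).1 (h3 P hP) with h | h
      · exact (ordP_eq_one_iff (h1 P hP).1.monic hi).1 h
      · exact absurd ((mem_ordFactors hrF).2 ⟨(h1 P hP).1.monic, hi, h⟩) hPT
    set u := s.filter (· ∈ ordFactors F r) with hu
    set w := s.filter (· ∉ ordFactors F r) with hw
    have huw : u + w = s := Multiset.filter_add_not _ s
    have hu1 : ∀ x ∈ u, x ∈ ordFactors F r := fun x hx => (Multiset.mem_filter.1 hx).2
    have hw1 : w = Multiset.replicate (Multiset.card w) (X - 1) :=
      Multiset.eq_replicate_card.2 fun x hx => hs x (Multiset.mem_filter.1 hx).1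
        (Multiset.mem_filter.1 hx).2
    rw [← huw, Multiset.map_add, Multiset.sum_add, hsum u hu1, hw1] at h2
    simp only [Multiset.map_replicate, natDegree_X_sub_one', Multiset.sum_replicate, smul_eq_mul,
      mul_one, Fintype.card_fin] at h2
    refine ⟨⟨u, ⟨hu1, (Nat.le_div_iff_mul_le hi0).2 (by omega)⟩, ?_⟩, Subtype.ext ?_⟩
    · intro h0
      apply h4
      intro P hP
      rw [← huw, h0, zero_add, hw1] at hP
      rw [Multiset.eq_of_mem_replicate hP, ordP_X_sub_one]
    · change u + Multiset.replicate (n - Multiset.card u * i) (X - 1) = s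
      rw [show n - Multiset.card u * i = Multiset.card w by omega, ← hw1, huw]

end Cfsg.Agent.S2568
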