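import Cfsg.Statements.S2570
import Cfsg.Agent.Known.GLUnip1

set_option autoImplicit false
open Cfsg

namespace Cfsg.Agent.S2570


/-- Number of conjugacy classes of elements of order p in GL_n over a finite field of characteristic p: they correspond to the Jordan types, that is, to the partitions of n with all parts at most p other than the partition into ones, so there are (number of partitions of n with parts ≤ p) − 1 of them. -/
theorem result {F : Type*} [Field F] [Fintype F] {p : ℕ} [Fact p.Prime] [CharP F p] (n : ℕ) : Nat.card {C : ConjClasses (GL (Fin n) F) // ∃ g : GL (Fin n) F, ConjClasses.mk g = C ∧ orderOf g = p} = (Finset.univ.filter (fun μ : Nat.Partition n => ∀ a ∈ μ.parts, a ≤ p)).card - 1 := by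
  classical
  have hp : p.Prime := Fact.out
  have h := CL.GLn.card_conjClasses_unipotent (F := F) (n := Fin n)
    (fun g => orderOf g = p) (fun μ => (∀ a ∈ μ.parts, a ≤ p) ∧ ¬ ∀ a ∈ μ.parts, a ≤ 1)
    (fun g hg => (CL.GLn.GL_orderOf_eq_pow_iff p g).1 ⟨1, by rw [pow_one, hg]⟩)
    (fun g μ hμ => by
      rw [orderOf_eq_prime_iff, ← CL.GLn.sub_one_pow_eq_zero_iff_of_type hμ,
        ← CL.GLn.sub_one_pow_eq_zero_iff_of_type hμ, pow_one, sub_eq_zero]
      have := CL.GLn.GL_pow_char_pow_eq_one_iff p g 1
      rw [pow_one] at this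
      rw [this, Ne, Units.ext_iff, Units.val_one])
  rw [h, Fintype.card_fin, Nat.card_eq_fintype_card, Fintype.card_subtype]
  let one : Nat.Partition n := ⟨Multiset.replicate n 1, fun h => by
    rw [Multiset.eq_of_mem_replicate h]; exact one_pos, by simp⟩
  have hone : one ∈ Finset.univ.filter (fun μ : Nat.Partition n => ∀ a ∈ μ.parts, a ≤ p) := by
    simp only [Finset.mem_filter, Finset.mem_univ, true_and]
    intro a ha
    rw [Multiset.eq_of_mem_replicate ha]; exact hp.one_le
  rw [← Finset.card_erase_of_mem hone]
  congr 1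
  ext μ
  simp only [Finset.mem_filter, Finset.mem_univ, true_and, Finset.mem_erase]
  rw [and_comm]
  refine and_congr_left' (not_congr ⟨fun h => ?_, ?_⟩)
  · have h1 : μ.parts = Multiset.replicate (Multiset.card μ.parts) 1 :=
      Multiset.eq_replicate_card.2 fun a ha => le_antisymm (h a ha) (μ.parts_pos ha)
    have h2 := μ.parts_sum
    rw [h1, Multiset.sum_replicate, smul_eq_mul, mul_one] at h2
    ext1
    rw [h1, h2]
  · rintro rfl a ha
    exact (Multiset.eq_of_mem_replicate ha).le

end Cfsg.Agent.S2570
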