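import Cfsg.Statements.S2573
import Cfsg.Agent.Known.GLCyc

set_option autoImplicit false
open Cfsg

namespace Cfsg.Agent.S2573


/-- The invariant subspaces of a regular unipotent matrix form a chain: over a finite field, if u is an n × n matrix with (u − 1)^n = 0 and rank(u − 1) = n − 1, then every subspace W of F^n with u W ⊆ W is the kernel of (u − 1)^(dim W); so u has at most one invariant subspace of each dimension. -/
theorem result {F : Type*} [Field F] [Finite F] {n : ℕ} (u : Matrix (Fin n) (Fin n) F) (hnil : (u - 1) ^ n = 0) (hreg : (u - 1).rank = n - 1) (W : Submodule F (Fin n → F)) (hW : ∀ v ∈ W, u.mulVec v ∈ W) : W = LinearMap.ker (Matrix.mulVecLin ((u - 1) ^ Module.finrank F W)) := by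
  rcases Nat.eq_zero_or_pos n with rfl | hn
  · exact Subsingleton.elim _ _
  have : Nonempty (Fin n) := ⟨⟨0, hn⟩⟩
  have h := CL.GLn.elemDiv_of_regular_unipotent ⟨_, hnil⟩ (by simpa using hreg)
  have h1 := CL.GLn.rank_of_elemDiv_regular h (Module.finrank F W)
  have h2 := CL.GLn.finrank_ker_add_rank ((u - 1) ^ Module.finrank F W)
  apply Submodule.eq_of_le_of_finrank_le
  · have hN : ∀ x ∈ W, Matrix.toLin' (u - 1) x ∈ W := by
      intro v hv
      simp only [Matrix.toLin'_apply, Matrix.sub_mulVec, Matrix.one_mulVec]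
      exact W.sub_mem (hW v hv) hv
    have h3 : IsNilpotent (Matrix.toLin' (u - 1)) := ⟨n, by rw [← Matrix.toLin'_pow, hnil, map_zero]⟩
    have h4 := (Module.End.isNilpotent.restrict hN h3).charpoly_eq_X_pow_finrank
    have h5 := LinearMap.aeval_self_charpoly ((Matrix.toLin' (u - 1)).restrict hN)
    rw [h4, map_pow, Polynomial.aeval_X, Module.End.pow_restrict] at h5
    intro v hv
    have := congrArg Subtype.val (LinearMap.congr_fun h5 ⟨v, hv⟩)
    rw [LinearMap.coe_restrict_apply, ← Matrix.toLin'_pow] at this
    exact this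
  · exact (show Module.finrank F (LinearMap.ker (Matrix.toLin' ((u - 1) ^ Module.finrank F W))) ≤ _ from
      le_of_eq_of_le (Nat.add_right_cancel (h2.trans h1.symm)) (min_le_right _ _))

end Cfsg.Agent.S2573
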