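import Cfsg.Statements.S2574
import Cfsg.Agent.Known.UnipSp

set_option autoImplicit false
open Cfsg

namespace Cfsg.Agent.S2574

open CL.Known CL.Cls CL.GLn Module Polynomial

/-- A regular unipotent element of the symplectic group has totally isotropic small invariant subspaces: over a finite field, if u ∈ Sp_2m(F) satisfies (u − 1)^(2m) = 0 and rank(u − 1) = 2m − 1, and W is a u-invariant subspace with 2 dim W ≤ 2m, then the alternating form vanishes identically on W. -/
theorem result {F : Type*} [Field F] [Finite F] {m : ℕ} (u : Matrix.symplecticGroup (Fin m) F) (hnil : ((u : Matrix (Fin m ⊕ Fin m) (Fin m ⊕ Fin m) F) - 1) ^ (2 * m) = 0) (hreg : ((u : Matrix (Fin m ⊕ Fin m) (Fin m ⊕ Fin m) F) - 1).rank = 2 * m - 1) (W : Submodule F (Fin m ⊕ Fin m → F)) (hW : ∀ v ∈ W, (u : Matrix (Fin m ⊕ Fin m) (Fin m ⊕ Fin m) F).mulVec v ∈ W) (hdim : 2 * Module.finrank F W ≤ 2 * m) : ∀ v ∈ W, ∀ w ∈ W, Cfsg.sympForm m F v w = 0 := by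
  rcases Nat.eq_zero_or_pos m with rfl | hm
  · intro v _ w _; simp [witt_sympForm_eq_sum]
  have : Nonempty (Fin m) := ⟨⟨0, hm⟩⟩
  let g := CL.Sp.spLin (Fin m) F u
  have hr : ∀ k, rk (g : End F (Fin m ⊕ Fin m → F)) k = 2 * m - k := fun k => by
    have := rank_regular (A := u.1) ⟨_, hnil⟩ (by rw [hreg, Fintype.card_sum, Fintype.card_fin, two_mul]) k
    rw [prk_singleton, Fintype.card_sum, Fintype.card_fin, ← two_mul] at this
    exact (rk_of_mulVec (CL.Sp.spLin_apply u) k).trans this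
  have hW' : ∀ x ∈ W, ((g : End F (Fin m ⊕ Fin m → F)) - 1) x ∈ W := fun x hx => W.sub_mem (hW x hx) hx
  have h1 : ∀ x ∈ W, (((g : End F (Fin m ⊕ Fin m → F)) - 1) ^ m) x = 0 := fun x hx => by
    have h4 := (Module.End.isNilpotent.restrict hW' ⟨2 * m, rk_eq_zero_iff.1 (by rw [hr]; omega)⟩).charpoly_eq_X_pow_finrank
    have h5 := LinearMap.aeval_self_charpoly (((g : End F (Fin m ⊕ Fin m → F)) - 1).restrict hW')
    rw [h4, map_pow, Polynomial.aeval_X, Module.End.pow_restrict] at h5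
    have := congrArg Subtype.val (LinearMap.congr_fun h5 ⟨x, hx⟩)
    rw [LinearMap.coe_restrict_apply] at this
    rw [← pow_sub_mul_pow _ (show finrank F W ≤ m by omega), End.mul_apply, this]
    exact map_zero _
  have h2 : LinearMap.range (((g : End F (Fin m ⊕ Fin m → F)) - 1) ^ m) = LinearMap.ker (((g : End F (Fin m ⊕ Fin m → F)) - 1) ^ m) := by
    refine Submodule.eq_of_le_of_finrank_eq ?_ ?_
    · rintro _ ⟨x, rfl⟩
      rw [LinearMap.mem_ker, ← End.mul_apply, ← pow_add, rk_eq_zero_iff.1 (by rw [hr]; omega), LinearMap.zero_apply]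
    · have e1 := rk_add_ker (g : End F (Fin m ⊕ Fin m → F)) m
      have e2 := hr m
      rw [CL.Sp.finrank_std] at e1
      rw [rk] at e1 e2
      omega
  intro v hv w hw
  obtain ⟨z, rfl⟩ : w ∈ LinearMap.range (((g : End F (Fin m ⊕ Fin m → F)) - 1) ^ m) := h2 ▸ h1 w hw
  rw [← CL.Sp.stdForm_eq_sympForm, form_sub_one_pow (CL.Sp.spLin_mem u), h1 v hv]
  simp

end Cfsg.Agent.S2574
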