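import Cfsg.Statements.S2575
import Cfsg.Agent.Known.GLMisc

set_option autoImplicit false
open Cfsg

namespace Cfsg.Agent.S2575

open CL.GLn Matrix

/-- Which diagonal involutions of PGL_n(q) lie in PSL_n(q), q odd: for the diagonal matrix t with i entries −1 and n − i entries 1, some non-zero scalar multiple of t has determinant one if and only if i is even or the 2-part of q − 1 exceeds the 2-part of n (that is, −1 is an n-th power in the field exactly in the latter case). -/
theorem result {F : Type*} [Field F] [Fintype F] {q : ℕ} (hF : Fintype.card F = q) (hq : Odd q) {n : ℕ} (hn : 1 ≤ n) (i : ℕ) (hi : i ≤ n) : (∃ c : F, c ≠ 0 ∧ (c • Matrix.diagonal (fun j : Fin n => if (j : ℕ) < i then (-1 : F) else 1)).det = 1) ↔ (Even i ∨ padicValNat 2 n < padicValNat 2 (q - 1)) := by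
  classical
  subst hF
  have h2 : (2 : F) ≠ 0 := by
    intro h
    have := FiniteField.even_card_of_char_two (F := F) (CharP.ringChar_of_prime_eq_zero Nat.prime_two (by simpa using h))
    rw [Nat.odd_iff] at hq; omega
  have hd : (Matrix.diagonal (fun j : Fin n => if (j : ℕ) < i then (-1 : F) else 1)).det = (-1) ^ i := by
    rw [det_diagonal, Finset.prod_ite, Finset.prod_const_one, mul_one, Finset.prod_const]
    congr 1
    rw [Fin.card_filter_val_lt]; omega
  simp only [det_smul, hd, Fintype.card_fin]
  rcases Nat.even_or_odd i with he | ho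
  · simp only [he, true_or, iff_true]
    exact ⟨1, one_ne_zero, by rw [he.neg_one_pow]; simp⟩
  · have h1 : orderOf (-1 : F) = 2 ^ 1 := by
      rw [pow_one, orderOf_neg_one, if_neg]
      intro h
      apply h2
      have := CharP.cast_eq_zero F (ringChar F)
      rw [h] at this; simpa using this
    have hN : Fintype.card F - 1 ≠ 0 := by have := Fintype.one_lt_card (α := F); omega
    have hN2 : 1 ≤ padicValNat 2 (Fintype.card F - 1) := by
      apply one_le_padicValNat_of_dvd hN
      rw [Nat.odd_iff] at hq; omega
    rw [ho.neg_one_pow, exists_pow_mul_eq_one_iff n (by simp), h1, pow_dvd_div_gcd_iff hN (by omega)]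
    simp only [Nat.not_even_iff_odd.2 ho, false_or]
    omega

end Cfsg.Agent.S2575
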