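import Cfsg.Statements.S2576
import Cfsg.Agent.Known.GLMisc

set_option autoImplicit false
open Cfsg

namespace Cfsg.Agent.S2576

open CL.GLn Matrix

/-- Which involutions of PGL_2m(q) coming from a scalar of the quadratic extension field lie in PSL_2m(q), q odd: let μ generate the Sylow 2-subgroup of the multiplicative group of the field with q elements (μ has order the 2-part of q − 1) and let t be the block-diagonal matrix with m diagonal blocks [[0, 1], [μ, 0]] (so t² is the scalar μ and t is an involution modulo scalars). Then some non-zero scalar multiple of t has determinant one if and only if q ≡ 3 (mod 4) or the 2-part of q − 1 is less than the 2-part of 2m. -/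
theorem result {F : Type*} [Field F] [Fintype F] {q : ℕ} (hF : Fintype.card F = q) (hq : Odd q) {m : ℕ} (hm : 1 ≤ m) (μ : F) (hμ : orderOf μ = 2 ^ padicValNat 2 (q - 1)) : (∃ c : F, c ≠ 0 ∧ (c • Matrix.blockDiagonal (fun _ : Fin m => !![(0 : F), 1; μ, 0])).det = 1) ↔ (q % 4 = 3 ∨ padicValNat 2 (q - 1) < padicValNat 2 (2 * m)) := by
  classical
  subst hF
  have hN : Fintype.card F - 1 ≠ 0 := by have := Fintype.one_lt_card (α := F); omega
  have hN2 : 1 ≤ padicValNat 2 (Fintype.card F - 1) := by
    apply one_le_padicValNat_of_dvd hN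
    rw [Nat.odd_iff] at hq; omega
  have hd : (Matrix.blockDiagonal (fun _ : Fin m => !![(0 : F), 1; μ, 0])).det = (-μ) ^ m := by
    rw [det_blockDiagonal]; simp [det_fin_two]
  have hμ0 : μ ≠ 0 := by
    rintro rfl
    rw [orderOf_zero] at hμ
    exact absurd hμ.symm (pow_ne_zero _ two_ne_zero)
  simp only [det_smul, hd, Fintype.card_prod, Fintype.card_fin]
  obtain ⟨a, ha⟩ : ∃ a, padicValNat 2 (Fintype.card F - 1) = a + 1 := ⟨_, (Nat.sub_add_cancel hN2).symm⟩
  have hneg : μ ^ 2 ^ a = -1 := by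
    have h1 : (μ ^ 2 ^ a) ^ 2 = 1 := by rw [← pow_mul, ← pow_succ, ← ha, ← hμ, pow_orderOf_eq_one]
    rcases sq_eq_one_iff.1 h1 with h | h
    · have := orderOf_dvd_of_pow_eq_one h
      rw [hμ, ha, Nat.pow_dvd_pow_iff_le_right one_lt_two] at this
      omega
    · exact h
  have h4 : Fintype.card F % 4 = 3 ↔ a = 0 := by
    have h1 : 2 ^ 2 ∣ Fintype.card F - 1 ↔ 2 ≤ a + 1 := by rw [padicValNat_dvd_iff_le hN, ha]
    rw [Nat.odd_iff] at hq
    omega
  rcases Nat.eq_zero_or_pos a with h0 | hpos
  · simp only [h4.2 h0, true_or, iff_true]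
    subst h0
    refine ⟨1, one_ne_zero, ?_⟩
    simp only [pow_zero, pow_one] at hneg
    simp [hneg]
  · have h5 : orderOf (-μ) = 2 ^ (a + 1) := by
      have : -μ = μ ^ (2 ^ a + 1) := by rw [pow_succ, hneg]; ring
      rw [this, orderOf_pow' _ (by positivity), hμ, ha, Nat.Coprime.gcd_eq_one, Nat.div_one]
      apply Nat.Coprime.pow_left
      rw [Nat.coprime_two_left]
      exact (Nat.even_pow.2 ⟨even_two, hpos.ne'⟩).add_one
    have h6 : orderOf ((-μ) ^ m) = 2 ^ (a + 1 - min (a + 1) (padicValNat 2 m)) := by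
      rw [orderOf_pow' _ (by omega), h5]
      obtain ⟨k, hk1, hk⟩ := (Nat.dvd_prime_pow Nat.prime_two).1 (Nat.gcd_dvd_left (2 ^ (a + 1)) m)
      have h7 := padicValNat_gcd' (p := 2) (a := 2 ^ (a + 1)) (b := m) (by positivity) (by omega)
      rw [hk, padicValNat.prime_pow, padicValNat.prime_pow] at h7
      rw [hk, Nat.pow_div hk1 two_pos, h7]
    rw [exists_pow_mul_eq_one_iff _ (pow_ne_zero _ (neg_ne_zero.2 hμ0)), h6,
      pow_dvd_div_gcd_iff hN (by omega), padicValNat.mul two_ne_zero (by omega), padicValNat_self, ha, h4]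
    omega

end Cfsg.Agent.S2576
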