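import Cfsg.Statements.S2578
import Cfsg.Agent.Known.GLCyc

set_option autoImplicit false
open Cfsg

namespace Cfsg.Agent.S2578


/-- Regular unipotent classes of SL_n(q): for n ≥ 2 over the field with q elements, the matrices u of determinant one with (u − 1)^n = 0 and rank(u − 1) = n − 1 form a single GL_n(q)-class which splits into exactly gcd(n, q − 1) conjugacy classes of SL_n(q). -/
theorem result {F : Type*} [Field F] [Fintype F] {q : ℕ} (hF : Fintype.card F = q) {n : ℕ} (hn : 2 ≤ n) : Nat.card {C : ConjClasses (Matrix.SpecialLinearGroup (Fin n) F) // ∃ u : Matrix.SpecialLinearGroup (Fin n) F, ConjClasses.mk u = C ∧ ((u : Matrix (Fin n) (Fin n) F) - 1) ^ n = 0 ∧ ((u : Matrix (Fin n) (Fin n) F) - 1).rank = n - 1} = Nat.gcd n (q - 1) := by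
  have : Nonempty (Fin n) := ⟨⟨0, by omega⟩⟩
  obtain ⟨g, hg⟩ := CL.GLn.exists_GL_of_partition (F := F) (n := Fin n) (Nat.Partition.indiscrete _)
  have hu := (CL.GLn.isNilpotent_sub_one_iff _).2 ⟨_, hg⟩
  rw [Nat.Partition.indiscrete_parts Fintype.card_ne_zero, Multiset.map_singleton] at hg
  let u : Matrix.SpecialLinearGroup (Fin n) F := ⟨g, CL.GLn.det_eq_one_of_isNilpotent hu⟩
  have h1 := CL.GLn.card_SL_classes_in_GL_class u
  have h2 : ∀ v : Matrix.SpecialLinearGroup (Fin n) F,
      IsConj (u : Matrix (Fin n) (Fin n) F) (v : Matrix (Fin n) (Fin n) F) ↔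
      ((v : Matrix (Fin n) (Fin n) F) - 1) ^ n = 0 ∧ ((v : Matrix (Fin n) (Fin n) F) - 1).rank = n - 1 := by
    intro v
    rw [CL.GLn.isConj_iff_elemDiv]
    change CL.GLn.elemDiv (g : Matrix (Fin n) (Fin n) F) = _ ↔ _
    rw [hg]
    constructor
    · intro h
      have a := CL.GLn.rank_of_elemDiv_regular h.symm 1
      have b := (CL.GLn.sub_one_pow_eq_zero_iff (v : Matrix (Fin n) (Fin n) F) n).2 (by
        rw [← h]; simp)
      rw [pow_one, Fintype.card_fin, min_eq_right (by omega)] at a
      exact ⟨b, by omega⟩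
    · rintro ⟨a, b⟩
      exact (CL.GLn.elemDiv_of_regular_unipotent ⟨_, a⟩ (by simpa using b)).symm
  simp only [h2] at h1
  rw [h1]
  have h3 : (Subgroup.centralizer {Matrix.SpecialLinearGroup.toGL u}).map
      Matrix.GeneralLinearGroup.det = (powMonoidHom n : Fˣ →* Fˣ).range := by
    ext c
    simp only [Subgroup.mem_map, Subgroup.mem_centralizer_singleton_iff, MonoidHom.mem_range,
      powMonoidHom_apply]
    constructor
    · rintro ⟨x, hx, rfl⟩
      obtain ⟨Q, hQ⟩ := (CL.GLn.isCyc_of_elemDiv_eq hg).exists_aeval_of_commute (B := x)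
        (congrArg Units.val hx)
      have h4 := CL.GLn.det_aeval_of_unipotent hu Q
      rw [← hQ, Fintype.card_fin] at h4
      have h5 : Q.eval 1 ≠ 0 := by
        intro h0
        rw [h0, zero_pow (by omega)] at h4
        exact x.det_ne_zero h4
      exact ⟨Units.mk0 _ h5, Units.ext h4.symm⟩
    · rintro ⟨d, rfl⟩
      exact ⟨Matrix.GeneralLinearGroup.scalar _ d, Matrix.GeneralLinearGroup.scalar_commute _ _,
        by simp⟩
  rw [h3, IsCyclic.index_powMonoidHom_range, Nat.card_units, Nat.card_eq_fintype_card, hF, Nat.gcd_comm]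

end Cfsg.Agent.S2578
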