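import Cfsg.Statements.S2581
import Cfsg.Agent.Known.UnipGL

set_option autoImplicit false
open Cfsg

namespace Cfsg.Agent.S2581

open CL.Known CL.Cls CL.GLn Module Polynomial

/-- Order of the centraliser in GL of a unipotent matrix of given Jordan type over the field with q elements: if the type has a_i blocks of size i (all block sizes at least 1), the invertible matrices commuting with it number q^γ · Π_i |GL_(a_i)(q)| with γ = 2 Σ_(i<j) i a_i a_j + Σ_i (i − 1) a_i² (a group of order q^γ extended by Π GL_(a_i)(q)). -/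
theorem result {F : Type*} [Field F] [Fintype F] {q : ℕ} (hF : Fintype.card F = q) {t : ℕ} (d : Fin t → ℕ) (hd : ∀ k, 1 ≤ d k) : Nat.card {g : GL ((k : Fin t) × Fin (d k)) F // (g : Matrix ((k : Fin t) × Fin (d k)) ((k : Fin t) × Fin (d k)) F) * Cfsg.jordanTypeMatrix d F = Cfsg.jordanTypeMatrix d F * (g : Matrix ((k : Fin t) × Fin (d k)) ((k : Fin t) × Fin (d k)) F)} = q ^ (2 * (∑ i ∈ Finset.range (Finset.univ.sup d + 1), ∑ j ∈ Finset.range (Finset.univ.sup d + 1), if i < j then i * (Finset.univ.filter (fun k : Fin t => d k = i)).card * (Finset.univ.filter (fun k : Fin t => d k = j)).card else 0) + ∑ i ∈ Finset.range (Finset.univ.sup d + 1), (i - 1) * (Finset.univ.filter (fun k : Fin t => d k = i)).card ^ 2) * ∏ i ∈ Finset.range (Finset.univ.sup d + 1), ∏ j : Fin ((Finset.univ.filter (fun k : Fin t => d k = i)).card), (q ^ (Finset.univ.filter (fun k : Fin t => d k = i)).card - q ^ (j : ℕ)) := by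
  let J : GL ((k : Fin t) × Fin (d k)) F := Matrix.GeneralLinearGroup.mkOfDetNeZero (Cfsg.jordanTypeMatrix d F) (by
    rw [det_eq_one_of_isNilpotent (isNilpotent_of_rank_eq_prk (rank_jordanTypeMatrix d))]; exact one_ne_zero)
  have h := card_comm_GL _ (CL.Sp.glEquiv _ F J) _ (le_sup_of_mem_univ_map d) fun k =>
    (rk_of_mulVec (CL.Sp.glEquiv_apply J) k).trans (rank_jordanTypeMatrix d k)
  rw [prod_centralizer_univ _ (fun a => ∏ i : Fin a, (Nat.card F ^ a - Nat.card F ^ (i : ℕ))) (by simp) d hd,
    ← card_centralizer_congr, show Nat.card F = q by rw [Nat.card_eq_fintype_card, hF]] at h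
  rw [← h]
  exact Nat.card_congr (Equiv.subtypeEquivRight fun g => by
    rw [Subgroup.mem_centralizer_singleton_iff, Units.ext_iff]; rfl)

end Cfsg.Agent.S2581
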