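import Cfsg.Statements.S2583
import Cfsg.Agent.Known.UnipCount
import Cfsg.Agent.Known.SemiConj

set_option autoImplicit false
open Cfsg

namespace Cfsg.Agent.S2583

open CL.Known CL.Cls CL.GLn Module Polynomial

/-- Which unipotent Jordan types occur in a finite orthogonal group in odd characteristic: over a finite field of odd order, a unipotent matrix with Jordan block sizes d_1, …, d_t (sum n, all at least 1) is similar to an isometry of some quadratic form on F^n with non-degenerate polar form if and only if every even block size occurs an even number of times. -/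
theorem result {F : Type*} [Field F] [Fintype F] (h2 : (2 : F) ≠ 0) {n t : ℕ} (d : Fin t → ℕ) (hd : ∀ k, 1 ≤ d k) (hsum : ∑ k, d k = n) : (∃ Q : QuadraticForm F (Fin n → F), (QuadraticMap.polarBilin Q).Nondegenerate ∧ ∃ e : ((k : Fin t) × Fin (d k)) ≃ Fin n, ∃ A : ↥(Cfsg.isometryGroup F ⇑Q), IsConj (Matrix.reindex e e (Cfsg.jordanTypeMatrix d F)) ((A : Matrix.GeneralLinearGroup (Fin n) F) : Matrix (Fin n) (Fin n) F)) ↔ ∀ j : ℕ, Even j → 0 < j → Even (Finset.univ.filter (fun k : Fin t => d k = j)).card := by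
  simp only [← count_univ_map]
  refine ⟨fun ⟨Q, hQ, e, A, h⟩ j hj h0 => even_count_of_symm h2 hQ ⟨fun x y => QuadraticMap.polar_comm Q x y⟩
    (OG.polar_app (isomEquiv Q A)) (fun k => (rk_of_mulVec (isomEquiv_app Q A) k).trans
      (by rw [← rank_sub_one_pow_of_isConj h, rank_reindex_jordan])) hj h0, fun h => ?_⟩
  obtain ⟨⟨_, T, -, hT⟩⟩ := (Nat.card_ne_zero.1 (cnt_one_ne_zero h2 h)).1
  have hS : T.B.IsSymm := ⟨fun x y => (hT.1.symm y x).trans (one_mul _)⟩
  let Q : QuadraticForm F T.V := LinearMap.BilinMap.toQuadraticMap T.B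
  let f : T.V ≃ₗ[F] (Fin n → F) := LinearEquiv.ofFinrankEq _ _ (by rw [hT.finrank_eq, finrank_fin_fun, ← hsum]; rfl)
  have hf : ∀ v, (Q.comp (f.symm : _ →ₗ[F] _)) (f v) = 1 * Q v := fun v => by simp
  obtain ⟨A', hA'⟩ := exists_isom_sim f one_ne_zero hf ⟨T.g, fun v => hT.1.isom v v⟩
  have e : ((k : Fin t) × Fin (d k)) ≃ Fin n := Fintype.equivOfCardEq (by simp [hsum])
  exact ⟨_, nondeg_congrSim f 1 one_ne_zero hf (nondeg_toQuadraticMap_of_symm h2 hS
    (nondeg_of_witt (hT.1.witt h2 (Or.inl rfl)))), e, A', isConj_of_rank_eq_prk (rank_reindex_jordan d e) fun k => by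
      rw [← rk_toLin', Sim.rk_eq hA', ← hT.2]⟩

end Cfsg.Agent.S2583
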