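import Cfsg.Statements.S2584
import Cfsg.Agent.Known.UnipSp
import Cfsg.Agent.Known.OrthFix

set_option autoImplicit false
open Cfsg

namespace Cfsg.Agent.S2584

open CL.Known CL.Cls CL.GLn Module Polynomial

/-- Which unipotent Jordan types occur in a finite orthogonal group in characteristic two: over a finite field of characteristic 2 and in even dimension 2m, a unipotent matrix with Jordan block sizes d_1, …, d_t (sum 2m, all at least 1) is similar to an isometry of some quadratic form on F^(2m) with non-degenerate polar form if and only if every odd block size occurs an even number of times (the same condition as for the symplectic group, which contains these orthogonal groups). -/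
theorem result {F : Type*} [Field F] [Fintype F] [CharP F 2] {m t : ℕ} (d : Fin t → ℕ) (hd : ∀ k, 1 ≤ d k) (hsum : ∑ k, d k = 2 * m) : (∃ Q : QuadraticForm F (Fin (2 * m) → F), (QuadraticMap.polarBilin Q).Nondegenerate ∧ ∃ e : ((k : Fin t) × Fin (d k)) ≃ Fin (2 * m), ∃ A : ↥(Cfsg.isometryGroup F ⇑Q), IsConj (Matrix.reindex e e (Cfsg.jordanTypeMatrix d F)) ((A : Matrix.GeneralLinearGroup (Fin (2 * m)) F) : Matrix (Fin (2 * m)) (Fin (2 * m)) F)) ↔ ∀ j : ℕ, Odd j → Even (Finset.univ.filter (fun k : Fin t => d k = j)).card := by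
  simp only [← count_univ_map]
  refine ⟨fun ⟨Q, hQ, e, A, h⟩ j hj => even_count_of_alt hQ (polar_isAlt_two Q) (OG.polar_app (isomEquiv Q A))
    (fun k => (rk_of_mulVec (isomEquiv_app Q A) k).trans
      (by rw [← rank_sub_one_pow_of_isConj h, rank_reindex_jordan])) hj, fun h => ?_⟩
  obtain ⟨A, hA⟩ := (exists_sp_rank_iff (K := F) (m := m) (by rw [← hsum]; rfl)).2 h
  obtain ⟨Q, h1, h2⟩ := exists_quad_fixed_of_two (CL.Sp.stdForm_nondegenerate (Fin m) F).1
    (CL.Sp.stdForm_isAlt _ _) (CL.Sp.spLin _ F A) (CL.Sp.spLin_mem A)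
  let f : (Fin m ⊕ Fin m → F) ≃ₗ[F] (Fin (2 * m) → F) := LinearEquiv.ofFinrankEq _ _ (by simp [two_mul])
  have hf : ∀ v, (Q.comp (f.symm : _ →ₗ[F] _)) (f v) = 1 * Q v := fun v => by simp
  obtain ⟨A', hA'⟩ := exists_isom_sim f one_ne_zero hf ⟨_, h2⟩
  have e : ((k : Fin t) × Fin (d k)) ≃ Fin (2 * m) := Fintype.equivOfCardEq (by simp [hsum])
  exact ⟨_, nondeg_congrSim f 1 one_ne_zero hf (h1 ▸ CL.Sp.stdForm_nondegenerate _ _), e, A',
    isConj_of_rank_eq_prk (rank_reindex_jordan d e) fun k => by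
      rw [← rk_toLin', Sim.rk_eq hA', ← hA]; exact rk_of_mulVec (CL.Sp.spLin_apply A) k⟩

end Cfsg.Agent.S2584
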