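import Cfsg.Statements.S2585
import Cfsg.Agent.Known.UnipSp

set_option autoImplicit false
open Cfsg

namespace Cfsg.Agent.S2585

open CL.Known CL.Cls CL.GLn Module Polynomial

/-- Over a finite field of characteristic two every element of the symplectic group is orthogonal for a suitable quadratic form: for each A in Sp_2m(F) there is a quadratic form Q on F^(2m) whose polar form is the alternating form defining Sp_2m(F) (so Q is non-degenerate) and which A preserves. Equivalently, for m ≥ 1, Sp_2m(F) is the union of the conjugates of its two orthogonal subgroups O⁺_2m(F) and O⁻_2m(F). -/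
theorem result {F : Type*} [Field F] [Fintype F] [CharP F 2] {m : ℕ} (A : Matrix.symplecticGroup (Fin m) F) : ∃ Q : QuadraticForm F (Fin m ⊕ Fin m → F), (∀ u v : Fin m ⊕ Fin m → F, QuadraticMap.polar ⇑Q u v = Cfsg.sympForm m F u v) ∧ ∀ v : Fin m ⊕ Fin m → F, Q ((A : Matrix (Fin m ⊕ Fin m) (Fin m ⊕ Fin m) F).mulVec v) = Q v := by
  obtain ⟨Q, h1, h2⟩ := exists_quad_fixed_of_two (CL.Sp.stdForm_nondegenerate (Fin m) F).1
    (CL.Sp.stdForm_isAlt _ _) (CL.Sp.spLin _ F A) (CL.Sp.spLin_mem A)
  exact ⟨Q, fun u v => by rw [← QuadraticMap.polarBilin_apply_apply, h1, CL.Sp.stdForm_eq_sympForm], h2⟩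

end Cfsg.Agent.S2585
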