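import Cfsg.Statements.S2591
import Cfsg.Agent.Known.UnipCount

set_option autoImplicit false
open Cfsg

namespace Cfsg.Agent.S2591

open CL.Known CL.Cls CL.GLn Module Polynomial

/-- Over a finite field of odd order and for m ≥ 1, the regular unipotent elements of Sp_2m(F) (u − 1 nilpotent of rank 2m − 1, a single Jordan block) form exactly two conjugacy classes of Sp_2m(F) (one class under the similarity group, which splits in two). -/
theorem result {F : Type*} [Field F] [Fintype F] {q : ℕ} (hF : Fintype.card F = q) (hq : Odd q) {m : ℕ} (hm : 1 ≤ m) : Nat.card {C : ConjClasses ↥(Matrix.symplecticGroup (Fin m) F) // ∃ u : Matrix.symplecticGroup (Fin m) F, ConjClasses.mk u = C ∧ ((u : Matrix (Fin m ⊕ Fin m) (Fin m ⊕ Fin m) F) - 1) ^ (2 * m) = 0 ∧ ((u : Matrix (Fin m ⊕ Fin m) (Fin m ⊕ Fin m) F) - 1).rank = 2 * m - 1} = 2 := by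
  have h2 : (2 : F) ≠ 0 := Ring.two_ne_zero fun e => by
    have := FiniteField.even_card_of_char_two e
    rw [hF, Nat.odd_iff.1 hq] at this
    exact one_ne_zero this
  have : Nonempty (Fin m ⊕ Fin m) := ⟨Sum.inl ⟨0, hm⟩⟩
  have hc : Fintype.card (Fin m ⊕ Fin m) = 2 * m := by simp [two_mul]
  have h := (card_sp_classes_type h2 (m := m) (s := {2 * m}) (by simp)).trans (cnt_neg_one h2 (by simp; omega))
  rw [if_pos fun j hj => by
    rw [Multiset.count_singleton, if_neg fun e : j = 2 * m => Nat.not_even_iff_odd.2 hj (e ▸ even_two_mul m)]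
    exact Even.zero] at h
  refine (Nat.card_congr (Equiv.subtypeEquivRight fun C => exists_congr fun u => and_congr_right' ⟨fun ⟨h1, h3⟩ k => ?_,
    fun h1 => ⟨matrix_rank_eq_zero_iff.1 (by rw [h1, prk_singleton, Nat.sub_self]), ?_⟩⟩)).trans
      (h.trans (by simp [Finset.filter_singleton]))
  · rw [← pow_one (_ - 1), h1, prk_singleton]
  · rw [← hc] at h3 ⊢
    exact rank_regular ⟨_, h1⟩ h3 k

end Cfsg.Agent.S2591
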