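import Cfsg.Statements.S2592
import Cfsg.Agent.Known.UnipGL

set_option autoImplicit false
open Cfsg

namespace Cfsg.Agent.S2592

open CL.Known CL.Cls CL.GLn Module Polynomial

/-- Over a finite field with q elements, q odd, the centraliser in Sp_2m(F) (m ≥ 1) of a regular unipotent element (u − 1 nilpotent of rank 2m − 1) has order 2 q^m. -/
theorem result {F : Type*} [Field F] [Fintype F] {q : ℕ} (hF : Fintype.card F = q) (hq : Odd q) {m : ℕ} (hm : 1 ≤ m) (u : Matrix.symplecticGroup (Fin m) F) (hnil : ((u : Matrix (Fin m ⊕ Fin m) (Fin m ⊕ Fin m) F) - 1) ^ (2 * m) = 0) (hreg : ((u : Matrix (Fin m ⊕ Fin m) (Fin m ⊕ Fin m) F) - 1).rank = 2 * m - 1) : Nat.card ↥(Subgroup.centralizer ({u} : Set ↥(Matrix.symplecticGroup (Fin m) F))) = 2 * q ^ m := by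
  have : Nonempty (Fin m) := ⟨⟨0, hm⟩⟩
  have h := card_comm_regular (two_ne_zero_of_odd_card (hF ▸ hq)) (2 * m - 1) (Or.inr rfl)
    (CL.Sp.stdForm_nondegenerate (Fin m) F).1 (fun x y => by rw [← (CL.Sp.stdForm_isAlt _ F).neg_eq, neg_one_mul])
    (CL.Sp.spLin _ F u) (CL.Sp.spLin_mem u) fun k => (rk_of_mulVec (CL.Sp.spLin_apply u) k).trans (by
      rw [rank_regular (A := u.1) ⟨_, hnil⟩ (by rw [hreg, Fintype.card_sum, Fintype.card_fin, two_mul]),
        Fintype.card_sum, Fintype.card_fin, show 2 * m - 1 + 1 = m + m by omega])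
  rw [card_centralizer_congr (CL.Sp.spEquiv _ F), Nat.card_congr (Equiv.subtypeEquivRight fun y => Subtype.ext_iff)]
  refine h.trans ?_
  rw [Nat.card_eq_fintype_card, hF, show (2 * m - 1 + 1) / 2 = m by omega]

end Cfsg.Agent.S2592
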