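import Cfsg.Statements.S2680
import Cfsg.Agent.Known.InvTwo2

set_option autoImplicit false
open Cfsg

namespace Cfsg.Agent.S2680

open CL.Known CL.Cls Module

/-- Centraliser order of an involution t of Sp_2m(q), q even, with s = rank(t − 1) odd (type b_s): |C(t)| = q^(2ms − (3s² − s)/2) · |Sp_(s−1)(q)| · |Sp_(2m−2s)(q)|, where |Sp_2k(q)| = q^(k²) Π_(i=1)^k (q^(2i) − 1). -/
theorem result {F : Type*} [Field F] [Fintype F] [CharP F 2] {q : ℕ} (hF : Fintype.card F = q) {m s : ℕ} (t : Matrix.symplecticGroup (Fin m) F) (ht : t ^ 2 = 1) (hs : ((t : Matrix (Fin m ⊕ Fin m) (Fin m ⊕ Fin m) F) - 1).rank = s) (hodd : Odd s) : Nat.card ↥(Subgroup.centralizer ({t} : Set ↥(Matrix.symplecticGroup (Fin m) F))) = q ^ (2 * m * s - (3 * s ^ 2 - s) / 2) * ((q : ℕ) ^ (((s - 1) / 2) ^ 2) * ∏ i : Fin ((s - 1) / 2), (q ^ (2 * ((i : ℕ) + 1)) - 1)) * ((q : ℕ) ^ ((m - s) ^ 2) * ∏ i : Fin (m - s), (q ^ (2 * ((i : ℕ) + 1))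 - 1)) := by
  subst hF
  have h1 := app_app_of_sq (CL.Sp.spEquiv _ F) ht
  have h2 := finrank_le_of_isotropic (isWittForm_alt _ (CL.Sp.stdForm_nondegenerate (Fin m) F).1
    (CL.Sp.stdForm_isAlt (Fin m) F)) (inv_isotropic (CL.Sp.spEquiv _ F t).2 h1) (CL.Sp.finrank_std m)
  rw [← sp_rng_rank] at hs
  obtain ⟨j, hj⟩ : ∃ j, m = s + j := ⟨m - s, by omega⟩
  have h3 := sp_card_centralizer (CL.Sp.stdForm_isAlt (Fin m) F) (CL.Sp.stdForm_nondegenerate (Fin m) F) _ h1 hs ((CL.Sp.finrank_std m).trans (congrArg _ hj)) rfl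
  rw [card_centralizer_congr (CL.Sp.spEquiv _ F), Fin.prod_univ_eq_prod_range (fun i => Fintype.card F ^ (2 * (i + 1)) - 1),
    Fin.prod_univ_eq_prod_range (fun i => Fintype.card F ^ (2 * (i + 1)) - 1), ← Nat.card_eq_fintype_card,
    show m - s = j by omega]
  obtain ⟨k, hk⟩ := hodd
  rw [h3.1 k hk, show (s - 1) / 2 = k by omega, show 2 * m * s - (3 * s ^ 2 - s) / 2 = s * (s + 1) / 2 + 2 * s * j by
    have e1 := Nat.even_iff.1 (Nat.even_mul_succ_self s)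
    rw [hj, pow_two, mul_assoc 2, add_mul, mul_assoc 2, mul_comm j] 
    rw [mul_add_one] at e1 ⊢
    have := Nat.le_mul_self s
    omega]
  ring

end Cfsg.Agent.S2680
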