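import Cfsg.Statements.S2594
import Cfsg.Agent.Known.InvTwo2
import Cfsg.Agent.S2680

set_option autoImplicit false
open Cfsg

namespace Cfsg.Agent.S2594

open CL.Known CL.Cls Module

/-- Over a finite field with q elements, q even, an element t of Sp_2m(F) with rank(t − 1) = 1 (a symplectic transvection) has centraliser in Sp_2m(F) of order q^(2m−1) · |Sp_(2m−2)(q)| = q^(2m−1) · q^((m−1)²) · Π_(i=1)^(m−1) (q^(2i) − 1). -/
theorem result {F : Type*} [Field F] [Fintype F] [CharP F 2] {q : ℕ} (hF : Fintype.card F = q) {m : ℕ} (hm : 1 ≤ m) (t : Matrix.symplecticGroup (Fin m) F) (ht : ((t : Matrix (Fin m ⊕ Fin m) (Fin m ⊕ Fin m) F) - 1).rank = 1) : Nat.card ↥(Subgroup.centralizer ({t} : Set ↥(Matrix.symplecticGroup (Fin m) F))) = q ^ (2 * m - 1) * (q ^ ((m - 1) ^ 2) * ∏ i : Fin (m - 1), (q ^ (2 * ((i : ℕ) + 1)) - 1)) := by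
  have hA := CL.Sp.stdForm_isAlt (Fin m) F
  obtain ⟨χ, hw⟩ := exists_isWall_of_witt (isWittForm_alt _ (CL.Sp.stdForm_nondegenerate (Fin m) F).1 hA) _
    (CL.Sp.spEquiv _ F t).2
  have h1 : t ^ 2 = 1 := (CL.Sp.spEquiv _ F).injective (by
    rw [map_pow, map_one, pow_two]
    refine Subtype.ext (mul_self_eq_one_iff_app.2 (hw.inv_of_isotropic fun x hx y hy => ?_))
    obtain ⟨w, -, h⟩ := finrank_eq_one_iff'.1 ((sp_rng_rank t).trans ht)
    obtain ⟨a, ha⟩ := h ⟨x, hx⟩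
    obtain ⟨b, hb⟩ := h ⟨y, hy⟩
    obtain rfl : a • w.1 = x := congrArg Subtype.val ha
    obtain rfl : b • w.1 = y := congrArg Subtype.val hb
    simp [hA.self_eq_zero])
  simpa using S2680.result hF t h1 ht odd_one

end Cfsg.Agent.S2594
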