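import Cfsg.Statements.S2599
import Cfsg.Agent.Known.QuadOm2
import Cfsg.Agent.Known.UniClass1

set_option autoImplicit false
open Cfsg

namespace Cfsg.Agent.S2599

/-- An irreducible invariant subspace of a semisimple isometry is non-degenerate or totally singular: let Q be a quadratic form on F^n (F finite of characteristic p) with non-degenerate polar form f, x an isometry of Q of order prime to p, and U a non-zero x-invariant subspace containing no x-invariant subspace other than 0 and U. Then U meets its f-orthogonal trivially, or Q vanishes on U, or p = 2, U is a line spanned by a non-singular vector and x fixes U pointwise. -/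
theorem result {F : Type*} [Field F] [Fintype F] {p : ℕ} [Fact p.Prime] [CharP F p] {n : ℕ} (Q : QuadraticForm F (Fin n → F)) (hQ : (QuadraticMap.polarBilin Q).Nondegenerate) (x : ↥(Cfsg.isometryGroup F ⇑Q)) (hx : (orderOf x).Coprime p) (U : Submodule F (Fin n → F)) (hU0 : U ≠ ⊥) (hUx : ∀ u ∈ U, ((x : Matrix.GeneralLinearGroup (Fin n) F) : Matrix (Fin n) (Fin n) F).mulVec u ∈ U) (hirr : ∀ W : Submodule F (Fin n → F), W ≤ U → (∀ w ∈ W, ((x : Matrix.GeneralLinearGroup (Fin n) F) : Matrix (Fin n) (Fin n) F).mulVec w ∈ W) → W = ⊥ ∨ W = U) : U ⊓ LinearMap.BilinForm.orthogonal (QuadraticMap.polarBilin Q) U = ⊥ ∨ (∀ u ∈ U, Q u = 0) ∨ (p = 2 ∧ Module.finrank F U = 1 ∧ (∃ u ∈ U, Q u ≠ 0) ∧ ∀ u ∈ U, ((x : Matrix.GeneralLinearGroup (Fin n) F) : Matrix (Fin n) (Fin n) F).mulVec u = u) := by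
  set g := (CL.Cls.isomEquiv Q x).1
  have hg := CL.Cls.OG.polar_app (CL.Cls.isomEquiv Q x)
  rcases hirr (U ⊓ LinearMap.BilinForm.orthogonal (QuadraticMap.polarBilin Q) U) inf_le_left (fun w hw =>
    ⟨hUx w hw.1, CL.Known.orthogonal_invariant (QuadraticMap.polarBilin Q) g hg U hUx w hw.2⟩) with h | h
  · exact Or.inl h
  right
  have hiso : ∀ u ∈ U, ∀ v ∈ U, QuadraticMap.polar Q u v = 0 := fun u hu v hv => (h.ge hv).2 u hu
  by_cases h2 : (2 : F) = 0
  swap
  · left
    intro u hu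
    have := hiso u hu u hu
    rw [CL.Cls.polar_self'] at this
    exact (mul_eq_zero.1 this).resolve_left h2
  let U₀ : Submodule F (Fin n → F) :=
    { carrier := {u | u ∈ U ∧ Q u = 0}
      add_mem' := fun {a b} ha hb => ⟨U.add_mem ha.1 hb.1, by
        rw [CL.Cls.map_add', ha.2, hb.2, hiso a ha.1 b hb.1]; simp⟩
      zero_mem' := ⟨U.zero_mem, map_zero Q⟩
      smul_mem' := fun c a ha => ⟨U.smul_mem c ha.1, by rw [CL.Cls.map_smul', ha.2, mul_zero]⟩ }
  rcases hirr U₀ (fun u hu => hu.1) (fun w hw =>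
    ⟨hUx w hw.1, (CL.Cls.OG.map_app (CL.Cls.isomEquiv Q x) w).trans hw.2⟩) with h0 | h0
  swap
  · exact Or.inl fun u hu => (h0.ge hu).2
  right
  have hfix : ∀ u ∈ U, g u = u := fun u hu => by
    have : g u - u ∈ U₀ := ⟨U.sub_mem (hUx u hu) hu, by
      rw [CL.Cls.map_sub', hiso (g u) (hUx u hu) u hu, CL.Cls.OG.map_app, ← two_mul, h2]; simp⟩
    rwa [h0, Submodule.mem_bot, sub_eq_zero] at this
  obtain ⟨u, hu, hu0⟩ := Submodule.exists_mem_ne_zero_of_ne_bot hU0
  refine ⟨?_, ?_, ⟨u, hu, fun e => hu0 ((Submodule.mem_bot F).1 (h0 ▸ ⟨hu, e⟩))⟩, hfix⟩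
  · exact (Nat.prime_dvd_prime_iff_eq Fact.out Nat.prime_two).1 ((CharP.cast_eq_zero_iff F p 2).1 (by simpa using h2))
  · rcases hirr (F ∙ u) ((Submodule.span_singleton_le_iff_mem _ _).2 hu) (fun w hw => by
      have := hfix w ((Submodule.span_singleton_le_iff_mem _ _).2 hu hw)
      change g w ∈ _
      rwa [this]) with h1 | h1
    · exact absurd (Submodule.span_singleton_eq_bot.1 h1) hu0
    · rw [← h1, finrank_span_singleton hu0]

end Cfsg.Agent.S2599
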