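import Cfsg.Statements.S2610
import Cfsg.Agent.Known.QuadOm1

set_option autoImplicit false
open Cfsg

namespace Cfsg.Agent.S2610

/-- For a quadratic form Q on F^n with non-degenerate polar form, F finite of odd order and n ≥ 2 even, the isometry −1 lies in Ω (the commutator subgroup of the orthogonal group) if and only if the discriminant of Q (the determinant of the Gram matrix of its polar form) is a square. -/
theorem result {F : Type*} [Field F] [Fintype F] (h2 : (2 : F) ≠ 0) {n : ℕ} (hn : 2 ≤ n) (he : Even n) (Q : QuadraticForm F (Fin n → F)) (hQ : (QuadraticMap.polarBilin Q).Nondegenerate) : (∃ g : ↥(Cfsg.isometryGroup F ⇑Q), g ∈ Cfsg.Omega F ⇑Q ∧ ((g : Matrix.GeneralLinearGroup (Fin n) F) : Matrix (Fin n) (Fin n) F) = -1) ↔ IsSquare (Matrix.of (fun i j : Fin n => QuadraticMap.polar ⇑Q (Pi.single i 1) (Pi.single j 1))).det := by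
  have : Invertible (2 : F) := invertibleOfNonzero h2
  obtain ⟨b, hb⟩ := LinearMap.BilinForm.exists_orthogonal_basis (B := QuadraticMap.polarBilin Q)
    ⟨fun x y => QuadraticMap.polar_comm _ x y⟩
  have hb0 : ∀ k, Q (b k) ≠ 0 := fun k h0 =>
    hb.not_isOrtho_basis_self_of_separatingLeft hQ.1 k (by
      change QuadraticMap.polar Q (b k) (b k) = 0
      rw [CL.Cls.polar_self', h0, mul_zero])
  obtain ⟨g, g1, -, -, -, g3⟩ := CL.Known.exists_OG_neg_family hQ
    (Or.inl (CL.Cls.exists_ne_zero_one_of_two_ne_zero h2)) b hb0 hb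
  have hg : ∀ v, g.1 v = -v := fun v =>
    LinearMap.congr_fun (f := (g.1 : (Fin n → F) →ₗ[F] (Fin n → F))) (g := -LinearMap.id)
      (b.ext fun k => g1 k) v
  rw [CL.Known.exists_Omega_coe_iff Q _ g (fun i => by rw [hg, Matrix.neg_mulVec, Matrix.one_mulVec]), g3,
    CL.Known.gram_single_eq_toMatrix]
  obtain ⟨c, hc, e⟩ := CL.Cls.det_gram_polar_congr (Q := Q) (Q' := Q) (LinearEquiv.refl F _) (fun _ => rfl)
    (Pi.basisFun F (Fin n)) b
  have hd : LinearMap.BilinForm.toMatrix b (QuadraticMap.polarBilin Q) = Matrix.diagonal fun k => 2 * Q (b k) := by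
    ext i j
    rw [LinearMap.BilinForm.toMatrix_apply, Matrix.diagonal_apply]
    split_ifs with h
    · subst h; exact CL.Cls.polar_self' Q _
    · exact hb h
  obtain ⟨k, hk⟩ := he
  have hk' : Fintype.card (Fin (Module.finrank F (Fin n → F))) = k * 2 := by simp; omega
  rw [e, CL.Cls.isSquare_sq_mul_iff hc, hd, Matrix.det_diagonal, Finset.prod_mul_distrib, Finset.prod_const,
    Finset.card_univ, hk', pow_mul, CL.Cls.isSquare_sq_mul_iff (pow_ne_zero _ h2)]
  simp

end Cfsg.Agent.S2610
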