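import Cfsg.Statements.S2611
import Cfsg.Agent.Known.QuadOm2

set_option autoImplicit false
open Cfsg

namespace Cfsg.Agent.S2611

open CL.Cls CL.Known Matrix QuadraticMap

/-- The Levi factor `GL_m` of the stabiliser of a maximal singular subspace. -/
noncomputable def levi (m : ℕ) (F : Type*) [Field F] : GL (Fin m) F →* OG (qfPlus m F) where
  toFun A := ⟨(LinearEquiv.sumArrowLequivProdArrow _ _ F F) ≪≫ₗ
    ((glEquiv (Fin m) F A).prodCongr (glEquiv (Fin m) F
      ⟨(A⁻¹ : GL (Fin m) F).1ᵀ, A.1ᵀ, by rw [← transpose_mul]; simp, by rw [← transpose_mul]; simp⟩)) ≪≫ₗ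
    (LinearEquiv.sumArrowLequivProdArrow _ _ F F).symm, fun v => by
      change (A.1 *ᵥ (v ∘ Sum.inl)) ⬝ᵥ ((A⁻¹ : GL (Fin m) F).1ᵀ *ᵥ (v ∘ Sum.inr)) = (v ∘ Sum.inl) ⬝ᵥ (v ∘ Sum.inr)
      rw [dotProduct_mulVec, vecMul_transpose, mulVec_mulVec]
      simp⟩
  map_one' := OG.ext' fun v => by
    ext (i | i) <;> simp [glEquiv_app]
  map_mul' A B := OG.ext' fun v => by
    ext (i | i) <;> simp [OG.mul_app, glEquiv_app]

theorem levi_app {m : ℕ} {F : Type*} [Field F] (A : GL (Fin m) F) (v : Fin m ⊕ Fin m → F) :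
    (levi m F A).1 v = fromBlocks A.1 0 0 (A.1⁻¹)ᵀ *ᵥ v := by
  rw [fromBlocks_mulVec]
  ext (i | i) <;> simp [levi, glEquiv_app] <;> rfl

theorem finrank_ker {F : Type*} [Field F] (m : ℕ) : Module.finrank F
    (LinearMap.ker (LinearMap.funLeft F F (Sum.inr : Fin m → Fin m ⊕ Fin m))) = m := by
  have := LinearMap.finrank_range_add_finrank_ker (LinearMap.funLeft F F (Sum.inr : Fin m → Fin m ⊕ Fin m))
  rw [LinearMap.range_eq_top.2 (LinearMap.funLeft_surjective_of_injective F F _ Sum.inr_injective)] at this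
  simp at this
  omega

/-- For the hyperbolic quadratic form Σ x_i y_i on F^(2m) (F finite, m ≥ 1, excluding m = 2 over the field of two elements) and an invertible m × m matrix A, the block-diagonal isometry diag(A, (A⁻¹)ᵀ), which stabilises the two maximal totally singular subspaces x = 0 and y = 0, lies in Ω⁺_2m(F) (the commutator subgroup of the orthogonal group) if and only if det A is a square in F. -/
theorem result {F : Type*} [Field F] [Fintype F] {m : ℕ} (hm : 1 ≤ m) (h : Fintype.card F ≠ 2 ∨ m ≠ 2) (A : GL (Fin m) F) : (∃ g : ↥(Cfsg.isometryGroup F (Cfsg.quadFormPlus m F)), g ∈ Cfsg.Omega F (Cfsg.quadFormPlus m F) ∧ ((g : Matrix.GeneralLinearGroup (Fin m ⊕ Fin m) F) : Matrix (Fin m ⊕ Fin m) (Fin m ⊕ Fin m) F) = Matrix.fromBlocks (A : Matrix (Fin m) (Fin m) F) 0 0 ((A : Matrix (Fin m) (Fin m) F)⁻¹).transpose) ↔ IsSquare (A : Matrix (Fin m) (Fin m) F).det := by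
  classical
  have hF : (∃ a : F, a ≠ 0 ∧ a ≠ 1) ∨ Module.finrank F (Fin m ⊕ Fin m → F) ≠ 4 :=
    hF_of_card h (by simp; omega)
  have hQ := nondeg_qfPlus (m := m) (F := F)
  refine (exists_Omega_coe_iff (qfPlus m F) _ (levi m F A) fun i => levi_app A _).trans ?_
  have hd : ∀ A, dickson hQ (levi m F A) = 1 := fun A => by
    rw [dickson_eq_one_iff_even_codim hQ hF (m := m) (by simp; omega) (finrank_ker m) (fun u hu => by
      rw [qfPlus_apply]
      exact Finset.sum_eq_zero fun i _ => by rw [show u (.inr i) = 0 from congrFun hu i, mul_zero]),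
      mem_stabOG_of_le (Q := qfPlus m F) fun u hu => ?_, inf_idem, finrank_ker]
    · simp
    · rw [levi_app, fromBlocks_mulVec]
      rw [show u ∘ Sum.inr = 0 from hu]
      ext j
      simp
  rw [mem_commutator_OG_iff hQ hF, hd, eq_self, true_and]
  by_cases h2 : (2 : F) = 0
  · exact iff_of_true (spinor_eq_one_of_two_eq_zero hQ h2 hF _) (isSquare_of_two_eq_zero h2 _)
  let χ : Fˣ →* ℤˣ := (quadraticChar F).toUnitHom
  have hχ : ∀ a : Fˣ, χ a = 1 ↔ IsSquare (a : F) := fun a => by
    rw [← quadraticChar_one_iff_isSquare a.ne_zero, Units.ext_iff]; rfl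
  let θ := (spinor hQ).comp (levi m F)
  suffices ∀ M : Matrix (Fin m) (Fin m) F, M.det ≠ 0 → ∀ A : GL (Fin m) F, A.1 = M →
      θ A = χ (GeneralLinearGroup.det A) from
    (Eq.congr_left (this _ (A.det_ne_zero) A rfl)).trans (hχ _)
  intro M hM
  refine diagonal_transvection_induction_of_det_ne_zero
    (fun M => ∀ A : GL (Fin m) F, A.1 = M → θ A = χ (GeneralLinearGroup.det A)) M hM ?_ ?_ ?_
  · intro D hD A hA
    rw [det_diagonal, Finset.prod_ne_zero_iff] at hD
    let δ : (Fin m → Fˣ) →* GL (Fin m) F :=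
      (Units.map (diagonalRingHom (Fin m) F).toMonoidHom).comp MulEquiv.piUnits.symm.toMonoidHom
    have hδ : ∀ d, (δ d).1 = diagonal fun i => (d i : F) := fun _ => rfl
    have : θ.comp δ = χ.comp (GeneralLinearGroup.det.comp δ) := MonoidHom.functions_ext _ _ _ fun i a => by
      have hyp : IsHyp (qfPlus m F) (Pi.single (.inr i) 1) (Pi.single (.inl i) 1) :=
        ⟨by simp [qfPlus_apply, Pi.single_apply], by simp [qfPlus_apply, Pi.single_apply],
          by simp [polar_qfPlus, Pi.single_apply]⟩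
      have e : levi m F (δ (Pi.mulSingle i a)) = refl _ (Pi.single (.inr i) 1 - (a : F) • Pi.single (.inl i) 1) *
          refl _ (Pi.single (.inr i) 1 - Pi.single (.inl i) 1) := OG.ext' fun v => by
        rw [refl_mul_refl_hyp hyp a.ne_zero, levi_app, ← coe_units_inv, ← map_inv, hδ, hδ, fromBlocks_mulVec]
        ext (j | j) <;> by_cases hj : j = i <;>
          simp [polar_qfPlus, Pi.single_apply, mulVec_diagonal, hj, Pi.mulSingle_apply] <;> ring
      have q1 : qfPlus m F (Pi.single (.inr i) 1 - Pi.single (.inl i) 1) = -1 := by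
        simpa [sub_eq_add_neg] using hyp.map_comb 1 (-1)
      have q2 : qfPlus m F (Pi.single (.inr i) 1 - (a : F) • Pi.single (.inl i) 1) = -a := by
        simpa [sub_eq_add_neg] using hyp.map_comb 1 (-a)
      have := spinor_prod_refl_eq_one_iff hQ [Pi.single (.inr i) 1 - (a : F) • Pi.single (.inl i) 1,
        Pi.single (.inr i) 1 - Pi.single (.inl i) 1] (by simp [q1, q2])
      simp only [List.map_cons, List.map_nil, List.prod_cons, List.prod_nil, mul_one, q1, q2, ← e] at this
      refine units_int_eq_of_iff (this.trans ?_)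
      rw [MonoidHom.comp_apply, hχ, MonoidHom.comp_apply, GeneralLinearGroup.val_det_apply, hδ, det_diagonal,
        ← Units.coe_prod]
      simp
    have hA' : A = δ fun i => Units.mk0 (D i) (hD i (Finset.mem_univ i)) := Units.ext hA
    rw [hA']
    exact DFunLike.congr_fun this _
  · intro t A hA
    have h1 : GeneralLinearGroup.det A = 1 := Units.ext (by
      rw [GeneralLinearGroup.val_det_apply, hA, t.det, Units.val_one])
    rw [h1, map_one]
    obtain ⟨p, hp⟩ := CharP.exists F
    have hpp := CharP.char_is_prime F p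
    have h3 : A ^ p = 1 := Units.ext (by
      have : ∀ k : ℕ, t.toMatrix ^ k = transvection t.i t.j (k * t.c) := fun k => by
        induction k with
        | zero => simp
        | succ k ih =>
          rw [pow_succ, ih, TransvectionStruct.toMatrix, transvection_mul_transvection_same _ _ t.hij]
          congr 1; push_cast; ring
      rw [Units.val_pow_eq_pow_val, hA, this]
      simp)
    have h4 : θ A ^ p = 1 := by rw [← map_pow, h3, map_one]
    rwa [Int.units_pow_eq_pow_mod_two, Nat.odd_iff.1 (hpp.odd_of_ne_two (by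
      rintro rfl; exact h2 CharTwo.two_eq_zero)), pow_one] at h4
  · intro B C hB hC ihB ihC A hA
    have : A = GeneralLinearGroup.mkOfDetNeZero B hB * GeneralLinearGroup.mkOfDetNeZero C hC := Units.ext hA
    rw [this, map_mul, map_mul, map_mul, ihB _ rfl, ihC _ rfl]

end Cfsg.Agent.S2611
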