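import Cfsg.Statements.S2612
import Cfsg.Agent.Known.QuadOm2

set_option autoImplicit false
open Cfsg

namespace Cfsg.Agent.S2612

open CL.Cls CL.Known Matrix QuadraticMap

theorem finrank_ker {F : Type*} [Field F] (m : ℕ) : Module.finrank F
    (LinearMap.ker (LinearMap.funLeft F F (Sum.inr : Fin m → Fin m ⊕ Fin m))) = m := by
  have := LinearMap.finrank_range_add_finrank_ker (LinearMap.funLeft F F (Sum.inr : Fin m → Fin m ⊕ Fin m))
  rw [LinearMap.range_eq_top.2 (LinearMap.funLeft_surjective_of_injective F F _ Sum.inr_injective)] at this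
  simp at this
  omega

/-- For the hyperbolic quadratic form Σ x_i y_i on F^(2m) (F finite, m ≥ 1, excluding m = 2 over the field of two elements), Ω⁺_2m(F) (the commutator subgroup of the orthogonal group) contains an element interchanging the two complementary maximal totally singular subspaces {y = 0} and {x = 0} if and only if m is even (dimension divisible by 4). -/
theorem result {F : Type*} [Field F] [Fintype F] {m : ℕ} (hm : 1 ≤ m) (h : Fintype.card F ≠ 2 ∨ m ≠ 2) : (∃ g : ↥(Cfsg.isometryGroup F (Cfsg.quadFormPlus m F)), g ∈ Cfsg.Omega F (Cfsg.quadFormPlus m F) ∧ (∀ v : Fin m ⊕ Fin m → F, (∀ i, v (Sum.inr i) = 0) → ∀ i, (((g : Matrix.GeneralLinearGroup (Fin m ⊕ Fin m) F) : Matrix (Fin m ⊕ Fin m) (Fin m ⊕ Fin m) F).mulVec v) (Sum.inl i) = 0) ∧ (∀ v : Fin m ⊕ Fin m → F, (∀ i, v (Sum.inl i) = 0) → ∀ i, (((g : Matrix.GeneralLinearGroup (Fin m ⊕ Fin m) F) : Matrix (Fin m ⊕ Fin m) (Fin m ⊕ Fin m) F).mulVec v) (Sum.inr i) = 0)) ↔ Even m := by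
  have hF : (∃ a : F, a ≠ 0 ∧ a ≠ 1) ∨ Module.finrank F (Fin m ⊕ Fin m → F) ≠ 4 :=
    hF_of_card h (by simp; omega)
  have hQ := nondeg_qfPlus (m := m) (F := F)
  have hd : ∀ g : OG (qfPlus m F), (∀ v : Fin m ⊕ Fin m → F, (∀ i, v (Sum.inr i) = 0) → ∀ i, g.1 v (Sum.inl i) = 0) →
      (dickson hQ g = 1 ↔ Even m) := fun g hg => by
    rw [dickson_eq_one_iff_even_codim hQ hF (m := m) (by simp; omega) (finrank_ker m) (fun u hu => by
      rw [qfPlus_apply]
      exact Finset.sum_eq_zero fun i _ => by rw [show u (.inr i) = 0 from congrFun hu i, mul_zero]),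
      show _ ⊓ Submodule.map _ _ = ⊥ from (Submodule.eq_bot_iff _).2 ?_, finrank_bot, tsub_zero]
    rintro _ ⟨h1, u, hu, rfl⟩
    ext (i | i)
    · exact hg u (congrFun hu) i
    · exact congrFun h1 i
  constructor
  · rintro ⟨g, hg, h1, -⟩
    exact (hd (isomEquiv (qfPlus m F) g) h1).1
      (dickson_eq_one_of_mem_commutator hQ ((mem_Omega_iff (qfPlus m F) g).1 hg))
  · intro he
    let s : OG (qfPlus m F) := ⟨LinearEquiv.funCongrLeft F F (Equiv.sumComm _ _), fun v => by
      simp [qfPlus_apply, mul_comm]⟩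
    have hs : ∀ v i, s.1 v i = v i.swap := fun _ _ => rfl
    refine ⟨(isomEquiv (qfPlus m F)).symm s, (mem_Omega_iff (qfPlus m F) _).2 ?_,
      fun v hv i => by rw [isomEquiv_symm_mulVec]; exact hv i, fun v hv i => by rw [isomEquiv_symm_mulVec]; exact hv i⟩
    rw [MulEquiv.apply_symm_apply]
    by_cases h2 : (2 : F) = 0
    · exact (mem_commutator_OG_iff_of_two_eq_zero hQ h2 hF _).2 ((hd s fun v hv i => hv i).2 he)
    have q1 : ∀ i, qfPlus m F (Pi.single (.inl i) 1 - Pi.single (.inr i) 1) = -1 := fun i => by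
      simp [qfPlus_apply, Pi.single_apply]
    obtain ⟨g, g1, g2, -, -, g3⟩ := exists_OG_neg_family hQ hF
      (fun i : Fin m => Pi.single (Sum.inl i) 1 - Pi.single (Sum.inr i) 1) (fun i => by simp [q1])
      (fun i j hij => by simp [polar_qfPlus, Pi.single_apply, hij, hij.symm])
    have g4 : ∀ i, g.1 (Pi.single (.inl i) 1 + Pi.single (.inr i) 1) = Pi.single (.inl i) 1 + Pi.single (.inr i) 1 :=
      fun i => g2 _ fun j => by simp [polar_qfPlus, Pi.single_apply]
    simp only [map_add, map_sub] at g1 g4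
    have : s = g := Subtype.ext (LinearEquiv.toLinearMap_injective ((Pi.basisFun F _).ext fun k => by
      apply smul_right_injective _ h2
      simp only [two_smul, Pi.basisFun_apply, LinearEquiv.coe_coe]
      rcases k with k | k
      · rw [show s.1 (Pi.single (.inl k) 1) = Pi.single (.inr k) 1 by ext (j | j) <;> simp [hs, Pi.single_apply]]
        linear_combination (norm := abel) -(g1 k) - g4 k
      · rw [show s.1 (Pi.single (.inr k) 1) = Pi.single (.inl k) 1 by ext (j | j) <;> simp [hs, Pi.single_apply]]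
        linear_combination (norm := abel) (g1 k) - g4 k))
    rw [this, g3]
    simp [q1, he, he.neg_one_pow]

end Cfsg.Agent.S2612
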