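import Cfsg.Statements.S2613
import Cfsg.Agent.Known.QuadOm1

set_option autoImplicit false
open Cfsg

namespace Cfsg.Agent.S2613

/-- For the hyperbolic form Σ x_j y_j on F^(2m), F finite with q elements, q odd, and 1 ≤ i ≤ m: the involution negating the first i hyperbolic pairs (x_j, y_j ↦ −x_j, −y_j for j < i) and fixing the rest lies in Ω⁺_2m(q) (commutator subgroup of the orthogonal group) if and only if q^i ≡ 1 (mod 4); its (−1)-eigenspace is a hyperbolic 2i-space. -/
theorem result {F : Type*} [Field F] [Fintype F] {q : ℕ} (hF : Fintype.card F = q) (hq : Odd q) {m : ℕ} (i : ℕ) (hi : 1 ≤ i) (him : i ≤ m) : (∃ g : ↥(Cfsg.isometryGroup F (Cfsg.quadFormPlus m F)), g ∈ Cfsg.Omega F (Cfsg.quadFormPlus m F) ∧ ((g : Matrix.GeneralLinearGroup (Fin m ⊕ Fin m) F) : Matrix (Fin m ⊕ Fin m) (Fin m ⊕ Fin m) F) = Matrix.diagonal (fun k : Fin m ⊕ Fin m => if (Sum.elim (fun j : Fin m => (j : ℕ)) (fun j : Fin m => (j : ℕ)) k) < i then (-1 : F) else 1)) ↔ q ^ i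 % 4 = 1 := by
  have h2 : (2 : F) ≠ 0 := CL.Cls.two_ne_zero_of_odd_card (hF ▸ hq)
  obtain ⟨g, g1, g2, g3, g4⟩ := CL.Known.exists_OG_neg_pairs (Q := CL.Cls.qfPlus m F) (CL.Cls.nondeg_qfPlus) h2
    (κ := {j : Fin (m) // j.val < i}) (fun k => Pi.single (Sum.inl k.1) 1) (fun k => Pi.single (Sum.inr k.1) 1)
    (fun k => by simp [CL.Cls.qfPlus_apply, Pi.single_apply]) (fun k => by simp [CL.Cls.qfPlus_apply, Pi.single_apply])
    (fun k l => by simp [CL.Cls.polar_qfPlus, Pi.single_apply])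
    (fun k l => by simp [CL.Cls.polar_qfPlus, Pi.single_apply])
    (fun k l => by simp [CL.Cls.polar_qfPlus, Pi.single_apply, Subtype.ext_iff, eq_comm])
  rw [show Fintype.card {j : Fin (m) // j.val < i} = i by
    rw [Fintype.card_subtype, Fin.card_filter_val_lt]; omega] at g4
  rw [← CL.Known.isSquare_neg_one_pow_iff hF hq, ← g4]
  refine CL.Known.exists_Omega_coe_iff (CL.Cls.qfPlus m F) _ g fun k => ?_
  rw [Matrix.diagonal_mulVec_single]
  split_ifs with hk
  · rw [mul_one, Pi.single_neg]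
    rcases k with k | k
    all_goals first | exact g1 ⟨k, hk⟩ | exact g2 ⟨k, hk⟩ | exact absurd hk (lt_irrefl _)
  · rw [mul_one]
    refine g3 _ (fun l => ?_) fun l => ?_ <;> rcases k with k | k <;>
      simp [CL.Cls.polar_qfPlus, Pi.single_apply] <;> rintro rfl <;> exact hk l.2

end Cfsg.Agent.S2613
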