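import Cfsg.Statements.S2619
import Cfsg.Agent.Known.QuadOm2

set_option autoImplicit false
open Cfsg

namespace Cfsg.Agent.S2619

/-- Over a finite field of characteristic two, given an alternating bilinear form B on a finite-dimensional space, a basis (v_i) and scalars (λ_i), there is exactly one quadratic form whose polar form is B and whose value at each v_i is λ_i. -/
theorem result {F V ι : Type*} [Field F] [Finite F] [CharP F 2] [AddCommGroup V] [Module F V] [Fintype ι] (b : Module.Basis ι F V) (B : LinearMap.BilinForm F V) (hB : B.IsAlt) (c : ι → F) : ∃! Q : QuadraticForm F V, QuadraticMap.polarBilin Q = B ∧ ∀ i, Q (b i) = c i := by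
  obtain ⟨_⟩ : Nonempty (LinearOrder ι) := ⟨by classical exact linearOrderOfSTO WellOrderingRel⟩
  obtain ⟨B', hB'⟩ : ∃ B' : LinearMap.BilinForm F V,
      ∀ i j, B' (b i) (b j) = if i = j then c i else if i < j then B (b i) (b j) else 0 :=
    ⟨b.constr F fun i => b.constr F fun j => if i = j then c i else if i < j then B (b i) (b j) else 0,
      fun i j => by simp only [Module.Basis.constr_basis]⟩
  have h1 : QuadraticMap.polarBilin (LinearMap.BilinMap.toQuadraticMap B') = B := by
    rw [LinearMap.BilinMap.polarBilin_toQuadraticMap]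
    refine LinearMap.ext_basis b b fun i j => ?_
    rw [LinearMap.add_apply, LinearMap.add_apply, LinearMap.flip_apply, hB', hB']
    rcases lt_trichotomy i j with h | rfl | h
    · simp [h, h.ne, h.ne', h.not_gt]
    · simp [CharTwo.add_self_eq_zero, hB (b i)]
    · simp only [h, h.ne, h.ne', h.not_gt, if_true, if_false, zero_add]
      rw [← hB.neg_eq, CharTwo.neg_eq]
  have h2 : ∀ i, LinearMap.BilinMap.toQuadraticMap B' (b i) = c i := fun i => by
    rw [LinearMap.BilinMap.toQuadraticMap_apply, hB', if_pos rfl]
  refine ⟨_, ⟨h1, h2⟩, fun Q ⟨q1, q2⟩ => ?_⟩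
  rw [← Q.toQuadraticMap_toBilin b]
  refine congrArg _ (LinearMap.ext_basis b b fun i j => ?_)
  rw [QuadraticMap.toBilin_apply, hB', q2, ← q1, QuadraticMap.polarBilin_apply_apply]

end Cfsg.Agent.S2619
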