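import Cfsg.Statements.S2625
import Cfsg.Agent.Known.QuadOm2

set_option autoImplicit false
open Cfsg

namespace Cfsg.Agent.S2625

/-- For a quadratic form Q on F^n with non-degenerate polar form, F finite and n odd (so |F| is odd), the multiplier of any similarity is a square: if g is an invertible linear map with Q(g v) = c·Q(v) for all v then c is a square. -/
theorem result {F : Type*} [Field F] [Fintype F] {n : ℕ} (hn : Odd n) (Q : QuadraticForm F (Fin n → F)) (hQ : (QuadraticMap.polarBilin Q).Nondegenerate) (g : (Fin n → F) ≃ₗ[F] (Fin n → F)) (c : F) (hg : ∀ v, Q (g v) = c * Q v) : IsSquare c := by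
  by_cases hc : c = 0
  · exact hc ▸ IsSquare.zero
  obtain ⟨k, hk, e⟩ := CL.Cls.det_gram_polar_congr (Q := c • Q) (Q' := Q) g hg (Pi.basisFun F _) (Pi.basisFun F _)
  have : QuadraticMap.polarBilin (c • Q) = c • QuadraticMap.polarBilin Q :=
    LinearMap.ext₂ fun x y => by simp [QuadraticMap.polar_smul]
  rw [this, map_smul, Matrix.det_smul, Fintype.card_fin,
    mul_left_inj' ((LinearMap.BilinForm.nondegenerate_iff_det_ne_zero _).1 hQ)] at e
  obtain ⟨j, rfl⟩ := hn
  rw [← CL.Cls.isSquare_sq_mul_iff (pow_ne_zero j hc), ← pow_mul, mul_comm j, ← pow_succ, e]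
  exact IsSquare.sq k

end Cfsg.Agent.S2625
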