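import Cfsg.Statements.S2627
import Cfsg.Agent.Known.QuadOm1

set_option autoImplicit false
open Cfsg

namespace Cfsg.Agent.S2627

/-- For an orthogonal direct sum Q = Q₁ ⊕ Q₂ of quadratic forms with non-degenerate polar forms over a finite field, an isometry g₁ of Q₁ extended by the identity on the second summand lies in Ω(Q) (the commutator subgroup of the orthogonal group of Q) if and only if g₁ lies in Ω(Q₁). (Excluded: the field of two elements when the first summand or the whole space has dimension 4, where the commutator subgroup of O⁺₄(2) is smaller than the group usually called Ω.) -/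
theorem result {F : Type*} [Field F] [Fintype F] {k l : ℕ} (h : Fintype.card F ≠ 2 ∨ (k ≠ 4 ∧ k + l ≠ 4)) (Q₁ : QuadraticForm F (Fin k → F)) (Q₂ : QuadraticForm F (Fin l → F)) (h₁ : (QuadraticMap.polarBilin Q₁).Nondegenerate) (h₂ : (QuadraticMap.polarBilin Q₂).Nondegenerate) (g₁ : ↥(Cfsg.isometryGroup F ⇑Q₁)) : (∃ g : ↥(Cfsg.isometryGroup F (fun v : Fin k ⊕ Fin l → F => Q₁ (v ∘ Sum.inl) + Q₂ (v ∘ Sum.inr))), g ∈ Cfsg.Omega F (fun v : Fin k ⊕ Fin l → F => Q₁ (v ∘ Sum.inl) + Q₂ (v ∘ Sum.inr)) ∧ ((g : Matrix.GeneralLinearGroup (Fin k ⊕ Fin l) F) : Matrix (Fin k ⊕ Fin l) (Fin k ⊕ Fin l) F) = Matrix.fromBlocks ((g₁ : Matrix.GeneralLinearGroup (Fin k) F) : Matrix (Fin k) (Fin k) F) 0 0 1) ↔ g₁ ∈ Cfsg.Omega F ⇑Q₁ := by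
  have e : (1 : Matrix (Fin l) (Fin l) F) =
    (((1 : Cfsg.isometryGroup F ⇑Q₂) : Matrix.GeneralLinearGroup (Fin l) F) : Matrix (Fin l) (Fin l) F) := rfl
  have hF1 : (∃ a : F, a ≠ 0 ∧ a ≠ 1) ∨ Module.finrank F (Fin k → F) ≠ 4 :=
    CL.Known.hF_of_card (h.imp_right And.left) (by simp)
  have hF2 : (∃ a : F, a ≠ 0 ∧ a ≠ 1) ∨ Module.finrank F ((Fin k → F) × (Fin l → F)) ≠ 4 :=
    CL.Known.hF_of_card (h.imp_right And.right) (by simp)
  rw [e]
  refine (CL.Known.exists_Omega_fromBlocks_iff Q₁ Q₂ g₁ 1).trans ?_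
  rw [CL.Cls.mem_Omega_iff, CL.Cls.mem_commutator_OG_iff (CL.Cls.nondeg_prod h₁ h₂) hF2,
    CL.Cls.mem_commutator_OG_iff h₁ hF1, CL.Known.dickson_prodMap h₁ h₂, map_one, map_one, mul_one,
    CL.Known.spinor_prodMap_left h₁ h₂ hF1]

end Cfsg.Agent.S2627
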