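import Cfsg.Statements.S2628
import Cfsg.Agent.Known.QuadOm1

set_option autoImplicit false
open Cfsg

namespace Cfsg.Agent.S2628

/-- For the orthogonal direct sum Q ⊕ Q of two copies of a quadratic form Q with non-degenerate polar form on F^k (F finite), every isometry g of Q acting diagonally, diag(g, g), lies in Ω(Q ⊕ Q), the commutator subgroup of the orthogonal group of Q ⊕ Q. (Excluded: k = 2 over the field of two elements, where Q ⊕ Q is the hyperbolic 4-space whose orthogonal group's commutator subgroup is smaller than the group usually called Ω.) -/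
theorem result {F : Type*} [Field F] [Fintype F] {k : ℕ} (h : Fintype.card F ≠ 2 ∨ k ≠ 2) (Q : QuadraticForm F (Fin k → F)) (hQ : (QuadraticMap.polarBilin Q).Nondegenerate) (g : ↥(Cfsg.isometryGroup F ⇑Q)) : ∃ x : ↥(Cfsg.isometryGroup F (fun v : Fin k ⊕ Fin k → F => Q (v ∘ Sum.inl) + Q (v ∘ Sum.inr))), x ∈ Cfsg.Omega F (fun v : Fin k ⊕ Fin k → F => Q (v ∘ Sum.inl) + Q (v ∘ Sum.inr)) ∧ ((x : Matrix.GeneralLinearGroup (Fin k ⊕ Fin k) F) : Matrix (Fin k ⊕ Fin k) (Fin k ⊕ Fin k) F) = Matrix.fromBlocks ((g : Matrix.GeneralLinearGroup (Fin k) F) : Matrix (Fin k) (Fin k) F) 0 0 ((g : Matrix.GeneralLinearGroup (Fin k) F) : Matrix (Fin k) (Fin k) F) := by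
  have hF2 : (∃ a : F, a ≠ 0 ∧ a ≠ 1) ∨ Module.finrank F ((Fin k → F) × (Fin k → F)) ≠ 4 :=
    CL.Known.hF_of_card h (by simp; omega)
  refine (CL.Known.exists_Omega_fromBlocks_iff Q Q g g).2 ?_
  rw [CL.Cls.mem_commutator_OG_iff (CL.Cls.nondeg_prod hQ hQ) hF2, CL.Known.dickson_prodMap hQ hQ]
  refine ⟨Int.units_mul_self _, ?_⟩
  by_cases h2 : (2 : F) = 0
  · exact CL.Cls.spinor_eq_one_of_two_eq_zero _ h2 hF2 _
  · rw [CL.Known.spinor_prodMap hQ hQ h2, Int.units_mul_self]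

end Cfsg.Agent.S2628
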