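import Cfsg.Statements.S2629
import Cfsg.Agent.Known.QuadOm1

set_option autoImplicit false
open Cfsg

namespace Cfsg.Agent.S2629

/-- For the hyperbolic form Σ x_i y_i on F^(2m) over a finite field of odd order (m ≥ 1), an isometry g preserves the class of the maximal totally singular subspace U₀ = {y = 0} (that is, m − dim(U₀ ∩ gU₀) is even) if and only if det g = 1: the stabiliser of each of the two classes of maximal totally singular subspaces is SO. -/
theorem finrank_ker {F : Type*} [Field F] (m : ℕ) : Module.finrank F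
    (LinearMap.ker (LinearMap.funLeft F F (Sum.inr : Fin m → Fin m ⊕ Fin m))) = m := by
  have := LinearMap.finrank_range_add_finrank_ker (LinearMap.funLeft F F (Sum.inr : Fin m → Fin m ⊕ Fin m))
  rw [LinearMap.range_eq_top.2 (LinearMap.funLeft_surjective_of_injective F F _ Sum.inr_injective)] at this
  simp at this
  omega

theorem result {F : Type*} [Field F] [Fintype F] (h2 : (2 : F) ≠ 0) {m : ℕ} (hm : 1 ≤ m) (g : ↥(Cfsg.isometryGroup F (Cfsg.quadFormPlus m F))) : Even (m - Module.finrank F ↥(LinearMap.ker (LinearMap.funLeft F F (Sum.inr : Fin m → Fin m ⊕ Fin m)) ⊓ (LinearMap.ker (LinearMap.funLeft F F (Sum.inr : Fin m → Fin m ⊕ Fin m))).map (Matrix.mulVecLin ((g : Matrix.GeneralLinearGroup (Fin m ⊕ Fin m) F) : Matrix (Fin m ⊕ Fin m) (Fin m ⊕ Fin m) F)))) ↔ ((g : Matrix.GeneralLinearGroup (Fin m ⊕ Fin m) F) : Matrix (Fin m ⊕ Fin m) (Fin m ⊕ Fin m) F).det = 1 := by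
  have := CL.Known.dickson_eq_one_iff_even_codim (CL.Cls.nondeg_qfPlus (m := m) (F := F))
    (Or.inl (CL.Cls.exists_ne_zero_one_of_two_ne_zero h2)) (m := m) (by simp; omega) (finrank_ker m)
    (fun u hu => by
      rw [CL.Cls.qfPlus_apply]
      exact Finset.sum_eq_zero fun i _ => by rw [show u (.inr i) = 0 from congrFun hu i, mul_zero]) (CL.Cls.isomEquiv (CL.Cls.qfPlus m F) g)
  rw [CL.Cls.dickson_eq_one_iff_det _ h2, CL.Cls.det_isomEquiv (CL.Cls.qfPlus m F) g] at this
  exact this.symm

end Cfsg.Agent.S2629
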