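import Cfsg.Statements.S2631
import Cfsg.Agent.Known.QuadOm1

set_option autoImplicit false
open Cfsg

namespace Cfsg.Agent.S2631

/-- For the hyperbolic form Σ x_i y_i on F^(2m) over a finite field (m ≥ 1, excluding m = 2 over the field of two elements), Ω (the commutator subgroup of the orthogonal group) acts transitively on each of the two classes of maximal totally singular subspaces: if U and W are m-dimensional totally singular subspaces with m − dim(U ∩ W) even, some element of Ω carries U to W. -/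
theorem result {F : Type*} [Field F] [Fintype F] {m : ℕ} (hm : 1 ≤ m) (h : Fintype.card F ≠ 2 ∨ m ≠ 2) (U W : Submodule F (Fin m ⊕ Fin m → F)) (hU : Module.finrank F U = m) (hW : Module.finrank F W = m) (hU0 : ∀ u ∈ U, Cfsg.quadFormPlus m F u = 0) (hW0 : ∀ w ∈ W, Cfsg.quadFormPlus m F w = 0) (he : Even (m - Module.finrank F ↥(U ⊓ W))) : ∃ g : ↥(Cfsg.isometryGroup F (Cfsg.quadFormPlus m F)), g ∈ Cfsg.Omega F (Cfsg.quadFormPlus m F) ∧ U.map (Matrix.mulVecLin ((g : Matrix.GeneralLinearGroup (Fin m ⊕ Fin m) F) : Matrix (Fin m ⊕ Fin m) (Fin m ⊕ Fin m) F)) = W := by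
  have hF : (∃ a : F, a ≠ 0 ∧ a ≠ 1) ∨ Module.finrank F (Fin m ⊕ Fin m → F) ≠ 4 :=
    CL.Known.hF_of_card h (by simp; omega)
  have hQ := CL.Cls.nondeg_qfPlus (m := m) (F := F)
  refine CL.Known.exists_Omega_map_of (CL.Cls.qfPlus m F) ?_
  obtain ⟨g, -, g1, g2⟩ := (CL.Cls.isWittForm_of_nondeg hQ).exists_isometry_map_of_singular U W
    (fun x hx => (hU0 x hx).trans (map_zero _).symm) (fun x hx => (hW0 x hx).trans (map_zero _).symm)
    (CL.Cls.polar_eq_zero_of_singular (Q := CL.Cls.qfPlus m F) hU0)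
    (CL.Cls.polar_eq_zero_of_singular (Q := CL.Cls.qfPlus m F) hW0) (hU.trans hW.symm)
  refine CL.Known.exists_commutator_map_eq hQ hF ⟨g, g1⟩ g2 (Or.inl ?_)
    (CL.Known.exists_stab_spinor_of_singular hQ (by rintro rfl; simp at hU; omega) hU0)
  rw [CL.Known.dickson_eq_one_iff_even_codim hQ hF (m := m) (by simp; omega) hU hU0, g2]
  exact he

end Cfsg.Agent.S2631
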