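import Cfsg.Statements.S2632
import Cfsg.Agent.Known.QuadOm1

set_option autoImplicit false
open Cfsg

namespace Cfsg.Agent.S2632

/-- Ω is transitive on non-degenerate subspaces of each isometry type: for a quadratic form Q on F^n, n ≥ 3, with non-degenerate polar form (F finite; excluding dimension 4 over the field of two elements), if U and W are subspaces on which the polar form is non-degenerate and there is a Q-preserving linear isomorphism U → W, then some element of Ω (the commutator subgroup of the orthogonal group) carries U to W. (In dimension 2 this fails: Ω can be {±1}, which fixes every line.) -/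
theorem result {F : Type*} [Field F] [Fintype F] {n : ℕ} (hn : 3 ≤ n) (h : Fintype.card F ≠ 2 ∨ n ≠ 4) (Q : QuadraticForm F (Fin n → F)) (hQ : (QuadraticMap.polarBilin Q).Nondegenerate) (U W : Submodule F (Fin n → F)) (hU : U ⊓ LinearMap.BilinForm.orthogonal (QuadraticMap.polarBilin Q) U = ⊥) (hW : W ⊓ LinearMap.BilinForm.orthogonal (QuadraticMap.polarBilin Q) W = ⊥) (e : U ≃ₗ[F] W) (he : ∀ u : U, Q (e u : Fin n → F) = Q (u : Fin n → F)) : ∃ g : ↥(Cfsg.isometryGroup F ⇑Q), g ∈ Cfsg.Omega F ⇑Q ∧ U.map (Matrix.mulVecLin ((g : Matrix.GeneralLinearGroup (Fin n) F) : Matrix (Fin n) (Fin n) F)) = W := by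
  have hF : (∃ a : F, a ≠ 0 ∧ a ≠ 1) ∨ Module.finrank F (Fin n → F) ≠ 4 :=
    CL.Known.hF_of_card h (by simp)
  have hw := CL.Cls.isWittForm_of_nondeg hQ
  refine CL.Known.exists_Omega_map_of Q ?_
  obtain ⟨g, -, g1, g2⟩ := hw.exists_isometry_extend U (W.subtype ∘ₗ e) (by simp [e.injective])
    (fun x y => by
      change QuadraticMap.polar Q (e x : Fin n → F) (e y) = QuadraticMap.polar Q (x : Fin n → F) y
      simp only [QuadraticMap.polar, ← Submodule.coe_add, ← map_add, he]) he
  have g3 : U.map (g : (Fin n → F) →ₗ[F] (Fin n → F)) = W := by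
    refine Submodule.eq_of_le_of_finrank_eq ?_ ((LinearEquiv.finrank_map_eq g U).trans e.finrank_eq)
    rintro _ ⟨x, hx, rfl⟩
    rw [LinearEquiv.coe_coe, g2 ⟨x, hx⟩]
    exact (e ⟨x, hx⟩).2
  have hU' : CL.Cls.NDon Q U := fun x hx H => by
    rw [← Submodule.mem_bot F, ← hU]
    exact ⟨hx, fun y hy => by
      change QuadraticMap.polar Q y x = 0
      rw [QuadraticMap.polar_comm]; exact H y hy⟩
  obtain ⟨X, hX, hX2, hXU⟩ : ∃ X : Submodule F (Fin n → F), CL.Cls.NDon Q X ∧ 2 ≤ Module.finrank F X ∧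
      ∀ v ∈ X, CL.Cls.refl Q v ∈ CL.Known.stabOG Q U := by
    by_cases h2 : 2 ≤ Module.finrank F U
    · exact ⟨U, hU', h2, fun v hv => CL.Known.refl_mem_stabOG (Or.inl hv)⟩
    · refine ⟨_, hw.orthogonal_nondeg U hU', ?_, fun v hv => CL.Known.refl_mem_stabOG (Or.inr fun u hu => ?_)⟩
      · have := hw.finrank_add_finrank_orthogonal U
        rw [Module.finrank_fin_fun] at this
        omega
      · rw [QuadraticMap.polar_comm]; exact hv u hu
  obtain ⟨u, hu, hu1⟩ := hX.exists_map_eq hX2 1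
  refine CL.Known.exists_commutator_map_eq hQ hF ⟨g, g1⟩ g3
    (Or.inr ⟨_, hXU u hu, CL.Cls.dickson_refl hQ (by simp [hu1])⟩) fun h2 => ?_
  obtain ⟨a, ha⟩ := FiniteField.exists_nonsquare (F := F) (CL.Cls.ringChar_ne_two_of_two_ne_zero h2)
  obtain ⟨v, hv, hv1⟩ := hX.exists_map_eq hX2 a
  exact CL.Known.exists_spinor_neg_of_refl hQ (hXU u hu) (hXU v hv) (by simp [hu1])
    (by rw [hv1]; rintro rfl; exact ha IsSquare.zero) (by rwa [hu1, hv1, one_mul])

end Cfsg.Agent.S2632
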