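import Cfsg.Statements.S2633
import Cfsg.Agent.Known.QuadOm1

set_option autoImplicit false
open Cfsg

namespace Cfsg.Agent.S2633

/-- Ω is transitive on totally singular subspaces of each dimension less than half the dimension: for a quadratic form Q on F^n with non-degenerate polar form (F finite; excluding dimension 4 over the field of two elements), if U and W are subspaces of the same dimension k with 2k < n on which Q vanishes, then some element of Ω (the commutator subgroup of the orthogonal group) carries U to W. -/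
theorem result {F : Type*} [Field F] [Fintype F] {n : ℕ} (h : Fintype.card F ≠ 2 ∨ n ≠ 4) (Q : QuadraticForm F (Fin n → F)) (hQ : (QuadraticMap.polarBilin Q).Nondegenerate) (U W : Submodule F (Fin n → F)) {k : ℕ} (hk : 2 * k < n) (hU : Module.finrank F U = k) (hW : Module.finrank F W = k) (hU0 : ∀ u ∈ U, Q u = 0) (hW0 : ∀ w ∈ W, Q w = 0) : ∃ g : ↥(Cfsg.isometryGroup F ⇑Q), g ∈ Cfsg.Omega F ⇑Q ∧ U.map (Matrix.mulVecLin ((g : Matrix.GeneralLinearGroup (Fin n) F) : Matrix (Fin n) (Fin n) F)) = W := by
  have hF : (∃ a : F, a ≠ 0 ∧ a ≠ 1) ∨ Module.finrank F (Fin n → F) ≠ 4 :=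
    CL.Known.hF_of_card h (by simp)
  have hw := CL.Cls.isWittForm_of_nondeg hQ
  refine CL.Known.exists_Omega_map_of Q ?_
  by_cases h0 : U = ⊥
  · subst h0
    rw [finrank_bot] at hU
    subst hU
    exact ⟨1, one_mem _, by rw [Submodule.map_bot, Submodule.finrank_eq_zero.1 hW]⟩
  obtain ⟨g, -, g1, g2⟩ := hw.exists_isometry_map_of_singular U W
    (fun x hx => (hU0 x hx).trans (map_zero _).symm) (fun x hx => (hW0 x hx).trans (map_zero _).symm)
    (CL.Cls.polar_eq_zero_of_singular hU0) (CL.Cls.polar_eq_zero_of_singular hW0) (hU.trans hW.symm)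
  refine CL.Known.exists_commutator_map_eq hQ hF ⟨g, g1⟩ g2 (Or.inr ?_)
    (CL.Known.exists_stab_spinor_of_singular hQ h0 hU0)
  obtain ⟨v, hv, hv0⟩ : ∃ v ∈ U.orthogonalBilin (QuadraticMap.polarBilin Q), Q v ≠ 0 := by
    by_contra! H
    have h1 := hw.two_mul_finrank_le _ (CL.Cls.polar_eq_zero_of_singular H)
    have h2 := hw.finrank_add_finrank_orthogonal U
    rw [Module.finrank_fin_fun] at h1 h2
    omega
  exact ⟨_, CL.Known.refl_mem_stabOG (Or.inr fun u hu => by rw [QuadraticMap.polar_comm]; exact hv u hu),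
    CL.Cls.dickson_refl hQ hv0⟩

end Cfsg.Agent.S2633
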