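import Cfsg.Statements.S2634
import Cfsg.Agent.Known.QuadOm1

set_option autoImplicit false
open Cfsg

namespace Cfsg.Agent.S2634

/-- Over a finite field of characteristic two, Ω (the commutator subgroup of the orthogonal group of a quadratic form Q on F^n with non-degenerate polar form; excluding dimension 4 over the field of two elements) acts transitively on the non-singular 1-spaces: for u, v with Q(u) ≠ 0 and Q(v) ≠ 0 some element of Ω carries the line through u to the line through v. -/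
theorem result {F : Type*} [Field F] [Fintype F] [CharP F 2] {n : ℕ} (h : Fintype.card F ≠ 2 ∨ n ≠ 4) (Q : QuadraticForm F (Fin n → F)) (hQ : (QuadraticMap.polarBilin Q).Nondegenerate) (u v : Fin n → F) (hu : Q u ≠ 0) (hv : Q v ≠ 0) : ∃ g : ↥(Cfsg.isometryGroup F ⇑Q), g ∈ Cfsg.Omega F ⇑Q ∧ (F ∙ ((g : Matrix.GeneralLinearGroup (Fin n) F) : Matrix (Fin n) (Fin n) F).mulVec u) = F ∙ v := by
  have hF : (∃ a : F, a ≠ 0 ∧ a ≠ 1) ∨ Module.finrank F (Fin n → F) ≠ 4 :=
    CL.Known.hF_of_card h (by simp)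
  obtain ⟨t, ht, e⟩ := CL.Cls.exists_sq_mul_of_isSquare_iff hv hu (iff_of_true
    (CL.Cls.isSquare_of_two_eq_zero CharTwo.two_eq_zero _) (CL.Cls.isSquare_of_two_eq_zero CharTwo.two_eq_zero _))
  obtain ⟨g, hg⟩ := CL.Cls.exists_OG_app_eq_of_nonsingular hQ (x := u) (y := t • v)
    (by rw [CL.Cls.map_smul', e]) hu
  obtain ⟨x, hx, hxm⟩ := CL.Known.exists_Omega_map_of Q (CL.Known.exists_commutator_map_eq hQ hF
    (U := F ∙ u) (W := F ∙ v) g (by
      rw [Submodule.map_span, Set.image_singleton, LinearEquiv.coe_coe, hg,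
        Submodule.span_singleton_smul_eq (IsUnit.mk0 t ht)])
    (Or.inr ⟨_, CL.Known.refl_mem_stabOG (Or.inl (Submodule.mem_span_singleton_self u)),
      CL.Cls.dickson_refl hQ hu⟩) fun h2 => absurd CharTwo.two_eq_zero h2)
  refine ⟨x, hx, ?_⟩
  rwa [Submodule.map_span, Set.image_singleton] at hxm

end Cfsg.Agent.S2634
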