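import Cfsg.Statements.S2635
import Cfsg.Agent.Known.QuadOm1

set_option autoImplicit false
open Cfsg

namespace Cfsg.Agent.S2635

/-- Over a finite field of characteristic two, for a quadratic form Q on F^n with non-degenerate polar form, n ≥ 2, other than dimension 4 over the field of two elements, Ω (the commutator subgroup of the orthogonal group) is exactly the subgroup generated by the products of two reflections (orthogonal transvections) x ↦ x − Q(v)⁻¹ f(x, v) v, Q(v) ≠ 0: the products of an even number of reflections. -/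
theorem result {F : Type*} [Field F] [Fintype F] [CharP F 2] {n : ℕ} (hn : 2 ≤ n) (h : Fintype.card F ≠ 2 ∨ n ≠ 4) (Q : QuadraticForm F (Fin n → F)) (hQ : (QuadraticMap.polarBilin Q).Nondegenerate) : Cfsg.Omega F ⇑Q = Subgroup.closure {g : ↥(Cfsg.isometryGroup F ⇑Q) | ∃ u v : Fin n → F, Q u ≠ 0 ∧ Q v ≠ 0 ∧ ((g : Matrix.GeneralLinearGroup (Fin n) F) : Matrix (Fin n) (Fin n) F) = Cfsg.reflectionMatrix ⇑Q u * Cfsg.reflectionMatrix ⇑Q v} := by
  have hF : (∃ a : F, a ≠ 0 ∧ a ≠ 1) ∨ Module.finrank F (Fin n → F) ≠ 4 :=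
    CL.Known.hF_of_card h (by simp)
  have h2 : (2 : F) = 0 := CharTwo.two_eq_zero
  apply le_antisymm
  · intro g hg
    rw [CL.Cls.mem_Omega_iff, CL.Cls.mem_commutator_OG_iff_of_two_eq_zero hQ h2 hF] at hg
    obtain ⟨l, hl, e⟩ := CL.Cls.exists_list_refl hQ hF (CL.Cls.isomEquiv Q g)
    rw [← e, CL.Cls.dickson_prod_refl hQ l hl] at hg
    have he : Even l.length := by
      by_contra ho
      rw [(Nat.not_even_iff_odd.1 ho).neg_one_pow] at hg
      exact absurd hg (by decide)
    rw [← (CL.Cls.isomEquiv Q).symm_apply_apply g, ← e]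
    clear e hg
    induction l using List.twoStepInduction with
    | nil => rw [List.map_nil, List.prod_nil, map_one]; exact one_mem _
    | singleton x => simp at he
    | cons_cons u v l ih _ =>
      rw [List.map_cons, List.map_cons, List.prod_cons, List.prod_cons, ← mul_assoc, map_mul]
      refine mul_mem (Subgroup.subset_closure ⟨u, v, hl u (by simp), hl v (by simp), ?_⟩)
        (ih (fun x hx => hl x (by simp [hx])) (by simpa [Nat.even_add_one] using he))
      have := (CL.Known.isom_coe_eq_prod_refl_iff Q ((CL.Cls.isomEquiv Q).symm (CL.Cls.refl Q u * CL.Cls.refl Q v))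
        [u, v]).2 (by simp)
      simpa using this
  · rw [Subgroup.closure_le]
    rintro g ⟨u, v, hu, hv, e⟩
    have := (CL.Known.isom_coe_eq_prod_refl_iff Q g [u, v]).1 (by simpa using e)
    rw [SetLike.mem_coe, CL.Cls.mem_Omega_iff, CL.Cls.mem_commutator_OG_iff_of_two_eq_zero hQ h2 hF, this,
      CL.Cls.dickson_prod_refl hQ _ (by simp [hu, hv])]
    simp

end Cfsg.Agent.S2635
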