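import Cfsg.Statements.S2636
import Cfsg.Agent.Known.GLAut5

set_option autoImplicit false
open Cfsg

namespace Cfsg.Agent.S2636

open CL.GLn

/-- Centraliser of a field automorphism in PGL_n: let F be the field with q = q₀^r elements, σ a field automorphism of F of prime order r (so its fixed field has q₀ elements) and n ≥ 1. The invertible matrices g whose entrywise image under σ is a scalar multiple of g — those whose coset modulo scalars is fixed by σ — number (q − 1)/(q₀ − 1) · |GL_n(q₀)|; equivalently the centraliser in PGL_n(q) of the induced automorphism has the order of PGL_n(q₀). -/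
theorem result {F : Type*} [Field F] [Fintype F] {q₀ r n : ℕ} (hr : r.Prime) (hn : 1 ≤ n) (hF : Fintype.card F = q₀ ^ r) (σ : F ≃+* F) (hσ : orderOf σ = r) : Nat.card {g : GL (Fin n) F // ∃ c : F, c ≠ 0 ∧ (g : Matrix (Fin n) (Fin n) F).map σ = c • (g : Matrix (Fin n) (Fin n) F)} = (q₀ ^ r - 1) / (q₀ - 1) * ∏ i : Fin n, (q₀ ^ n - q₀ ^ (i : ℕ)) := by
  have : Nonempty (Fin n) := ⟨⟨0, hn⟩⟩
  have h3 : Nat.card (fixedFld σ) = q₀ := by
    have := card_fixedFld_pow σ
    rw [hσ, Nat.card_eq_fintype_card (α := F), hF] at this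
    exact Nat.pow_left_injective hr.ne_zero this
  let H := (Subgroup.centralizer {fieldAut (Fin n) F σ}).comap (diagAut (Fin n) F)
  have h1 : ∀ g : GL (Fin n) F, (∃ c : F, c ≠ 0 ∧ (g : Matrix (Fin n) (Fin n) F).map σ =
      c • (g : Matrix (Fin n) (Fin n) F)) ↔ g ∈ H := by
    intro g
    rw [Subgroup.mem_comap, (induces_fieldAut σ).mem_centralizer_iff, ← Subgroup.inv_mem_iff, mul_inv_rev, inv_inv,
      mul_inv_mem_center_iff, coe_glField]
    refine exists_congr fun c => and_iff_right_of_imp fun h h0 => ?_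
    rw [h0, zero_smul, ← coe_glField] at h
    exact Units.ne_zero _ h
  rw [Nat.card_congr (Equiv.subtypeEquivRight h1)]
  obtain ⟨e⟩ := centralizer_fieldAut_equiv (n := n) σ
  have h2 : H.map (diagAut (Fin n) F) = Cfsg.inndiagPSL n F ⊓ Subgroup.centralizer {fieldAut (Fin n) F σ} := by
    rw [Subgroup.map_comap_eq, inndiagPSL_eq]
  have h4 : (diagAut (Fin n) F).ker ≤ H := Subgroup.ker_le_comap _ _
  have h5 := Subgroup.card_mul_index ((diagAut (Fin n) F).ker.subgroupOf H)
  rw [Nat.card_congr (Subgroup.subgroupOfEquivOfLe h4).toEquiv, ker_diagAut, CL.SLn.card_center_GL,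
    ← ker_diagAut, ← Subgroup.relIndex, Subgroup.relIndex_ker, h2, Nat.card_congr e.toEquiv] at h5
  have := Fintype.ofFinite (fixedFld σ)
  have h6 := CL.SLn.card_PGL_mul (ι := Fin n) (F := fixedFld σ)
  rw [CL.SLn.card_GL, ← Nat.card_eq_fintype_card (α := fixedFld σ), h3] at h6
  have h7 := h6.trans (Finset.prod_equiv (t := Finset.univ)
    (g := fun i : Fin n => q₀ ^ n - q₀ ^ (i : ℕ)) (finCongr (Fintype.card_fin n)) (by simp) (by simp))
  change Nat.card H = _
  rw [← h5, ← h7, hF, ← mul_assoc, Nat.div_mul_cancel (Nat.sub_one_dvd_pow_sub_one _ _)]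

end Cfsg.Agent.S2636
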