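import Cfsg.Statements.S2637
import Cfsg.Agent.Known.FormEmbed

set_option autoImplicit false
open Cfsg

namespace Cfsg.Agent.S2637

open CL.Known CL.Cls CL.GLn CL.Uni Module Polynomial

/-- Centraliser of a fixed-point-free element of order three in Sp_2m(q) when q ≡ 2 (mod 3): if x ∈ Sp_2m(F) (|F| = q, m ≥ 1) satisfies x³ = 1 and x − 1 is invertible, then its centraliser in Sp_2m(F) has the order of the unitary group GU_m(q), namely q^(m(m−1)/2) Π_(i=1)^m (q^i − (−1)^i) (x lies in the centre of a subgroup GU_m(q) of Sp_2m(q)). -/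
theorem result {F : Type*} [Field F] [Fintype F] {q : ℕ} (hF : Fintype.card F = q) (hq : q % 3 = 2) {m : ℕ} (hm : 1 ≤ m) (x : Matrix.symplecticGroup (Fin m) F) (hx3 : x ^ 3 = 1) (hfpf : IsUnit ((x : Matrix (Fin m ⊕ Fin m) (Fin m ⊕ Fin m) F) - 1)) : (Nat.card ↥(Subgroup.centralizer ({x} : Set ↥(Matrix.symplecticGroup (Fin m) F))) : ℤ) = (q : ℤ) ^ (m * (m - 1) / 2) * ∏ i : Fin m, ((q : ℤ) ^ ((i : ℕ) + 1) - (-1) ^ ((i : ℕ) + 1)) := by
  obtain ⟨p, _, n, hp, hn⟩ := FiniteField.card' F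
  have := Fact.mk hp
  let K := GaloisField p (n * 2)
  have := Fintype.ofFinite K
  have hK : Fintype.card K = q ^ 2 := by
    rw [← Nat.card_eq_fintype_card, GaloisField.card p _ (by have := n.pos; omega), pow_mul, ← hn, hF]
  obtain ⟨f⟩ := nonempty_ringHom_of_card_eq_pow (F := F) (K := K) (m := 2) (by rw [hK, hF])
  let := f.toAlgebra
  have h := isBar_bar hK
  have hP : (X ^ 2 + X + 1 : F[X]).natDegree = 2 := by compute_degree!
  obtain ⟨ω, hω⟩ := exists_root_of_card_sq (F := F) (K := K) (by rw [hK, hF]) hP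
  have hω1 : ω ^ 2 + ω + 1 = 0 := by simpa using hω
  have hω3 : ω ^ 3 = 1 := by linear_combination (ω - 1) * hω1
  have hb : bar hK ω = ω ^ 2 := by
    rw [bar_apply, ← Nat.div_add_mod q 3, hq, pow_add, pow_mul, hω3, one_pow, one_mul]
  have hne : bar hK ω ≠ ω := fun e => by
    have h1 : ω = 1 := by linear_combination hω3 - (ω + 1) * (hb.symm.trans e)
    have h3 : ((3 : ℕ) : K) = 0 := by rw [h1] at hω1; push_cast; linear_combination hω1
    have h4 := h.cast_q
    rw [← Nat.div_add_mod q 3, hq, Nat.cast_add, Nat.cast_mul, h3] at h4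
    push_cast at h3 h4
    exact one_ne_zero (α := K) (by linear_combination h3 - h4)
  have hi : IsIntegral F ω := Algebra.IsIntegral.isIntegral ω
  have hmin : minpoly F ω = X ^ 2 + X + 1 := by
    refine (Polynomial.eq_of_monic_of_dvd_of_natDegree_le (minpoly.monic hi) (by monicity!) (minpoly.dvd F ω hω)
      ?_).symm
    rw [hP, minpoly.two_le_natDegree_iff hi]
    rintro ⟨a, ha⟩
    exact hne (by rw [← ha, bar_algebraMap h hF])
  rw [card_centralizer_congr (CL.Sp.spEquiv (Fin m) F), card_centralizer_of_minpoly h hF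
    (ω := ω) (by rw [hb, ← hω3]; ring) hne (CL.Sp.stdForm_nondegenerate _ _).1 (CL.Sp.stdForm_isAlt _ _)
    (CL.Sp.finrank_std m), cast_guOrder (h.two_le.trans' one_le_two)]
  have e : ((CL.Sp.spEquiv (Fin m) F x).1 : End F (Fin m ⊕ Fin m → F)) = Matrix.toLin' x.1 :=
    LinearMap.ext fun _ => rfl
  rw [e, aeval_toLin', hmin]
  have h3 : x.1 ^ 3 = 1 := congrArg Subtype.val hx3
  have h4 : (x.1 - 1) * (x.1 ^ 2 + x.1 + 1) = 0 := by
    rw [← sub_eq_zero.2 h3]; noncomm_ring
  simp only [map_add, map_pow, aeval_X, map_one, hfpf.mul_right_eq_zero.1 h4, map_zero]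

end Cfsg.Agent.S2637
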