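import Cfsg.Statements.S2638
import Cfsg.Agent.Known.GLOrd

set_option autoImplicit false
open Cfsg

namespace Cfsg.Agent.S2638


/-- If an element x of GL_n(q), n ≥ 1, has prime order r and the multiplicative order of q modulo r is n (r is a primitive prime divisor of q^n − 1, so x acts irreducibly), then the centraliser of x in GL_n(q) is cyclic of order q^n − 1 (the multiplicative group of the field with q^n elements, a Singer cycle). -/
theorem result {F : Type*} [Field F] [Fintype F] {p q : ℕ} [Fact p.Prime] [CharP F p] (hF : Fintype.card F = q) {n r : ℕ} (hn : 1 ≤ n) (hr : r.Prime) (hrp : r ≠ p) (hi : orderOf (q : ZMod r) = n) (x : GL (Fin n) F) (hx : orderOf x = r) : IsCyclic ↥(Subgroup.centralizer ({x} : Set (GL (Fin n) F))) ∧ Nat.card ↥(Subgroup.centralizer ({x} : Set (GL (Fin n) F))) = q ^ n - 1 := by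
  have hcop : r.Coprime p := (Nat.coprime_primes hr Fact.out).2 hrp
  have hx1 : x ^ r = 1 := hx ▸ pow_orderOf_eq_one x
  have hirr := CL.GLn.irreducible_elemDiv_of_pow_eq_one p hcop hx1
  have hX := (CL.GLn.isUnit_iff_elemDiv _).1 x.isUnit
  have hne : ¬ x ^ 1 = 1 := by
    rw [pow_one]; rintro rfl
    rw [orderOf_one] at hx
    exact hr.one_lt.ne hx
  rw [CL.GLn.GL_pow_eq_one_iff_ordP] at hx1 hne
  push Not at hne
  obtain ⟨P, hP, hP1⟩ := hne
  have h1 : CL.GLn.ordP P = r := ((Nat.dvd_prime hr).1 (hx1 P hP)).resolve_left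
    (fun h => hP1 (h ▸ dvd_rfl))
  have h2 := CL.GLn.natDegree_eq_orderOf_ordP (hirr P hP) (hX P hP)
  rw [h1, Nat.card_eq_fintype_card, hF, hi] at h2
  obtain ⟨s, hs⟩ := Multiset.exists_cons_of_mem hP
  have h3 := CL.GLn.sum_natDegree_elemDiv (x : Matrix (Fin n) (Fin n) F)
  rw [hs, Multiset.map_cons, Multiset.sum_cons, h2, Fintype.card_fin] at h3
  have h4 : s = 0 := by
    by_contra h0
    obtain ⟨Q, hQ⟩ := Multiset.exists_mem_of_ne_zero h0
    have a := (hirr Q (hs ▸ Multiset.mem_cons_of_mem hQ)).natDegree_pos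
    have b := Multiset.single_le_sum (fun _ _ => Nat.zero_le _) _
      (Multiset.mem_map_of_mem Polynomial.natDegree hQ)
    omega
  rw [h4] at hs
  have e := (CL.GLn.isCyc_of_elemDiv_eq hs).centralizerEquiv
  have : Fact (Irreducible P) := ⟨hirr P hP⟩
  have := CL.GLn.finite_adjoinRoot (hirr P hP).ne_zero
  have : Finite (AdjoinRoot P) := Module.finite_of_finite F
  refine ⟨isCyclic_of_surjective e e.surjective, ?_⟩
  rw [← Nat.card_congr e.toEquiv, Nat.card_units, CL.GLn.natCard_adjoinRoot (hirr P hP).ne_zero, h2,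
    Nat.card_eq_fintype_card, hF]

end Cfsg.Agent.S2638
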