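import Cfsg.Statements.S2639
import Cfsg.Agent.Known.FormEmbed

set_option autoImplicit false
open Cfsg

namespace Cfsg.Agent.S2639

open CL.Known CL.Cls CL.GLn CL.Uni Module Polynomial

/-- The unitary group embeds in the symplectic group of twice the dimension over the subfield: for a field K with q² elements and a field F with q elements (isomorphic to the subfield of K of order q), there is an injective homomorphism GU_m(q) → Sp_2m(F). -/
theorem result {K F : Type*} [Field K] [Fintype K] [Field F] [Fintype F] {q : ℕ} (hK : Fintype.card K = q ^ 2) (hF : Fintype.card F = q) (m : ℕ) : ∃ φ : ↥(Cfsg.GU m K q) →* ↥(Matrix.symplecticGroup (Fin m) F), Function.Injective φ := by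
  obtain ⟨f⟩ := nonempty_ringHom_of_card_eq_pow (F := F) (K := K) (m := 2) (by rw [hK, hF])
  let := f.toAlgebra
  have h := isBar_bar hK
  have hH := isHerm_stdB h (Fin m)
  have hd : finrank F (Fin m → K) = 2 * m := by
    rw [← Module.finrank_mul_finrank F K, finrank_bar h hF, Module.finrank_fin_fun]
  let ρ := (resHom F K _).comp ((UG _).subtype.comp (guEquiv h m).toMonoidHom)
  have hρ : Function.Injective ρ := resHom_injective.comp (Subtype.val_injective.comp (guEquiv h m).injective)
  obtain ⟨B, hB, hA, hg⟩ := exists_alt_of_herm (F := F) hH hF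
  exact exists_sp_embedding ρ hρ hB hA hd fun g => (hg (guEquiv h m g).1).2 (guEquiv h m g).2

end Cfsg.Agent.S2639
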