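import Cfsg.Statements.S2640
import Cfsg.Agent.Known.FormEmbed

set_option autoImplicit false
open Cfsg

namespace Cfsg.Agent.S2640

open CL.Known CL.Cls CL.GLn CL.Uni Module Polynomial

/-- For m even, the unitary group GU_m(q) (over the field with q² elements) embeds in the orthogonal group O⁺_2m(q) of the hyperbolic form Σ x_i y_i over the field with q elements (there is an injective homomorphism). -/
theorem result {K F : Type*} [Field K] [Fintype K] [Field F] [Fintype F] {q : ℕ} (hK : Fintype.card K = q ^ 2) (hF : Fintype.card F = q) (m : ℕ) (hm : Even m) : ∃ φ : ↥(Cfsg.GU m K q) →* ↥(Cfsg.isometryGroup F (Cfsg.quadFormPlus m F)), Function.Injective φ := by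
  obtain ⟨f⟩ := nonempty_ringHom_of_card_eq_pow (F := F) (K := K) (m := 2) (by rw [hK, hF])
  let := f.toAlgebra
  have h := isBar_bar hK
  have hH := isHerm_stdB h (Fin m)
  have hd : finrank F (Fin m → K) = 2 * m := by
    rw [← Module.finrank_mul_finrank F K, finrank_bar h hF, Module.finrank_fin_fun]
  let ρ := (resHom F K _).comp ((UG _).subtype.comp (guEquiv h m).toMonoidHom)
  have hρ : Function.Injective ρ := resHom_injective.comp (Subtype.val_injective.comp (guEquiv h m).injective)
  obtain ⟨Q, hQ, hQv, hP⟩ := exists_quad_of_herm (F := F) hH hF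
  rw [Module.finrank_fin_fun] at hP
  have hg : ∀ g v, Q (ρ g v) = Q v := fun g v => (algebraMap F K).injective (by
    rw [hQv, hQv]; exact (guEquiv h m g).2 v v)
  obtain ⟨e, he⟩ := exists_equiv_of_isPlus_iff hQ nondeg_qfPlus hd (CL.Sp.finrank_std m)
    (iff_of_true (hP.2 hm) (isPlus_qfPlus m))
  exact exists_isom_embedding ρ hρ (qfPlus m F) e he hg

end Cfsg.Agent.S2640
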