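import Cfsg.Statements.S2642
import Cfsg.Agent.Known.UniClass3
import Cfsg.Agent.S2570

set_option autoImplicit false
open Cfsg

namespace Cfsg.Agent.S2642

/-- Number of conjugacy classes of elements of order p in the general unitary group GU_n(q), q a power of p: every unipotent Jordan type occurs and the classes correspond to the partitions of n with all parts at most p other than the all-ones partition, exactly as in GL_n; so there are (number of partitions of n with parts ≤ p) − 1 classes. -/
theorem result {K : Type*} [Field K] [Fintype K] {p q n : ℕ} [Fact p.Prime] [CharP K p] (hK : Fintype.card K = q ^ 2) : Nat.card {C : ConjClasses ↥(Cfsg.GU n K q) // ∃ g : ↥(Cfsg.GU n K q), ConjClasses.mk g = C ∧ orderOf g = p} = (Finset.univ.filter (fun μ : Nat.Partition n => ∀ a ∈ μ.parts, a ≤ p)).card - 1 := by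
  have h := CL.Uni.isBar_bar hK
  rw [← Cfsg.Agent.S2570.result (F := K) (p := p) n,
    ← CL.Known.card_GU_classes h (fun g => orderOf g = p) (fun a b hab ha => by
        obtain ⟨c, hc⟩ := hab
        rw [← SemiconjBy.orderOf_eq (c : GL (Fin n) K) hc, ha])
      fun g hg => CL.Known.exists_GU_isConj_of_unipotent h g
        ((CL.GLn.GL_orderOf_eq_pow_iff p g).1 ⟨1, by rw [pow_one, hg]⟩)]
  simp only [Subgroup.orderOf_coe]

end Cfsg.Agent.S2642
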