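import Cfsg.Statements.S2643
import Cfsg.Agent.Known.UniClass3

set_option autoImplicit false
open Cfsg

namespace Cfsg.Agent.S2643

/-- Regular unipotent classes of SU_n(q), n ≥ 2: the elements u of the special unitary group (isometries of Σ u_i v_i^q of determinant one over the field with q² elements) with (u − 1)^n = 0 and rank(u − 1) = n − 1 form exactly gcd(n, q + 1) conjugacy classes of SU_n(q). -/
theorem result {K : Type*} [Field K] [Fintype K] {q n : ℕ} (hK : Fintype.card K = q ^ 2) (hn : 2 ≤ n) : Nat.card {C : ConjClasses ↥(Cfsg.SU n K q) // ∃ u : ↥(Cfsg.SU n K q), ConjClasses.mk u = C ∧ (((u : GL (Fin n) K) : Matrix (Fin n) (Fin n) K) - 1) ^ n = 0 ∧ (((u : GL (Fin n) K) : Matrix (Fin n) (Fin n) K) - 1).rank = n - 1} = Nat.gcd n (q + 1) := by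
  have h := CL.Uni.isBar_bar hK
  have : Nonempty (Fin n) := ⟨⟨0, by omega⟩⟩
  obtain ⟨g₀, hg₀⟩ := CL.GLn.exists_GL_of_partition (F := K) (n := Fin n) (Nat.Partition.indiscrete _)
  have hu₀ := (CL.GLn.isNilpotent_sub_one_iff _).2 ⟨_, hg₀⟩
  obtain ⟨g, hg'⟩ := CL.Known.exists_GU_isConj_of_unipotent h g₀ hu₀
  have hg := (CL.GLn.isConj_GL_iff_elemDiv.1 hg').symm.trans hg₀
  have hu := (CL.GLn.isNilpotent_sub_one_iff _).2 ⟨_, hg⟩
  rw [Nat.Partition.indiscrete_parts Fintype.card_ne_zero, Multiset.map_singleton] at hg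
  obtain ⟨u, rfl⟩ : g ∈ (CL.Known.suToGU n K q).range := by
    rw [CL.Known.range_suToGU]
    exact Units.ext (CL.GLn.det_eq_one_of_isNilpotent hu)
  rw [CL.Known.coe_suToGU] at hg hu
  have h1 := CL.Known.card_SU_classes_in_class h (by omega) u
  have h2 : ∀ v : Matrix (Fin n) (Fin n) K,
      IsConj ((u : Matrix.SpecialLinearGroup (Fin n) K) : Matrix (Fin n) (Fin n) K) v ↔
      (v - 1) ^ n = 0 ∧ (v - 1).rank = n - 1 := by
    intro v
    rw [CL.GLn.isConj_iff_elemDiv, hg]
    constructor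
    · intro h
      have a := CL.GLn.rank_of_elemDiv_regular h.symm 1
      have b := (CL.GLn.sub_one_pow_eq_zero_iff v n).2 (by rw [← h]; simp)
      rw [pow_one, Fintype.card_fin, min_eq_right (by omega)] at a
      exact ⟨b, by omega⟩
    · rintro ⟨a, b⟩
      exact (CL.GLn.elemDiv_of_regular_unipotent ⟨_, a⟩ (by simpa using b)).symm
  simp only [h2] at h1
  refine h1.trans ?_
  have h3 : (Subgroup.centralizer {CL.Known.suToGU n K q u}).map (CL.Known.guDet n K q) =
      ((powMonoidHom (q + 1) : Kˣ →* Kˣ).ker).map (powMonoidHom n : Kˣ →* Kˣ) := by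
    ext c
    simp only [Subgroup.mem_map, Subgroup.mem_centralizer_singleton_iff, MonoidHom.mem_ker,
      powMonoidHom_apply]
    constructor
    · rintro ⟨x, hx, rfl⟩
      obtain ⟨Q, hQ⟩ := (CL.GLn.isCyc_of_elemDiv_eq hg).exists_aeval_of_commute (B := x.1)
        (congrArg (fun A : Cfsg.GU n K q => ((A : GL (Fin n) K) : Matrix (Fin n) (Fin n) K)) hx)
      have h4 := CL.GLn.det_aeval_of_unipotent hu Q
      rw [← hQ, Fintype.card_fin] at h4
      have h5 : Q.eval 1 ≠ 0 := by
        intro h0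
        rw [h0, zero_pow (by omega)] at h4
        exact x.1.det_ne_zero h4
      refine ⟨Units.mk0 _ h5, Units.ext ?_, Units.ext h4.symm⟩
      rw [Units.val_pow_eq_pow_val, Units.val_mk0, Units.val_one, ← h.norm_eq_pow]
      -- `x` has the single eigenvalue `Q(1)`
      have hnil : IsNilpotent (((x : GL (Fin n) K) : Matrix (Fin n) (Fin n) K) - Matrix.scalar _ (Q.eval 1)) := by
        obtain ⟨R, hR⟩ := Polynomial.X_sub_C_dvd_sub_C_eval (p := Q) (a := 1)
        have e := congrArg (Polynomial.aeval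
          ((u : Matrix.SpecialLinearGroup (Fin n) K) : Matrix (Fin n) (Fin n) K)) hR
        rw [map_sub, map_mul, map_sub, Polynomial.aeval_X, Polynomial.aeval_C, Polynomial.aeval_C, map_one,
          ← hQ] at e
        rw [show Matrix.scalar (Fin n) (Q.eval 1) = algebraMap K _ (Q.eval 1) from rfl, e]
        refine Commute.isNilpotent_mul_right ?_ hu
        exact Commute.sub_left (CL.GLn.aeval_mul_self_comm _ R).symm (Commute.one_left _)
      exact CL.Known.norm_eq_one_of_isNilpotent h x hnil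
    · rintro ⟨d, hd, rfl⟩
      have hd' : (d : K) * CL.Uni.bar hK d = 1 := by
        rw [h.norm_eq_pow, ← Units.val_pow_eq_pow_val, hd, Units.val_one]
      exact ⟨⟨_, CL.Known.scalar_mem_GU h hd'⟩,
        Subtype.ext (Matrix.GeneralLinearGroup.scalar_commute _ _), by
          apply Units.ext; simp [CL.Known.coe_guDet]⟩
  rw [h3, CL.Known.relIndex_map_pow, h.card_units_pow_eq_one (Dvd.intro_left _ rfl), Nat.gcd_comm]

end Cfsg.Agent.S2643
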