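import Cfsg.Statements.S2644
import Cfsg.Agent.Known.UniClass2

set_option autoImplicit false
open Cfsg

namespace Cfsg.Agent.S2644

/-- In the special unitary group SU_n(q) with n ≥ 3 (isometries of Σ u_i v_i^q of determinant one over the field with q² elements), any two transvections (elements t with t − 1 of rank one and square zero) are conjugate. -/
theorem result {K : Type*} [Field K] [Fintype K] {q n : ℕ} (hK : Fintype.card K = q ^ 2) (hn : 3 ≤ n) (s t : ↥(Cfsg.SU n K q)) (hs : Cfsg.IsTransvection (((s : GL (Fin n) K) : Matrix (Fin n) (Fin n) K))) (ht : Cfsg.IsTransvection (((t : GL (Fin n) K) : Matrix (Fin n) (Fin n) K))) : IsConj s t := by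
  have h := CL.Uni.isBar_bar hK
  refine CL.Known.isConj_SU_of h s t ?_ fun _ l hl => ?_
  · refine CL.GLn.isConj_of_unipotent ⟨2, by rw [sq]; exact hs.2⟩ ⟨2, by rw [sq]; exact ht.2⟩ fun k => ?_
    rcases k with _ | _ | k
    · simp
    · rw [zero_add, pow_one, pow_one]; exact hs.1.trans ht.1.symm
    · rw [pow_eq_zero_of_le (m := 2) (by omega) (by rw [sq]; exact hs.2),
        pow_eq_zero_of_le (m := 2) (by omega) (by rw [sq]; exact ht.2)]
  · have hk := CL.GLn.finrank_ker_add_rank
      (((s : Matrix.SpecialLinearGroup (Fin n) K) : Matrix (Fin n) (Fin n) K) - 1)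
    have h1 : (((s : Matrix.SpecialLinearGroup (Fin n) K) : Matrix (Fin n) (Fin n) K) - 1).rank = 1 := hs.1
    rw [h1, Fintype.card_fin] at hk
    obtain ⟨w, hw, hw0⟩ := CL.Known.exists_nonisotropic_mem (CL.Uni.isHerm_stdB h (Fin n))
      (LinearMap.ker (Matrix.toLin'
        (((s : Matrix.SpecialLinearGroup (Fin n) K) : Matrix (Fin n) (Fin n) K) - 1)))
      (by rw [Module.finrank_fin_fun]; omega)
    refine CL.Known.exists_UG_det_of_eigen (CL.Uni.isHerm_stdB h _)
      (CL.Uni.SUG_le_UG (CL.Uni.suEquiv h n s).2) hw0 (a := 1) ?_ hl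
    rw [LinearMap.mem_ker, Matrix.toLin'_apply, Matrix.sub_mulVec, Matrix.one_mulVec, sub_eq_zero] at hw
    rw [CL.Uni.suEquiv_apply, hw, one_smul]

end Cfsg.Agent.S2644
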