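import Cfsg.Statements.S2645
import Cfsg.Agent.Known.SemiClass

set_option autoImplicit false
open Cfsg

namespace Cfsg.Agent.S2645

open CL.Known CL.Cls CL.GLn Module Polynomial

/-- Number of conjugacy classes of elements of odd prime order r, r different from the characteristic, in the symplectic group Sp_2m(q): let i be the multiplicative order of q modulo r and t = (r − 1)/i. If i is odd the eigenvalue orbits pair off (Λ ≠ Λ⁻¹) and the classes correspond to the non-zero (t/2)-tuples (a_j) with 2i Σ a_j ≤ 2m, giving C(⌊m/i⌋ + t/2, t/2) − 1 classes; if i is even (Λ = Λ⁻¹) they correspond to the non-zero t-tuples with i Σ a_j ≤ 2m, giving C(⌊2m/i⌋ + t, t) − 1 classes. -/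
theorem result {F : Type*} [Field F] [Fintype F] {p q : ℕ} [Fact p.Prime] [CharP F p] (hF : Fintype.card F = q) (m r i t : ℕ) (hr : r.Prime) (hr2 : r ≠ 2) (hrp : r ≠ p) (hi : i = orderOf (q : ZMod r)) (ht : t * i = r - 1) : Nat.card {C : ConjClasses ↥(Matrix.symplecticGroup (Fin m) F) // ∃ g : Matrix.symplecticGroup (Fin m) F, ConjClasses.mk g = C ∧ orderOf g = r} = if Odd i then Nat.choose (m / i + t / 2) (t / 2) - 1 else Nat.choose (2 * m / i + t) t - 1 := by
  have hrF := natCast_ne_zero_of_prime_ne (K := F) p hr hrp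
  have hi0 : 0 < i := Nat.pos_of_ne_zero fun h => by
    have := hr.two_le
    rw [h] at ht
    omega
  rw [← hF, ← Nat.card_eq_fintype_card] at hi
  rw [sp_card_order_classes hr hr2 hrF hi]
  refine card_recip_multiset_id hr hr2 hrF hi ht (fun k => k ≠ 0 ∧ k * i ≤ Fintype.card (Fin m ⊕ Fin m) ∧ True)
    (fun _ k => ?_) fun _ k => ?_
  · simp [Nat.le_div_iff_mul_le hi0, two_mul]
  · simp only [Nat.le_div_iff_mul_le hi0, Fintype.card_sum, Fintype.card_fin, mul_assoc, and_true]
    omega

end Cfsg.Agent.S2645
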