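import Cfsg.Statements.S2646
import Cfsg.Agent.Known.UnipGL
import Cfsg.Agent.Known.FormEmbed

set_option autoImplicit false
open Cfsg

namespace Cfsg.Agent.S2646

open CL.Known CL.Cls CL.GLn Module Polynomial

/-- Order of the centraliser in the general unitary group GU_n(q) of a unipotent element of given Jordan type: if u ∈ GU_n(q) (isometries of Σ u_i v_i^q over the field with q² elements) is similar to the unipotent matrix with a_i Jordan blocks of size i (all sizes at least 1), then its centraliser in GU_n(q) has order q^γ · Π_i |GU_(a_i)(q)| with γ = 2 Σ_(i<j) i a_i a_j + Σ_i (i − 1) a_i², the same exponent as in GL_n(q), where |GU_a(q)| = q^(a(a−1)/2) Π_(k=1)^a (q^k − (−1)^k). -/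
theorem result {K : Type*} [Field K] [Fintype K] {q n t : ℕ} (hK : Fintype.card K = q ^ 2) (d : Fin t → ℕ) (hd : ∀ k, 1 ≤ d k) (e : ((k : Fin t) × Fin (d k)) ≃ Fin n) (u : ↥(Cfsg.GU n K q)) (hu : IsConj (Matrix.reindex e e (Cfsg.jordanTypeMatrix d K)) ((u : GL (Fin n) K) : Matrix (Fin n) (Fin n) K)) : (Nat.card ↥(Subgroup.centralizer ({u} : Set ↥(Cfsg.GU n K q))) : ℤ) = (q : ℤ) ^ (2 * (∑ i ∈ Finset.range (Finset.univ.sup d + 1), ∑ j ∈ Finset.range (Finset.univ.sup d + 1), if i < j then i * (Finset.univ.filter (fun k : Fin t => d k = i)).card * (Finset.univ.filter (fun k : Fin t => d k = j)).card else 0) + ∑ i ∈ Finset.range (Finset.univ.sup d + 1), (i - 1) * (Finset.univ.filter (fun k : Fin t => d k = i)).card ^ 2) * ∏ i ∈ Finset.range (Finset.univ.sup d + 1), ((q : ℤ) ^ ((Finset.univ.filter (fun k : Fin t => d k = i)).card * ((Finset.univ.filter (fun k : Fin t => d k = i)).card - 1) / 2) * ∏ j : Fin (Finset.univ.filter (fun k : Fin t => d k = i)).card, ((q : ℤ) ^ ((j : ℕ) + 1)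 - (-1) ^ ((j : ℕ) + 1))) := by
  have hb := CL.Uni.isBar_bar hK
  have h := card_comm_unitary _ (CL.Uni.isHerm_stdB hb (Fin n)) _ (CL.Uni.guEquiv hb n u).2 _ (le_sup_of_mem_univ_map d) fun k =>
    (rk_of_mulVec (CL.Uni.guEquiv_apply hb u) k).trans (by
      rw [← rank_sub_one_pow_of_isConj hu, rank_reindex_jordan])
  rw [prod_centralizer_univ _ (CL.Uni.guOrder q) (CL.Uni.guOrder_zero q) d hd] at h
  rw [card_centralizer_congr (CL.Uni.guEquiv hb n), Nat.card_congr (Equiv.subtypeEquivRight fun y => Subtype.ext_iff)]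
  refine (congrArg Nat.cast h).trans ?_
  simp only [Nat.cast_mul, Nat.cast_prod, Nat.cast_pow, cast_guOrder (hb.two_le.trans' one_le_two)]

end Cfsg.Agent.S2646
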