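import Cfsg.Statements.S2654
import Cfsg.Agent.Chev.AltSec11

set_option autoImplicit false
open scoped MatrixGroups
open Cfsg

namespace Cfsg.Agent.S2654

/-- Alternating sections of the groups of type E₈. Let `F` be a finite field of characteristic `p` and let `G` be the Chevalley group of type E₈ over `F`. If some subgroup of `G` has a quotient isomorphic to the alternating group of degree `r`, then `r` is at most 17, or 18 in characteristic 3. (Only an upper bound is asserted.) -/
theorem result {F : Type*} [Field F] [Fintype F] (p : ℕ) [Fact p.Prime] [CharP F p]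
    (r : ℕ) (H : Subgroup ↥(Cfsg.Lie.chevE8.group F)) (K : Subgroup ↥H) [K.Normal]
    (h : Nonempty (↥H ⧸ K ≃* ↥(alternatingGroup (Fin r)))) :
    r ≤ 17 + (if p = 3 then 1 else 0) := by
  by_contra hr
  split_ifs at hr with hp
  · obtain ⟨L, π, hπ⟩ := CL.AltSec.exists_surj (m := 19) (r := r) (by omega) H K h
    exact CL.AltEx.not_alt_E8' p hp L π hπ
  · obtain ⟨L, π, hπ⟩ := CL.AltEx.exists_surj' (Ω := (Fin 2 × ZMod 3) × ZMod 3) (r := r)
      (by rw [Fintype.card_prod, Fintype.card_prod, ZMod.card, Fintype.card_fin]; omega) H K h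
    exact CL.AltEx.not_alt_E8 p hp L π hπ

end Cfsg.Agent.S2654
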