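import Cfsg.Statements.S2655
import Cfsg.Agent.Chev.AltSec9

set_option autoImplicit false
open scoped MatrixGroups
open Cfsg

namespace Cfsg.Agent.S2655

/-- Alternating sections of the groups of type E₇. Let `F` be a finite field of characteristic `p` and let `G` be the Chevalley group of type E₇ over `F`. If some subgroup of `G` has a quotient isomorphic to the alternating group of degree `r`, then `r` is at most 13, or 14 in characteristic 7. (Only an upper bound is asserted.) -/
theorem result {F : Type*} [Field F] [Fintype F] (p : ℕ) [Fact p.Prime] [CharP F p]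
    (r : ℕ) (H : Subgroup ↥(Cfsg.Lie.chevE7.group F)) (K : Subgroup ↥H) [K.Normal]
    (h : Nonempty (↥H ⧸ K ≃* ↥(alternatingGroup (Fin r)))) :
    r ≤ 13 + (if p = 7 then 1 else 0) := by
  by_contra hr
  haveI := CL.AltEx.fact5
  haveI := CL.AltEx.fact7
  split_ifs at hr with hp
  · obtain ⟨L, π, hπ⟩ := CL.AltEx.exists_surj' (Ω := Fin 3 × ZMod 5) (r := r)
      (by rw [Fintype.card_prod, ZMod.card, Fintype.card_fin]; omega) H K h
    exact CL.AltEx.not_alt_E7' p hp L π hπ
  · obtain ⟨L, π, hπ⟩ := CL.AltEx.exists_surj' (Ω := Fin 2 × ZMod 7) (r := r)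
      (by rw [Fintype.card_prod, ZMod.card, Fintype.card_fin]; omega) H K h
    exact CL.AltEx.not_alt_E7 p hp L π hπ

end Cfsg.Agent.S2655
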