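import Cfsg.Statements.S2656
import Cfsg.Agent.Chev.AltSec13

set_option autoImplicit false
open scoped MatrixGroups
open Cfsg

namespace Cfsg.Agent.S2656

/-- Alternating sections of the groups of type E₆. Let `F` be a finite field of characteristic `p` and let `G` be the Chevalley group of type E₆ over `F`. If some subgroup of `G` has a quotient isomorphic to the alternating group of degree `r`, then `r ≤ 12`, and `r ≤ 11` unless the characteristic is 2, 3 or 5. (Only an upper bound is asserted; characteristic 3 is admitted among the exceptions because the alternating group of degree 12 embeds in a ten-dimensional orthogonal group over the field with 3 elements.) -/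
theorem result {F : Type*} [Field F] [Fintype F] (p : ℕ) [Fact p.Prime] [CharP F p]
    (r : ℕ) (H : Subgroup ↥(Cfsg.Lie.chevE6.group F)) (K : Subgroup ↥H) [K.Normal]
    (h : Nonempty (↥H ⧸ K ≃* ↥(alternatingGroup (Fin r)))) :
    r ≤ 11 + (if p = 2 ∨ p = 3 ∨ p = 5 then 1 else 0) := by
  exact CL.AltEx.alt_E6 p H K h

end Cfsg.Agent.S2656
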