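import Cfsg.Statements.S2669
import Cfsg.Agent.Known.Shintani

set_option autoImplicit false
open Cfsg

namespace Cfsg.Agent.S2669

/-- Shintani descent preserves numbers of fixed points on coset spaces (abstract form). Let `σ` be an automorphism of a group `X` and `e ≥ 1`; write `G` for the fixed points of `σᵉ` and `H` for the fixed points of `σ`, and assume `G` is finite. Let `Y` be a `σ`-stable subgroup of `X` on which the maps `a ↦ a σ(a)⁻¹` and `a ↦ a σᵉ(a)⁻¹` are surjective (as for a closed connected `σ`-stable subgroup of an algebraic group). Let `g ∈ G`, let `a ∈ X` satisfy `g = a σ(a)⁻¹` and put `x = σᵉ(a)⁻¹ a` (the Shintani image, an element of `H`). The element `g σ` of the semidirect product acts on the cosets of `Y ∩ G` in `G` by `k (Y ∩ G) ↦ g σ(k) (Y ∩ G)`, fixing that coset exactly when `k⁻¹ g σ(k) ∈ Y`; and `x` fixes the coset `h (Y ∩ H)` of `H` exactly when `h⁻¹ x h ∈ Y`. Then the two numbers of fixed cosets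 agree; in cross-multiplied form, `#{k ∈ G : k⁻¹ g σ(k) ∈ Y} · |Y ∩ H| = #{h ∈ H : h⁻¹ x h ∈ Y} · |Y ∩ G|`. -/
theorem result {X : Type*} [Group X] (σ : MulAut X) (e : ℕ) (he : 1 ≤ e)
    [Finite ↥((MulEquiv.toMonoidHom (σ ^ e)).eqLocus (MonoidHom.id X))]
    (Y : Subgroup X) (hY : ∀ y : X, y ∈ Y ↔ σ y ∈ Y)
    (hYL : ∀ y ∈ Y, ∃ a ∈ Y, y = a * (σ a)⁻¹) (hYLe : ∀ y ∈ Y, ∃ a ∈ Y, y = a * ((σ ^ e) a)⁻¹)
    (g : X) (hg : g ∈ (MulEquiv.toMonoidHom (σ ^ e)).eqLocus (MonoidHom.id X)) (a : X) (ha : g = a * (σ a)⁻¹) :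
    Nat.card {k : ↥((MulEquiv.toMonoidHom (σ ^ e)).eqLocus (MonoidHom.id X)) // (k : X)⁻¹ * g * σ k ∈ Y} *
        Nat.card ↥(Y ⊓ (MulEquiv.toMonoidHom σ).eqLocus (MonoidHom.id X)) =
      Nat.card {h : ↥((MulEquiv.toMonoidHom σ).eqLocus (MonoidHom.id X)) // (h : X)⁻¹ * (((σ ^ e) a)⁻¹ * a) * h ∈ Y} *
        Nat.card ↥(Y ⊓ (MulEquiv.toMonoidHom (σ ^ e)).eqLocus (MonoidHom.id X)) := by
  rw [CL.Known.shin_mem_iff] at hg
  subst ha
  have hx := CL.Known.shin_image_fix σ e a hg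
  set G := (MulEquiv.toMonoidHom (σ ^ e)).eqLocus (MonoidHom.id X) with hG
  set H := (MulEquiv.toMonoidHom σ).eqLocus (MonoidHom.id X) with hH
  have hGm : ∀ k : G, (σ ^ e) (k : X) = k := fun k => k.2
  have hHm : ∀ k : H, σ (k : X) = k := fun k => k.2
  let A := {k : G // (k : X)⁻¹ * (a * (σ a)⁻¹) * σ k ∈ Y}
  let B := {h : H // (h : X)⁻¹ * (((σ ^ e) a)⁻¹ * a) * h ∈ Y}
  let R : A → B → Prop := fun k h => ((k.1 : X))⁻¹ * a * (h.1 : X) ∈ Y
  have e1 : Nat.card {p : A × B // R p.1 p.2} = Nat.card A * Nat.card ↥(Y ⊓ H) := by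
    refine CL.Known.shin_card_rel R
      (fun h y => ⟨⟨h.1 * y, H.mul_mem h.1.2 y.2.2⟩, ?_⟩) ?_ ?_ ?_ ?_
    · have := Y.mul_mem (Y.mul_mem (Y.inv_mem y.2.1) h.2) y.2.1
      convert this using 1
      simp only; group
    · rintro ⟨k, hk⟩
      have hw : (a⁻¹ * k)⁻¹ * σ (a⁻¹ * k) ∈ Y := by
        convert hk using 1
        rw [map_mul, map_inv]; group
      obtain ⟨y, hy, hfix⟩ := CL.Known.shin_fixed_rep σ Y hYL _ hw
      refine ⟨⟨⟨a⁻¹ * k * y, hfix⟩, ?_⟩, ?_⟩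
      · have h2 := CL.Known.shin_pow_fix σ e _ hfix
        rw [map_mul, map_mul, map_inv, hGm] at h2
        have h3 : (σ ^ e) y ∈ Y := (CL.Known.shin_pow_mem σ Y hY e y).1 hy
        have := Y.mul_mem (Y.inv_mem h3) hy
        convert this using 1
        simp only
        conv_lhs => rw [← h2]
        rw [h2]
        calc (a⁻¹ * ↑k * y)⁻¹ * (((σ ^ e) a)⁻¹ * a) * (a⁻¹ * ↑k * y)
            = (((σ ^ e) a)⁻¹ * ↑k * (σ ^ e) y)⁻¹ * (((σ ^ e) a)⁻¹ * a) * (a⁻¹ * ↑k * y) := by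
              rw [h2]
          _ = _ := by group
      · show (k : X)⁻¹ * a * (a⁻¹ * k * y) ∈ Y
        convert hy using 1
        group
    · rintro k h y hR
      show (k.1 : X)⁻¹ * a * (h.1 * y) ∈ Y
      rw [← mul_assoc]
      exact Y.mul_mem hR y.2.1
    · intro h y y' hyy
      have h5 := congrArg (fun z => (z.1 : X)) hyy
      exact Subtype.ext (mul_left_cancel h5)
    · intro k h h' hR hR'
      refine ⟨⟨(h.1 : X)⁻¹ * h'.1, ?_, H.mul_mem (H.inv_mem h.1.2) h'.1.2⟩, ?_⟩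
      · have := Y.mul_mem (Y.inv_mem hR) hR'
        show (h.1 : X)⁻¹ * h'.1 ∈ Y
        convert this using 1
        group
      · apply Subtype.ext; apply Subtype.ext; simp
  have e2 : Nat.card {p : B × A // R p.2 p.1} = Nat.card B * Nat.card ↥(Y ⊓ G) := by
    refine CL.Known.shin_card_rel (fun h k => R k h)
      (fun k y => ⟨⟨k.1 * y, G.mul_mem k.1.2 y.2.2⟩, ?_⟩) ?_ ?_ ?_ ?_
    · have := Y.mul_mem (Y.mul_mem (Y.inv_mem y.2.1) k.2) ((hY _).1 y.2.1)
      convert this using 1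
      simp only [map_mul]; group
    · rintro ⟨h, hh⟩
      have hw : (a * h)⁻¹ * (σ ^ e) (a * h) ∈ Y := by
        have := Y.inv_mem hh
        convert this using 1
        rw [map_mul, CL.Known.shin_pow_fix σ e _ (hHm h)]; group
      obtain ⟨y, hy, hfix⟩ := CL.Known.shin_fixed_rep (σ ^ e) Y hYLe _ hw
      refine ⟨⟨⟨a * h * y, hfix⟩, ?_⟩, ?_⟩
      · have := Y.mul_mem (Y.inv_mem hy) ((hY _).1 hy)
        convert this using 1
        simp only [map_mul, hHm]; group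
      · show (a * h * y)⁻¹ * a * (h : X) ∈ Y
        convert Y.inv_mem hy using 1
        group
    · rintro h k y hR
      show ((k.1 : X) * y)⁻¹ * a * h.1 ∈ Y
      have := Y.mul_mem (Y.inv_mem y.2.1) hR
      convert this using 1
      group
    · intro h y y' hyy
      have h5 := congrArg (fun z => (z.1 : X)) hyy
      exact Subtype.ext (mul_left_cancel h5)
    · intro h k k' hR hR'
      refine ⟨⟨(k.1 : X)⁻¹ * k'.1, ?_, G.mul_mem (G.inv_mem k.1.2) k'.1.2⟩, ?_⟩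
      · have := Y.mul_mem hR (Y.inv_mem hR')
        show (k.1 : X)⁻¹ * k'.1 ∈ Y
        convert this using 1
        group
      · apply Subtype.ext; apply Subtype.ext; simp
  rw [← e1, ← e2]
  exact Nat.card_congr ((Equiv.prodComm A B).subtypeEquiv (fun _ => Iff.rfl))

end Cfsg.Agent.S2669
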