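import Cfsg.Statements.S2671
import Cfsg.Agent.Known.SemiClass

set_option autoImplicit false
open Cfsg

namespace Cfsg.Agent.S2671

open CL.Known CL.Cls CL.GLn Module Polynomial

/-- Number of conjugacy classes of elements of odd prime order r in the general unitary group GU_n(q), for r not dividing q(q + 1): let i be the multiplicative order of q modulo r, b = i if i is odd and b = i/2 if i is even, and s = (r − 1)/b. If i ≢ 2 (mod 4) the eigenvalue orbits pair off into dual pairs of totally isotropic blocks and there are C(⌊n/(2b)⌋ + s/2, s/2) − 1 classes; if i ≡ 2 (mod 4) each orbit gives a non-degenerate block of dimension i/2 and there are C(⌊2n/i⌋ + s, s) − 1 classes. -/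
theorem result {K : Type*} [Field K] [Fintype K] {p q n r i b s : ℕ} [Fact p.Prime] [CharP K p] (hK : Fintype.card K = q ^ 2) (hr : r.Prime) (hr2 : r ≠ 2) (hrp : r ≠ p) (hi : i = orderOf (q : ZMod r)) (hi2 : i ≠ 2) (hb : b = if Odd i then i else i / 2) (hs : s * b = r - 1) : Nat.card {C : ConjClasses ↥(Cfsg.GU n K q) // ∃ g : ↥(Cfsg.GU n K q), ConjClasses.mk g = C ∧ orderOf g = r} = if i % 4 = 2 then Nat.choose (2 * n / i + s) s - 1 else Nat.choose (n / (2 * b) + s / 2) (s / 2) - 1 := by
  have h := CL.Uni.isBar_bar hK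
  have hrK := natCast_ne_zero_of_prime_ne (K := K) p hr hrp
  have hb0 : 0 < b := Nat.pos_of_ne_zero fun h => by
    have := hr.two_le
    rw [h] at hs
    omega
  have hb' : b = orderOf ((Nat.card K : ℕ) : ZMod r) := by
    rw [h.card, Nat.cast_pow, orderOf_pow' _ two_ne_zero, ← hi, hb]
    split_ifs with e
    · rw [e.coprime_two_right.gcd_eq_one, Nat.div_one]
    · rw [Nat.gcd_eq_right (even_iff_two_dvd.1 (Nat.not_odd_iff_even.1 e))]
  obtain ⟨p', f, hp', _, -, hq⟩ := h.exists_prime_pow
  obtain rfl : p = p' := CharP.eq K ‹CharP K p› ‹CharP K p'›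
  rw [GU_card_order_classes h hr hrK hb']
  refine card_recip_multiset h.bar_bar p (k := f) (hq ▸ h.apply) hr hrK (hb' ▸ hs) ?_
    (fun k => k ≠ 0 ∧ k * b ≤ Fintype.card (Fin n) ∧ True) (fun e k => ?_) fun _ k => ?_
  · rw [h.card, ← hq, exists_dvd_sq_pow_add_iff hr hr2 (by rw [← hi]; rintro rfl; simp at hb; omega), hi]
  · rw [if_neg (by rw [Nat.odd_iff]; omega)] at hb
    rw [show i = 2 * b by omega, Nat.mul_div_mul_left _ _ two_pos, Nat.le_div_iff_mul_le hb0]
    simp
  · rw [Nat.le_div_iff_mul_le (by omega), mul_left_comm, mul_assoc]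
    simp

end Cfsg.Agent.S2671
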