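import Cfsg.Statements.S2673
import Cfsg.Agent.Known.SemiClass

set_option autoImplicit false
open Cfsg

namespace Cfsg.Agent.S2673

open CL.Known CL.Cls CL.GLn Module Polynomial

/-- Number of conjugacy classes of elements of odd prime order r ≠ p in the orthogonal group O_(2m+1)(q) of x_0² + Σ x_j y_j, q odd: with i the multiplicative order of q mod r and t = (r − 1)/i, there are C(⌊m/i⌋ + t/2, t/2) − 1 classes if i is odd (dual pairs of totally singular i-blocks) and C(⌊(2m+1)/i⌋ + t, t) − 1 if i is even (elliptic i-blocks). -/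
theorem result {F : Type*} [Field F] [Fintype F] {p q : ℕ} [Fact p.Prime] [CharP F p] (hF : Fintype.card F = q) (hq : Odd q) (m r i t : ℕ) (hr : r.Prime) (hr2 : r ≠ 2) (hrp : r ≠ p) (hi : i = orderOf (q : ZMod r)) (ht : t * i = r - 1) : Nat.card {C : ConjClasses ↥(Cfsg.isometryGroup F (Cfsg.quadFormOdd m F)) // ∃ g : ↥(Cfsg.isometryGroup F (Cfsg.quadFormOdd m F)), ConjClasses.mk g = C ∧ orderOf g = r} = if Odd i then Nat.choose (m / i + t / 2) (t / 2) - 1 else Nat.choose ((2 * m + 1) / i + t) t - 1 := by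
  have hrF := natCast_ne_zero_of_prime_ne (K := F) p hr hrp
  have hi0 : 0 < i := Nat.pos_of_ne_zero fun h => by
    have := hr.two_le
    rw [h] at ht
    omega
  rw [← hF, ← Nat.card_eq_fintype_card] at hi
  refine isom_card_order_classes' (Q := qfOdd m F) (nondeg_qfOdd (two_ne_zero_of_odd_card (hF ▸ hq))) hr hr2 hrF
    hi ht _ _ (fun _ k => ?_) fun _ k => ?_
  all_goals
    simp only [Nat.le_div_iff_mul_le hi0, Fintype.card_sum, Fintype.card_fin, Fintype.card_unit, mul_assoc]
    exact ⟨fun h => by omega, fun h => ⟨by omega, by omega, fun _ _ _ => by omega⟩⟩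

end Cfsg.Agent.S2673
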