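import Cfsg.Statements.S2674
import Cfsg.Agent.Known.SemiClass

set_option autoImplicit false
open Cfsg

namespace Cfsg.Agent.S2674

open CL.Known CL.Cls CL.GLn Module Polynomial

theorem choose_sub {N t : ℕ} (hN : N ≠ 0) (ht : t ≠ 0) :
    (N - 1 + t).choose t - 1 = (N + t).choose t - 1 - (N + t - 1).choose (t - 1) := by
  obtain ⟨N, rfl⟩ := Nat.exists_eq_succ_of_ne_zero hN
  obtain ⟨t, rfl⟩ := Nat.exists_eq_succ_of_ne_zero ht
  have := Nat.choose_succ_succ' (N + t + 1) t
  simp only [Nat.succ_eq_add_one, add_tsub_cancel_right, show N + 1 + (t + 1) = N + t + 1 + 1 by ring, ← add_assoc]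
  omega

theorem dvd_iff_even {k i m : ℕ} (hi : 0 < i) (h : k * i = 2 * m) : i ∣ m ↔ Even k := by
  constructor
  · rintro ⟨c, rfl⟩
    exact ⟨c, Nat.eq_of_mul_eq_mul_right hi (by linarith)⟩
  · rintro ⟨c, rfl⟩
    exact ⟨c, by linarith⟩

theorem le_pred_iff {k i n : ℕ} (hi : 0 < i) (hn : n ≠ 0) (h : i ∣ n) : k ≤ n / i - 1 ↔ k * i ≤ n ∧ k * i ≠ n := by
  obtain ⟨c, rfl⟩ := h
  have : c ≠ 0 := by rintro rfl; simp at hn
  rw [Nat.mul_div_cancel_left _ hi, ← lt_iff_le_and_ne, mul_comm, Nat.mul_lt_mul_left hi]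
  omega

/-- Number of conjugacy classes of elements of odd prime order r ≠ p in the orthogonal group O⁺_2m(q) of Σ x_j y_j (m ≥ 1): with i the multiplicative order of q mod r and t = (r − 1)/i — if i is odd, C(⌊m/i⌋ + t/2, t/2) − 1; if i is even, C(⌊2m/i⌋ + t, t) − 1 minus, when i divides 2m with odd quotient, the C(2m/i + t − 1, t − 1) tuples using the whole space (an odd number of elliptic i-blocks fills an elliptic, not a hyperbolic, space). -/
theorem result {F : Type*} [Field F] [Fintype F] {p q : ℕ} [Fact p.Prime] [CharP F p] (hF : Fintype.card F = q) (m r i t : ℕ) (hm : 1 ≤ m) (hr : r.Prime) (hr2 : r ≠ 2) (hrp : r ≠ p) (hi : i = orderOf (q : ZMod r)) (ht : t * i = r - 1) : Nat.card {C : ConjClasses ↥(Cfsg.isometryGroup F (Cfsg.quadFormPlus m F)) // ∃ g : ↥(Cfsg.isometryGroup F (Cfsg.quadFormPlus m F)), ConjClasses.mk g = C ∧ orderOf g = r} = if Odd i then Nat.choose (m / i + t / 2) (t / 2) - 1 else Nat.choose (2 * m / i + t) t - 1 - (if i ∣ 2 * m ∧ Odd (2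 * m / i) then Nat.choose (2 * m / i + t - 1) (t - 1) else 0) := by
  have hrF := natCast_ne_zero_of_prime_ne (K := F) p hr hrp
  have hi0 : 0 < i := Nat.pos_of_ne_zero fun h => by
    have := hr.two_le
    rw [h] at ht
    omega
  rw [← hF, ← Nat.card_eq_fintype_card] at hi
  have ht0 : t ≠ 0 := by
    rintro rfl
    have := hr.two_le
    omega
  have key : ∀ k, (∀ m', k * i = 2 * m' → m + m = 2 * m' → (IsPlus (qfPlus m F) m' ↔ i ∣ m')) ↔
      (k * i = 2 * m → Even k) := fun k =>
    ⟨fun H e => (dvd_iff_even hi0 e).1 ((H m e (by omega)).1 (isPlus_qfPlus m)), fun H m' e1 e2 => by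
      obtain rfl : m = m' := by omega
      exact iff_of_true (isPlus_qfPlus m) ((dvd_iff_even hi0 e1).2 (H e1))⟩
  refine (isom_card_order_classes' (Q := qfPlus m F) nondeg_qfPlus hr hr2 hrF hi ht
    (if i ∣ 2 * m ∧ Odd (2 * m / i) then 2 * m / i - 1 else 2 * m / i) (m / i) (fun _ k => ?_) fun _ k => ?_).trans ?_
  · rw [Fintype.card_sum, Fintype.card_fin, key, ← two_mul]
    refine and_congr_right' ?_
    split_ifs with h
    · rw [le_pred_iff hi0 (by omega) h.1]
      refine and_congr_right' ⟨fun H e => ?_, fun H e => absurd e H⟩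
      rw [← e, Nat.mul_div_cancel _ hi0] at h
      exact Nat.not_even_iff_odd.2 h.2 (H e)
    · rw [Nat.le_div_iff_mul_le hi0]
      refine and_iff_left fun e => ?_
      rw [← e, Nat.mul_div_cancel _ hi0] at h
      simpa using h
  · rw [Fintype.card_sum, Fintype.card_fin, key]
    simp only [Nat.le_div_iff_mul_le hi0, even_two_mul, implies_true, and_true, mul_assoc]
    omega
  · split_ifs with h1 h2
    · rfl
    · exact choose_sub (Nat.div_pos (Nat.le_of_dvd (by omega) h2.1) hi0).ne' ht0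
    · rfl

end Cfsg.Agent.S2674
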