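import Cfsg.Statements.S2675
import Cfsg.Agent.Known.SemiClass
import Cfsg.Agent.S2674

set_option autoImplicit false
open Cfsg

namespace Cfsg.Agent.S2675

open CL.Known CL.Cls CL.GLn Module Polynomial
open Cfsg.Agent.S2674

/-- Number of conjugacy classes of elements of odd prime order r ≠ p in the orthogonal group O⁻_2m(q) of an elliptic form Σ_(j<m−1) x_j y_j + z₁² + a z₁z₂ + c z₂² (binary part anisotropic, m ≥ 1): with i the multiplicative order of q mod r and t = (r − 1)/i — if i is odd, C(⌊m/i⌋ + t/2, t/2) − 1 minus, when i divides m, the C(m/i + t/2 − 1, t/2 − 1) tuples filling the whole space (dual pairs of totally singular blocks fill a hyperbolic space); if i is even, C(⌊2m/i⌋ + t, t) − 1 minus, when i divides 2m with even quotient, the C(2m/i + t − 1, t − 1) tuples filling the whole space with an even number of elliptic blocks. -/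
theorem result {F : Type*} [Field F] [Fintype F] {p q : ℕ} [Fact p.Prime] [CharP F p] (hF : Fintype.card F = q) (m r i t : ℕ) (hm : 1 ≤ m) (a c : F) (hac : ∀ z₁ z₂ : F, z₁ ^ 2 + a * z₁ * z₂ + c * z₂ ^ 2 = 0 → z₁ = 0 ∧ z₂ = 0) (hr : r.Prime) (hr2 : r ≠ 2) (hrp : r ≠ p) (hi : i = orderOf (q : ZMod r)) (ht : t * i = r - 1) : Nat.card {C : ConjClasses ↥(Cfsg.isometryGroup F (Cfsg.quadFormMinus (m - 1) F a c)) // ∃ g : ↥(Cfsg.isometryGroup F (Cfsg.quadFormMinus (m - 1) F a c)), ConjClasses.mk g = C ∧ orderOf g = r} = if Odd i then Nat.choose (m / i + t / 2) (t / 2) - 1 - (if i ∣ m then Nat.choose (m / i + t / 2 - 1) (t / 2 - 1) else 0) else Nat.choose (2 * m / i + t) t - 1 - (if i ∣ 2 * m ∧ Even (2 * m / i) then Nat.choose (2 * m / i + t - 1) (t - 1) else 0) := by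
  have hrF := natCast_ne_zero_of_prime_ne (K := F) p hr hrp
  have hi0 : 0 < i := Nat.pos_of_ne_zero fun h => by
    have := hr.two_le
    rw [h] at ht
    omega
  rw [← hF, ← Nat.card_eq_fintype_card] at hi
  have ht0 : t ≠ 0 := by
    rintro rfl
    have := hr.two_le
    omega
  have hn : ¬ IsPlus (qfMinus (m - 1) F a c) m := by
    simpa [Nat.sub_add_cancel hm] using not_isPlus_qfMinus (m - 1) hac
  have key : ∀ k, (∀ m', k * i = 2 * m' → 2 * m = 2 * m' → (IsPlus (qfMinus (m - 1) F a c) m' ↔ i ∣ m')) ↔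
      (k * i = 2 * m → ¬ Even k) := fun k =>
    ⟨fun H e h => hn ((H m e rfl).2 ((dvd_iff_even hi0 e).2 h)), fun H m' e1 e2 => by
      obtain rfl : m = m' := by omega
      exact iff_of_false hn (mt (dvd_iff_even hi0 e1).1 (H e1))⟩
  have hc : Fintype.card ((Fin (m - 1) ⊕ Fin (m - 1)) ⊕ Fin 2) = 2 * m := by simp; omega
  refine (isom_card_order_classes' (Q := qfMinus (m - 1) F a c) (nondeg_qfMinus a c hac) hr hr2 hrF hi ht
    (if i ∣ 2 * m ∧ Even (2 * m / i) then 2 * m / i - 1 else 2 * m / i) (if i ∣ m then m / i - 1 else m / i)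
    (fun _ k => ?_) fun _ k => ?_).trans ?_
  · rw [hc, key]
    refine and_congr_right' ?_
    split_ifs with h
    · rw [le_pred_iff hi0 (by omega) h.1]
      refine and_congr_right' ⟨fun H e => ?_, fun H e => absurd e H⟩
      rw [← e, Nat.mul_div_cancel _ hi0] at h
      exact H e h.2
    · rw [Nat.le_div_iff_mul_le hi0]
      refine and_iff_left fun e => ?_
      rw [← e, Nat.mul_div_cancel _ hi0] at h
      simpa using h
  · rw [hc, key]
    simp only [even_two_mul, not_true, mul_assoc, imp_false]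
    split_ifs with h
    · rw [le_pred_iff hi0 (by omega) h]
      omega
    · rw [Nat.le_div_iff_mul_le hi0]
      have : k * i ≠ m := fun e => h (e ▸ dvd_mul_left i k)
      omega
  · split_ifs with h1 h2 h2
    · refine choose_sub (Nat.div_pos (Nat.le_of_dvd (by omega) h2) hi0).ne' ?_
      have h3 : Even (t * i) := ht ▸ (hr.even_sub_one hr2)
      rw [Nat.even_mul, ← Nat.not_odd_iff_even (n := i), or_iff_left (not_not.2 h1), Nat.even_iff] at h3
      omega
    · rfl
    · exact choose_sub (Nat.div_pos (Nat.le_of_dvd (by omega) h2.1) hi0).ne' ht0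
    · rfl

end Cfsg.Agent.S2675
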