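import Cfsg.Statements.S2676
import Cfsg.Agent.Known.UnipCount

set_option autoImplicit false
open Classical
open Cfsg

namespace Cfsg.Agent.S2676

open CL.Known CL.Cls CL.GLn Module Polynomial

/-- Number of conjugacy classes of elements of order p in Sp_2m(q), q a power of the odd prime p: the classes correspond to the signed partitions of 2m — partitions with all parts at most p in which every odd part has even multiplicity, each even part size that occurs carrying a sign — other than the all-ones partition; so the count is the sum over such partitions of 2^(number of distinct even parts), minus one. -/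
theorem result {F : Type*} [Field F] [Fintype F] {p : ℕ} [Fact p.Prime] [CharP F p] (hp : p ≠ 2) (m : ℕ) : Nat.card {C : ConjClasses ↥(Matrix.symplecticGroup (Fin m) F) // ∃ g : Matrix.symplecticGroup (Fin m) F, ConjClasses.mk g = C ∧ orderOf g = p} = (∑ μ ∈ Finset.univ.filter (fun μ : Nat.Partition (2 * m) => (∀ a ∈ μ.parts, a ≤ p) ∧ ∀ j : ℕ, Odd j → Even (μ.parts.count j)), 2 ^ ((μ.parts.toFinset.filter (fun j : ℕ => Even j)).card)) - 1 := by
  have hp' : p.Prime := Fact.out
  have h2 : (2 : F) ≠ 0 := Ring.two_ne_zero (by rwa [ringChar.eq F p])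
  let one : Nat.Partition (2 * m) := ⟨Multiset.replicate (2 * m) 1, fun h => by
    rw [Multiset.eq_of_mem_replicate h]; exact one_pos, by simp⟩
  have h1 : ∀ μ : Nat.Partition (2 * m), (∀ a ∈ μ.parts, a ≤ 1) ↔ μ = one := fun μ => ⟨fun h => by
    have h1 : μ.parts = Multiset.replicate (Multiset.card μ.parts) 1 :=
      Multiset.eq_replicate_card.2 fun a ha => le_antisymm (h a ha) (μ.parts_pos ha)
    have h2 := μ.parts_sum
    rw [h1, Multiset.sum_replicate, smul_eq_mul, mul_one] at h2
    exact Nat.Partition.ext (by rw [h1, h2]), by rintro rfl a ha; exact (Multiset.eq_of_mem_replicate ha).le⟩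
  have h3 : ∀ (s : Multiset ℕ) (k : ℕ), prk s k = 0 ↔ ∀ a ∈ s, a ≤ k := fun s k => by
    simp [prk, Multiset.sum_eq_zero_iff, Nat.sub_eq_zero_iff_le]
  have h4 : ∀ g : Matrix.symplecticGroup (Fin m) F, orderOf g = p ↔ (g.1 - 1) ^ p = 0 ∧ ¬(g.1 - 1) ^ 1 = 0 := fun g => by
    have := matrix_sub_one_pow_char_pow p g.1 1
    rw [pow_one] at this
    rw [orderOf_eq_prime_iff, this, pow_one, sub_eq_zero, sub_eq_zero, Ne, Subtype.ext_iff, Subtype.ext_iff]
    simp
  rw [card_classes_sigma _ (fun (μ : {μ : Nat.Partition (2 * m) // (∀ a ∈ μ.parts, a ≤ p) ∧ μ ≠ one})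
    (g : Matrix.symplecticGroup (Fin m) F) => ∀ k, ((g.1 - 1) ^ k).rank = prk μ.1.parts k) (fun g => ?_)
    fun g g' μ ν h hg hg' => Subtype.ext (Nat.Partition.ext (eq_of_prk_eq (fun _ => μ.1.parts_pos)
      (fun _ => ν.1.parts_pos) fun k => by
        rw [← hg, ← hg']; exact rank_sub_one_pow_of_isConj ((Matrix.symplecticGroup (Fin m) F).subtype.map_isConj h) k))]
  · simp only [card_sp_classes_type h2 (Nat.Partition.parts_sum _), cnt_neg_one h2 fun _ => Nat.Partition.parts_pos _]
    rw [← Finset.sum_subtype (Finset.univ.filter fun μ : Nat.Partition (2 * m) => (∀ a ∈ μ.parts, a ≤ p) ∧ μ ≠ one)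
      (by simp) (fun μ : Nat.Partition (2 * m) => if ∀ j, Odd j → Even (μ.parts.count j) then
        2 ^ (μ.parts.toFinset.filter fun j => Even j).card else 0), ← Finset.sum_filter, Finset.filter_filter,
      eq_comm, ← Finset.sum_erase_add _ _ (a := one)]
    · refine Nat.sub_eq_of_eq_add (congrArg₂ _ (Finset.sum_congr (by ext; simp; tauto) fun _ _ => by congr) ?_)
      rw [Finset.filter_false_of_mem fun a ha => ?_, Finset.card_empty, pow_zero]
      rw [Multiset.eq_of_mem_replicate (Multiset.mem_toFinset.1 ha)]; exact Nat.not_even_one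
    · refine Finset.mem_filter.2 ⟨Finset.mem_univ _, fun a ha => ((h1 _).2 rfl a ha).trans hp'.one_le, fun j _ => ?_⟩
      rw [Multiset.count_replicate]; split_ifs <;> simp
  · rw [h4]
    refine ⟨fun ⟨e1, e2⟩ => ?_, fun ⟨μ, hμ⟩ => ?_⟩
    · obtain ⟨μ, hμ⟩ := exists_partition_rank ⟨_, e1⟩
      rw [← matrix_rank_eq_zero_iff, hμ, h3] at e1 e2
      exact ⟨⟨⟨μ.parts, μ.parts_pos, by rw [μ.parts_sum]; simp [two_mul]⟩, e1, mt (h1 _).2 e2⟩, hμ⟩
    · rw [← matrix_rank_eq_zero_iff, ← matrix_rank_eq_zero_iff, hμ, hμ, h3, h3, h1]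
      exact μ.2

end Cfsg.Agent.S2676
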