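import Cfsg.Statements.S2677
import Cfsg.Agent.Known.ULang2

set_option autoImplicit false
open Cfsg

namespace Cfsg.Agent.S2677

open CL.GLn CL.Uni in

/-- Centraliser of a field automorphism of odd prime order in PGU_n(q): let q = q₀^r with r an odd prime, K the field with q² elements and σ a field automorphism of K of order r (fixed field of order q₀²). The elements g of GU_n(q) whose entrywise image under σ is a scalar multiple of g — those whose coset modulo the q + 1 unitary scalars is fixed by σ — number (q + 1)/(q₀ + 1) · |GU_n(q₀)|; equivalently the centraliser in PGU_n(q) of the induced automorphism has the order of PGU_n(q₀). -/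
theorem result {K : Type*} [Field K] [Fintype K] {q₀ q r n : ℕ} (hr : r.Prime) (hr2 : r ≠ 2) (hn : 1 ≤ n) (hq : q = q₀ ^ r) (hK : Fintype.card K = q ^ 2) (σ : K ≃+* K) (hσ : orderOf σ = r) : (Nat.card {g : ↥(Cfsg.GU n K q) // ∃ c : K, c ≠ 0 ∧ ((g : GL (Fin n) K) : Matrix (Fin n) (Fin n) K).map σ = c • ((g : GL (Fin n) K) : Matrix (Fin n) (Fin n) K)} : ℤ) = ((q + 1) / (q₀ + 1) : ℕ) * ((q₀ : ℤ) ^ (n * (n - 1) / 2) * ∏ i : Fin n, ((q₀ : ℤ) ^ ((i : ℕ) + 1) - (-1) ^ ((i : ℕ) + 1))) := by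
  have : NeZero n := ⟨by omega⟩
  have hb := isBar_bar hK
  have := Fintype.ofFinite (fixedFld σ)
  have hodd : Odd r := hr.odd_of_ne_two hr2
  have h0 : Fintype.card (fixedFld σ) = q₀ ^ 2 := by
    have := card_fixedFld_pow σ
    rw [hσ, Nat.card_eq_fintype_card, Nat.card_eq_fintype_card, hK, hq, ← pow_mul, mul_comm, pow_mul] at this
    exact Nat.pow_left_injective hr.ne_zero this
  have hb₀ := isBar_bar h0
  have h1 := card_GU_fixed (n := n) hb hb₀ (isFixEmb_subtype σ) (bar_comp_of_odd hb hb₀ _ hodd hq)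
  obtain ⟨k, hk⟩ : q₀ + 1 ∣ q + 1 := by simpa [hq] using hodd.nat_add_dvd_pow_add_pow q₀ 1
  rw [hk, mul_assoc] at h1
  rw [Nat.eq_of_mul_eq_mul_left (Nat.succ_pos _) h1, hk, Nat.mul_div_cancel_left _ (Nat.succ_pos _), card_GU h0,
    guOrder, Fin.prod_univ_eq_prod_range (fun i => (q₀ : ℤ) ^ (i + 1) - (-1) ^ (i + 1))]
  push_cast
  congr 2
  refine Finset.prod_congr rfl fun i _ => ?_
  have hq0 := hb₀.two_le
  split_ifs with h
  · rw [h.add_one.neg_one_pow]; ring
  · rw [(Nat.not_even_iff_odd.1 h).add_one.neg_one_pow, Nat.cast_sub (Nat.one_le_pow _ _ (by omega))]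
    push_cast; ring

end Cfsg.Agent.S2677
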