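import Cfsg.Statements.S2678
import Cfsg.Agent.Known.FormEmbed

set_option autoImplicit false
open Cfsg

namespace Cfsg.Agent.S2678

open CL.Known CL.Cls CL.GLn CL.Uni Module Polynomial

/-- Field-extension embedding of symplectic groups: for a field K with q² elements and a field F with q elements there is an injective homomorphism Sp_2a(K) → Sp_4a(F). -/
theorem result {K F : Type*} [Field K] [Fintype K] [Field F] [Fintype F] {q : ℕ} (hK : Fintype.card K = q ^ 2) (hF : Fintype.card F = q) (a : ℕ) : ∃ φ : ↥(Matrix.symplecticGroup (Fin a) K) →* ↥(Matrix.symplecticGroup (Fin (2 * a)) F), Function.Injective φ := by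
  obtain ⟨f⟩ := nonempty_ringHom_of_card_eq_pow (F := F) (K := K) (m := 2) (by rw [hK, hF])
  let := f.toAlgebra
  have hσ : ∀ a : F, RingHom.id K (algebraMap F K a) = algebraMap F K a := fun _ => rfl
  have hτ := Algebra.trace_ne_zero F K
  refine exists_sp_embedding ((resHom F K _).comp (CL.Sp.spLin (Fin a) K))
    (resHom_injective.comp CL.Sp.spLin_injective) (B := trForm hσ (Algebra.trace F K) 1 (CL.Sp.stdForm (Fin a) K))
    (trForm_nondeg hσ hτ one_ne_zero (CL.Sp.stdForm_nondegenerate (Fin a) K).1) (fun v => ?_) ?_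
    fun g u v => congrArg (fun t => Algebra.trace F K (1 * t)) (CL.Sp.spLin_mem g u v)
  · rw [trForm_apply, CL.Sp.stdForm_isAlt (Fin a) K v, mul_zero, map_zero]
  · rw [← Module.finrank_mul_finrank F K, finrank_eq_of_card_eq_pow (m := 2) (by rw [hK, hF]), CL.Sp.finrank_std]

end Cfsg.Agent.S2678
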