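import Cfsg.Statements.S2679
import Cfsg.Agent.Known.FormEmbed

set_option autoImplicit false
open Cfsg

namespace Cfsg.Agent.S2679

open CL.Known CL.Cls CL.GLn CL.Uni Module Polynomial

/-- An elliptic orthogonal group embeds in the hyperbolic orthogonal group of the same dimension over the quadratic extension: for a field F with q elements and a field K with q² elements there is an injective homomorphism from O⁻_2m(F) (isometries of Σ_(j<m−1) x_j y_j + z₁² + a z₁z₂ + c z₂², binary part anisotropic) to O⁺_2m(K) (isometries of Σ_(j<m) x_j y_j over K). -/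
theorem result {F K : Type*} [Field F] [Fintype F] [Field K] [Fintype K] {q : ℕ} (hF : Fintype.card F = q) (hK : Fintype.card K = q ^ 2) {m : ℕ} (hm : 1 ≤ m) (a c : F) (hac : ∀ z₁ z₂ : F, z₁ ^ 2 + a * z₁ * z₂ + c * z₂ ^ 2 = 0 → z₁ = 0 ∧ z₂ = 0) : ∃ φ : ↥(Cfsg.isometryGroup F (Cfsg.quadFormMinus (m - 1) F a c)) →* ↥(Cfsg.isometryGroup K (Cfsg.quadFormPlus m K)), Function.Injective φ := by
  obtain ⟨f⟩ := nonempty_ringHom_of_card_eq_pow (F := F) (K := K) (m := 2) (by rw [hK, hF])
  let := f.toAlgebra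
  obtain ⟨k, rfl⟩ : ∃ k, m = k + 1 := ⟨m - 1, by omega⟩
  obtain ⟨φ, hφ⟩ := exists_isom_extend f (qfMinus k F a c) (qfMinus k K (f a) (f c)) fun v => by
    simp [qfMinus_apply]
  obtain ⟨t, ht⟩ := exists_root_of_card_sq (F := F) (K := K) (by rw [hK, hF]) (P := X ^ 2 + C a * X + C c)
    (by compute_degree!)
  have hd : f a ^ 2 - 4 * f c ≠ 0 := by
    have := (map_ne_zero f).2 (disc_ne_zero_of_anisotropic a c hac)
    simpa [map_ofNat] using this
  obtain ⟨e, he⟩ := exists_equiv_of_isPlus_iff (nondeg_qfMinus_of_disc (m := k) _ _ hd) nondeg_qfPlus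
    (m := k + 1) (by simp; ring) (CL.Sp.finrank_std _)
    (iff_of_true (isPlus_qfMinus_of_root k (t := t) (by simpa [RingHom.algebraMap_toAlgebra] using ht)) (isPlus_qfPlus _))
  exact ⟨(isometryGroupCongr e 1 one_ne_zero fun v => by rw [he, one_mul]).toMonoidHom.comp φ,
    (MulEquiv.injective _).comp hφ⟩

end Cfsg.Agent.S2679
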