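import Cfsg.Statements.S2683
import Cfsg.Agent.Known.InvTwo2

set_option autoImplicit false
open Cfsg

namespace Cfsg.Agent.S2683

open CL.Known CL.Cls Module

/-- For the hyperbolic form Σ x_j y_j on F^(2m) over a finite field with q elements, q even (excluding m = 2 over the field of two elements), and an involution x of the orthogonal group with s = rank(x − 1) odd (type b_s; such x lie outside Ω): the elements of Ω (the commutator subgroup of the orthogonal group) commuting with x number q^(2m(s−1) − (3s² − 3s)/2) · |Sp_(s−1)(q)| · |Sp_(2m−2s)(q)|, where |Sp_2k(q)| = q^(k²) Π_(i=1)^k (q^(2i) − 1). -/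
theorem result {F : Type*} [Field F] [Fintype F] [CharP F 2] {q : ℕ} (hF : Fintype.card F = q) {m s : ℕ} (h : Fintype.card F ≠ 2 ∨ m ≠ 2) (x : ↥(Cfsg.isometryGroup F (Cfsg.quadFormPlus m F))) (hx : x ^ 2 = 1) (hs : (((x : Matrix.GeneralLinearGroup (Fin m ⊕ Fin m) F) : Matrix (Fin m ⊕ Fin m) (Fin m ⊕ Fin m) F) - 1).rank = s) (hodd : Odd s) : Nat.card {g : ↥(Cfsg.Omega F (Cfsg.quadFormPlus m F)) // (g : ↥(Cfsg.isometryGroup F (Cfsg.quadFormPlus m F))) * x = x * (g : ↥(Cfsg.isometryGroup F (Cfsg.quadFormPlus m F)))} = q ^ (2 * m * (s - 1) - (3 * s ^ 2 - 3 * s) / 2) * ((q : ℕ) ^ (((s - 1) / 2) ^ 2) * ∏ i : Fin ((s - 1) / 2), (q ^ (2 * ((i : ℕ) + 1)) - 1)) * ((q : ℕ) ^ ((m - s) ^ 2) * ∏ i : Fin (m - s), (q ^ (2 * ((i : ℕ) + 1)) - 1)) := by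
  subst hF
  have hQ := nondeg_qfPlus (m := m) (F := F)
  have hF : (∃ a : F, a ≠ 0 ∧ a ≠ 1) ∨ finrank F (Fin m ⊕ Fin m → F) ≠ 4 := hF_of_card h fun _ => by simp; omega
  have h1 := app_app_of_sq (isomEquiv (qfPlus m F)) hx
  have h2 := finrank_le_of_isotropic (isWittForm_of_nondeg hQ) (inv_isotropic (OG.polar_app _) h1)
    (CL.Sp.finrank_std m)
  replace hs := (isom_rng_rank (Q := qfPlus m F) x).trans hs
  obtain ⟨j, hj⟩ : ∃ j, m = s + j := ⟨m - s, by omega⟩
  refine (card_Omega_comm _ (commutator_OG_eq_ker_dickson hQ CharTwo.two_eq_zero hF) x).trans ?_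
  rw [Fin.prod_univ_eq_prod_range (fun i => Fintype.card F ^ (2 * (i + 1)) - 1),
    Fin.prod_univ_eq_prod_range (fun i => Fintype.card F ^ (2 * (i + 1)) - 1), ← Nat.card_eq_fintype_card,
    show m - s = j by omega]
  have hna : ¬ ∀ v, QuadraticMap.polar (qfPlus m F) v ((isomEquiv (qfPlus m F) x).1 v) = 0 := fun H =>
    Nat.not_even_iff_odd.2 hodd (hs ▸ even_rng_of_alt (isWittForm_of_nondeg hQ) (polar_isAlt_two _) (OG.polar_app _) H)
  obtain ⟨k, hk⟩ := hodd
  obtain ⟨s, rfl⟩ : ∃ s', s = s' + 1 := ⟨_, hk⟩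
  rw [(ker_card_comm_nonalt hQ _ h1 hna hs ((CL.Sp.finrank_std m).trans (congrArg _ hj)) rfl).1 k (by omega),
    add_tsub_cancel_right, show s / 2 = k by omega,
    show 2 * m * s - (3 * (s + 1) ^ 2 - 3 * (s + 1)) / 2 = s * (s + 1) / 2 + 2 * s * j by
    have e1 := Nat.even_iff.1 (Nat.even_mul_succ_self s)
    have := Nat.le_mul_self s
    rw [hj]
    ring_nf at e1 this ⊢
    omega]
  ring

end Cfsg.Agent.S2683
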