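import Cfsg.Statements.S2684
import Cfsg.Agent.Known.InvTwo2

set_option autoImplicit false
open Cfsg

namespace Cfsg.Agent.S2684

open CL.Known CL.Cls Module

/-- For the hyperbolic form Q = Σ x_j y_j on F^(2m) over a finite field with q elements, q even (excluding m = 2 over the field of two elements), and an involution x ≠ 1 of the orthogonal group with s = rank(x − 1) even and Q vanishing on the image of x − 1 (equivalently f(v, xv) = 0 for all v, where f(u, w) = Q(u + w) − Q(u) − Q(w) is the bilinear form of Q; type a_s, which lies in Ω): its centraliser in Ω (the commutator subgroup of the orthogonal group) has order q^(2ms − (3s² + s)/2) · |Sp_s(q)| · |Ω⁺_(2m−2s)(q)|, where |Ω⁺_2k(q)| = q^(k(k−1)) (q^k − 1) Π_(i=1)^(k−1) (q^(2i) − 1) for k ≥ 1 and the last factor is 1 when s = m. -/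
theorem result {F : Type*} [Field F] [Fintype F] [CharP F 2] {q : ℕ} (hF : Fintype.card F = q) {m s : ℕ} (h : Fintype.card F ≠ 2 ∨ m ≠ 2) (x : ↥(Cfsg.isometryGroup F (Cfsg.quadFormPlus m F))) (hx : x ^ 2 = 1) (hx1 : x ≠ 1) (hs : (((x : Matrix.GeneralLinearGroup (Fin m ⊕ Fin m) F) : Matrix (Fin m ⊕ Fin m) (Fin m ⊕ Fin m) F) - 1).rank = s) (heven : Even s) (halt : ∀ v : Fin m ⊕ Fin m → F, Cfsg.quadFormPlus m F ((((x : Matrix.GeneralLinearGroup (Fin m ⊕ Fin m) F) : Matrix (Fin m ⊕ Fin m) (Fin m ⊕ Fin m) F) - 1).mulVec v) = 0) : Nat.card {g : ↥(Cfsg.Omega F (Cfsg.quadFormPlus m F)) // (g : ↥(Cfsg.isometryGroup F (Cfsg.quadFormPlus m F))) * x = x * (g : ↥(Cfsg.isometryGroup F (Cfsg.quadFormPlus m F)))} = q ^ (2 * m * s - (3 * s ^ 2 + s) / 2) * ((q : ℕ) ^ ((s / 2) ^ 2) * ∏ i : Fin (s / 2), (q ^ (2 * ((i : ℕ) + 1)) - 1)) * (if s = m then 1 else q ^ ((m - s) * (m - s - 1)) * (q ^ (m - s) - 1) * ∏ i : Fin (m - s - 1), (q ^ (2 *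 ((i : ℕ) + 1)) - 1)) := by
  subst hF
  have hQ := nondeg_qfPlus (m := m) (F := F)
  have hF : (∃ a : F, a ≠ 0 ∧ a ≠ 1) ∨ finrank F (Fin m ⊕ Fin m → F) ≠ 4 := hF_of_card h fun _ => by simp; omega
  have h1 := app_app_of_sq (isomEquiv (qfPlus m F)) hx
  have h2 := finrank_le_of_isotropic (isWittForm_of_nondeg hQ) (inv_isotropic (OG.polar_app _) h1)
    (CL.Sp.finrank_std m)
  replace hs := (isom_rng_rank (Q := qfPlus m F) x).trans hs
  obtain ⟨j, hj⟩ : ∃ j, m = s + j := ⟨m - s, by omega⟩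
  refine (card_Omega_comm _ (commutator_OG_eq_ker_dickson hQ CharTwo.two_eq_zero hF) x).trans ?_
  rw [Fin.prod_univ_eq_prod_range (fun i => Fintype.card F ^ (2 * (i + 1)) - 1),
    Fin.prod_univ_eq_prod_range (fun i => Fintype.card F ^ (2 * (i + 1)) - 1), ← Nat.card_eq_fintype_card,
    show m - s = j by omega]
  obtain ⟨k, rfl⟩ : ∃ k, s = 2 * k := ⟨s / 2, by rw [Nat.even_iff] at heven; omega⟩
  rw [ker_card_comm_alt hQ hF _ h1 ((isom_alt_iff (Q := qfPlus m F) x).2 halt) hs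
    ((CL.Sp.finrank_std m).trans (congrArg _ hj)) (hj ▸ isPlus_qfPlus m), show 2 * k / 2 = k by omega,
    show 2 * m * (2 * k) - (3 * (2 * k) ^ 2 + 2 * k) / 2 = 2 * k * (2 * k - 1) / 2 + 2 * (2 * k) * j by
    rw [hj, Nat.mul_sub_one]
    have := Nat.le_mul_self k
    ring_nf at this ⊢
    omega]
  simp only [show 2 * k = m ↔ j = 0 by omega]

end Cfsg.Agent.S2684
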