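import Cfsg.Statements.S2691
import Cfsg.Agent.Known.UAut1

set_option autoImplicit false
open Cfsg

namespace Cfsg.Agent.S2691

/-- The automorphism group of a simple projective special unitary group PSU_n(q), n ≥ 3, (n, q) ≠ (3, 2), realised over the field F with q² elements through the Hermitian form Σ uᵢ vᵢ^q, is generated by the automorphisms induced by the semilinear maps v ↦ g σ(v) with g a general unitary matrix and σ an automorphism of F (the image of the projective semilinear unitary group). -/
theorem result {F : Type*} [Field F] [Fintype F] {p f q : ℕ} [Fact p.Prime] (hq : q = p ^ f) (hf : 1 ≤ f) (hF : Fintype.card F = q ^ 2) {n : ℕ} (hn : 3 ≤ n) (hs : ¬ (n = 3 ∧ q = 2)) :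
    Cfsg.gammaPSU n F q = ⊤ := by
  refine eq_top_iff.2 fun α _ => Subgroup.subset_closure ?_
  obtain ⟨g, τ, h⟩ := CL.UAut.aut_eq (CL.Uni.isBar_bar hF) hn hs α
  exact ⟨g, τ, g.2, (CL.UAut.isInduced_iff _ hn hs g.2).2 h⟩

end Cfsg.Agent.S2691
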