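import Cfsg.Statements.S2697
import Cfsg.Agent.Known.GLAut5

set_option autoImplicit false
open Cfsg

namespace Cfsg.Agent.S2697

open CL.GLn

/-- Let T = PSL_n(F) be simple over a finite field (n ≥ 2; |F| ≥ 4 when n = 2) and let x be a field automorphism or a graph-field automorphism of T of prime order r. Then an element y of the coset Inndiag(T)·x (that is, y = δ x with δ in the inner-diagonal group, the image of PGL_n(F)) has order r if and only if y is conjugate to x by an element of Inndiag(T). -/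
theorem result {F : Type*} [Field F] [Fintype F] {p f : ℕ} [Fact p.Prime] (hF : Fintype.card F = p ^ f) (hf : 1 ≤ f) {n : ℕ} (hn : 2 ≤ n) (hs : n = 2 → 4 ≤ Fintype.card F) (x δ : MulAut (Matrix.ProjectiveSpecialLinearGroup (Fin n) F)) (hx : Cfsg.IsFieldAutClassPSL x ∨ Cfsg.IsGraphFieldAutClassPSL x) {r : ℕ} (hr : r.Prime) (hxr : orderOf x = r) (hδ : δ ∈ Cfsg.inndiagPSL n F) :
    orderOf (δ * x) = r ↔ Cfsg.IsConjUnder (Cfsg.inndiagPSL n F) x (δ * x) := by
  refine ⟨fun h => ?_, ?_⟩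
  swap
  · rintro ⟨k, -, hk⟩
    rw [hk, ← hxr]
    exact MulEquiv.orderOf_eq (MulAut.conj k) x
  have hN := inndiagPSL_normal (F := F) hn
  have : Nontrivial (Fin n) := Fin.nontrivial_iff_two_le.2 hn
  have key : ∀ α : MulAut (Matrix.ProjectiveSpecialLinearGroup (Fin n) F), ∃ g,
      α * (δ * x) * α⁻¹ = diagAut (Fin n) F g * (α * x * α⁻¹) := fun α => by
    obtain ⟨g, hg⟩ := mem_inndiagPSL.1 (hN.conj_mem _ hδ α)
    exact ⟨g, by rw [hg]; group⟩
  rcases hx with ⟨α, σ, -, hσ⟩ | ⟨h3, α, φ, γ, σ, hσ1, hφ, hγ, hσ⟩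
  · rw [isStdFieldAutPSL_iff] at hσ
    obtain ⟨g, hg⟩ := key α
    rw [← isConjUnder_conj_iff α, hg, hσ]
    apply isConjUnder_fieldAut
    rw [← orderOf_fieldAut (ι := Fin n), ← hσ, ← hg, show orderOf (α * x * α⁻¹) = orderOf (α * (δ * x) * α⁻¹) from
      (MulEquiv.orderOf_eq (MulAut.conj α) x).trans
        (hxr.trans (h.symm.trans (MulEquiv.orderOf_eq (MulAut.conj α) _).symm)), pow_orderOf_eq_one]
  · rw [isStdFieldAutPSL_iff.1 hφ, isInverseTransposeAutPSL_iff.1 hγ] at hσ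
    obtain ⟨g, hg⟩ := key α
    obtain ⟨rfl, h2⟩ := orderOf_eq_two_of_gf h3 hσ1 hr
      (hσ ▸ (MulEquiv.orderOf_eq (MulAut.conj α) x).trans hxr)
    rw [← isConjUnder_conj_iff α, hg, hσ]
    apply isConjUnder_gf h2
    rw [← hσ, ← hg, ← h, ← MulEquiv.orderOf_eq (MulAut.conj α) (δ * x)]
    exact pow_orderOf_eq_one _

end Cfsg.Agent.S2697
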