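import Cfsg.Statements.S2700
import Cfsg.Agent.Known.GLAut7

set_option autoImplicit false
open Cfsg

namespace Cfsg.Agent.S2700

open CL.GLn in

/-- Let T = PSL_n(F) over a finite field of odd order with n = 2m ≥ 4 even, and G = Inndiag(T) the image of PGL_n(F). The involutory graph automorphisms of T fall into exactly three G-classes, with representatives γ₁, γ₂, γ₃ whose centralizers in G are isomorphic respectively to the projective conformal symplectic group PGSp_n(F), the projective conformal orthogonal group of the plus-type form Σ xᵢ yᵢ, and that of a minus-type form Σ xᵢ yᵢ + z₁² + a z₁ z₂ + b z₂² (anisotropic binary part) in dimension n. -/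
theorem result {F : Type*} [Field F] [Fintype F] (hodd : Odd (Fintype.card F)) {n m : ℕ} (hm : 2 ≤ m) (hnm : n = 2 * m) :
    ∃ (γ₁ γ₂ γ₃ : MulAut (Matrix.ProjectiveSpecialLinearGroup (Fin n) F)) (a b : F), (∀ z₁ z₂ : F, z₁ ^ 2 + a * z₁ * z₂ + b * z₂ ^ 2 = 0 → z₁ = 0 ∧ z₂ = 0) ∧ Cfsg.IsGraphAutClassPSL γ₁ ∧ orderOf γ₁ = 2 ∧ Cfsg.IsGraphAutClassPSL γ₂ ∧ orderOf γ₂ = 2 ∧ Cfsg.IsGraphAutClassPSL γ₃ ∧ orderOf γ₃ = 2 ∧ ¬ Cfsg.IsConjUnder (Cfsg.inndiagPSL n F) γ₁ γ₂ ∧ ¬ Cfsg.IsConjUnder (Cfsg.inndiagPSL n F) γ₁ γ₃ ∧ ¬ Cfsg.IsConjUnder (Cfsg.inndiagPSL n F) γ₂ γ₃ ∧ (∀ γ : MulAut (Matrix.ProjectiveSpecialLinearGroup (Fin n) F), Cfsg.IsGraphAutClassPSL γ → orderOf γ = 2 → Cfsg.IsConjUnder (Cfsg.inndiagPSL n F) γ₁ γ ∨ Cfsg.IsConjUnder (Cfsg.inndiagPSL n F) γ₂ γ ∨ Cfsg.IsConjUnder (Cfsg.inndiagPSL n F) γ₃ γ) ∧ Nonempty (↥(Cfsg.inndiagPSL n F ⊓ Subgroup.centralizer {γ₁})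 ≃* Cfsg.PGSp m F) ∧ Nonempty (↥(Cfsg.inndiagPSL n F ⊓ Subgroup.centralizer {γ₂}) ≃* Cfsg.PGO F (Cfsg.quadFormPlus m F)) ∧ Nonempty (↥(Cfsg.inndiagPSL n F ⊓ Subgroup.centralizer {γ₃}) ≃* Cfsg.PGO F (Cfsg.quadFormMinus (m - 1) F a b)) := by
  have h2 : (2 : F) ≠ 0 := CL.Cls.two_ne_zero_of_odd_card hodd
  have hn : 3 ≤ n := by omega
  have h3 : 3 ≤ Fintype.card (Fin n) := by simpa using hn
  have : NeZero n := ⟨by omega⟩
  have hev : Even n := ⟨m, by omega⟩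
  obtain ⟨m, rfl⟩ : ∃ k, m = k + 1 := ⟨m - 1, by omega⟩
  obtain ⟨a, b, hab⟩ := CL.Cls.exists_anisotropic_pair F
  obtain ⟨G₁, h₁⟩ := exists_bform_isAlt (F := F) hnm
  have hd := CL.Cls.not_isSquare_disc_of_anisotropic h2 hab
  have hd0 : a ^ 2 - 4 * b ≠ 0 := fun h => hd (h ▸ IsSquare.zero)
  obtain ⟨G₂, h₂, d₂⟩ := exists_symm_det (F := F) (ι := Fin n) ((-1) ^ (m + 1))
  obtain ⟨G₃, h₃, d₃⟩ := exists_symm_det (F := F) (ι := Fin n) ((-1) ^ (m + 1) * Units.mk0 _ hd0)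
  have e1 : ((-1 : F) ^ (m + 1)) * (-1) ^ (m + 1) = 1 := by rw [← mul_pow]; simp
  have d₂' : (G₂ : Matrix (Fin n) (Fin n) F).det = (-1) ^ (m + 1) := by simpa using d₂
  have d₃' : (G₃ : Matrix (Fin n) (Fin n) F).det = (-1) ^ (m + 1) * (a ^ 2 - 4 * b) := by simpa using d₃
  refine ⟨grAut G₁, grAut G₂, grAut G₃, a, b, hab, isGraphAutClassPSL_iff.2 ⟨hn, _, rfl⟩,
    (orderOf_grAut_eq_two_iff h3 _).2 (Or.inr (transpose_of_bform_isAlt h₁)), isGraphAutClassPSL_iff.2 ⟨hn, _, rfl⟩,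
    (orderOf_grAut_eq_two_iff h3 _).2 (Or.inl (bform_isSymm_iff.1 h₂)), isGraphAutClassPSL_iff.2 ⟨hn, _, rfl⟩,
    (orderOf_grAut_eq_two_iff h3 _).2 (Or.inl (bform_isSymm_iff.1 h₃)),
    fun h => not_isAlt_of_isSymm h2 h₂ (isAlt_of_isConjUnder_grAut h₁ h),
    fun h => not_isAlt_of_isSymm h2 h₃ (isAlt_of_isConjUnder_grAut h₁ h), fun h => ?_, fun γ hγ hγ2 => ?_,
    centralizer_grAut_alt hnm h₁, centralizer_grAut_plus h2 hnm h₂ (by rw [d₂', e1]; exact IsSquare.one),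
    centralizer_grAut_minus h2 hnm h₃ (by rwa [d₃', ← mul_assoc, e1, one_mul]) hab⟩
  · rw [isConjUnder_grAut_symm_iff h2 hev h₂ h₃, d₂', d₃', mul_right_comm, e1, one_mul] at h
    exact hd h
  · obtain ⟨-, G, rfl⟩ := isGraphAutClassPSL_iff.1 hγ
    rcases (orderOf_grAut_eq_two_iff h3 G).1 hγ2 with h | h
    · have hG := bform_isSymm_iff.2 h
      rw [isConjUnder_grAut_symm_iff h2 hev h₂ hG, isConjUnder_grAut_symm_iff h2 hev h₃ hG, d₂', d₃', ← mul_assoc]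
      by_cases hs : IsSquare ((G : Matrix (Fin n) (Fin n) F).det * (-1) ^ (m + 1))
      · exact Or.inr (Or.inl hs)
      · exact Or.inr (Or.inr (CL.Cls.isSquare_mul_of_not_isSquare hs hd))
    · exact Or.inl (isConjUnder_grAut_of_isAlt hnm h₁ (bform_isAlt_of_transpose h2 h))

end Cfsg.Agent.S2700
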