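import Cfsg.Statements.S2701
import Cfsg.Agent.Known.GLAut7

set_option autoImplicit false
open Cfsg

namespace Cfsg.Agent.S2701

open CL.GLn Matrix in

/-- Let T = PSL_n(F) over a finite field of characteristic 2 with n = 2m ≥ 4 even, and G = Inndiag(T) the image of PGL_n(F). The involutory graph automorphisms of T fall into exactly two G-classes, with representatives γ₁ and γ₃ whose centralizers in G are isomorphic respectively to the symplectic group Sp_n(F) and to the centralizer in Sp_n(F) of a symplectic transvection. -/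
theorem result {F : Type*} [Field F] [Fintype F] [CharP F 2] {n m : ℕ} (hm : 2 ≤ m) (hnm : n = 2 * m) :
    ∃ (γ₁ γ₃ : MulAut (Matrix.ProjectiveSpecialLinearGroup (Fin n) F)) (t : ↥(Matrix.symplecticGroup (Fin m) F)), Cfsg.IsTransvection (t : Matrix (Fin m ⊕ Fin m) (Fin m ⊕ Fin m) F) ∧ Cfsg.IsGraphAutClassPSL γ₁ ∧ orderOf γ₁ = 2 ∧ Cfsg.IsGraphAutClassPSL γ₃ ∧ orderOf γ₃ = 2 ∧ ¬ Cfsg.IsConjUnder (Cfsg.inndiagPSL n F) γ₁ γ₃ ∧ (∀ γ : MulAut (Matrix.ProjectiveSpecialLinearGroup (Fin n) F), Cfsg.IsGraphAutClassPSL γ → orderOf γ = 2 → Cfsg.IsConjUnder (Cfsg.inndiagPSL n F) γ₁ γ ∨ Cfsg.IsConjUnder (Cfsg.inndiagPSL n F) γ₃ γ) ∧ Nonempty (↥(Cfsg.inndiagPSL n F ⊓ Subgroup.centralizer {γ₁}) ≃* ↥(Matrix.symplecticGroup (Fin m) F)) ∧ Nonempty (↥(Cfsg.inndiagPSL n F ⊓ Subgroup.centralizer {γ₃}) ≃* ↥(Subgroup.centralizer ({t} : Set ↥(Matrix.symplecticGroup (Fin m) F)))) := by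
  have h2 : (2 : F) = 0 := CharTwo.two_eq_zero
  have hn : 3 ≤ n := by omega
  have h3 : 3 ≤ Fintype.card (Fin n) := by simpa using hn
  have : Nonempty (Fin m) := ⟨⟨0, by omega⟩⟩
  have hA := CL.Sp.stdForm_isAlt (Fin m) F
  have hN := CL.Sp.stdForm_nondegenerate (Fin m) F
  obtain ⟨G₁, h₁⟩ := exists_bform_isAlt (F := F) hnm
  obtain ⟨w, hw⟩ := exists_ne (0 : Fin m ⊕ Fin m → F)
  obtain ⟨x, hx⟩ : ∃ x, CL.Sp.stdForm (Fin m) F w x ≠ 0 := by
    by_contra h
    push Not at h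
    exact hw (hN.1 w h)
  let e : (Fin n → F) ≃ₗ[F] (Fin m ⊕ Fin m → F) := LinearEquiv.ofFinrankEq _ _ (by simp [hnm, two_mul])
  obtain ⟨G₃, h₃⟩ := exists_bform_eq (CL.Sp.stdForm (Fin m) F + LinearMap.BilinForm.linMulLin
    (CL.Sp.stdForm (Fin m) F w) (CL.Sp.stdForm (Fin m) F w)) (fun u hu => by
      have h1 : u = -(CL.Sp.stdForm (Fin m) F w u • w) :=
        eq_neg_of_add_eq_zero_left (hN.1 _ fun y => by simpa using hu y)
      have h4 : CL.Sp.stdForm (Fin m) F w u = 0 := by rw [h1, map_neg, map_smul, hA w, smul_zero, neg_zero]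
      rw [h1, h4, zero_smul, neg_zero]) e
  have h₃' : ∀ u v, Cfsg.sympForm m F (e u) (e v) + Cfsg.sympForm m F w (e u) * Cfsg.sympForm m F w (e v) =
      bform G₃ u v := fun u v => by simp [h₃, CL.Sp.stdForm_eq_sympForm]
  have hs : (bform G₃).IsSymm := ⟨fun u v => by
    simp only [h₃, LinearMap.add_apply, LinearMap.BilinForm.linMulLin_apply, CL.Sp.alt_neg hA (e u), CharTwo.neg_eq,
      mul_comm]⟩
  refine ⟨grAut G₁, grAut G₃, ⟨_, CL.Sp.sympTransvection_mem w 1⟩, ?_, isGraphAutClassPSL_iff.2 ⟨hn, _, rfl⟩,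
    (orderOf_grAut_eq_two_iff h3 _).2 (Or.inr (transpose_of_bform_isAlt h₁)), isGraphAutClassPSL_iff.2 ⟨hn, _, rfl⟩,
    (orderOf_grAut_eq_two_iff h3 _).2 (Or.inl (bform_isSymm_iff.1 hs)), fun h => ?_, fun γ hγ hγ2 => ?_,
    centralizer_grAut_two_alt h2 (by omega) hnm h₁, centralizer_grAut_two_even h2 (by omega) hnm e w h₃'⟩
  · refine isTransvection_iff.2 ⟨w, J (Fin m) F *ᵥ w, hw, fun h => hx ?_, ?_, by simp [Cfsg.sympTransvection]⟩
    · rw [CL.Sp.alt_neg hA, CL.Sp.stdForm_apply, h, dotProduct_zero, neg_zero]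
    · rw [dotProduct_comm, ← CL.Sp.stdForm_apply, hA w]
  · have := isAlt_of_isConjUnder_grAut h₁ h (e.symm x)
    rw [h₃, e.apply_symm_apply] at this
    simp [hA x, hx] at this
  · obtain ⟨-, G, rfl⟩ := isGraphAutClassPSL_iff.1 hγ
    have hG : (bform G).IsSymm := bform_isSymm_iff.2 (by
      rcases (orderOf_grAut_eq_two_iff h3 G).1 hγ2 with h | h
      · exact h
      · rw [h]; ext i j; exact CharTwo.neg_eq _)
    obtain ⟨φ, w', hφ⟩ := exists_equiv_two_even h2 hG (bform_nondegenerate G) (m := m) (by simp [hnm])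
    simp only [← CL.Sp.stdForm_eq_sympForm] at hφ h₃'
    by_cases hw' : w' = 0
    · refine Or.inl (isConjUnder_grAut_of_isAlt hnm h₁ fun v => ?_)
      rw [← hφ, hw', hA (φ v)]
      simp
    · obtain ⟨t, ht, e'⟩ := CL.Sp.exists_isom_apply_eq hA hN hw' hw
      refine Or.inr (isConjUnder_grAut_of_equiv (fun u v => CL.Sp.stdForm (Fin m) F u v +
        CL.Sp.stdForm (Fin m) F w u * CL.Sp.stdForm (Fin m) F w v) e (φ.trans t) one_ne_zero h₃' fun u v => ?_)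
      rw [one_mul, ← hφ, ← e']
      simp only [LinearEquiv.trans_apply, CL.Sp.mem_isom.1 ht]

end Cfsg.Agent.S2701
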