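import Cfsg.Statements.S2702
import Cfsg.Agent.Known.GLAut7

set_option autoImplicit false
open Cfsg

namespace Cfsg.Agent.S2702

open CL.GLn in

/-- Let T = PSL_n(F) over the field with q = p^f elements, n ≥ 3, G = Inndiag(T) the image of PGL_n(F), and γ an involutory graph automorphism of T. The G-class of γ is the union of exactly c T-classes, where: if n is even and q is odd, c = gcd(n/2, q − 1) when C_G(γ) is isomorphic to the projective conformal symplectic group PGSp_n(F) (symplectic type) and c = gcd(n, q − 1)/2 otherwise; and c = gcd(n, q − 1) when n is odd or q is even. -/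
theorem result {F : Type*} [Field F] [Fintype F] {p f : ℕ} [Fact p.Prime] (hF : Fintype.card F = p ^ f) (hf : 1 ≤ f) {n : ℕ} (hn : 3 ≤ n) (γ : MulAut (Matrix.ProjectiveSpecialLinearGroup (Fin n) F)) (hγ : Cfsg.IsGraphAutClassPSL γ) (hγ2 : orderOf γ = 2) :
    ((Even n ∧ Odd p ∧ Nonempty (↥(Cfsg.inndiagPSL n F ⊓ Subgroup.centralizer {γ}) ≃* Cfsg.PGSp (n / 2) F)) → Cfsg.splitClassCount (Cfsg.inndiagPSL n F) (Cfsg.Inn (Matrix.ProjectiveSpecialLinearGroup (Fin n) F)) γ = Nat.gcd (n / 2) (p ^ f - 1)) ∧ ((Even n ∧ Odd p ∧ ¬ Nonempty (↥(Cfsg.inndiagPSL n F ⊓ Subgroup.centralizer {γ}) ≃* Cfsg.PGSp (n / 2) F)) → Cfsg.splitClassCount (Cfsg.inndiagPSL n F) (Cfsg.Inn (Matrix.ProjectiveSpecialLinearGroup (Fin n) F)) γ = Nat.gcd n (p ^ f - 1) / 2) ∧ (¬ (Even n ∧ Odd p) → Cfsg.splitClassCount (Cfsg.inndiagPSL n F) (Cfsg.Inn (Matrix.ProjectiveSpecialLinearGroup (Fin n) F)) γ = Nat.gcd n (p ^ f - 1)) := by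
  obtain ⟨-, G, rfl⟩ := isGraphAutClassPSL_iff.1 hγ
  have h3 : 3 ≤ Fintype.card (Fin n) := by simpa using hn
  have : NeZero n := ⟨by omega⟩
  have hG := (orderOf_grAut_eq_two_iff h3 G).1 hγ2
  have hq : Nat.card F = p ^ f := by rw [Nat.card_eq_fintype_card, hF]
  have h2 : Odd p → (2 : F) ≠ 0 := fun h => CL.Cls.two_ne_zero_of_odd_card (hF ▸ h.pow)
  rw [← hq]
  refine ⟨?_, ?_, fun h => ?_⟩
  · rintro ⟨⟨m, hm⟩, hp, he⟩
    have hm' : n / 2 = m := by omega
    rw [hm'] at he ⊢
    rcases hG with h | h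
    · exact absurd he (not_nonempty_centralizer_symm_PGSp (h2 hp) (by omega) (by omega) (bform_isSymm_iff.2 h))
    · exact splitClassCount_grAut_of_alt (by omega) (by omega) (bform_isAlt_of_transpose (h2 hp) h)
  · rintro ⟨⟨m, hm⟩, hp, he⟩
    rcases hG with h | h
    · exact splitClassCount_grAut_of_symm (h2 hp) (m := m) (by omega) (by omega) (bform_isSymm_iff.2 h)
    · exact absurd (centralizer_grAut_alt (by omega) (bform_isAlt_of_transpose (h2 hp) h)) he
  · rcases Nat.even_or_odd n with hn' | hn'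
    · have hp : p = 2 := ((Fact.out : p.Prime).even_iff).1 (Nat.not_odd_iff_even.1 fun hp => h ⟨hn', hp⟩)
      refine splitClassCount_grAut_of_two ?_ G
      have := FiniteField.cast_card_eq_zero F
      rw [hF, hp, Nat.cast_pow, pow_eq_zero_iff (by omega)] at this
      exact_mod_cast this
    · exact splitClassCount_grAut_of_odd hn' G

end Cfsg.Agent.S2702
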