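import Cfsg.Statements.S2703
import Cfsg.Agent.Known.GLAut7

set_option autoImplicit false
open Cfsg

namespace Cfsg.Agent.S2703

open CL.GLn in

/-- Let T = PSL_n(F) over the field with q elements, q odd, n = 2m ≥ 4 even, and ι the inverse-transpose automorphism. Its centralizer in G = Inndiag(T) (the image of PGL_n(F)) is isomorphic to the projective conformal orthogonal group of the plus-type form Σ xᵢ yᵢ in dimension n when n(q − 1)/4 is even, and to that of a minus-type form (Σ xᵢ yᵢ + z₁² + a z₁ z₂ + b z₂² with anisotropic binary part) when n(q − 1)/4 is odd. -/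
theorem result {F : Type*} [Field F] [Fintype F] (hodd : Odd (Fintype.card F)) {n m : ℕ} (hm : 2 ≤ m) (hnm : n = 2 * m) (ι : MulAut (Matrix.ProjectiveSpecialLinearGroup (Fin n) F)) (hι : Cfsg.IsInverseTransposeAutPSL ι) :
    (Even (n * (Fintype.card F - 1) / 4) → Nonempty (↥(Cfsg.inndiagPSL n F ⊓ Subgroup.centralizer {ι}) ≃* Cfsg.PGO F (Cfsg.quadFormPlus m F))) ∧ (¬ Even (n * (Fintype.card F - 1) / 4) → ∃ a b : F, (∀ z₁ z₂ : F, z₁ ^ 2 + a * z₁ * z₂ + b * z₂ ^ 2 = 0 → z₁ = 0 ∧ z₂ = 0) ∧ Nonempty (↥(Cfsg.inndiagPSL n F ⊓ Subgroup.centralizer {ι}) ≃* Cfsg.PGO F (Cfsg.quadFormMinus (m - 1) F a b))) := by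
  have h2 : (2 : F) ≠ 0 := CL.Cls.two_ne_zero_of_odd_card hodd
  have hι' : ι = grAut 1 := by rw [isInverseTransposeAutPSL_iff.1 hι, grAut, inv_one, map_one, one_mul]
  subst hι'
  have hG : (bform (1 : GL (Fin n) F)).IsSymm := bform_isSymm_iff.2 (by simp)
  have key : Even (n * (Fintype.card F - 1) / 4) ↔
      IsSquare ((-1) ^ m * ((1 : GL (Fin n) F) : Matrix (Fin n) (Fin n) F).det) := by
    obtain ⟨k, hk⟩ := hodd
    rw [Units.val_one, Matrix.det_one, mul_one, show n * (Fintype.card F - 1) / 4 = m * k by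
      rw [hnm, hk, Nat.add_sub_cancel, show 2 * m * (2 * k) = 4 * (m * k) by ring,
        Nat.mul_div_cancel_left _ (by norm_num)], Nat.even_mul]
    rcases Nat.even_or_odd m with h | h
    · simp [h, h.neg_one_pow]
    · rw [h.neg_one_pow, FiniteField.isSquare_neg_one_iff, hk, Nat.even_iff, Nat.even_iff, Nat.odd_iff.1 h]
      omega
  refine ⟨fun h => centralizer_grAut_plus h2 hnm hG (key.1 h), fun h => ?_⟩
  obtain ⟨a, b, hab⟩ := CL.Cls.exists_anisotropic_pair F
  obtain ⟨m, rfl⟩ : ∃ k, m = k + 1 := ⟨m - 1, by omega⟩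
  exact ⟨a, b, hab, centralizer_grAut_minus h2 hnm hG (fun h' => h (key.2 h')) hab⟩

end Cfsg.Agent.S2703
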