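import Cfsg.Statements.S2704
import Cfsg.Agent.Known.GLAut5

set_option autoImplicit false
open Cfsg

namespace Cfsg.Agent.S2704

open CL.GLn

/-- Let T = PSL_n(F) over the field F with p^f elements, n ≥ 3, and G = Inndiag(T) the image of PGL_n(F). If x is an involutory graph-field automorphism of T then f is even; x is G-conjugate to every other involutory graph-field automorphism; C_G(x) is isomorphic to the projective general unitary group PGU_n(q₀) with q₀² = p^f, realised over F itself through the Hermitian form Σ uᵢ vᵢ^{q₀}; and the G-class of x is the union of exactly gcd(n, q₀ − 1) T-classes. -/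
theorem result {F : Type*} [Field F] [Fintype F] {p f : ℕ} [Fact p.Prime] (hF : Fintype.card F = p ^ f) (hf : 1 ≤ f) {n : ℕ} (hn : 3 ≤ n) (x : MulAut (Matrix.ProjectiveSpecialLinearGroup (Fin n) F)) (hx : Cfsg.IsGraphFieldAutClassPSL x) (hx2 : orderOf x = 2) :
    Even f ∧ (∀ y : MulAut (Matrix.ProjectiveSpecialLinearGroup (Fin n) F), Cfsg.IsGraphFieldAutClassPSL y → orderOf y = 2 → Cfsg.IsConjUnder (Cfsg.inndiagPSL n F) x y) ∧ Nonempty (↥(Cfsg.inndiagPSL n F ⊓ Subgroup.centralizer {x}) ≃* Cfsg.PGU n F (p ^ (f / 2))) ∧ Cfsg.splitClassCount (Cfsg.inndiagPSL n F) (Cfsg.Inn (Matrix.ProjectiveSpecialLinearGroup (Fin n) F)) x = Nat.gcd n (p ^ (f / 2) - 1) := by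
  have hN := inndiagPSL_normal (F := F) (n := n) (by omega)
  have : NeZero n := ⟨by omega⟩
  obtain ⟨π, hπ1, hπ2, hπ3⟩ := exists_outHom_three (F := F) hn
  have hcyc := isCyclic_ringAut (F := F)
  have key : ∀ y : MulAut (Matrix.ProjectiveSpecialLinearGroup (Fin n) F), Cfsg.IsGraphFieldAutClassPSL y →
      orderOf y = 2 → ∃ (α : MulAut (Matrix.ProjectiveSpecialLinearGroup (Fin n) F)) (σ : F ≃+* F),
        orderOf σ = 2 ∧ α * y * α⁻¹ = fieldAut (Fin n) F σ * graphAut (Fin n) F := by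
    rintro y ⟨-, α, φ, γ, σ, hσ1, hφ, hγ, hσ⟩ hy
    rw [isStdFieldAutPSL_iff.1 hφ, isInverseTransposeAutPSL_iff.1 hγ] at hσ
    exact ⟨α, σ, (orderOf_eq_two_of_gf hn hσ1 Nat.prime_two
      (hσ ▸ (MulEquiv.orderOf_eq (MulAut.conj α) y).trans hy)).2, hσ⟩
  obtain ⟨α, σ, h1, hσ⟩ := key x hx hx2
  have h2 : 2 ∣ f := by rw [← h1, ← card_ringAut hF]; exact orderOf_dvd_natCard σ
  have h3 : Nat.card (fixedFld σ) = p ^ (f / 2) := by
    have := card_fixedFld_pow σ
    rw [h1, Nat.card_eq_fintype_card (α := F), hF] at this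
    apply Nat.pow_left_injective two_ne_zero
    simp only
    rw [this, ← pow_mul, Nat.div_mul_cancel h2]
  refine ⟨even_iff_two_dvd.2 h2, fun y hy hy2 => ?_, ?_, ?_⟩
  · obtain ⟨β, τ, h1', hτ⟩ := key y hy hy2
    have hστ : τ = σ := by
      ext a
      rw [apply_eq_pow_of_orderOf_two h1, apply_eq_pow_of_orderOf_two h1']
      congr 1
      apply Nat.pow_left_injective two_ne_zero
      simp only
      conv_lhs => rw [← h1', card_fixedFld_pow]
      rw [← h1, card_fixedFld_pow]
    subst hστ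
    have hc : ∀ a b : (F ≃+* F) × Multiplicative (ZMod 2), a * b = b * a := fun a b =>
      Prod.ext (hcyc.isMulCommutative.is_comm.comm _ _) (mul_comm _ _)
    have h4 : α * y * α⁻¹ * (α * x * α⁻¹)⁻¹ ∈ π.ker := by
      have e1 := congrArg π hσ
      have e2 := congrArg π hτ
      simp only [map_mul, map_inv] at e1 e2
      rw [hc (π α), mul_inv_cancel_right] at e1
      rw [hc (π β), mul_inv_cancel_right] at e2
      rw [MonoidHom.mem_ker]
      simp only [map_mul, map_inv]
      rw [e1, e2, mul_inv_cancel]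
    rw [hπ1] at h4
    obtain ⟨g, hg⟩ := mem_inndiagPSL.1 h4
    rw [← isConjUnder_conj_iff α, ← inv_mul_cancel_right (α * y * α⁻¹) (α * x * α⁻¹), ← hg, hσ]
    apply isConjUnder_gf h1
    rw [← hσ, hg, inv_mul_cancel_right, ← hy2, ← MulEquiv.orderOf_eq (MulAut.conj α) y]
    exact pow_orderOf_eq_one _
  · obtain ⟨e⟩ := centralizer_gf_equiv (n := n) h1
    rw [← hσ, h3] at e
    exact ⟨(infCentralizerConj _ α x).trans e⟩
  · rw [← splitClassCount_conj _ _ α, hσ, splitClassCount_gf h1, h3]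

end Cfsg.Agent.S2704
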