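import Cfsg.Statements.S2706
import Cfsg.Agent.Known.ULang3

set_option autoImplicit false
open Cfsg

namespace Cfsg.Agent.S2706

open CL.GLn CL.Uni in

/-- Let T = PSU_n(q) be simple with n = 2m + 1 ≥ 3 odd, realised over the field F with q² elements, and G = Inndiag(T) the image of PGU_n(q). Every involutory graph automorphism γ of T (an inner-diagonal automorphism times a standard field automorphism of even order, of order 2) has centralizer C_G(γ) isomorphic to the projective conformal orthogonal group of the form x₀² + Σ xᵢ yᵢ in dimension n over a field F₀ with q elements, and any two involutory graph automorphisms of T are G-conjugate. -/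
theorem result {F : Type*} [Field F] [Fintype F] {p f q : ℕ} [Fact p.Prime] (hq : q = p ^ f) (hf : 1 ≤ f) (hF : Fintype.card F = q ^ 2) {n : ℕ} (hn : 3 ≤ n) (hs : ¬ (n = 3 ∧ q = 2)) {m : ℕ} (hnm : n = 2 * m + 1) (F₀ : Type*) [Field F₀] [Fintype F₀] (hF₀ : Fintype.card F₀ = q) (γ γ' : MulAut (Cfsg.PSU n F q)) (hγ : Cfsg.IsGraphAutClassPSU γ) (hγ2 : orderOf γ = 2) (hγ' : Cfsg.IsGraphAutClassPSU γ') (hγ'2 : orderOf γ' = 2) :
    Nonempty (↥(Cfsg.inndiagPSU n F q ⊓ Subgroup.centralizer {γ}) ≃* Cfsg.PGO F₀ (Cfsg.quadFormOdd m F₀)) ∧ Cfsg.IsConjUnder (Cfsg.inndiagPSU n F q) γ γ' := by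
  have hb := isBar_bar hF
  have : NeZero n := ⟨by omega⟩
  have hodd : Odd n := ⟨m, hnm⟩
  obtain ⟨φ, hφ⟩ := exists_isFixEmb_bar hb hF₀
  obtain ⟨G, rfl⟩ := exists_eq_ugr hb hn hs hγ hγ2
  obtain ⟨G', rfl⟩ := exists_eq_ugr hb hn hs hγ' hγ'2
  have h1 := (orderOf_ugr_eq_two_iff hb hn hs G).1 hγ2
  have h1' := (orderOf_ugr_eq_two_iff hb hn hs G').1 hγ'2
  obtain ⟨G₀, h₀⟩ := exists_desc_of_mem_CU hb hφ G.2 h1
  obtain ⟨G₀', h₀'⟩ := exists_desc_of_mem_CU hb hφ G'.2 h1'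
  have h2 := bform_isSymm_iff.2 (h₀.symm_iff.1 (symm_of_odd (by simpa using hodd) h1))
  have h2' := bform_isSymm_iff.2 (h₀'.symm_iff.1 (symm_of_odd (by simpa using hodd) h1'))
  obtain ⟨e1⟩ := centralizer_ugr_equiv_of_desc hb hn hs hφ h₀
  obtain ⟨e2⟩ := centralizer_grAut_odd hnm h2
  exact ⟨⟨e1.trans e2⟩, (isConjUnder_ugr_iff_of_desc hb hn hs hφ h₀ h₀').2 (isConjUnder_grAut_odd hodd h2 h2')⟩

end Cfsg.Agent.S2706
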