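import Cfsg.Statements.S2707
import Cfsg.Agent.Known.ULang3
import Cfsg.Agent.S2700

set_option autoImplicit false
open Cfsg

namespace Cfsg.Agent.S2707

open CL.GLn CL.Uni in

/-- Let T = PSU_n(q) with n = 2m ≥ 4 even and q odd, realised over the field F with q² elements, and G = Inndiag(T) the image of PGU_n(q). The involutory graph automorphisms of T fall into exactly three G-classes, with representatives whose centralizers in G are isomorphic respectively to the projective conformal symplectic group PGSp_n(F₀), the projective conformal orthogonal group of the plus-type form Σ xᵢ yᵢ, and that of a minus-type form Σ xᵢ yᵢ + z₁² + a z₁ z₂ + b z₂² (anisotropic binary part) in dimension n, all over a field F₀ with q elements. -/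
theorem result {F : Type*} [Field F] [Fintype F] {q : ℕ} (hodd : Odd q) (hF : Fintype.card F = q ^ 2) {n m : ℕ} (hm : 2 ≤ m) (hnm : n = 2 * m) (F₀ : Type*) [Field F₀] [Fintype F₀] (hF₀ : Fintype.card F₀ = q) :
    ∃ (γ₁ γ₂ γ₃ : MulAut (Cfsg.PSU n F q)) (a b : F₀), (∀ z₁ z₂ : F₀, z₁ ^ 2 + a * z₁ * z₂ + b * z₂ ^ 2 = 0 → z₁ = 0 ∧ z₂ = 0) ∧ Cfsg.IsGraphAutClassPSU γ₁ ∧ orderOf γ₁ = 2 ∧ Cfsg.IsGraphAutClassPSU γ₂ ∧ orderOf γ₂ = 2 ∧ Cfsg.IsGraphAutClassPSU γ₃ ∧ orderOf γ₃ = 2 ∧ ¬ Cfsg.IsConjUnder (Cfsg.inndiagPSU n F q) γ₁ γ₂ ∧ ¬ Cfsg.IsConjUnder (Cfsg.inndiagPSU n F q) γ₁ γ₃ ∧ ¬ Cfsg.IsConjUnder (Cfsg.inndiagPSU n F q) γ₂ γ₃ ∧ (∀ γ : MulAut (Cfsg.PSU n F q), Cfsg.IsGraphAutClassPSU γ → orderOf γ = 2 → Cfsg.IsConjUnder (Cfsg.inndiagPSU n F q) γ₁ γ ∨ Cfsg.IsConjUnder (Cfsg.inndiagPSU n F q) γ₂ γ ∨ Cfsg.IsConjUnder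 (Cfsg.inndiagPSU n F q) γ₃ γ) ∧ Nonempty (↥(Cfsg.inndiagPSU n F q ⊓ Subgroup.centralizer {γ₁}) ≃* Cfsg.PGSp m F₀) ∧ Nonempty (↥(Cfsg.inndiagPSU n F q ⊓ Subgroup.centralizer {γ₂}) ≃* Cfsg.PGO F₀ (Cfsg.quadFormPlus m F₀)) ∧ Nonempty (↥(Cfsg.inndiagPSU n F q ⊓ Subgroup.centralizer {γ₃}) ≃* Cfsg.PGO F₀ (Cfsg.quadFormMinus (m - 1) F₀ a b)) := by
  have hb := isBar_bar hF
  have hn : 3 ≤ n := by omega
  have hs : ¬ (n = 3 ∧ q = 2) := by omega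
  have h3 : 3 ≤ Fintype.card (Fin n) := by simpa using hn
  have : NeZero n := ⟨by omega⟩
  obtain ⟨φ, hφ⟩ := exists_isFixEmb_bar hb hF₀
  obtain ⟨γ₁, γ₂, γ₃, a, b, hab, i₁, o₁, i₂, o₂, i₃, o₃, c₁₂, c₁₃, c₂₃, hall, ⟨e₁⟩, ⟨e₂⟩, ⟨e₃⟩⟩ :=
    Cfsg.Agent.S2700.result (F := F₀) (hF₀ ▸ hodd) hm hnm
  obtain ⟨-, A₁, rfl⟩ := isGraphAutClassPSL_iff.1 i₁
  obtain ⟨-, A₂, rfl⟩ := isGraphAutClassPSL_iff.1 i₂
  obtain ⟨-, A₃, rfl⟩ := isGraphAutClassPSL_iff.1 i₃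
  have key : ∀ A : GL (Fin n) F₀, orderOf (grAut A) = 2 → ∃ G : CU n F q, Desc (bar hF) φ G A ∧
      orderOf (ugr hb G) = 2 := fun A hA => by
    have h := (orderOf_grAut_eq_two_iff h3 A).1 hA
    obtain ⟨G, hG, hd⟩ := exists_desc_of_transpose hb hφ h
    exact ⟨⟨G, hG⟩, hd, (orderOf_ugr_eq_two_iff hb hn hs _).2 (h.imp hd.symm_iff.2 hd.skew_iff.2)⟩
  obtain ⟨G₁, d₁, p₁⟩ := key A₁ o₁
  obtain ⟨G₂, d₂, p₂⟩ := key A₂ o₂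
  obtain ⟨G₃, d₃, p₃⟩ := key A₃ o₃
  obtain ⟨f₁⟩ := centralizer_ugr_equiv_of_desc hb hn hs hφ d₁
  obtain ⟨f₂⟩ := centralizer_ugr_equiv_of_desc hb hn hs hφ d₂
  obtain ⟨f₃⟩ := centralizer_ugr_equiv_of_desc hb hn hs hφ d₃
  refine ⟨ugr hb G₁, ugr hb G₂, ugr hb G₃, a, b, hab, isGraphAutClassPSU_ugr hb hn _, p₁,
    isGraphAutClassPSU_ugr hb hn _, p₂, isGraphAutClassPSU_ugr hb hn _, p₃,
    (isConjUnder_ugr_iff_of_desc hb hn hs hφ d₁ d₂).not.2 c₁₂,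
    (isConjUnder_ugr_iff_of_desc hb hn hs hφ d₁ d₃).not.2 c₁₃,
    (isConjUnder_ugr_iff_of_desc hb hn hs hφ d₂ d₃).not.2 c₂₃, fun γ hγ hγ2 => ?_,
    ⟨f₁.trans e₁⟩, ⟨f₂.trans e₂⟩, ⟨f₃.trans e₃⟩⟩
  obtain ⟨G, rfl⟩ := exists_eq_ugr hb hn hs hγ hγ2
  have h1 := (orderOf_ugr_eq_two_iff hb hn hs G).1 hγ2
  obtain ⟨A, d⟩ := exists_desc_of_mem_CU hb hφ G.2 h1
  rw [isConjUnder_ugr_iff_of_desc hb hn hs hφ d₁ d, isConjUnder_ugr_iff_of_desc hb hn hs hφ d₂ d,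
    isConjUnder_ugr_iff_of_desc hb hn hs hφ d₃ d]
  exact hall _ (isGraphAutClassPSL_iff.2 ⟨hn, _, rfl⟩)
    ((orderOf_grAut_eq_two_iff h3 A).2 (h1.imp d.symm_iff.1 d.skew_iff.1))

end Cfsg.Agent.S2707
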