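import Cfsg.Statements.S2709
import Cfsg.Agent.Known.ULang3

set_option autoImplicit false
open Cfsg

namespace Cfsg.Agent.S2709

open CL.GLn CL.Uni in

/-- Let T = PSU_n(q) be simple (n ≥ 3, (n,q) ≠ (3,2), q = p^f), realised over the field F with q² elements, G = Inndiag(T) the image of PGU_n(q), and γ an involutory graph automorphism of T. The G-class of γ is the union of exactly c T-classes, where: if n is even and q is odd, c = gcd(n/2, q + 1) when C_G(γ) is isomorphic to PGSp_n(F₀) for a field F₀ with q elements (symplectic type) and c = gcd(n, q + 1)/2 otherwise; and c = gcd(n, q + 1) when n is odd or q is even. -/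
theorem result {F : Type*} [Field F] [Fintype F] {p f q : ℕ} [Fact p.Prime] (hq : q = p ^ f) (hf : 1 ≤ f) (hF : Fintype.card F = q ^ 2) {n : ℕ} (hn : 3 ≤ n) (hs : ¬ (n = 3 ∧ q = 2)) (F₀ : Type*) [Field F₀] [Fintype F₀] (hF₀ : Fintype.card F₀ = q) (γ : MulAut (Cfsg.PSU n F q)) (hγ : Cfsg.IsGraphAutClassPSU γ) (hγ2 : orderOf γ = 2) :
    ((Even n ∧ Odd q ∧ Nonempty (↥(Cfsg.inndiagPSU n F q ⊓ Subgroup.centralizer {γ}) ≃* Cfsg.PGSp (n / 2) F₀)) → Cfsg.splitClassCount (Cfsg.inndiagPSU n F q) (Cfsg.Inn (Cfsg.PSU n F q)) γ = Nat.gcd (n / 2) (q + 1)) ∧ ((Even n ∧ Odd q ∧ ¬ Nonempty (↥(Cfsg.inndiagPSU n F q ⊓ Subgroup.centralizer {γ}) ≃* Cfsg.PGSp (n / 2) F₀)) → Cfsg.splitClassCount (Cfsg.inndiagPSU n F q) (Cfsg.Inn (Cfsg.PSU n F q)) γ = Nat.gcd n (q + 1) / 2) ∧ (¬ (Even n ∧ Odd q) → Cfsg.splitClassCount (Cfsg.inndiagPSU n F q) (Cfsg.Inn (Cfsg.PSU n F q)) γ = Nat.gcd n (q + 1)) := by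
  have hb := isBar_bar hF
  have : NeZero n := ⟨by omega⟩
  obtain ⟨φ, hφ⟩ := exists_isFixEmb_bar hb hF₀
  obtain ⟨G, rfl⟩ := exists_eq_ugr hb hn hs hγ hγ2
  have h1 := (orderOf_ugr_eq_two_iff hb hn hs G).1 hγ2
  obtain ⟨A, d⟩ := exists_desc_of_mem_CU hb hφ G.2 h1
  obtain ⟨e⟩ := centralizer_ugr_equiv_of_desc hb hn hs hφ d
  have h2 : Odd q → (2 : F₀) ≠ 0 := fun h => CL.Cls.two_ne_zero_of_odd_card (hF₀ ▸ h)
  have h2' : Odd q → (2 : F) ≠ 0 := fun h => CL.Cls.two_ne_zero_of_odd_card (hF ▸ h.pow)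
  refine ⟨?_, ?_, fun h => ?_⟩
  · rintro ⟨⟨m, hm⟩, hp, ⟨e'⟩⟩
    have hm' : n / 2 = m := by omega
    rw [hm'] at e' ⊢
    rcases h1 with h | h
    · exact absurd ⟨e.symm.trans e'⟩ (not_nonempty_centralizer_symm_PGSp (h2 hp) (by omega) (by omega)
        (bform_isSymm_iff.2 (d.symm_iff.1 h)))
    · exact splitClassCount_ugr_of_alt hb hn hs hφ (by omega) d (bform_isAlt_of_transpose (h2' hp) h)
        (bform_isAlt_of_transpose (h2 hp) (d.skew_iff.1 h))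
  · rintro ⟨⟨m, hm⟩, hp, he⟩
    rcases h1 with h | h
    · exact splitClassCount_ugr_of_symm hb hn hs hφ hp (h2 hp) (m := m) (by omega) d
        (bform_isSymm_iff.2 (d.symm_iff.1 h))
    · exact absurd ((centralizer_grAut_alt (by omega) (bform_isAlt_of_transpose (h2 hp) (d.skew_iff.1 h))).map
        e.trans) he
  · rcases Nat.even_or_odd n with hn' | hn'
    · exact splitClassCount_ugr_of_even hb hn hs (Nat.not_odd_iff_even.1 fun hp => h ⟨hn', hp⟩) G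
    · exact splitClassCount_ugr_of_odd hb hn hs hn' G

end Cfsg.Agent.S2709
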