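import Cfsg.Statements.S2712
import Cfsg.Agent.Known.SpAut3

set_option autoImplicit false
open Cfsg

namespace Cfsg.Agent.S2712

/-- Let T = PSp_{2m}(F) be simple over the field F with p^f elements (m ≥ 2, (2m, |F|) ≠ (4, 2)), G = Inndiag(T) the image of the projective conformal symplectic group PGSp_{2m}(F), and x a field automorphism of T of prime order r. Then r divides f; C_G(x) is isomorphic to PGSp_{2m}(F₀) for a field F₀ with p^(f/r) elements; and the G-class of x is the union of exactly gcd(gcd(2, p^f − 1), r) T-classes. -/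
theorem result {F : Type*} [Field F] [Fintype F] {p f : ℕ} [Fact p.Prime] (hF : Fintype.card F = p ^ f) (hf : 1 ≤ f) {m : ℕ} (hm : 2 ≤ m) (hs : m = 2 → 3 ≤ Fintype.card F) (x : MulAut (Cfsg.PSp m F)) (hx : Cfsg.IsFieldAutClassPSp x) {r : ℕ} (hr : r.Prime) (hxr : orderOf x = r) (F₀ : Type*) [Field F₀] [Fintype F₀] (hF₀ : Fintype.card F₀ = p ^ (f / r)) :
    r ∣ f ∧ Nonempty (↥(Cfsg.inndiagPSp m F ⊓ Subgroup.centralizer {x}) ≃* Cfsg.PGSp m F₀) ∧ Cfsg.splitClassCount (Cfsg.inndiagPSp m F) (Cfsg.Inn (Cfsg.PSp m F)) x = Nat.gcd (Nat.gcd 2 (p ^ f - 1)) r := by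
  obtain ⟨α, σ, -, h⟩ := hx
  rw [CL.SpAut.isStd_iff hm] at h
  rw [CL.SpAut.inndiag_eq hm]
  haveI := CL.SpAut.range_D_normal (F := F) hm
  have h1 : orderOf σ = r := by
    rw [← CL.SpAut.orderOf_fld hm, ← h]; exact (MulEquiv.orderOf_eq (MulAut.conj α) x).trans hxr
  have h2 : r ∣ f := by rw [← h1, ← CL.GLn.card_ringAut hF]; exact orderOf_dvd_natCard σ
  have h3 : Nat.card F₀ ^ orderOf σ = Nat.card F := by
    rw [h1, Nat.card_eq_fintype_card, Nat.card_eq_fintype_card, hF, hF₀, ← pow_mul, Nat.div_mul_cancel h2]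
  obtain ⟨φ, hφ⟩ := CL.Ind.exists_embedding_fixed σ h3
  obtain ⟨e⟩ := CL.SpAut.centralizer_fld_equiv hm hφ
  refine ⟨h2, ⟨(CL.GLn.infCentralizerConj _ α x).trans (h ▸ e)⟩, ?_⟩
  rw [← CL.GLn.splitClassCount_conj _ _ α, h, CL.SpAut.splitClassCount_fld, ← hF, ← Nat.card_eq_fintype_card,
    ← CL.GLn.card_fixedFld_pow σ, h1]
  have h4 : 1 < Nat.card (CL.GLn.fixedFld σ) := Finite.one_lt_card
  generalize Nat.card (CL.GLn.fixedFld σ) = k at h4
  rw [← Nat.geomSum_eq h4]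
  have h5 : ∀ a, Nat.gcd 2 a = if a % 2 = 0 then 2 else 1 := fun a => by
    rw [Nat.gcd_rec]; rcases Nat.mod_two_eq_zero_or_one a with h | h <;> simp [h]
  obtain ⟨s, rfl⟩ := Nat.exists_eq_succ_of_ne_zero hr.ne_zero
  rcases Nat.even_or_odd k with hk | hk
  · have h6 : Odd (k ^ (s + 1) - 1) := Nat.Even.sub_odd (Nat.one_le_pow _ _ (by omega)) (hk.pow_of_ne_zero (by omega)) odd_one
    have h7 : Odd (∑ i ∈ Finset.range (s + 1), k ^ i) := by
      rw [geom_sum_succ]; exact (hk.mul_right _).add_one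
    rw [Nat.coprime_two_left.2 h6, Nat.coprime_two_left.2 h7, Nat.gcd_one_left]
  · have h6 : Even (k ^ (s + 1) - 1) := Nat.Odd.sub_odd hk.pow odd_one
    have h7 : (∑ i ∈ Finset.range (s + 1), k ^ i) % 2 = (s + 1) % 2 := by
      rw [Finset.sum_nat_mod, Finset.sum_congr rfl fun i _ => Nat.odd_iff.1 hk.pow]; simp
    rw [Nat.gcd_eq_left h6.two_dvd, h5, h5, h7]

end Cfsg.Agent.S2712
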