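import Cfsg.Statements.S2714
import Cfsg.Agent.Known.OLang4

set_option autoImplicit false
open Cfsg

namespace Cfsg.Agent.S2714

open CL.Cls CL.GLn in

/-- Let T = Ω_{2m+1}(F) (m ≥ 3, |F| = p^f odd; realised as PΩ of the form x₀² + Σ xᵢ yᵢ), G = Inndiag(T) the image of the conformal orthogonal group in Aut(T), and x a field automorphism of T of prime order r. Then r divides f; C_G(x) is isomorphic to Inndiag(Ω_{2m+1}(F₀)) for a field F₀ with p^(f/r) elements; and the G-class of x is a single T-class when r is odd and the union of exactly two T-classes when r = 2. -/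
theorem result {F : Type*} [Field F] [Fintype F] {p f : ℕ} [Fact p.Prime] (hF : Fintype.card F = p ^ f) (hf : 1 ≤ f) (hodd : Odd (Fintype.card F)) {m : ℕ} (hm : 3 ≤ m) (x : MulAut (Cfsg.POmega F (Cfsg.quadFormOdd m F))) (hx : Cfsg.IsFieldAutClassPOmega (Cfsg.quadFormOdd m F) x) {r : ℕ} (hr : r.Prime) (hxr : orderOf x = r) (F₀ : Type*) [Field F₀] [Fintype F₀] (hF₀ : Fintype.card F₀ = p ^ (f / r)) :
    r ∣ f ∧ Nonempty (↥(Cfsg.inndiagPOmegaOdd m F ⊓ Subgroup.centralizer {x}) ≃* ↥(Cfsg.inndiagPOmegaOdd m F₀)) ∧ (Odd r → Cfsg.splitClassCount (Cfsg.inndiagPOmegaOdd m F) (Cfsg.Inn (Cfsg.POmega F (Cfsg.quadFormOdd m F))) x = 1) ∧ (r = 2 → Cfsg.splitClassCount (Cfsg.inndiagPOmegaOdd m F) (Cfsg.Inn (Cfsg.POmega F (Cfsg.quadFormOdd m F))) x = 2) := by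
  have h2 := two_ne_zero_of_odd_card hodd
  obtain ⟨T, h1, rfl⟩ := exists_autM_of_fieldClass (range_toAut_qfOdd h2 hm) qfOdd_entry hx
  have hQ := nondeg_qfOdd (m := m) h2
  have h6 : 6 ≤ Module.finrank F (Unit ⊕ (Fin m ⊕ Fin m) → F) := by rw [finrank_odd]; omega
  have hd : Odd (Module.finrank F (Unit ⊕ (Fin m ⊕ Fin m) → F)) := by rw [finrank_odd]; exact odd_two_mul_add_one m
  have hρ := isProj_autM hQ h6
  have h3 := hρ.orderOf_fld_of_prime h1 hr hxr
  obtain ⟨h4, h5⟩ := card_fixedFld_of_orderOf hF h3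
  obtain ⟨φ, hφ⟩ := exists_isFixEmb (F₀ := F₀) T.1.2 (by rw [Nat.card_eq_fintype_card, hF₀, h5])
  obtain ⟨a, Q₀, D₀, h7⟩ := hρ.exists_fr hQ (by omega) rfl hφ (by rw [h3, ← hxr]; exact pow_orderOf_eq_one _)
    (Module.finrank_fintype_fun_eq_card F).symm
  obtain ⟨c, y, hc, hy⟩ := exists_equiv_qfOdd (D₀.nondeg₀ hQ) (finrank_odd m F₀)
  obtain ⟨D, h⟩ := h7.exists_congr y hc hy
  rw [inndiagOdd_eq, inndiagOdd_eq, ← hρ.scalar_mul a]
  refine ⟨h4, h.nonempty_centralizer_equiv hQ hφ (by omega) hρ (isProj_autM (D.nondeg₀ hQ) (by rw [finrank_odd]; omega))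
    le_rfl le_rfl GamO.fld_scalar fun g => iff_of_true (D.extS hQ g).2 g.2, fun ho => ?_, fun ho => ?_⟩
  · exact splitClassCount_eq_one_of hQ h6 _ (fun g _ => GamO.fld_ofOG g) (h.map_outH_ker_of_odd hQ h6 hφ hd h2 (h3 ▸ ho))
  · have := splitClassCount_mul' hQ h6 (GamO.fld _).ker (fun g _ => GamO.fld_ofOG g) (autM _ (GamO.scalar _ a * T))
    rwa [h.map_outH_ker_of_two hQ h6 hφ hρ hd h2 (h3.trans ho), Subgroup.card_bot, mul_one,
      GamO.card_map_ker_eq_two hQ h6 (Or.inr hd)] at this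

end Cfsg.Agent.S2714
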