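import Cfsg.Statements.S2716
import Cfsg.Agent.Known.OLang4

set_option autoImplicit false
open Cfsg

namespace Cfsg.Agent.S2716

open CL.Cls CL.GLn CL.Known in

/-- Let T = PΩ⁻_{2m+2}(F) (m ≥ 3, |F| = p^f; the form Σ xᵢ yᵢ + z₁² + a z₁ z₂ + b z₂² with anisotropic binary part), G = Inndiag(T), and x a field automorphism of T of prime order r. Then r is odd and divides f; C_G(x) is isomorphic to Inndiag(PΩ⁻_{2m+2}(F₀)) for a field F₀ with p^(f/r) elements and some anisotropic binary part over F₀; and the G-class of x is a single T-class. -/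
theorem result {F : Type*} [Field F] [Fintype F] {p f : ℕ} [Fact p.Prime] (hF : Fintype.card F = p ^ f) (hf : 1 ≤ f) {m : ℕ} (hm : 3 ≤ m) (a b : F) (hab : (∀ z₁ z₂ : F, z₁ ^ 2 + a * z₁ * z₂ + b * z₂ ^ 2 = 0 → z₁ = 0 ∧ z₂ = 0)) (x : MulAut (Cfsg.POmega F (Cfsg.quadFormMinus m F a b))) (hx : Cfsg.IsFieldAutClassPOmegaMinus m x) {r : ℕ} (hr : r.Prime) (hxr : orderOf x = r) (F₀ : Type*) [Field F₀] [Fintype F₀] (hF₀ : Fintype.card F₀ = p ^ (f / r)) :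
    Odd r ∧ r ∣ f ∧ (∃ a₀ b₀ : F₀, (∀ z₁ z₂ : F₀, z₁ ^ 2 + a₀ * z₁ * z₂ + b₀ * z₂ ^ 2 = 0 → z₁ = 0 ∧ z₂ = 0) ∧ Nonempty (↥(Cfsg.inndiagPOmegaMinus m F a b ⊓ Subgroup.centralizer {x}) ≃* ↥(Cfsg.inndiagPOmegaMinus m F₀ a₀ b₀))) ∧ Cfsg.splitClassCount (Cfsg.inndiagPOmegaMinus m F a b) (Cfsg.Inn (Cfsg.POmega F (Cfsg.quadFormMinus m F a b))) x = 1 := by
  obtain ⟨T, h1, rfl⟩ := exists_autM_of_minusClass hm hab hx
  have hQ := nondeg_qfMinus (m := m) a b hab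
  have h6 : 6 ≤ Module.finrank F ((Fin m ⊕ Fin m) ⊕ Fin 2 → F) := by rw [finrank_minus]; omega
  have hρ := isProj_autM hQ h6
  have h3 := hρ.orderOf_fld_of_prime h1 hr hxr
  have hT : autM _ T ^ orderOf T.1.2 = 1 := by rw [h3, ← hxr]; exact pow_orderOf_eq_one _
  have ho := (odd_or_eq_two_of_prime hr).resolve_right
    (h3 ▸ not_orderOf_two_of_not_isPlus hQ h6 (finrank_minus m F) (not_isPlus_qfMinus m hab) hT)
  obtain ⟨h4, h5⟩ := card_fixedFld_of_orderOf hF h3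
  obtain ⟨φ, hφ⟩ := exists_isFixEmb (F₀ := F₀) T.1.2 (by rw [Nat.card_eq_fintype_card, hF₀, h5])
  obtain ⟨c, Q₀, D₀, h7⟩ := hρ.exists_fr hQ (by omega) rfl hφ hT (Module.finrank_fintype_fun_eq_card F).symm
  obtain ⟨a₀, b₀, hab₀⟩ := exists_anisotropic_pair F₀
  obtain ⟨y, hy⟩ := exists_equiv_qfMinus (D₀.nondeg₀ hQ) (finrank_minus m _)
    (mt (D₀.isPlus hQ (finrank_minus m F)) (not_isPlus_qfMinus m hab)) hab₀
  obtain ⟨D, h⟩ := h7.exists_congr y one_ne_zero fun v => (hy v).trans (one_mul _).symm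
  rw [inndiagMinus_eq hab (by omega), ← hρ.scalar_mul c]
  refine ⟨ho, h4, ⟨a₀, b₀, hab₀, ?_⟩, ?_⟩
  · rw [inndiagMinus_eq hab₀ (by omega)]
    exact h.nonempty_centralizer_equiv hQ hφ (by omega) hρ
      (isProj_autM (D.nondeg₀ hQ) (by rw [finrank_minus]; omega)) (GamO.GO0_le _ _) (GamO.GO0_le _ _)
      (GamO.scalar_mem_GO0 _ _) (Desc.extS_mem_GO0 hQ (by omega) _ _ _)
  · exact splitClassCount_eq_one_of hQ h6 _
      (fun g hg => (GamO.ofOG_mem_GO0 _ _).2 (dickson_eq_one_of_mem_commutator hQ hg))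
      (h.map_outH_GO0_of_odd hQ h6 hφ _ (h3 ▸ ho))

end Cfsg.Agent.S2716
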