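import Cfsg.Statements.S2717
import Cfsg.Agent.Known.OLang4

set_option autoImplicit false
open Cfsg

namespace Cfsg.Agent.S2717

open CL.Cls CL.GLn CL.Known in

/-- Let T = PΩ⁺_{2m}(F) with m ≥ 5 (dimension 2m ≠ 8) and |F| = p^f, G = Inndiag(T), and x an involutory graph-field automorphism of T. Then f is even; any two involutory graph-field automorphisms of T are G-conjugate; C_G(x) is isomorphic to Inndiag(PΩ⁻_{2m}(F₀)) for a field F₀ with p^(f/2) elements (some anisotropic binary part over F₀); and the G-class of x is the union of exactly c T-classes with c = 1 if p = 2, c = 4 if p is odd, m is odd and p^(f/2) ≡ 1 (mod 4), and c = 2 otherwise. -/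
theorem result {F : Type*} [Field F] [Fintype F] {p f : ℕ} [Fact p.Prime] (hF : Fintype.card F = p ^ f) (hf : 1 ≤ f) {m : ℕ} (hm : 5 ≤ m) (x : MulAut (Cfsg.POmega F (Cfsg.quadFormPlus m F))) (hx : Cfsg.IsGraphFieldAutClassPOmegaPlus m x) (hx2 : orderOf x = 2) (F₀ : Type*) [Field F₀] [Fintype F₀] (hF₀ : Fintype.card F₀ = p ^ (f / 2)) :
    Even f ∧ (∀ y : MulAut (Cfsg.POmega F (Cfsg.quadFormPlus m F)), Cfsg.IsGraphFieldAutClassPOmegaPlus m y → orderOf y = 2 → Cfsg.IsConjUnder (Cfsg.inndiagPOmegaPlus m F) x y) ∧ (∃ a₀ b₀ : F₀, (∀ z₁ z₂ : F₀, z₁ ^ 2 + a₀ * z₁ * z₂ + b₀ * z₂ ^ 2 = 0 → z₁ = 0 ∧ z₂ = 0) ∧ Nonempty (↥(Cfsg.inndiagPOmegaPlus m F ⊓ Subgroup.centralizer {x}) ≃* ↥(Cfsg.inndiagPOmegaMinus (m - 1) F₀ a₀ b₀))) ∧ (p = 2 → Cfsg.splitClassCount (Cfsg.inndiagPOmegaPlus m F) (Cfsg.Inn (Cfsg.POmega F (Cfsg.quadFormPlus m F))) x = 1) ∧ ((p ≠ 2 ∧ Odd m ∧ p ^ (f / 2) % 4 = 1) → Cfsg.splitClassCount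 (Cfsg.inndiagPOmegaPlus m F) (Cfsg.Inn (Cfsg.POmega F (Cfsg.quadFormPlus m F))) x = 4) ∧ ((p ≠ 2 ∧ ¬ (Odd m ∧ p ^ (f / 2) % 4 = 1)) → Cfsg.splitClassCount (Cfsg.inndiagPOmegaPlus m F) (Cfsg.Inn (Cfsg.POmega F (Cfsg.quadFormPlus m F))) x = 2) := by
  obtain ⟨i⟩ : Nonempty (Fin m) := ⟨⟨0, by omega⟩⟩
  have hQ := nondeg_qfPlus (m := m) (F := F)
  have h6 : 6 ≤ Module.finrank F (Fin m ⊕ Fin m → F) := by rw [finrank_plus]; omega
  have := GamO.normal_GO0 hQ (even_finrank_plus m F) (by omega)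
  have hN := normal_map_autM (range_toAut_qfPlus hm) (GamO.GO0 hQ (even_finrank_plus m F))
  obtain ⟨σ, h1, h2⟩ := exists_conj_gfStd hm i hx hx2
  obtain ⟨h4, h5⟩ := card_fixedFld_of_orderOf hF h1
  obtain ⟨φ, hφ⟩ := exists_isFixEmb (F₀ := F₀) σ (by rw [Nat.card_eq_fintype_card, hF₀, h5])
  obtain ⟨a, b, hab⟩ := exists_anisotropic_pair F₀
  obtain ⟨D, h⟩ := exists_fr_gfStd (by omega) i h1 hφ hab
  rw [inndiagPlus_eq (by omega)]
  refine ⟨even_iff_two_dvd.2 h4, fun y hy hy2 => ?_, ?_⟩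
  · obtain ⟨τ, h7, h8⟩ := exists_conj_gfStd hm i hy hy2
    obtain rfl := eq_of_orderOf_two h1 h7
    exact (isConjUnder_equivalence _).trans ((isConjUnder_equivalence _).symm h2) h8
  obtain ⟨g, -, rfl⟩ := h2
  have h7 := splitClassCount_conj ((GamO.GO0 hQ (even_finrank_plus m F)).map (autM _)) (Cfsg.Inn _) g
    (autM _ (gfStd i σ))
  refine ⟨⟨a, b, hab, ?_⟩, fun hp => splitClassCount_of_two_eq_zero hQ h6 _ ((two_eq_zero_iff_of_card hF).2 hp) _,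
    fun hp => h7.trans ?_, fun hp => h7.trans ?_⟩
  · obtain ⟨e⟩ := h.nonempty_centralizer_equiv hQ hφ (by omega) (isProj_autM hQ h6)
      (isProj_autM (nondeg_qfMinus a b hab) (by rw [finrank_minus]; omega)) (GamO.GO0_le _ (even_finrank_plus m F))
      (GamO.GO0_le _ (even_finrank_minus _ F₀)) (GamO.scalar_mem_GO0 _ _)
      (Desc.extS_mem_GO0 hQ (by omega) _ (nondeg_qfMinus a b hab) _)
    rw [← inndiagMinus_eq hab (by omega)] at e
    exact ⟨(infCentralizerConj _ g _).symm.trans e⟩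
  · rw [splitClassCount_gfStd (by omega) _ (mt (two_eq_zero_iff_of_card hF).1 hp.1) h1, h5, if_pos hp.2]
  · rw [splitClassCount_gfStd (by omega) _ (mt (two_eq_zero_iff_of_card hF).1 hp.1) h1, h5, if_neg hp.2]

end Cfsg.Agent.S2717
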