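import Cfsg.Statements.S2719
import Cfsg.Agent.Cls.OAut11

set_option autoImplicit false
open Cfsg

namespace Cfsg.Agent.S2719

open CL.Cls


/-- Let T = PΩ⁻_{2m+2}(F) with m ≥ 3 and |F| = q odd (form with anisotropic binary part z₁² + a z₁ z₂ + b z₂²), G = Inndiag(T), and γ an involutory graph automorphism of T (an automorphism in the image of the semisimilarity group, not inner-diagonal, of order 2). Then the G-class of γ is either a single T-class or the union of exactly two T-classes, and it is the union of two unless m is even and q ≡ 1 (mod 4). -/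
theorem result {F : Type*} [Field F] [Fintype F] (hodd : Odd (Fintype.card F)) {m : ℕ} (hm : 3 ≤ m) (a b : F) (hab : (∀ z₁ z₂ : F, z₁ ^ 2 + a * z₁ * z₂ + b * z₂ ^ 2 = 0 → z₁ = 0 ∧ z₂ = 0)) (γ : MulAut (Cfsg.POmega F (Cfsg.quadFormMinus m F a b))) (hγ : Cfsg.IsGraphAutClassPOmegaMinus m a b γ) (hγ2 : orderOf γ = 2) :
    (Cfsg.splitClassCount (Cfsg.inndiagPOmegaMinus m F a b) (Cfsg.Inn (Cfsg.POmega F (Cfsg.quadFormMinus m F a b))) γ = 1 ∨ Cfsg.splitClassCount (Cfsg.inndiagPOmegaMinus m F a b) (Cfsg.Inn (Cfsg.POmega F (Cfsg.quadFormMinus m F a b))) γ = 2) ∧ (¬ (Even m ∧ Fintype.card F % 4 = 1) → Cfsg.splitClassCount (Cfsg.inndiagPOmegaMinus m F a b) (Cfsg.Inn (Cfsg.POmega F (Cfsg.quadFormMinus m F a b))) γ = 2) := by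
  obtain ⟨h1, h3, -⟩ := hγ
  have h6 : 6 ≤ Module.finrank F ((Fin m ⊕ Fin m) ⊕ Fin 2 → F) := by rw [finrank_minus]; omega
  have hQ := nondeg_qfMinus (m := m) a b hab
  obtain ⟨φ, rfl⟩ : γ ∈ (autM (qfMinus m F a b)).range := gammaPOmega_eq (Q := qfMinus m F a b) ▸ h1
  rw [inndiagMinus_eq hab (by omega)] at h3 ⊢
  obtain ⟨c, hc⟩ := (autM_eq_iff hQ h6 (φ := φ * φ) (ψ := 1)).1 (by
    rw [map_mul, ← pow_two, map_one, ← orderOf_dvd_iff_pow_eq_one]; exact hγ2.dvd)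
  have hφ := fld_eq_one_of_sq_mem (by omega) hab (φ := φ) (by rw [hc, mul_one]; exact GamO.scalar_mem_GO0 _ _ c)
  have := splitClassCount_graph hQ h6 (two_ne_zero_of_odd_card hodd) (even_finrank_minus m F) (φ := ⟨φ, hφ⟩)
    ((Int.units_eq_one_or _).resolve_left fun h => h3 ⟨φ, (GamO.mem_GO0 _ _).2 ⟨hφ, h⟩, rfl⟩) hγ2
  refine ⟨this.1, fun h => this.2 ?_⟩
  rw [negOG_mem_qfMinus_iff hodd m hab, finrank_minus, Nat.mul_div_cancel_left _ two_pos]
  simp only [Nat.even_iff, Nat.odd_iff] at *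
  omega

end Cfsg.Agent.S2719
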