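import Cfsg.Statements.S2725
import Cfsg.Agent.Cls.OAut10

set_option autoImplicit false
open Cfsg

namespace Cfsg.Agent.S2725

open CL.Cls


/-- Let T = PΩ⁺_{2m}(F) with m ≥ 4 and |F| = q odd. The inner-diagonal group G = Inndiag(T) (image of the class-preserving similarities) taken modulo the inner automorphism group T is cyclic of order 2 when m is odd and q ≡ 3 (mod 4), cyclic of order 4 when m is odd and q ≡ 1 (mod 4), and elementary abelian of order 4 when m is even. -/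
theorem result {F : Type*} [Field F] [Fintype F] (hodd : Odd (Fintype.card F)) {m : ℕ} (hm : 4 ≤ m) :
    ((Odd m ∧ Fintype.card F % 4 = 3) → (∃ φ : ↥(Cfsg.inndiagPOmegaPlus m F) →* Multiplicative (ZMod 2), Function.Surjective φ ∧ φ.ker = (Cfsg.Inn (Cfsg.POmega F (Cfsg.quadFormPlus m F))).subgroupOf (Cfsg.inndiagPOmegaPlus m F))) ∧ ((Odd m ∧ Fintype.card F % 4 = 1) → (∃ φ : ↥(Cfsg.inndiagPOmegaPlus m F) →* Multiplicative (ZMod 4), Function.Surjective φ ∧ φ.ker = (Cfsg.Inn (Cfsg.POmega F (Cfsg.quadFormPlus m F))).subgroupOf (Cfsg.inndiagPOmegaPlus m F))) ∧ (Even m → (∃ φ : ↥(Cfsg.inndiagPOmegaPlus m F) →* Multiplicative (ZMod 2 × ZMod 2), Function.Surjective φ ∧ φ.ker = (Cfsg.Inn (Cfsg.POmega F (Cfsg.quadFormPlus m F))).subgroupOf (Cfsg.inndiagPOmegaPlus m F))) := by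
  have h2 := two_ne_zero_of_odd_card hodd
  have hQ := nondeg_qfPlus (m := m) (F := F)
  have h6 : 6 ≤ Module.finrank F (Fin m ⊕ Fin m → F) := by rw [finrank_plus]; omega
  have he := even_finrank_plus m F
  have hn := negOG_mem_qfPlus_iff hodd m
  have hd : Module.finrank F (Fin m ⊕ Fin m → F) / 2 = m := by rw [finrank_plus]; omega
  rw [inndiagPlus_eq (by omega)]
  exact ⟨fun h => exists_hom_mod_inn _ (GamO.map_GO0_two hQ h6 h2 he fun h' => hn.1 h' h),
    fun h => exists_hom_mod_inn _ (GamO.map_GO0_cyclic hQ h6 h2 he (hn.2 fun h' => by omega) (hd.symm ▸ h.1)),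
    fun h => exists_hom_mod_inn _ (GamO.map_GO0_four hQ h6 h2 he
      (hn.2 fun h' => Nat.not_even_iff_odd.2 h'.1 h) (hd.symm ▸ h))⟩

end Cfsg.Agent.S2725
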