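import Cfsg.Statements.S2734
import Cfsg.Agent.Chev.Fold
import Cfsg.Agent.Chev.StFix
import Cfsg.Agent.S1035

set_option autoImplicit false
open Cfsg

namespace Cfsg.Agent.S2734

/-- In the Chevalley group of type D₄ over a finite field F (the matrix group generated by the root elements), a graph automorphism attached to a symmetry π of the Dynkin diagram (sending each fundamental root element x_p(t) to x_{π(p)}(t) and each x_{−p}(t) to x_{−π(p)}(t)) that has order 3 — a standard triality graph automorphism, π being a 3-cycle of the three outer nodes — has fixed-point subgroup isomorphic to the Chevalley group of type G₂ over F. -/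
theorem result {F : Type*} [Field F] [Fintype F] (τ : MulAut ↥(Cfsg.Lie.chevD4.group F)) (hτ : Cfsg.Lie.chevD4.IsGraphAut τ) (hτ3 : orderOf τ = 3) :
    Nonempty (↥(MonoidHom.eqLocus τ.toMonoidHom (MonoidHom.id ↥(Cfsg.Lie.chevD4.group F))) ≃* ↥(Cfsg.Lie.chevG2.group F)) := by
  have h := CL.Chev.realD4.full F
  obtain ⟨π, hb, e1, e2⟩ := (CL.Chev.realD4.isGraphAut_iff τ).1 hτ
  have e : ∀ i j : Fin Cfsg.Lie.chevD4.rank, Cfsg.Lie.chevD4.graphExp (ringChar F) i j = 1 := fun i j =>
    if_neg (by revert i j; decide +kernel)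
  simp only [e, pow_one] at e1 e2
  have hi := CL.Chev.realG2.injective_torus
    (Cfsg.Agent.S1035.result (F := F) Nat.card_eq_fintype_card.symm (Cfsg.Lie.chevG2, 1) (by simp))
  let A : (CL.Chev.realD4.Sg F).GAut := ⟨τ, π, fun _ => RingEquiv.refl F, e1, e2⟩
  have h2 : ¬ ∀ i, π (π i) = i := fun h2 => by
    have : τ ^ 2 = 1 := (CL.Chev.realD4.Sg F).aut_ext h.top (fun i t => by rw [sq, MulAut.mul_apply, e1, e1, h2]; rfl)
      fun i t => by rw [sq, MulAut.mul_apply, e2, e2, h2]; rfl
    exact absurd (hτ3 ▸ orderOf_dvd_of_pow_eq_one this) (by decide)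
  obtain ⟨t, ht, hπ⟩ := CL.Chev.tabD4.sym_cases _ CL.Chev.Cert.symD4 hb
  simp only [Fin.ext_iff, hπ] at h2
  simp only [List.mem_cons, List.not_mem_nil, or_false] at ht
  rcases ht with rfl | rfl | rfl | rfl | rfl | rfl
  · exact absurd (by decide +kernel) h2
  · exact absurd (by decide +kernel) h2
  · exact absurd (by decide +kernel) h2
  · exact CL.Chev.fixed_triality hi A (CL.Chev.perm_eq_of_dig hπ (by decide +kernel)) (fun _ => rfl) fun _ => Iff.rfl
  · refine CL.Chev.fixed_triality hi A.symm (inv_eq_iff_eq_inv.2 (CL.Chev.perm_eq_of_dig hπ (by decide +kernel)))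
      (fun _ => rfl) fun g => ?_
    exact (τ.symm_apply_eq.trans eq_comm).symm
  · exact absurd (by decide +kernel) h2

end Cfsg.Agent.S2734
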