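import Cfsg.Statements.S2738
import Cfsg.Agent.Cls.SLnCard

set_option autoImplicit false
open Cfsg
open scoped commutatorElement

namespace Cfsg.Agent.S2738

/-- The special linear group SL(3, 4) has centre of order 3 and does not split over it: no subgroup is a complement to the centre (so SL(3, 4) is a non-split central extension of PSL(3, 4) by a group of order 3). -/
theorem result (F : Type*) [Field F] [Fintype F] (hF : Fintype.card F = 4) : Nat.card ↥(Subgroup.center (Matrix.SpecialLinearGroup (Fin 3) F)) = 3 ∧ ¬ ∃ K : Subgroup (Matrix.SpecialLinearGroup (Fin 3) F), Subgroup.IsComplement' (Subgroup.center (Matrix.SpecialLinearGroup (Fin 3) F)) K := by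
  have hc : Nat.card ↥(Subgroup.center (Matrix.SpecialLinearGroup (Fin 3) F)) = 3 := by
    rw [CL.SLn.card_center_SL, hF]; rfl
  refine ⟨hc, ?_⟩
  rintro ⟨K, hK⟩
  have htop : commutator (Matrix.SpecialLinearGroup (Fin 3) F) = ⊤ :=
    CL.SLn.commutator_eq_top (Or.inl (by simp))
  have hle : commutator (Matrix.SpecialLinearGroup (Fin 3) F) ≤ K := by
    rw [commutator_def, Subgroup.commutator_le]
    intro x _ y _
    obtain ⟨⟨⟨z, hz⟩, ⟨k, hk⟩⟩, rfl⟩ := hK.2 x
    obtain ⟨⟨⟨w, hw⟩, ⟨l, hl⟩⟩, rfl⟩ := hK.2 y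
    have hz' := Subgroup.mem_center_iff.1 hz
    have hw' := Subgroup.mem_center_iff.1 hw
    have : ⁅z * k, w * l⁆ = ⁅k, l⁆ := by
      simp only [commutatorElement_def, mul_inv_rev]
      calc z * k * (w * l) * (k⁻¹ * z⁻¹) * (l⁻¹ * w⁻¹)
          = z * ((k * (w * l) * k⁻¹) * z⁻¹) * (l⁻¹ * w⁻¹) := by group
        _ = (k * (w * l) * k⁻¹) * (l⁻¹ * w⁻¹) := by
          rw [← mul_assoc z, ← hz']; group
        _ = k * w * (l * k⁻¹ * l⁻¹) * w⁻¹ := by group
        _ = k * (l * k⁻¹ * l⁻¹) := by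
          rw [mul_assoc k w, ← hw']; group
        _ = k * l * k⁻¹ * l⁻¹ := by group
    change ⁅z * k, w * l⁆ ∈ K
    rw [this, commutatorElement_def]
    exact K.mul_mem (K.mul_mem (K.mul_mem hk hl) (K.inv_mem hk)) (K.inv_mem hl)
  rw [htop, top_le_iff] at hle
  subst hle
  have := hK.disjoint
  rw [disjoint_top] at this
  rw [this] at hc
  simp at hc

end Cfsg.Agent.S2738
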