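import Cfsg.Statements.S2739
import Cfsg.Agent.Cls.PSL34

set_option autoImplicit false
open scoped Pointwise
open Cfsg

namespace Cfsg.Agent.S2739

open Matrix

variable {F : Type*} [Field F]

theorem idem_triv (h2 : (2 : F) = 0) {w : F} (hw : w ^ 2 = w + 1) (e : Matrix (Fin 3) (Fin 3) F)
    (he : e * e = e) (h1 : (1 + w • e).det = 1) (h3 : (1 + w ^ 2 • e).det = 1) : e = 0 ∨ e = 1 := by
  have hsum : (1 + w • e).det + (1 + w ^ 2 • e).det + (1 + e).det = 1 + e.det := by
    simp only [det_fin_three, Matrix.add_apply, Matrix.smul_apply, smul_eq_mul, Matrix.one_apply]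
    simp
    grind
  have hd : (1 + e).det = 1 + e.det := by rw [h1, h3] at hsum; linear_combination hsum - h2
  have hee : e + e = 0 := by rw [← two_smul F e, h2, zero_smul]
  have hz : e * (1 + e) = 0 := by rw [mul_add, mul_one, he, hee]
  by_cases hdet : e.det = 0
  · left
    have hu : IsUnit (1 + e) := by rw [isUnit_iff_isUnit_det, hd, hdet]; simp
    exact (hu.mul_left_eq_zero).1 hz
  · right
    have hu : IsUnit e := by rw [isUnit_iff_isUnit_det]; exact Ne.isUnit hdet
    have := (hu.mul_right_eq_zero).1 hz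
    calc e = (1 + e) + 1 - (2 : F) • (1 : Matrix (Fin 3) (Fin 3) F) := by rw [two_smul]; abel
      _ = 1 := by rw [this, h2]; simp

theorem scalar_of_quad (h2 : (2 : F) = 0) {w : F} (hw : w ^ 2 = w + 1) (B : Matrix (Fin 3) (Fin 3) F)
    (hB : 1 + B + B * B = 0) (hd : B.det = 1) : ∃ c : F, B = c • (1 : Matrix (Fin 3) (Fin 3) F) := by
  have hw3 : w ^ 3 = 1 := by grind
  have hBB : B * B = 1 + B := by
    have : B * B = (1 + B + B * B) + (1 + B) - (2 : F) • (1 + B) := by rw [two_smul]; abel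
    rw [this, hB, h2]; simp
  -- `e = B + w`
  let e : Matrix (Fin 3) (Fin 3) F := B + w • (1 : Matrix (Fin 3) (Fin 3) F)
  have he : e * e = e := by
    simp only [e, mul_add, add_mul, smul_mul_assoc, mul_smul_comm, mul_one, one_mul, hBB, smul_smul]
    ext i j
    simp only [Matrix.add_apply, Matrix.smul_apply, smul_eq_mul]
    grind
  have h3 : 1 + w ^ 2 • e = w ^ 2 • B := by
    ext i j
    simp only [e, Matrix.add_apply, Matrix.smul_apply, smul_eq_mul]
    grind
  have h1 : 1 + w • e = w • (B * B) := by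
    rw [hBB]
    ext i j
    simp only [e, Matrix.add_apply, Matrix.smul_apply, smul_eq_mul]
    grind
  rcases idem_triv h2 hw e he (by rw [h1, det_smul, det_mul, hd]; simpa using hw3)
    (by rw [h3, det_smul, hd]; simp; grind) with h | h
  · refine ⟨w, ?_⟩
    ext i j
    have := congrFun (congrFun h i) j
    simp only [e, Matrix.add_apply, Matrix.smul_apply, smul_eq_mul, Matrix.zero_apply] at this ⊢
    grind
  · refine ⟨w + 1, ?_⟩
    ext i j
    have := congrFun (congrFun h i) j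
    simp only [e, Matrix.add_apply, Matrix.smul_apply, smul_eq_mul] at this ⊢
    grind

theorem exists_eig (h2 : (2 : F) = 0) {w : F} (hw : w ^ 2 = w + 1) (A : Matrix (Fin 3) (Fin 3) F)
    (hA : A ^ 3 = 1) (hd : A.det = 1) (hn : ¬ ∃ c : F, A = c • (1 : Matrix (Fin 3) (Fin 3) F))
    (a : F) (ha : a ^ 3 = 1) : ∃ v : Fin 3 → F, v ≠ 0 ∧ A *ᵥ v = a • v := by
  let B := a ^ 2 • A
  have hB : 1 + B + B * B ≠ 0 := by
    intro h
    obtain ⟨c, hc⟩ := scalar_of_quad h2 hw B h (by
      simp only [B, det_smul, hd]; simp; grind)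
    refine hn ⟨a * c, ?_⟩
    rw [mul_smul, ← hc, smul_smul, ← pow_succ', ha, one_smul]
  have hAe : A * (1 + B + B * B) = a • (1 + B + B * B) := by
    have h3 : A * (A * A) = 1 := by rw [← hA, pow_succ', pow_two]
    simp only [B, mul_add, mul_one, mul_smul_comm, smul_mul_assoc, smul_smul, h3, smul_add]
    rw [show a ^ 2 * a ^ 2 = a by grind, show a * a ^ 2 = 1 by grind, show a * a = a ^ 2 by grind, one_smul]
    abel
  by_contra hv
  push Not at hv
  apply hB
  apply Matrix.ext_iff_mulVec.2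
  intro u
  by_contra hu
  rw [zero_mulVec] at hu
  exact hv _ hu (by rw [mulVec_mulVec, hAe, smul_mulVec])

theorem exists_conj (h2 : (2 : F) = 0) {w : F} (hw : w ^ 2 = w + 1) (A : Matrix (Fin 3) (Fin 3) F)
    (hA : A ^ 3 = 1) (hd : A.det = 1) (hn : ¬ ∃ c : F, A = c • (1 : Matrix (Fin 3) (Fin 3) F)) :
    ∃ P : Matrix (Fin 3) (Fin 3) F, P.det = 1 ∧ A * P = P * diagonal ![1, w, w ^ 2] := by
  have hw3 : w ^ 3 = 1 := by grind
  have hex : ∀ i : Fin 3, ∃ v : Fin 3 → F, v ≠ 0 ∧ A *ᵥ v = (![1, w, w ^ 2] : Fin 3 → F) i • v := by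
    intro i
    apply exists_eig h2 hw A hA hd hn
    fin_cases i <;> simp <;> grind
  choose v hv0 hv using hex
  have hw1 : w ≠ 1 := by rintro rfl; grind
  have hw0 : w ≠ 0 := by rintro rfl; grind
  have hinj : Function.Injective (![1, w, w ^ 2] : Fin 3 → F) := by
    intro i j hij
    fin_cases i <;> fin_cases j <;> simp at hij ⊢ <;> grind
  have hli : LinearIndependent F v :=
    Module.End.eigenvectors_linearIndependent' (Matrix.toLin' A) _ hinj v fun i =>
      ⟨Module.End.mem_eigenspace_iff.2 (by rw [toLin'_apply, hv]), hv0 i⟩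
  let P : Matrix (Fin 3) (Fin 3) F := (Matrix.of v)ᵀ
  have hP : IsUnit P := Matrix.linearIndependent_cols_iff_isUnit.1 hli
  have hPd : P.det ≠ 0 := ((isUnit_iff_isUnit_det _).1 hP).ne_zero
  have hAP : A * P = P * diagonal ![1, w, w ^ 2] := by
    ext r i
    have := congrFun (hv i) r
    rw [mul_diagonal]
    simp only [mulVec, dotProduct, Pi.smul_apply, smul_eq_mul] at this
    simp only [P, mul_apply, transpose_apply, of_apply, this, mul_comm]
  refine ⟨P * diagonal ![P.det⁻¹, 1, 1], ?_, ?_⟩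
  · rw [det_mul, det_diagonal]; simp [Fin.prod_univ_three, hPd]
  · rw [← mul_assoc, hAP, mul_assoc, mul_assoc, diagonal_mul_diagonal, diagonal_mul_diagonal]
    congr 2
    ext i
    ring

theorem cube_eq_one [Fintype F] (hF : Fintype.card F = 4) (A : Matrix (Fin 3) (Fin 3) F) {c : F}
    (hA : A ^ 3 = c • (1 : Matrix (Fin 3) (Fin 3) F)) (hd : A.det = 1)
    (hn : ¬ ∃ c : F, A = c • (1 : Matrix (Fin 3) (Fin 3) F)) : A ^ 3 = 1 := by
  obtain ⟨t, s, h⟩ := CL.Cls.cayley_fin_three A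
  rw [hd, one_smul] at h
  have hc0 : c ≠ 0 := by
    rintro rfl
    have := congrArg det hA
    rw [det_pow, hd, zero_smul] at this
    simp at this
  by_cases ht : t = 0
  · by_cases hs : s = 0
    · rw [h, ht, hs]; simp
    · refine (hn ⟨s⁻¹ * (c - 1), ?_⟩).elim
      rw [ht, zero_smul, zero_add, hA] at h
      rw [mul_smul, sub_smul, h, one_smul, add_sub_cancel_right, smul_smul, inv_mul_cancel₀ hs, one_smul]
  · obtain ⟨a, b, hab⟩ : ∃ a b : F, A ^ 2 = a • A + b • (1 : Matrix (Fin 3) (Fin 3) F) := by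
      refine ⟨-(t⁻¹ * s), t⁻¹ * (c - 1), ?_⟩
      have : t • A ^ 2 = -(s • A) + (c - 1) • (1 : Matrix (Fin 3) (Fin 3) F) := by
        rw [sub_smul, ← hA, h, one_smul]; abel
      rw [neg_smul, mul_smul, mul_smul, ← smul_neg, ← smul_add, ← this, smul_smul, inv_mul_cancel₀ ht, one_smul]
    have h3 : A ^ 3 = (a ^ 2 + b) • A + (a * b) • (1 : Matrix (Fin 3) (Fin 3) F) := by
      rw [pow_succ', hab, mul_add, mul_smul_comm, mul_smul_comm, mul_one, ← pow_two, hab]
      module
    by_cases hz : a ^ 2 + b = 0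
    · rw [hz, zero_smul, zero_add] at h3
      have hc : c = a * b := by
        have := congrFun (congrFun (hA.symm.trans h3) 0) 0
        simpa using this
      obtain ⟨h2, -⟩ := CL.Cls.exists_omega_of_card_four hF
      have ha : a ≠ 0 := by rintro rfl; exact hc0 (by rw [hc, zero_mul])
      have := FiniteField.pow_card_sub_one_eq_one a ha
      rw [hF] at this
      rw [hA, show c = 1 by grind, one_smul]
    · refine (hn ⟨(a ^ 2 + b)⁻¹ * (c - a * b), ?_⟩).elim
      rw [mul_smul, sub_smul, ← hA, h3, add_sub_cancel_right, smul_smul, inv_mul_cancel₀ hz, one_smul]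

theorem exists_std [Fintype F] (hF : Fintype.card F = 4) :
    ∃ d : ProjectiveSpecialLinearGroup (Fin 3) F, ∀ x : ProjectiveSpecialLinearGroup (Fin 3) F,
      orderOf x = 3 → ∃ g, g * d * g⁻¹ = x := by
  obtain ⟨h2, w, hw, -⟩ := CL.Cls.exists_omega_of_card_four hF
  let d : SpecialLinearGroup (Fin 3) F := ⟨diagonal ![1, w, w ^ 2], by
    rw [det_diagonal]; simp [Fin.prod_univ_three]; grind⟩
  refine ⟨QuotientGroup.mk d, fun x hx => ?_⟩
  obtain ⟨A, rfl⟩ := QuotientGroup.mk_surjective x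
  have hn : ¬ ∃ c : F, A.1 = c • (1 : Matrix (Fin 3) (Fin 3) F) := by
    rintro ⟨c, hc⟩
    rw [(QuotientGroup.eq_one_iff _).2 (CL.Cls.mem_center_SL_of_eq_smul hc)] at hx
    simp at hx
  have h3 : A ^ 3 ∈ Subgroup.center (SpecialLinearGroup (Fin 3) F) := by
    rw [← QuotientGroup.eq_one_iff, QuotientGroup.mk_pow]
    exact orderOf_dvd_iff_pow_eq_one.1 hx.dvd
  obtain ⟨c, -, hc⟩ := Matrix.SpecialLinearGroup.mem_center_iff.1 h3
  have hA := cube_eq_one hF A.1 (c := c) (by
    rw [← Matrix.SpecialLinearGroup.coe_pow, ← hc, scalar_apply, smul_one_eq_diagonal]) A.2 hn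
  obtain ⟨P, hP, hAP⟩ := exists_conj h2 hw A.1 hA A.2 hn
  let p : SpecialLinearGroup (Fin 3) F := ⟨P, hP⟩
  refine ⟨QuotientGroup.mk p, ?_⟩
  rw [← QuotientGroup.mk_inv, ← QuotientGroup.mk_mul, ← QuotientGroup.mk_mul, mul_inv_eq_iff_eq_mul.2]
  exact Subtype.ext hAP.symm

open Pointwise in
theorem conj_zpowers {G : Type*} [Group G] (g d : G) :
    MulAut.conj g • Subgroup.zpowers d = Subgroup.zpowers (g * d * g⁻¹) := by
  exact MonoidHom.map_zpowers (MulAut.conj g).toMonoidHom d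

theorem exists_gen {G : Type*} [Group G] (X : Subgroup G) (hX : Nat.card X = 3) :
    ∃ x : G, orderOf x = 3 ∧ Subgroup.zpowers x = X := by
  haveI : Fact (Nat.Prime 3) := ⟨Nat.prime_three⟩
  haveI := isCyclic_of_prime_card hX
  obtain ⟨x, hx⟩ := (Subgroup.isCyclic_iff_exists_zpowers_eq_top X).1 inferInstance
  exact ⟨x, by rw [← Nat.card_zpowers, hx, hX], hx⟩


/-- In the projective special linear group PSL(3, 4) all subgroups of order 3 are conjugate. -/
theorem result (F : Type*) [Field F] [Fintype F] (hF : Fintype.card F = 4) (X Y : Subgroup (Matrix.ProjectiveSpecialLinearGroup (Fin 3) F)) (hX : Nat.card ↥X = 3) (hY : Nat.card ↥Y = 3) : ∃ g : Matrix.ProjectiveSpecialLinearGroup (Fin 3) F, MulAut.conj g • X = Y := by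
  obtain ⟨d, hd⟩ := exists_std hF
  obtain ⟨x, hx, rfl⟩ := exists_gen X hX
  obtain ⟨y, hy, rfl⟩ := exists_gen Y hY
  obtain ⟨g, rfl⟩ := hd x hx
  obtain ⟨h, rfl⟩ := hd y hy
  refine ⟨h * g⁻¹, ?_⟩
  rw [conj_zpowers]
  congr 1
  group

end Cfsg.Agent.S2739
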