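import Cfsg.Statements.S2759
import Cfsg.Agent.Loc.SFour

set_option autoImplicit false
open Cfsg

namespace Cfsg.Agent.S2759

/-- For a finite group G, the symmetric group of degree 4 is involved in G if and only if there is a 2-subgroup T of G such that the symmetric group of degree 3 is involved in N(T)/C(T). -/
theorem result {G : Type*} [Group G] [Finite G] : Cfsg.Involves (Equiv.Perm (Fin 4)) G ↔ ∃ T : Subgroup G, IsPGroup 2 ↥T ∧ Cfsg.Involves (Equiv.Perm (Fin 3)) (↥(Subgroup.normalizer (T : Set G)) ⧸ (Subgroup.centralizer (T : Set G)).subgroupOf (Subgroup.normalizer (T : Set G))) := by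
  constructor
  · intro h
    obtain ⟨T, y, t, k, hT, hy, ht, h1, h2, h3⟩ := CL.Loc.exists_inverts_of_involves_sfour h
    refine ⟨T, hT, CL.Loc.involves_sthree_of_inverts (y := QuotientGroup.mk ⟨y, hy⟩)
      (t := QuotientGroup.mk ⟨t, ht⟩) (k := k) ?_ (fun e => h2 ((QuotientGroup.eq_one_iff (⟨y, hy⟩ : Subgroup.normalizer (T : Set G))).1 e)) ?_⟩
    · rw [← QuotientGroup.mk_pow, ← QuotientGroup.mk_one]
      exact congrArg _ (Subtype.ext h1)
    · rw [← QuotientGroup.mk_inv, ← QuotientGroup.mk_inv, ← QuotientGroup.mk_mul, ← QuotientGroup.mk_mul]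
      exact congrArg _ (Subtype.ext h3)
  · rintro ⟨T, hT, h⟩
    exact CL.Loc.involves_sfour_of_involves_sthree hT le_rfl (QuotientGroup.mk' _)
      (QuotientGroup.mk'_surjective _) (fun x hx => (QuotientGroup.eq_one_iff _).2 hx) h

end Cfsg.Agent.S2759
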