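import Cfsg.Statements.S2762
import Cfsg.Agent.Loc.QdStruct

set_option autoImplicit false
open Cfsg

namespace Cfsg.Agent.S2762

open CL.Loc Matrix Subgroup

/-- Structure of Qd over a finite field F of characteristic p (the affine subgroup of SL₃(F)): its largest normal p-subgroup is the group of translations (matrices with upper-left block the identity), the block-diagonal matrices form a complement isomorphic to SL₂(F), and the translation subgroup is a natural SL₂(F)-module for that complement. -/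
theorem result {F : Type*} [Field F] [Fintype F] {p : ℕ} [Fact p.Prime] [CharP F p] : (∀ M : ↥(Cfsg.qdOver F), M ∈ Cfsg.pCore p ↥(Cfsg.qdOver F) ↔ ((M : Matrix.SpecialLinearGroup (Fin 3) F) : Matrix (Fin 3) (Fin 3) F) 0 0 = 1 ∧ ((M : Matrix.SpecialLinearGroup (Fin 3) F) : Matrix (Fin 3) (Fin 3) F) 0 1 = 0 ∧ ((M : Matrix.SpecialLinearGroup (Fin 3) F) : Matrix (Fin 3) (Fin 3) F) 1 0 = 0 ∧ ((M : Matrix.SpecialLinearGroup (Fin 3) F) : Matrix (Fin 3) (Fin 3) F) 1 1 = 1) ∧ ∃ K : Subgroup ↥(Cfsg.qdOver F), (∀ M : ↥(Cfsg.qdOver F), M ∈ K ↔ ((M : Matrix.SpecialLinearGroup (Fin 3) F) : Matrix (Fin 3) (Fin 3) F) 0 2 = 0 ∧ ((M : Matrix.SpecialLinearGroup (Fin 3) F) : Matrix (Fin 3) (Fin 3) F) 1 2 = 0) ∧ K ⊓ Cfsg.pCore p ↥(Cfsg.qdOver F) = ⊥ ∧ K ⊔ Cfsg.pCore p ↥(Cfsg.qdOver F) = ⊤ ∧ Nonempty (↥K ≃* Matrix.SpecialLinearGroup (Fin 2) F) ∧ Cfsg.IsNaturalSL2Module F (Cfsg.pCore p ↥(Cfsg.qdOver F)) K := by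
  let L : SpecialLinearGroup (Fin 2) F →* qdOver F :=
    MonoidHom.mk' (qdMk 0) fun M N => by rw [qdMk_mul, mulVec_zero, add_zero]
  have hL : ∀ M, qdProj (L M) = M := qdProj_mk 0
  have hLi : Function.Injective L := fun M N h => (qdMk_inj.1 h).2
  let τ : Multiplicative (Fin 2 → F) →* (qdProj (F := F)).ker :=
    MonoidHom.mk' (fun v => ⟨qdMk v.toAdd 1, mem_ker_qdProj.2 ⟨_, rfl⟩⟩) fun v w =>
      Subtype.ext (by
        change _ = qdMk _ _ * qdMk _ _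
        rw [qdMk_mul, sl2_one_mulVec, mul_one, toAdd_mul])
  have hτ : Function.Bijective τ := ⟨fun v w h =>
    Multiplicative.toAdd.injective (qdMk_inj.1 (congrArg Subtype.val h)).1, fun x =>
      let ⟨v, h⟩ := mem_ker_qdProj.1 x.2; ⟨Multiplicative.ofAdd v, Subtype.ext h.symm⟩⟩
  rw [pCore_qdOver]
  refine ⟨fun x => ?_, L.range, fun x => ?_, ?_, ?_, ⟨(MonoidHom.ofInjective hLi).symm⟩,
    le_normalizer_of_normal, qdProj.comp L.range.subtype,
    MulEquiv.toAdditiveLeft (MulEquiv.ofBijective τ hτ).symm, fun M => ⟨⟨L M, M, rfl⟩, hL M⟩, ?_, ?_⟩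
  · obtain ⟨v, M, rfl⟩ := exists_qdMk x
    rw [MonoidHom.mem_ker, qdProj_mk]
    change _ ↔ M.1 0 0 = 1 ∧ M.1 0 1 = 0 ∧ M.1 1 0 = 0 ∧ M.1 1 1 = 1
    refine ⟨fun h => by simp [h], fun h => ?_⟩
    ext i j
    fin_cases i <;> fin_cases j <;> simp [h]
  · obtain ⟨v, M, rfl⟩ := exists_qdMk x
    change _ ↔ v 0 = 0 ∧ v 1 = 0
    refine ⟨fun ⟨N, h⟩ => by simp [← (qdMk_inj.1 h).1], fun h => ⟨M, qdMk_inj.2 ⟨?_, rfl⟩⟩⟩
    ext i; fin_cases i <;> simp [h]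
  · rw [eq_bot_iff]
    rintro _ ⟨⟨M, rfl⟩, h⟩
    rw [(hL M).symm.trans h, map_one]
    exact one_mem _
  · rw [eq_top_iff]
    intro x _
    rw [← mul_inv_cancel_left (L (qdProj x)) x]
    exact mul_mem_sup ⟨_, rfl⟩ (by rw [MonoidHom.mem_ker, map_mul, map_inv, hL, inv_mul_cancel])
  · rw [centralizer_ker_qdProj]; rfl
  · intro l v
    obtain ⟨v, rfl⟩ := hτ.2 v
    refine ⟨τ (Multiplicative.ofAdd ((qdProj l.1).1 *ᵥ v.toAdd)), (qd_conj_trans _ _).symm, ?_⟩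
    have h : ∀ u, MulEquiv.toAdditiveLeft (MulEquiv.ofBijective τ hτ).symm (Additive.ofMul (τ u)) =
        u.toAdd := fun u => congrArg Multiplicative.toAdd
          ((MulEquiv.ofBijective τ hτ).symm_apply_apply u)
    rw [h, h]; rfl

end Cfsg.Agent.S2762
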