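import Cfsg.Statements.S2765
import Cfsg.Agent.Even.PushExc

set_option autoImplicit false
open Cfsg

namespace Cfsg.Agent.S2765

/-- In the same pushing-up situation (G finite, C_G(O_p(G)) ≤ O_p(G), G/K ≅ PSL₂(p^n) with n ≥ 1, a Sylow p-subgroup S in exactly one maximal subgroup, no nontrivial characteristic subgroup of S normal in G), one of the following holds: (I) S has nilpotency class 2, exponent 4 if p = 2 and exponent p otherwise, and G has exactly one noncentral chief factor inside O_p(G); or (II) p = 3, S has class 3 and exponent 9, and G has exactly two noncentral chief factors inside O_p(G). 'Exactly one' is phrased as: some noncentral chief factor U/W inside O_p(G) with G acting hypercentrally on W and on O_p(G)/U; 'exactly two' analogously with a chain. -/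
theorem result {G : Type*} [Group G] [Finite G] {p : ℕ} [Fact p.Prime] (S : Sylow p G) (hE₁ : Subgroup.centralizer (Cfsg.pCore p G : Set G) ≤ Cfsg.pCore p G) (hE₂ : ∃! M : Subgroup G, IsCoatom M ∧ (S : Subgroup G) ≤ M) (K : Subgroup G) [K.Normal] (F : Type) [Field F] [Fintype F] (n : ℕ) (hn : 1 ≤ n) (hF : Fintype.card F = p ^ n) (hE₃ : Nonempty (G ⧸ K ≃* Matrix.ProjectiveSpecialLinearGroup (Fin 2) F)) (hd : ∀ T : Subgroup ↥(S : Subgroup G), T ≠ ⊥ → T.Characteristic → ¬ (T.map (S : Subgroup G).subtype).Normal) : ((S : Subgroup G).lowerCentralSeries 2 = ⊥ ∧ (S : Subgroup G).lowerCentralSeries 1 ≠ ⊥ ∧ (p = 2 → Monoid.exponent ↥(S : Subgroup G) = 4) ∧ (p ≠ 2 → Monoid.exponent ↥(S : Subgroup G) = p) ∧ (∃ U W : Subgroup G, W ≤ U ∧ U ≤ (Cfsg.pCore p G) ∧ Cfsg.IsChiefFactor U W ∧ ¬ ⁅U, (⊤ : Subgroup G)⁆ ≤ W ∧ (∃ k : ℕ, Cfsg.iterCommutator W ⊤ k = ⊥) ∧ (∃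 k : ℕ, Cfsg.iterCommutator (Cfsg.pCore p G) ⊤ k ≤ U))) ∨ (p = 3 ∧ (S : Subgroup G).lowerCentralSeries 3 = ⊥ ∧ (S : Subgroup G).lowerCentralSeries 2 ≠ ⊥ ∧ Monoid.exponent ↥(S : Subgroup G) = 9 ∧ (∃ U₁ W₁ U₂ W₂ : Subgroup G, W₁ ≤ U₁ ∧ U₁ ≤ W₂ ∧ W₂ ≤ U₂ ∧ U₂ ≤ (Cfsg.pCore p G) ∧ Cfsg.IsChiefFactor U₁ W₁ ∧ Cfsg.IsChiefFactor U₂ W₂ ∧ ¬ ⁅U₁, (⊤ : Subgroup G)⁆ ≤ W₁ ∧ ¬ ⁅U₂, (⊤ : Subgroup G)⁆ ≤ W₂ ∧ (∃ k : ℕ, Cfsg.iterCommutator W₁ ⊤ k = ⊥) ∧ (∃ k : ℕ, Cfsg.iterCommutator W₂ ⊤ k ≤ U₁) ∧ (∃ k : ℕ, Cfsg.iterCommutator (Cfsg.pCore p G) ⊤ k ≤ U₂))) := by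
  obtain ⟨M, k⟩ := CL.Loc.exists_E0_top ⟨S, rfl⟩ hE₁ hE₂ K hF hE₃
  have hd' := CL.Even.noChar_top hd
  have h := hd'.vx k
  have t := hd'.typed h
  have hc := k.card_S.symm
  rw [CL.Even.core_top] at h t hc
  obtain ⟨N, -⟩ := h.exists_natSec F hc
  rcases t with ⟨W, D, t⟩ | ⟨V, X, E, D, t⟩
  · exact Or.inl ⟨t.lcs_eq_bot h hd', h.lcs_ne_bot, t.exponent_two h hd', t.exponent_odd h hd', _, _, N.le,
      h.Z_le_Q, N.isChiefFactor, N.not_comm_le, ⟨1, h.iter_Z₀⟩,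
      CL.Even.exists_iter_le h.syl h.Q_le h.normQ h.normZ (t.block h)⟩
  · obtain ⟨N₂, -⟩ := t.nat F hc
    exact Or.inr ⟨t.three, t.lcs_eq_bot h hd', t.lcs_ne_bot h, t.exponent_eq h hd', _, _, _, _, N.le, le_rfl,
      N₂.le, t.V_le, N.isChiefFactor, N₂.isChiefFactor, N.not_comm_le, N₂.not_comm_le, ⟨1, h.iter_Z₀⟩,
      ⟨0, le_rfl⟩, CL.Even.exists_iter_le h.syl h.Q_le h.normQ t.normV (t.block h)⟩

end Cfsg.Agent.S2765
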