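import Cfsg.Statements.S2773
import Cfsg.Agent.Loc.PairMin

set_option autoImplicit false
universe u
open Cfsg

namespace Cfsg.Agent.S2773

open Subgroup CL.Even CL.Loc CL.Grp

/-- For every nontrivial finite 3-group S there is a nontrivial characteristic subgroup K of S such that, in every finite group G containing S as a Sylow 3-subgroup, S ∩ G' is the product of S ∩ (C_G(Z(S)))' and S ∩ (N_G(K))' (derived subgroups; product taken elementwise). -/
theorem result {S : Type u} [Group S] [Finite S] [Nontrivial S] (hS : IsPGroup 3 S) : ∃ K : Subgroup S, K ≠ ⊥ ∧ K.Characteristic ∧ ∀ (G : Type u) [Group G] [Finite G] (τ : S →* G), Function.Injective τ → (∃ P : Sylow 3 G, (P : Subgroup G) = τ.range) → ∀ g : G, g ∈ τ.range ⊓ commutator G ↔ ∃ a ∈ τ.range ⊓ ⁅Subgroup.centralizer ((τ.range ⊓ Subgroup.centralizer (τ.range : Set G) : Subgroup G) : Set G), Subgroup.centralizer ((τ.range ⊓ Subgroup.centralizer (τ.range : Set G) : Subgroup G) : Set G)⁆, ∃ b ∈ τ.range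 ⊓ ⁅Subgroup.normalizer ((K.map τ : Subgroup G) : Set G), Subgroup.normalizer ((K.map τ : Subgroup G) : Set G)⁆, g = a * b := by
  have : Fact (Nat.Prime 3) := ⟨Nat.prime_three⟩
  have hW := isCharPFunctor_trK.{u} (p := 3) (by norm_num)
  refine ⟨trK 3 S, hW.1 S hS ‹_›, characteristic_iff_map_eq.2 fun φ => hW.2 S S hS φ, ?_⟩
  rintro G _ _ τ hτ ⟨P, hP⟩ g
  have e : (trK 3 S).map τ = inducedFunctor (trK 3) τ.range := by
    rw [inducedFunctor, ← hW.2 S _ hS (MonoidHom.ofInjective hτ), map_map]; rfl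
  have hT : IsSylowIn 3 τ.range ⊤ := hP ▸ isSylowIn_top P
  have h1 := pairCtl (p := 3) (by norm_num) _ hT
  have h2 := pairDer_le (p := 3) ⊤ τ.range
  rw [pairDer, top_inf_eq, top_inf_eq, ← e] at h1 h2
  have h3 : τ.range ≤ 𝒩((trK 3 S).map τ) := e ▸ le_normalizer_inducedFunctor hW hT.isPGroup
  have h4 := mem_sup_nr (x := g) ((inf_le_left (b := ⁅𝒞(τ.range ⊓ 𝒞(τ.range)), 𝒞(τ.range ⊓ 𝒞(τ.range))⁆)).trans
    (le_norm_inf le_normalizer (le_norm_commutator (le_norm_of_le h3) (le_norm_of_le h3))))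
  simp only [@eq_comm _ g]
  rw [← h4]
  exact ⟨fun h => h1 h, fun h => h2 h⟩

end Cfsg.Agent.S2773
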