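import Cfsg.Statements.S2774
import Cfsg.Agent.Loc.PairMin

set_option autoImplicit false
open Cfsg

namespace Cfsg.Agent.S2774

open Subgroup CL.Even CL.Loc CL.Grp

/-- Let p be an odd prime and S a nontrivial Sylow p-subgroup of a finite group G. Then S ∩ G' is generated by the subgroups S ∩ (N_G(K))' as K ranges over the nontrivial characteristic subgroups of S (derived subgroups of the normalizers). -/
theorem result {G : Type*} [Group G] [Finite G] {p : ℕ} [Fact p.Prime] (hp : p ≠ 2) (S : Sylow p G) (hS : (S : Subgroup G) ≠ ⊥) : (S : Subgroup G) ⊓ commutator G = ⨆ K : {K : Subgroup ↥(S : Subgroup G) // K ≠ ⊥ ∧ K.Characteristic}, (S : Subgroup G) ⊓ ⁅Subgroup.normalizer ((((K : Subgroup ↥(S : Subgroup G))).map (S : Subgroup G).subtype : Subgroup G) : Set G), Subgroup.normalizer ((((K : Subgroup ↥(S : Subgroup G))).map (S : Subgroup G).subtype : Subgroup G) : Set G)⁆ := by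
  have hW := isCharPFunctor_trK hp
  have hT := isSylowIn_top S
  have hne := (nontrivial_iff_ne_bot _).2 hS
  refine le_antisymm ((pairCtl hp _ hT).trans (sup_le ?_ ?_))
    (iSup_le fun K => inf_le_inf_left _ (commutator_mono le_top le_top))
  · have e := map_center_eq (S : Subgroup G).subtype_injective
    rw [range_subtype] at e
    refine le_iSup_of_le ⟨center _, fun e' => inf_cent_ne_bot hT.isPGroup hT.isPGroup le_normalizer hS ?_,
      inferInstance⟩ ?_
    · rw [← e, e', Subgroup.map_bot]
    · rw [e]
      exact inf_le_inf_left _ (commutator_mono (inf_le_right.trans (cent_le_norm _))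
        (inf_le_right.trans (cent_le_norm _)))
  · exact le_iSup_of_le ⟨trK p _, hW.1 _ S.2 hne, characteristic_iff_map_eq.2 fun φ => hW.2 _ _ S.2 φ⟩
      (inf_le_inf_left _ (commutator_mono inf_le_right inf_le_right))

end Cfsg.Agent.S2774
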