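import Cfsg.Statements.S2779
import Cfsg.Agent.Even.NatSL2
import Cfsg.Agent.Even.ParChar

set_option autoImplicit false
open Cfsg

namespace Cfsg.Agent.S2779

open Subgroup CL.Even CL.Grp

/-- Let L act on the elementary abelian p-group V (inside a finite group, by conjugation, faithfully) as SL₂(F) on its natural module, F a field with p^n elements, and let S be a Sylow p-subgroup of L. Then [V, S, S] = 1; |V| = p^(2n) and |C_V(S)| = p^n; and for every nonidentity s ∈ S and every v ∈ V outside C_V(S): C_V(s) = C_V(S) = [V, S] = [V, s] = the subgroup generated by the commutators [v, t], t ∈ S. -/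
theorem result {G : Type*} [Group G] [Finite G] {p : ℕ} [Fact p.Prime] {F : Type*} [Field F] [Fintype F] (n : ℕ) (hF : Fintype.card F = p ^ n) (V L : Subgroup G) (hnat : Cfsg.IsNaturalSL2Module F V L) (hf : L ⊓ Subgroup.centralizer (V : Set G) = ⊥) (S : Sylow p ↥L) (T : Subgroup G) (hT : T = ((S : Subgroup ↥L).map L.subtype)) : ⁅⁅V, T⁆, T⁆ = ⊥ ∧ Nat.card V = p ^ (2 * n) ∧ Nat.card ↥(V ⊓ Subgroup.centralizer ((T : Subgroup G) : Set G)) = p ^ n ∧ ∀ s ∈ T, s ≠ 1 → (V ⊓ Subgroup.centralizer ({s} : Set G)) = (V ⊓ Subgroup.centralizer ((T : Subgroup G) : Set G)) ∧ ⁅V, T⁆ = (V ⊓ Subgroup.centralizer ((T : Subgroup G) : Set G)) ∧ ⁅V, Subgroup.zpowers s⁆ = (V ⊓ Subgroup.centralizer ((T : Subgroup G) : Set G)) ∧ ∀ v ∈ V, v ∉ Subgroup.centralizer (T : Set G) → Subgroup.closure {x : G | ∃ t ∈ T, x = v * t * v⁻¹ * t⁻¹} = (V ⊓ Subgroup.centralizer ((T : Subgroup G) : Set G)) := by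
  have hF' : Nat.card F = p ^ n := Nat.card_eq_fintype_card.trans hF
  have := charP_of_card hF'
  obtain ⟨N₀⟩ := isNatural_iff.1 hnat
  have hS : IsSylowIn p T L := hT ▸ isSylowIn_map_subtype S
  obtain ⟨N, hu, hc⟩ := N₀.exists_of_syl hS
  have hk : N.ker = ⊥ := N.ker_eq_of_bot.trans hf
  have hne : ¬ T ≤ N.ker := fun h => let ⟨_, ht, h'⟩ := N.exists_not_mem_ker hc; h' (h ht)
  have hl := N.inf_cent_eq_line hu hne
  rw [hl]
  refine ⟨le_bot_iff.1 ((N.commutator_eq_line hu hne).symm ▸ N.commutator_line_le hu), ?_, ?_,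
    fun s hs h1 => ?_⟩
  · rw [N.card_U, hF', card_bot, mul_one, ← pow_mul, mul_comm]
  · rw [N.card_line, hF', card_bot, mul_one]
  have hz : zpowers s ≤ N.up := (zpowers_le.2 hs).trans hu
  have hz' : ¬ zpowers s ≤ N.ker := fun h => h1 (mem_bot.1 (hk ▸ h (mem_zpowers s)))
  refine ⟨by rw [← cent_zpowers]; exact N.inf_cent_eq_line hz hz', N.commutator_eq_line hu hne,
    N.commutator_eq_line hz hz', fun v hv hv' => le_antisymm ((closure_le _).2 ?_) fun w hw => ?_⟩
  · rintro _ ⟨t, ht, rfl⟩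
    exact N.commutator_le_line hu (commutator_mem_commutator hv ht)
  · obtain ⟨t, ht, h⟩ := N.exists_comm_of_not_mem_line hS.le hc hv (fun h => hv' (hl.ge h).2)
      (N.line.inv_mem hw)
    refine subset_closure ⟨t, ht, ?_⟩
    rw [mem_bot, inv_inv, mul_eq_one_iff_inv_eq, commutatorElement_inv] at h
    exact h.symm

end Cfsg.Agent.S2779
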