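import Cfsg.Statements.S2780
import Cfsg.Agent.Even.NatSL2b

set_option autoImplicit false
open Cfsg

namespace Cfsg.Agent.S2780

open Subgroup CL.Even CL.Grp

/-- Let L act on the elementary abelian p-group V (inside a finite group, faithfully) as SL₂(F) on its natural module, F a field with p^n elements, S a Sylow p-subgroup of L. Then: for every g ∈ L not normalizing S, V is the internal direct product of C_V(S) and C_V(gSg⁻¹); every nonidentity element of L of order prime to p acts on V without nonidentity fixed points; and C_V(S) and V/C_V(S) are irreducible for N_L(S): the only N_L(S)-invariant subgroups of C_V(S) are 1 and C_V(S), and the only N_L(S)-invariant subgroups between C_V(S) and V are those two. -/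
theorem result {G : Type*} [Group G] [Finite G] {p : ℕ} [Fact p.Prime] {F : Type*} [Field F] [Fintype F] (n : ℕ) (hF : Fintype.card F = p ^ n) (V L : Subgroup G) (hnat : Cfsg.IsNaturalSL2Module F V L) (hf : L ⊓ Subgroup.centralizer (V : Set G) = ⊥) (S : Sylow p ↥L) (T : Subgroup G) (hT : T = ((S : Subgroup ↥L).map L.subtype)) : (∀ g ∈ L, g ∉ Subgroup.normalizer (T : Set G) → Cfsg.IsInternalDirectProduct (V ⊓ Subgroup.centralizer ((T : Subgroup G) : Set G)) (V ⊓ Subgroup.centralizer ((T.map (MulAut.conj g).toMonoidHom : Subgroup G) : Set G)) V) ∧ (∀ x ∈ L, x ≠ 1 → (orderOf x).Coprime p → (V ⊓ Subgroup.centralizer ({x} : Set G)) = ⊥) ∧ (∀ U : Subgroup G, U ≤ (V ⊓ Subgroup.centralizer ((T : Subgroup G) : Set G)) → L ⊓ Subgroup.normalizer (T : Set G) ≤ Subgroup.normalizer (U : Set G) → U = ⊥ ∨ U = (V ⊓ Subgroup.centralizer ((T : Subgroup G) : Set G))) ∧ (∀ U : Subgroup G, (V ⊓ Subgroup.centralizer ((T : Subgroup G) : Set G)) ≤ U → U ≤ V → L ⊓ Subgroup.normalizer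 (T : Set G) ≤ Subgroup.normalizer (U : Set G) → U = (V ⊓ Subgroup.centralizer ((T : Subgroup G) : Set G)) ∨ U = V) := by
  have hF' : Nat.card F = p ^ n := Nat.card_eq_fintype_card.trans hF
  have := charP_of_card hF'
  obtain ⟨N₀⟩ := isNatural_iff.1 hnat
  have hS : IsSylowIn p T L := hT ▸ isSylowIn_map_subtype S
  obtain ⟨N, hu, hc⟩ := N₀.exists_of_syl hS
  have hk : N.ker = ⊥ := N.ker_eq_of_bot.trans hf
  have hne : ¬ T ≤ N.ker := fun h => let ⟨_, ht, h'⟩ := N.exists_not_mem_ker hc; h' (h ht)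
  have hl := N.inf_cent_eq_line hu hne
  have hup : N.up = T := le_antisymm (by simpa [hk] using N.up_le_sup hS.le hc) hu
  have hB : L ⊓ 𝒩(N.line) ≤ L ⊓ 𝒩(T) := le_inf inf_le_left (hup ▸ N.inf_norm_line_le)
  rw [hl]
  refine ⟨fun g hg hg' => ?_, fun x hx h1 hx' => eq_bot_iff.2 fun v hv => ?_, fun U hU hn => ?_,
    fun U hU hU' hn => ?_⟩
  · have h1 : V ⊓ 𝒞(cj g T) = cj g N.line := by rw [← hl, cj_inf, cj_cent, cj_eq (N.norm hg)]
    have h2 : g ∉ 𝒩(N.line) := fun h => hg' (hB ⟨hg, h⟩).2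
    change IsInternalDirectProduct _ (V ⊓ 𝒞(cj g T)) _
    rw [h1]
    refine ⟨N.line_le, N.cj_line_le hg, fun a ha b hb => ?_, N.line_inf_cj hg h2, N.line_sup_cj hg h2⟩
    have ha' := N.line_le ha
    have hb' := N.cj_line_le hg hb
    have := (N.ψ_eq_iff (V.mul_mem ha' hb') (V.mul_mem hb' ha')).1 (by
      rw [N.ψ_mul _ ha' _ hb', N.ψ_mul _ hb' _ ha', add_comm])
    rwa [mem_bot, mul_inv_eq_one] at this
  · refine N.mem_of_coprime hx (by rwa [hk, mem_bot]) hx' hv.1 ?_
    rw [mem_bot, commutatorElement_eq_one_iff_mul_comm]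
    exact hv.2 x rfl
  · by_cases h : U ⊓ N.line ≤ ⊥
    · exact Or.inl (eq_bot_iff.2 ((le_inf le_rfl hU).trans h))
    · exact Or.inr (le_antisymm hU (N.line_le_of_norm bot_le (hB.trans hn) h))
  · by_cases h : U ⊓ V ≤ N.line
    · exact Or.inl (le_antisymm ((le_inf le_rfl hU').trans h) hU)
    · exact Or.inr (le_antisymm hU' (N.le_of_norm_of_line_le hU (hB.trans hn) h))

end Cfsg.Agent.S2780
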