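import Cfsg.Statements.S2781
import Cfsg.Agent.Even.Trace

set_option autoImplicit false
open Cfsg

namespace Cfsg.Agent.S2781

/-- Let H act faithfully by conjugation on the elementary abelian p-subgroup V of a finite group, let O^p(H) be the subgroup of H generated by its elements of order prime to p, and T a Sylow p-subgroup of O^p(H). If V is generated by the H-conjugates of C_V(T) (V is the smallest H-invariant subgroup containing C_V(T)), then V = [V, O^p(H)]·C_V(O^p(H)). -/
theorem result {G : Type*} [Group G] [Finite G] {p : ℕ} [Fact p.Prime] (V H : Subgroup G) (hV : Cfsg.IsElementaryAbelian p V) (hHV : H ≤ Subgroup.normalizer (V : Set G)) (hf : H ⊓ Subgroup.centralizer (V : Set G) = ⊥) (R : Subgroup G) (hR : R = (Cfsg.pResidual p ↥H).map H.subtype) (S : Sylow p ↥R) (T : Subgroup G) (hT : T = ((S : Subgroup ↥R).map R.subtype)) (hgen : ∀ W : Subgroup G, H ≤ Subgroup.normalizer (W : Set G) → (V ⊓ Subgroup.centralizer ((T : Subgroup G) : Set G)) ≤ W → V ≤ W) : ⁅V, R⁆ ⊔ (V ⊓ Subgroup.centralizer ((R : Subgroup G) : Set G)) = V := by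
  open Subgroup CL.Even CL.Grp commutatorElement in
  have hT' : IsSylowIn p T R := hT ▸ isSylowIn_map_subtype S
  rw [res_def] at hR
  subst hR
  have hR := (res_le (p := p) H).trans hHV
  refine le_antisymm (sup_le (commutator_le_of_le_norm hR) inf_le_left) (hgen _
    (le_norm_sup (le_norm_commutator hHV (self_le_norm_res H))
      (le_norm_inf hHV (le_norm_cent (self_le_norm_res H)))) ?_)
  have := inf_cent_syl_le (elem_le_cent hV) (elem_isP hV) hR hT'
  rwa [res_res, sup_comm] at this

end Cfsg.Agent.S2781
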