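import Cfsg.Statements.S2856
import Cfsg.Agent.Even.AmV

set_option autoImplicit false
open Cfsg

namespace Cfsg.Agent.S2856

/-- Let (M₁, M₂) be an amalgam pair in X satisfying the rank-two standing hypothesis (characteristic p, the normalizers in M₁ and in M₂ of a Sylow p-subgroup of M₁ ∩ M₂ equal and contained in M₁ ∩ M₂, and strongly p-embedded residues), λ a vertex of the coset graph, L_λ the subgroup of its stabilizer generated by the p-elements, Q_λ = O_p of the stabilizer, O^p(L_λ) the subgroup of L_λ generated by its elements of order prime to p, and V_λ^{(k)} the subgroup generated by the Z_μ over the vertices μ at distance at most k from λ (Z_μ being generated by the Ω₁(Z(S)), S a Sylow p-subgroup of the stabilizer of μ). If n ≥ 1 and V_λ^{(n)} ≤ Q_λ, then O^p(L_λ) does not centralize V_λ^{(n)}/[V_λ^{(n)}, Q_λ], that is, [V_λ^{(n)}, O^p(L_λ)] is not contained in [V_λ^{(n)}, Q_λ]. -/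
theorem result {X : Type*} [Group X] {p : ℕ} [Fact p.Prime] (M₁ M₂ : Subgroup X) (h : Cfsg.IsSpeAmalgamPair p M₁ M₂) (lam : Cfsg.CosetVertex M₁ M₂) (n : ℕ) (hn : 1 ≤ n) (V : Subgroup X) (hV : V = Cfsg.vertexVIter p M₁ M₂ n lam) (hVQ : V ≤ Cfsg.vertexQ p lam) : ¬ ⁅V, ((Cfsg.pResidual p ↥(Cfsg.pElementClosure p (MulAction.stabilizer X lam))).map (Cfsg.pElementClosure p (MulAction.stabilizer X lam)).subtype)⁆ ≤ ⁅V, Cfsg.vertexQ p lam⁆ := by
  intro hc
  obtain ⟨n, rfl⟩ : ∃ m, n = m + 1 := ⟨n - 1, by omega⟩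
  obtain ⟨μ, hμ⟩ := CL.Am.exists_adj lam
  have := CL.Am.stab_finite h.1 lam
  set W := vertexVIter p M₁ M₂ n μ with hW
  have hWV : W ≤ V := hV ▸ CL.Am.V_le_V_of_adj h.1.1.1 hμ
  have hnV : MulAction.stabilizer X lam ≤ Subgroup.normalizer (V : Set X) :=
    hV ▸ CL.Am.stab_le_norm_V h.1 _ _
  have hnW : MulAction.stabilizer X μ ≤ Subgroup.normalizer (W : Set X) := CL.Am.stab_le_norm_V h.1 _ _
  have hQ : vertexQ p lam ≤ MulAction.stabilizer X lam := CL.Grp.pCoreOf_le _ _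
  have hQμ := CL.Am.vertexQ_le_stab_of_adj h.1 hμ
  have hn1 : MulAction.stabilizer X lam ≤
      Subgroup.normalizer ((W ⊔ ⁅V, vertexQ p lam⁆ : Subgroup X) : Set X) := by
    refine (CL.Am.spe_stab_le h hμ).trans (sup_le ?_ ?_)
    · exact CL.Am.le_norm_of_commutator_le_of_le
        (sup_le hWV (CL.Even.commutator_le_of_le_norm (hQ.trans hnV))) (hc.trans le_sup_right)
    · exact CL.Even.le_norm_sup (inf_le_right.trans hnW) (inf_le_left.trans
        (CL.Even.le_norm_commutator hnV (CL.Am.stab_le_normalizer_vertexQ lam)))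
  have h1 : V ≤ W ⊔ ⁅V, vertexQ p lam⁆ := hV ▸ CL.Am.V_succ_le h.1 hμ le_sup_left (hV ▸ hn1)
  have := CL.Am.finite_of_le hQ
  have h2 : V ≤ W := CL.Am.le_of_le_sup_commutator (CL.Grp.pCoreOf_isPGroup p _).isNilpotent hVQ
    (hWV.trans hVQ) (hQ.trans hnV) (hQμ.trans hnW) h1
  have h3 : W = ⊥ := CL.Am.eq_bot_of_normalized h.1.1 hμ ((hWV.trans hVQ).trans (le_inf hQ hQμ))
    (le_antisymm h2 hWV ▸ hnV) hnW
  exact CL.Am.vertexZ_ne_bot h.1 μ (le_bot_iff.1 (h3 ▸ CL.Am.vertexZ_le_V (by simp)))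

end Cfsg.Agent.S2856
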