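import Cfsg.Statements.S2947
import Cfsg.Agent.Even.StrEmb2
import Cfsg.Agent.Grp.Cores

set_option autoImplicit false
open Cfsg

namespace Cfsg.Agent.S2947

open CL.Even

/-- Let G be a finite group of characteristic 2 type in which every 2-local subgroup is solvable and the centralizer of Ω₁(Z(S)) lies in N_G(S) for every Sylow 2-subgroup S; suppose O₂(G) = 1, fix a Sylow 2-subgroup S and a 2-local subgroup M containing N_G(J(S)) (J the Thompson subgroup generated by the elementary abelian 2-subgroups of largest order). Then M is strongly embedded in G (a proper subgroup of even order whose intersection with each conjugate by an element outside M has odd order) if and only if no nontrivial 2-subgroup of M lies in a 2-local subgroup of G not contained in M. -/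
theorem result {G : Type*} [Group G] [Finite G] (hL : Cfsg.IsCharacteristicTwoType G) (hN : ∀ N : Subgroup G, Cfsg.IsTwoLocal N → Group.IsSolvable ↥N)
    (hZ : ∀ S : Sylow 2 G, Subgroup.centralizer (Cfsg.omegaCenterOf (S : Subgroup G) : Set G) ≤ Subgroup.normalizer ((S : Subgroup G) : Set G)) (hO : Cfsg.pCore 2 G = ⊥) (S : Sylow 2 G) (M : Subgroup G) (hM : Cfsg.IsTwoLocal M)
    (hMJ : Subgroup.normalizer (Cfsg.thompsonSubgroupOf 2 (S : Subgroup G) : Set G) ≤ M) :
    Cfsg.IsStronglyEmbedded M ↔ Cfsg.straddlingTwoSubgroups M = ∅ := by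
  rw [isStronglyEmbedded_iff_speElt]
  constructor
  · rintro ⟨-, -, h⟩
    rw [Set.eq_empty_iff_forall_notMem]
    rintro T ⟨hT, hT1, hTM, L, ⟨Q, hQ, hQ1, rfl⟩, hTL, hLM⟩
    apply hLM
    have h2 : IsPGroup 2 ↥(T ⊔ Q) := IsPGroup.to_sup_of_normal_right' hT hQ hTL
    have h3 : T ⊔ Q ≤ M := h.le_of_inf_ne_bot h2 fun h0 =>
      hT1 (le_bot_iff.mp (h0 ▸ le_inf le_sup_left hTM))
    exact h.normalizer_le (le_sup_right.trans h3) (spe_dvd_card_of_isPGroup_ne_bot hQ hQ1)
  · intro h0
    obtain ⟨T, hT, hT1, rfl⟩ := hM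
    refine ⟨fun ht => hT1 ?_, (spe_dvd_card_of_isPGroup_ne_bot hT hT1).trans
      (Subgroup.card_dvd_of_le Subgroup.le_normalizer), ?_⟩
    · have : T.Normal := Subgroup.normalizer_eq_top_iff.mp ht
      exact le_bot_iff.mp (hO ▸ CL.Grp.le_pCore hT)
    · rw [speElt_iff_normalizer]
      intro A hAM hA hA1
      by_contra hne
      have : A ∈ Cfsg.straddlingTwoSubgroups (Subgroup.normalizer (T : Set G)) :=
        ⟨hA, hA1, hAM, _, ⟨A, hA, hA1, rfl⟩, Subgroup.le_normalizer, hne⟩
      rw [h0] at this
      exact this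

end Cfsg.Agent.S2947
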