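import Cfsg.Statements.S3084
import Cfsg.Agent.Grp.RealCliff

set_option autoImplicit false
open Cfsg

namespace Cfsg.Agent.S3084

/-- Let K be a group acting faithfully and linearly on a finite-dimensional vector space U of dimension 2n ≥ 2 over the field with two elements, preserving a quadratic form q whose polar bilinear form is non-degenerate and which vanishes on some n-dimensional subspace (a non-singular form of plus type). Then there is a finite group R with a normal extraspecial 2-subgroup Q of order 2^(2n+1), an isomorphism of R/Q with K, and a surjective homomorphism χ from Q onto (the additive group of) U with kernel the centre of Q, such that χ carries conjugation by any r in R to the action of the image of r in K, and an element a of Q squares to the identity exactly when q vanishes at χ(a). -/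
theorem result {K : Type*} [Group K] {U : Type*} [AddCommGroup U] [Module (ZMod 2) U] [Module.Finite (ZMod 2) U] (n : ℕ) (hn1 : 1 ≤ n) (hn : Module.finrank (ZMod 2) U = 2 * n) (ρ : Representation (ZMod 2) K U) (hρ : Function.Injective ρ) (q : QuadraticForm (ZMod 2) U) (hq : ∀ (k : K) (u : U), q (ρ k u) = q u) (hnd : (QuadraticMap.polarBilin q).Nondegenerate) (hplus : ∃ W : Submodule (ZMod 2) U, Module.finrank (ZMod 2) ↥W = n ∧ ∀ w ∈ W, q w = 0) : ∃ (R : Type) (_ : Group R) (_ : Finite R) (Q : Subgroup R) (hN : Q.Normal) (e : R ⧸ Q ≃* K) (χ : ↥Q →* Multiplicative U), Cfsg.IsExtraspecial 2 ↥Q ∧ Nat.card ↥Q = 2 ^ (2 * n + 1) ∧ Function.Surjective χ ∧ χ.ker = Subgroup.center ↥Q ∧ (∀ (r : R) (a : ↥Q), χ ⟨r * a * r⁻¹, hN.conj_mem (a : R) a.2 r⟩ = Multiplicative.ofAdd (ρ (e (r : R ⧸ Q)) (Multiplicative.toAdd (χ a)))) ∧ ∀ a : ↥Q, a * a = 1 ↔ q (Multiplicative.toAdd (χ a)) = 0 := by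
  have : Finite U := Module.finite_of_finite (ZMod 2)
  have := Fintype.ofFinite U
  obtain ⟨β, rfl⟩ := LinearMap.BilinMap.toQuadraticMap_surjective q
  have hnd' : ∀ y, (∀ x, β x y + β y x = 0) → y = 0 := fun y hy => hnd.2 y fun x => by
    simpa [LinearMap.BilinMap.polar_toQuadraticMap] using hy x
  obtain ⟨N, P, h⟩ := CL.RCl.exists_pauli β hnd'
  have hc : Nat.card U = 2 ^ (2 * n) := by rw [Module.natCard_eq_pow_finrank (K := ZMod 2), hn]; simp
  have : Nontrivial U := Module.nontrivial_of_finrank_pos (R := ZMod 2) (by omega)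
  let H := h.heis ρ hρ
  have hQ : Nat.card (h.hom ρ hρ).ker = 2 ^ (2 * n + 1) := by rw [H.card_eq, hc, pow_succ']
  have : Finite (h.hom ρ hρ).ker := Nat.finite_of_card_ne_zero (by rw [hQ]; positivity)
  have : Finite K := Finite.of_injective _ (DFunLike.coe_injective.comp hρ)
  let e := QuotientGroup.quotientKerEquivOfSurjective _ (h.hom_surj ρ hρ hq)
  have : Finite (h.grp ρ ⧸ (h.hom ρ hρ).ker) := Finite.of_equiv _ e.toEquiv.symm
  refine ⟨h.grp ρ, inferInstance, Finite.of_equiv _ (Subgroup.groupEquivQuotientProdSubgroup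
    (s := (h.hom ρ hρ).ker)).symm, (h.hom ρ hρ).ker, inferInstance, e, H.πHom,
    H.isExtraspecial (h.heis_nd ρ hρ), hQ, H.πHom_surjective, (H.center_eq_Z_iff'.2 (h.heis_nd ρ hρ)).symm,
    fun r a => congrArg Multiplicative.ofAdd (h.vec_conj ρ hρ r a _ rfl), fun a => h.sq_eq_one ρ hρ a⟩

end Cfsg.Agent.S3084
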