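import Cfsg.Statements.S3106
import Cfsg.Agent.Inv.GH4Five2
import Cfsg.Agent.Loc.PConstr

set_option autoImplicit false
open Cfsg

namespace Cfsg.Agent.S3106

/-- Let X be a finite nonsolvable 2-constrained group with no nontrivial normal subgroup of odd order and of sectional 2-rank at most 4, and suppose X/O₂(X) contains a subgroup isomorphic to the alternating group of degree 5. Then O₂(X) is elementary abelian of order 16, or O₂(X) is a central product of a quaternion group of order 8 and a dihedral group of order 8 (it has order 32 and is generated by two elementwise-commuting subgroups, one quaternion of order 8 and one dihedral of order 8, meeting in the centre). -/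
theorem result {X : Type*} [Group X] [Finite X] (hns : ¬ Group.IsSolvable X) (hc : Cfsg.IsPConstrained 2 X) (hO : Cfsg.oddCore X = ⊥)
    (h4 : Cfsg.SectionalPRankLE 2 4 X)
    (hQ : ∃ A : Subgroup (X ⧸ Cfsg.pCore 2 X), Nonempty (↥A ≃* ↥(alternatingGroup (Fin 5)))) :
    (Cfsg.IsElementaryAbelian 2 (Cfsg.pCore 2 X) ∧ Nat.card ↥(Cfsg.pCore 2 X) = 16) ∨
      (Nat.card ↥(Cfsg.pCore 2 X) = 32 ∧ ∃ A B : Subgroup ↥(Cfsg.pCore 2 X),
        Nonempty (↥A ≃* QuaternionGroup 2) ∧ Nonempty (↥B ≃* DihedralGroup 4) ∧ (∀ a ∈ A, ∀ b ∈ B, a * b = b * a) ∧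
          A ⊔ B = ⊤ ∧ A ⊓ B = Subgroup.center ↥(Cfsg.pCore 2 X)) := by
  have hC := (CL.Loc.isPConstrained_iff_of_pPrimeCore_eq_bot hO).1 hc
  have hP := CL.Grp.pCore_isPGroup 2 X
  obtain ⟨A, ⟨e⟩⟩ := hQ
  set Q := pCore 2 X with hQd
  let φ : alternatingGroup (Fin 5) →* X ⧸ Q := A.subtype.comp e.symm.toMonoidHom
  have hφ : Function.Injective φ := A.subtype_injective.comp e.symm.injective
  let f5 : alternatingGroup (Fin 5) :=
    ⟨Equiv.swap 0 1 * Equiv.swap 1 2 * Equiv.swap 2 3 * Equiv.swap 3 4, Equiv.Perm.mem_alternatingGroup.2 (by decide)⟩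
  let s5 : alternatingGroup (Fin 5) := ⟨Equiv.swap 1 4 * Equiv.swap 2 3, Equiv.Perm.mem_alternatingGroup.2 (by decide)⟩
  let r5 : alternatingGroup (Fin 5) := ⟨Equiv.swap 0 1 * Equiv.swap 1 2, Equiv.Perm.mem_alternatingGroup.2 (by decide)⟩
  have a1 : f5 ^ 5 = 1 := Subtype.ext (by decide)
  have a2 : s5 * f5 * s5⁻¹ * f5 = 1 := Subtype.ext (by decide)
  have a3 : s5 * s5 = 1 := Subtype.ext (by decide)
  have a4 : r5 ^ 3 = 1 := Subtype.ext (by decide)
  have a5 : f5 ≠ 1 := fun h => absurd (congrArg Subtype.val h) (by decide)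
  have a6 : r5 ≠ 1 := fun h => absurd (congrArg Subtype.val h) (by decide)
  obtain ⟨f0, hf0⟩ := QuotientGroup.mk_surjective (φ f5)
  obtain ⟨s, hs⟩ := QuotientGroup.mk_surjective (φ s5)
  obtain ⟨r0, hr0⟩ := QuotientGroup.mk_surjective (φ r5)
  obtain ⟨f, f1, hf⟩ := CL.GH4F.exists_odd_lift hP (p := 5) (by norm_num) (g := f0)
    ((QuotientGroup.eq_one_iff _).1 (by rw [QuotientGroup.mk_pow, hf0, ← map_pow, a1, map_one]))
  obtain ⟨r, r1, hr⟩ := CL.GH4F.exists_odd_lift hP (p := 3) (by norm_num) (g := r0)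
    ((QuotientGroup.eq_one_iff _).1 (by rw [QuotientGroup.mk_pow, hr0, ← map_pow, a4, map_one]))
  rw [hf0] at hf
  rw [hr0] at hr
  refine CL.GH4F.main h4 hP hC f1 (fun h => a5 (hφ ?_)) (s := s) ((QuotientGroup.eq_one_iff _).1 ?_)
    ((QuotientGroup.eq_one_iff _).1 ?_) r1 (fun h => a6 (hφ ?_)) fun N hN hQN hfN => ?_
  · rw [← hf, map_one]; exact (QuotientGroup.eq_one_iff _).2 h
  · simp only [QuotientGroup.mk_mul, QuotientGroup.mk_inv]
    rw [hf, hs, ← map_inv, ← map_mul, ← map_mul, ← map_mul, a2, map_one]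
  · rw [QuotientGroup.mk_mul, hs, ← map_mul, a3, map_one]
  · rw [← hr, map_one]; exact (QuotientGroup.eq_one_iff _).2 h
  · have h1 : ((N.map (QuotientGroup.mk' Q)).comap φ).Normal :=
      (hN.map _ (QuotientGroup.mk'_surjective Q)).comap φ
    have h2 : f5 ∈ (N.map (QuotientGroup.mk' Q)).comap φ := ⟨f, hfN, hf⟩
    rcases h1.eq_bot_or_eq_top with h | h
    · rw [h] at h2
      exact absurd (Subgroup.mem_bot.1 h2) a5
    · have h3 : r5 ∈ (N.map (QuotientGroup.mk' Q)).comap φ := h ▸ Subgroup.mem_top _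
      obtain ⟨y, hy, e'⟩ := h3
      have : y⁻¹ * r ∈ Q := QuotientGroup.eq.1 (e'.trans hr.symm)
      exact (N.mul_mem_cancel_left (N.inv_mem hy)).1 (hQN this)

end Cfsg.Agent.S3106
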