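import Cfsg.Statements.S3117
import Cfsg.Agent.Inv.Rk2Three

set_option autoImplicit false
open Cfsg

namespace Cfsg.Agent.S3117

/-- If X is a finite 2-group containing exactly three involutions, then the automorphism group of X is solvable. -/
theorem result {X : Type*} [Group X] [Finite X] (h2 : IsPGroup 2 X) (h3 : Nat.card {x : X // orderOf x = 2} = 3) : Group.IsSolvable (MulAut X) := by
  classical
  let I := {x : X // orderOf x = 2}
  have hI : ∀ x : X, x * x = 1 ↔ x = 1 ∨ orderOf x = 2 := fun x => by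
    constructor
    · intro h
      by_cases h1 : x = 1
      · exact Or.inl h1
      · exact Or.inr (orderOf_eq_prime (by rw [sq, h]) h1)
    · rintro (rfl | h)
      · exact one_mul 1
      · rw [← sq, ← h, pow_orderOf_eq_one]
  have h4 : Nat.card {x : X // x * x = 1} ≤ 4 := by
    have : Nat.card (Option I) = 4 := by rw [Finite.card_option, h3]
    rw [← this]
    refine Nat.card_le_card_of_surjective
      (fun o : Option I => o.elim ⟨1, one_mul 1⟩ fun x => ⟨x.1, (hI _).2 (Or.inr x.2)⟩) ?_
    rintro ⟨x, hx⟩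
    rcases (hI x).1 hx with rfl | h
    · exact ⟨none, rfl⟩
    · exact ⟨some ⟨x, h⟩, rfl⟩
  have h1 := CL.Rk2.isSolvable_fixInv h2 h4
  let f : MulAut X →* Equiv.Perm I := MonoidHom.toHomPerm
    { toFun := fun σ x => ⟨σ x.1, by rw [MulEquiv.orderOf_eq]; exact x.2⟩
      map_one' := rfl
      map_mul' := fun _ _ => rfl }
  have h6 : Group.IsSolvable (Equiv.Perm I) :=
    CL.Char.isSolvable_of_card_eq_pow_mul_pow (a := 1) (b := 1) Nat.prime_two Nat.prime_three (by
      rw [Nat.card_perm, h3]; rfl)
  refine Group.isSolvable_of_ker_le_range (CL.Rk2.fixInv X).subtype f fun σ hσ => ⟨⟨σ, fun x hx => ?_⟩, rfl⟩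
  rcases (hI x).1 hx with rfl | h
  · exact map_one σ
  · exact congrArg Subtype.val (DFunLike.congr_fun (MonoidHom.mem_ker.1 hσ) ⟨x, h⟩)

end Cfsg.Agent.S3117
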