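import Cfsg.Statements.S3317
import Cfsg.Agent.Spor.J4TFin

set_option autoImplicit false
open Cfsg

namespace Cfsg.Agent.S3317

/-- Let G be a finite group of characteristic 2 type with an element x of order 3 whose centralizer is the perfect sixfold cover of M₂₂ (perfect, cyclic centre of order 6, central quotient isomorphic to M₂₂). Suppose G is not 3-normal: the centre of some Sylow 3-subgroup S has a conjugate lying in S other than itself. Then G is of Janko-four type: some involution z has centralizer H whose largest normal 2-subgroup E is extraspecial of order 2^13 containing its centralizer in H, with a normal subgroup N ≥ E of H, N/E of order 3, H/N the automorphism group of M₂₂, and a subgroup P ≤ N of order 3 with C_E(P) = ⟨z⟩, N_H(P) ≠ C_H(P) and P ≤ C_H(P)′. -/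
theorem result {G : Type*} [Group G] [Finite G] (h2 : Cfsg.IsCharacteristicTwoType G) (x : G) (hx : orderOf x = 3) (hperf : ⁅(⊤ : Subgroup ↥(Subgroup.centralizer ({x} : Set G))), (⊤ : Subgroup ↥(Subgroup.centralizer ({x} : Set G)))⁆ = ⊤) (hZ : IsCyclic ↥(Subgroup.center ↥(Subgroup.centralizer ({x} : Set G)))) (hZc : Nat.card ↥(Subgroup.center ↥(Subgroup.centralizer ({x} : Set G))) = 6) (e : ↥(Subgroup.centralizer ({x} : Set G)) ⧸ Subgroup.center ↥(Subgroup.centralizer ({x} : Set G)) ≃* ↥Cfsg.Spor.M22) (S : Sylow 3 G) (g : G) (hng : ((Subgroup.center ↥(S : Subgroup G)).map (S : Subgroup G).subtype).map (MulAut.conj g).toMonoidHom ≤ (S : Subgroup G)) (hne : ((Subgroup.center ↥(S : Subgroup G)).map (S : Subgroup G).subtype).map (MulAut.conj g).toMonoidHom ≠ ((Subgroup.center ↥(S : Subgroup G)).map (S : Subgroup G).subtype)) :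
    Cfsg.IsOfJankoFourType G := by
  have := Fact.mk Nat.prime_two
  obtain ⟨w, hw⟩ := exists_prime_orderOf_dvd_card' (G := Subgroup.center (CL.J4.Rec.C1 x)) 2 (by rw [hZc]; norm_num)
  have oz : orderOf ((w : CL.J4.Rec.C1 x) : G) = 2 := by rw [Subgroup.orderOf_coe, Subgroup.orderOf_coe, hw]
  have zc : CL.J4.Rec.C1 x ≤ CL.J4.Rec.C1 ((w : CL.J4.Rec.C1 x) : G) := fun k hk =>
    CL.J4.Rec.mem_c.2 (congrArg Subtype.val (Subgroup.mem_center_iff.1 w.2 ⟨k, hk⟩))
  let x' : Subgroup.center (CL.J4.Rec.C1 x) := ⟨⟨x, CL.J4.Rec.mem_c.2 rfl⟩,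
    Subgroup.mem_center_iff.2 fun k => Subtype.ext (CL.J4.Rec.mem_c.1 k.2)⟩
  have ox : orderOf x' = 3 := by rw [← Subgroup.orderOf_coe, ← Subgroup.orderOf_coe]; exact hx
  have hc : Commute x' w := Subtype.ext (Subgroup.mem_center_iff.1 w.2 _)
  have htop : Subgroup.zpowers (x' * w) = ⊤ := Subgroup.eq_top_of_card_eq _ (by
    rw [Nat.card_zpowers, hc.orderOf_mul_eq_mul_orderOf_of_coprime (by rw [ox, hw]; norm_num), ox, hw, hZc])
  have h : CL.J4.Rec.Six x ((w : CL.J4.Rec.C1 x) : G) (CL.J4.Rec.F22.subtype.comp (CL.J4.eqv22.symm.toMonoidHom.comp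
      (e.toMonoidHom.comp (QuotientGroup.mk' _)))) := by
    refine ⟨hx, oz, zc, w.1.2, ?_, fun k => ?_, fun k hk => ?_⟩
    · rw [MonoidHom.range_comp, MonoidHom.range_eq_top_of_surjective _ (CL.J4.eqv22.symm.surjective.comp
        (e.surjective.comp (QuotientGroup.mk'_surjective _))), ← MonoidHom.range_eq_map, Subgroup.range_subtype]
    · refine Iff.trans (b := k ∈ Subgroup.center (CL.J4.Rec.C1 x)) (by simp) ⟨fun hk => ?_, fun ⟨a, ha, b, hb, e⟩ => ?_⟩
      · obtain ⟨n, hn⟩ := htop.ge (Subgroup.mem_top (⟨k, hk⟩ : Subgroup.center (CL.J4.Rec.C1 x)))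
        have hn : (x' * w) ^ n = ⟨k, hk⟩ := hn
        rw [hc.mul_zpow] at hn
        exact ⟨_, ⟨n, rfl⟩, _, ⟨n, rfl⟩, (congrArg (fun u : Subgroup.center (CL.J4.Rec.C1 x) => (u.1 : G)) hn).symm⟩
      · refine Subgroup.mem_center_iff.2 fun u => Subtype.ext ?_
        show (u : G) * k = k * u
        rw [e, ← mul_assoc, CL.J4.Rec.zp_comm ha u.2, mul_assoc, CL.J4.Rec.zp_comm hb (zc u.2), mul_assoc]
    · have h1 := Subgroup.mem_map_of_mem (CL.J4.Rec.C1 x).subtype (hperf.ge (Subgroup.mem_top ⟨k, hk⟩))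
      rwa [Subgroup.map_commutator, ← MonoidHom.range_eq_map, Subgroup.range_subtype] at h1
  obtain ⟨y, h3, h4, h5⟩ := h.exists_y S g hng hne
  exact ⟨_, _, h.janko h2 h3 h4 h5⟩

end Cfsg.Agent.S3317
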