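import Cfsg.Statements.S3355
import Cfsg.Agent.Lat.Main
import Cfsg.Agent.Lat.Schur
import Cfsg.Agent.Lat.Min
import Cfsg.Agent.Lat.Tr
import Cfsg.Agent.Lat.Shape
import Cfsg.Agent.Lat.QR
import Cfsg.Agent.Lat.Ev
import Cfsg.Agent.Lat.Emb
import Cfsg.Agent.Lat.Two
import Cfsg.Agent.Lat.Leech

set_option autoImplicit false
open Cfsg

namespace Cfsg.Agent.S3355

/-- Let G be a finite group with a faithful irreducible rational representation of degree 23 (an injective homomorphism into GL(23, ℚ) leaving no proper non-zero subspace invariant) and with no subgroup of index 23 or 24. Then G is isomorphic to a subgroup of the direct product of a group of order 2 with the second Conway group, or of a group of order 2 with the third Conway group. -/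
theorem result {G : Type*} [Group G] [Finite G]
    (ρ : G →* GL (Fin 23) ℚ) (hρ : Function.Injective ρ)
    (hirr : ∀ W : Submodule ℚ (Fin 23 → ℚ), (∀ g : G, ∀ w ∈ W, ((ρ g : GL (Fin 23) ℚ) : Matrix (Fin 23) (Fin 23) ℚ).mulVec w ∈ W) → W = ⊥ ∨ W = ⊤)
    (hidx : ∀ H : Subgroup G, H.index ≠ 23 ∧ H.index ≠ 24) :
    (∃ f : G →* Multiplicative (ZMod 2) × Cfsg.Spor.Co2, Function.Injective f) ∨
    (∃ f : G →* Multiplicative (ZMod 2) × Cfsg.Spor.Co3, Function.Injective f) := by
  open CL.F23 in
  exact main_of schurThm minThm trThm shapeThm qrThm evThm embThm (twoThm leechThm) ρ hρ hirr hidx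

end Cfsg.Agent.S3355
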