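import Cfsg.Statements.S3356
import Cfsg.Agent.Perm.HalfTrans

set_option autoImplicit false
open Cfsg

namespace Cfsg.Agent.S3356

/-- Let G be a finite 3/2-transitive permutation group: G acts faithfully and transitively on a finite set, the point stabilizers are non-trivial, and for each point a all orbits of G_a on the remaining points have the same size. Suppose G has a regular normal subgroup N and G is not a Frobenius group (some two-point stabilizer is non-trivial). Then N is an elementary abelian p-group for some prime p, and every non-trivial normal subgroup of G contains N (so N is the unique minimal normal subgroup). -/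
theorem result {G Ω : Type*} [Group G] [Finite G]
    [MulAction G Ω] [FaithfulSMul G Ω] [Finite Ω] (htrans : MulAction.IsPretransitive G Ω)
    (hne : ∀ a : Ω, MulAction.stabilizer G a ≠ ⊥)
    (hhalf : ∀ a b c : Ω, b ≠ a → c ≠ a →
      Nat.card (MulAction.orbit (MulAction.stabilizer G a) b) = Nat.card (MulAction.orbit (MulAction.stabilizer G a) c))
    (N : Subgroup G) [hN : N.Normal] (hNt : MulAction.IsPretransitive N Ω) (hNr : ∀ a : Ω, MulAction.stabilizer N a = ⊥)
    (hnotF : ∃ a b : Ω, a ≠ b ∧ MulAction.stabilizer G a ⊓ MulAction.stabilizer G b ≠ ⊥) :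
    (∃ p : ℕ, p.Prime ∧ IsMulCommutative N ∧ ∀ x ∈ N, x ^ p = 1) ∧
    (∀ M : Subgroup G, M.Normal → M ≠ ⊥ → N ≤ M) := by
  obtain ⟨a, b, hab, hab'⟩ := hnotF
  let H := MulAction.stabilizer G a
  let _ : MulDistribMulAction H N := MulDistribMulAction.compHom N ((MulAut.conjNormal (H := N)).comp H.subtype)
  have hsm : ∀ (h : H) (n : N), ((h • n : N) : G) = h * n * (h : G)⁻¹ := fun h n => rfl
  have hinj : ∀ m n : N, (m : G) • a = (n : G) • a → m = n := by
    intro m n h
    have : n⁻¹ * m ∈ MulAction.stabilizer N a := by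
      show ((n : G)⁻¹ * m) • a = a
      rw [mul_smul, h, inv_smul_smul]
    rw [hNr a, Subgroup.mem_bot, inv_mul_eq_one] at this
    exact this.symm
  have hact : ∀ (h : H) (n : N), ((h • n : N) : G) • a = (h : G) • (n : G) • a := by
    intro h n
    have : (h : G)⁻¹ • a = a := (H.inv_mem h.2 : _)
    rw [hsm, mul_smul, mul_smul, this]
  have hst : ∀ n : N, MulAction.stabilizer H n = MulAction.stabilizer H ((n : G) • a) := by
    intro n
    ext h
    constructor
    · intro hh
      show (h : G) • (n : G) • a = (n : G) • a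
      rw [← hact, show h • n = n from hh]
    · intro hh
      exact hinj _ _ (by rw [hact]; exact hh)
  have hn1 : ∀ n : N, n ≠ 1 → (n : G) • a ≠ a := fun n hn h => hn (hinj n 1 (by simpa using h))
  have hf : ∀ h : H, (∀ x : N, h • x = x) → h = 1 := by
    intro h hh
    refine Subtype.ext (FaithfulSMul.eq_of_smul_eq_smul (α := Ω) fun c => ?_)
    obtain ⟨n, rfl⟩ := hNt.exists_smul_eq a c
    show (h : G) • (n : G) • a = (1 : G) • (n : G) • a
    rw [← hact, hh, one_smul]
  obtain ⟨n0, hn0⟩ := hNt.exists_smul_eq a b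
  have hn0' : (n0 : G) • a = b := hn0
  obtain ⟨⟨p, hp, hc, hpow⟩, hirr⟩ := CL.Perm.isaacs_passman hf (Nat.card (MulAction.orbit H b))
    (fun x hx => by
      rw [hst, MulAction.index_stabilizer, ← Nat.card_coe_set_eq]
      exact hhalf a _ b (hn1 x hx) hab.symm)
    ⟨n0, fun h => hab (by rw [← hn0', h]; simp), fun h => hab' (eq_bot_iff.2 fun g hg => by
      have : (⟨g, hg.1⟩ : H) ∈ MulAction.stabilizer H n0 := by
        rw [hst, hn0']
        exact hg.2
      rw [h, Subgroup.mem_bot] at this
      exact congrArg Subtype.val this)⟩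
  refine ⟨⟨p, hp, ⟨⟨hc⟩⟩, fun x hx => congrArg Subtype.val (hpow ⟨x, hx⟩)⟩, fun M hM hM1 => ?_⟩
  rcases hirr (M.subgroupOf N) (fun h x hx => hM.conj_mem _ hx _) with h | h
  · exfalso
    have hd : Disjoint M N := Subgroup.subgroupOf_eq_bot.1 h
    refine hM1 (eq_bot_iff.2 fun m hm => ?_)
    obtain ⟨n, hn⟩ := hNt.exists_smul_eq a (m • a)
    have hn' : (n : G) • a = m • a := hn
    have h1 : (n : G)⁻¹ * m ∈ H := by
      show ((n : G)⁻¹ * m) • a = a
      rw [mul_smul, ← hn', inv_smul_smul]
    have h2 := hf ⟨_, h1⟩ fun x => Subtype.ext (by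
      have e1 : m * x = x * m := (Subgroup.commute_of_normal_of_disjoint M N hM hN hd m x hm x.2).eq
      have e2 : (n : G) * x = x * n := congrArg Subtype.val (hc n x)
      rw [hsm]
      show (n : G)⁻¹ * m * x * ((n : G)⁻¹ * m)⁻¹ = x
      rw [mul_assoc _ m, e1, mul_inv_rev, inv_inv, mul_assoc, mul_assoc, mul_inv_cancel_left, ← e2,
        inv_mul_cancel_left])
    have h3 : (n : G) = m := inv_mul_eq_one.1 (congrArg Subtype.val h2)
    exact hd.le_bot ⟨hm, h3 ▸ n.2⟩
  · exact Subgroup.subgroupOf_eq_top.1 h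

end Cfsg.Agent.S3356
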