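import Cfsg.Statements.S3357
import Cfsg.Agent.Perm.FCCrit

set_option autoImplicit false
open Cfsg

namespace Cfsg.Agent.S3357

theorem exists_min_invariant {K V G : Type*} [Field K] [AddCommGroup V] [Module K V]
    [FiniteDimensional K V] [Nontrivial V] [Group G] (ρ : Representation K G V) :
    ∃ W : Submodule K V, W ≠ ⊥ ∧ (∀ g, ∀ w ∈ W, ρ g w ∈ W) ∧
      ∀ U : Submodule K V, U ≤ W → (∀ g, ∀ w ∈ U, ρ g w ∈ U) → U = ⊥ ∨ U = W := by
  obtain ⟨W, ⟨h1, h2⟩, hmin⟩ := WellFounded.has_min (wellFounded_lt (α := Submodule K V))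
    {W : Submodule K V | W ≠ ⊥ ∧ ∀ g, ∀ w ∈ W, ρ g w ∈ W} ⟨⊤, top_ne_bot, fun _ _ _ => trivial⟩
  refine ⟨W, h1, h2, fun U hU hU' => ?_⟩
  by_cases h0 : U = ⊥
  · exact Or.inl h0
  · exact Or.inr (hU.eq_or_lt.resolve_right (hmin U ⟨h0, hU'⟩))

theorem main {K V G : Type*} [Field K] [AddCommGroup V] [Module K V]
    [FiniteDimensional K V] [Nontrivial V] [Group G] (ρ : Representation K G V)
    (hρ : ∀ g : G, g ≠ 1 → ∀ v, ρ g v = v → v = 0) :
    ∃ (n : ℕ) (ρ : G →* GL (Fin n) K), 0 < n ∧ Function.Injective ρ ∧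
      (∀ W : Submodule K (Fin n → K),
        (∀ g : G, ∀ w ∈ W, ((ρ g : GL (Fin n) K) : Matrix (Fin n) (Fin n) K).mulVec w ∈ W) →
          W = ⊥ ∨ W = ⊤) ∧
      ∀ g : G, g ≠ 1 → ∀ v : Fin n → K,
        ((ρ g : GL (Fin n) K) : Matrix (Fin n) (Fin n) K).mulVec v = v → v = 0 := by
  obtain ⟨W, hW0, hW, hmin⟩ := exists_min_invariant ρ
  let σ : Representation K G W :=
    { toFun := fun g => (ρ g).restrict (hW g)
      map_one' := by ext1 w; apply Subtype.ext; simp
      map_mul' := fun a b => by ext1 w; apply Subtype.ext; simp }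
  let b := Module.finBasis K W
  let τ : G →* Matrix (Fin (Module.finrank K W)) (Fin (Module.finrank K W)) K :=
    (LinearMap.toMatrixAlgEquiv b).toMulEquiv.toMonoidHom.comp σ
  have hτ : ∀ g v, (τ g).mulVec v = b.equivFun (σ g (b.equivFun.symm v)) := by
    intro g v
    have := LinearMap.toMatrix_mulVec_repr b b (σ g) (b.equivFun.symm v)
    rw [← b.equivFun_apply, LinearEquiv.apply_symm_apply] at this
    exact this
  have hfpf : ∀ g : G, g ≠ 1 → ∀ v, (τ g).mulVec v = v → v = 0 := by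
    intro g hg v hv
    rw [hτ, ← LinearEquiv.eq_symm_apply] at hv
    have := hρ g hg _ (congrArg Subtype.val hv)
    have h2 : b.equivFun.symm v = 0 := Subtype.ext this
    exact b.equivFun.symm.map_eq_zero_iff.mp h2
  have hnt : Nontrivial W := Submodule.nontrivial_iff_ne_bot.mpr hW0
  have hpos : 0 < Module.finrank K W := Module.finrank_pos
  refine ⟨_, τ.toHomUnits, hpos, ?_, fun U hU => ?_, hfpf⟩
  · rw [injective_iff_map_eq_one]
    intro g hg
    by_contra h1
    have h2 : τ g = 1 := congrArg Units.val hg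
    have := hfpf g h1 (fun _ => 1) (by rw [h2, Matrix.one_mulVec])
    exact one_ne_zero (congrFun this ⟨0, hpos⟩)
  · have := hmin ((U.map b.equivFun.symm.toLinearMap).map W.subtype) (Submodule.map_subtype_le _ _) (by
      rintro g _ ⟨_, ⟨u, hu, rfl⟩, rfl⟩
      refine ⟨_, ⟨_, hU g u hu, rfl⟩, ?_⟩
      change ((b.equivFun.symm ((τ g).mulVec u) : W) : V) = _
      rw [hτ, LinearEquiv.symm_apply_apply]
      rfl)
    rcases this with h | h
    · left
      rw [eq_bot_iff]
      intro v hv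
      have h2 : ((b.equivFun.symm v : W) : V) ∈
          (U.map b.equivFun.symm.toLinearMap).map W.subtype := ⟨_, ⟨v, hv, rfl⟩, rfl⟩
      rw [h, Submodule.mem_bot] at h2
      exact b.equivFun.symm.map_eq_zero_iff.mp (Subtype.ext h2)
    · right
      rw [eq_top_iff]
      intro v _
      have hv : ((b.equivFun.symm v : W) : V) ∈
          (U.map b.equivFun.symm.toLinearMap).map W.subtype := by rw [h]; exact Subtype.prop _
      obtain ⟨_, ⟨u, hu, rfl⟩, h2⟩ := hv
      have h3 : b.equivFun.symm u = b.equivFun.symm v := Subtype.ext h2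
      rwa [← b.equivFun.symm.injective h3]

theorem main' (K : Type*) {G : Type*} [Field K] [CharZero K] [Group G] [Finite G] (hF : CL.Perm.IsFpf G) :
    ∃ (n : ℕ) (ρ : G →* GL (Fin n) K), 0 < n ∧ Function.Injective ρ ∧
      (∀ W : Submodule K (Fin n → K),
        (∀ g : G, ∀ w ∈ W, ((ρ g : GL (Fin n) K) : Matrix (Fin n) (Fin n) K).mulVec w ∈ W) →
          W = ⊥ ∨ W = ⊤) ∧
      ∀ g : G, g ≠ 1 → ∀ v : Fin n → K,
        ((ρ g : GL (Fin n) K) : Matrix (Fin n) (Fin n) K).mulVec v = v → v = 0 := by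
  have := hF.nontrivial_fpfSub K
  exact main (CL.Perm.fpfRep K G) (CL.Perm.fpfRep_fpf (Nat.cast_ne_zero.mpr Nat.card_pos.ne'))


/-- Let G be a finite group that occurs as a Frobenius complement. Then G has a faithful irreducible representation over an algebraic closure of the rationals in which no non-identity element of G has 1 as an eigenvalue: there are n ≥ 1 and an injective homomorphism ρ from G to GL(n) over that field, with no invariant subspace other than 0 and the whole space, such that for g ≠ 1 the only vector fixed by ρ(g) is 0. -/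
theorem result {G : Type*} [Group G] [Finite G]
    (hFC : ∃ (L : Type) (_ : Group L) (_ : Finite L) (H : Subgroup L), Cfsg.IsFrobeniusComplement H ∧ Nonempty (G ≃* H)) :
    ∃ (n : ℕ) (ρ : G →* GL (Fin n) (AlgebraicClosure ℚ)), 0 < n ∧ Function.Injective ρ ∧
      (∀ W : Submodule (AlgebraicClosure ℚ) (Fin n → AlgebraicClosure ℚ),
        (∀ g : G, ∀ w ∈ W, ((ρ g : GL (Fin n) (AlgebraicClosure ℚ)) : Matrix (Fin n) (Fin n) (AlgebraicClosure ℚ)).mulVec w ∈ W) → W = ⊥ ∨ W = ⊤) ∧
      ∀ g : G, g ≠ 1 → ∀ v : Fin n → AlgebraicClosure ℚ,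
        ((ρ g : GL (Fin n) (AlgebraicClosure ℚ)) : Matrix (Fin n) (Fin n) (AlgebraicClosure ℚ)).mulVec v = v → v = 0 := by
  exact main' _ (CL.Perm.IsFC.isFpf hFC)

end Cfsg.Agent.S3357
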