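import Cfsg.Statements.S3375
import Cfsg.Agent.Base

set_option autoImplicit false
open Cfsg

namespace Cfsg.Agent.S3375

/-- Let γ be an automorphism of order 2 of a finite group H. (i) If γ fixes only the identity, then H is abelian and γ inverts every element. (ii) If γ has exactly two fixed points and H has a subgroup of index 2, then H has a γ-invariant abelian subgroup of index 2 on which γ acts by inversion. -/
theorem result {H : Type*} [Group H] [Finite H] (γ : MulAut H) (hγ : orderOf γ = 2) :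
    ((∀ h : H, γ h = h → h = 1) → (∀ a b : H, a * b = b * a) ∧ ∀ h : H, γ h = h⁻¹) ∧
    ((Nat.card {h : H // γ h = h} = 2 ∧ ∃ M : Subgroup H, M.index = 2) →
      ∃ A : Subgroup H, A.index = 2 ∧ IsMulCommutative A ∧ (∀ a ∈ A, γ a ∈ A) ∧ ∀ a ∈ A, γ a = a⁻¹) := by
  have hinv : Function.Involutive γ := fun h => by
    have := pow_orderOf_eq_one γ
    rw [hγ, sq] at this
    exact congrArg (fun φ : MulAut H => φ h) this
  refine ⟨fun h => ⟨fun a b => MonoidHom.FixedPointFree.commute_all_of_involutive h hinv a b,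
    fun a => congrFun (MonoidHom.FixedPointFree.coe_eq_inv_of_involutive h hinv) a⟩, ?_⟩
  rintro ⟨hC, M0, hM0⟩
  obtain ⟨M, hM, hMγ⟩ : ∃ M : Subgroup H, M.index = 2 ∧ ∀ a, γ a ∈ M ↔ a ∈ M := by
    let M' : Subgroup H :=
      { carrier := {h | h ∈ M0 ↔ γ h ∈ M0}
        one_mem' := by simp
        mul_mem' := by
          intro a b ha hb
          simp only [Set.mem_ofPred_eq, map_mul, Subgroup.mul_mem_iff_of_index_two hM0] at ha hb ⊢
          tauto
        inv_mem' := by
          intro a ha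
          simpa using ha }
    have hM' : ∀ h, h ∈ M' ↔ (h ∈ M0 ↔ γ h ∈ M0) := fun h => Iff.rfl
    by_cases h : ∀ a, a ∈ M'
    · exact ⟨M0, hM0, fun a => ((hM' a).mp (h a)).symm⟩
    · push Not at h
      obtain ⟨a, ha⟩ := h
      refine ⟨M', Subgroup.index_eq_two_iff'.mpr ⟨a, fun b => ?_⟩, fun b => ?_⟩
      · simp only [hM', map_mul, Subgroup.mul_mem_iff_of_index_two hM0] at ha ⊢
        unfold Xor
        tauto
      · rw [hM', hM', hinv]
        exact iff_comm
  let C : Subgroup H := γ.toMonoidHom.eqLocus (MonoidHom.id H)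
  have hCc : Nat.card C = 2 := hC
  let ψ : H ⧸ C → M := Quotient.lift (fun h => (⟨h * (γ h)⁻¹, by
      rw [Subgroup.mul_mem_iff_of_index_two hM, inv_mem_iff, hMγ]⟩ : M)) (by
    intro a b hab
    have h1 : γ (a⁻¹ * b) = a⁻¹ * b := QuotientGroup.leftRel_apply.mp hab
    apply Subtype.ext
    change a * (γ a)⁻¹ = b * (γ b)⁻¹
    rw [map_mul, map_inv] at h1
    calc a * (γ a)⁻¹ = a * ((γ a)⁻¹ * γ b) * (γ b)⁻¹ := by group
      _ = _ := by rw [h1]; group)
  have hψ : Function.Injective ψ := by
    intro a b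
    induction a using QuotientGroup.induction_on with | H a => ?_
    induction b using QuotientGroup.induction_on with | H b => ?_
    intro hab
    have h1 : a * (γ a)⁻¹ = b * (γ b)⁻¹ := congrArg Subtype.val hab
    rw [QuotientGroup.eq]
    change γ (a⁻¹ * b) = a⁻¹ * b
    rw [map_mul, map_inv]
    calc (γ a)⁻¹ * γ b = a⁻¹ * (a * (γ a)⁻¹) * γ b := by group
      _ = _ := by rw [h1]; group
  have hcard : Nat.card (H ⧸ C) = Nat.card M := by
    have e1 := C.card_mul_index
    have e2 := M.card_mul_index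
    rw [hCc] at e1
    rw [hM] at e2
    change C.index = _
    omega
  have hsurj : Function.Surjective ψ :=
    ((Nat.bijective_iff_injective_and_card ψ).mpr ⟨hψ, hcard⟩).2
  have hMinv : ∀ a ∈ M, γ a = a⁻¹ := by
    intro a ha
    obtain ⟨x, hx⟩ := hsurj ⟨a, ha⟩
    induction x using QuotientGroup.induction_on with | H x => ?_
    have h1 : x * (γ x)⁻¹ = a := congrArg Subtype.val hx
    rw [← h1, map_mul, map_inv, hinv]
    group
  refine ⟨M, hM, ⟨⟨fun a b => Subtype.ext ?_⟩⟩, fun a ha => (hMγ a).mpr ha, hMinv⟩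
  have h1 := hMinv _ (M.mul_mem a.2 b.2)
  rw [map_mul, hMinv _ a.2, hMinv _ b.2, ← mul_inv_rev, inv_inj] at h1
  exact h1.symm

end Cfsg.Agent.S3375
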