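import Cfsg.Statements.S3377
import Cfsg.Agent.Perm.SL25Pres

set_option autoImplicit false
open Cfsg

namespace Cfsg.Agent.S3377

/-- The alternating group of degree 5 has the presentation ⟨x, y | x³ = 1, y⁵ = 1, (xy)² = 1⟩: the group so presented is isomorphic to Alt(5). -/
theorem result :
    Nonempty (PresentedGroup ({FreeGroup.of (0 : Fin 2) ^ 3, FreeGroup.of (1 : Fin 2) ^ 5,
        (FreeGroup.of (0 : Fin 2) * FreeGroup.of 1) ^ 2} : Set (FreeGroup (Fin 2))) ≃* alternatingGroup (Fin 5)) := by
  obtain ⟨x0, y0, h1, h2, h3, -, h5⟩ := CL.Perm.exists_gens_alt_five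
  set R : Set (FreeGroup (Fin 2)) := {FreeGroup.of (0 : Fin 2) ^ 3, FreeGroup.of (1 : Fin 2) ^ 5,
    (FreeGroup.of (0 : Fin 2) * FreeGroup.of 1) ^ 2} with hR
  let f : PresentedGroup R →* alternatingGroup (Fin 5) := PresentedGroup.toGroup (f := ![x0, y0]) (by
    intro r hr
    simp only [hR, Set.mem_insert_iff, Set.mem_singleton_iff] at hr
    rcases hr with rfl | rfl | rfl <;>
      simp only [map_mul, map_pow, FreeGroup.lift_apply_of, Matrix.cons_val_zero,
        Matrix.cons_val_one]
    exacts [h1, h2, h3])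
  have hf : Function.Surjective f := by
    rw [← MonoidHom.range_eq_top, eq_top_iff, ← h5, Subgroup.closure_le]
    rintro _ (rfl | rfl)
    · exact ⟨PresentedGroup.of 0, PresentedGroup.toGroup.of _⟩
    · exact ⟨PresentedGroup.of 1, PresentedGroup.toGroup.of _⟩
  set x : PresentedGroup R := PresentedGroup.of 0
  set y : PresentedGroup R := PresentedGroup.of 1
  have hx : x ^ 3 = 1 := PresentedGroup.one_of_mem (x := FreeGroup.of (0 : Fin 2) ^ 3) (by simp [hR])
  have hy : y ^ 5 = 1 := PresentedGroup.one_of_mem (x := FreeGroup.of (1 : Fin 2) ^ 5) (by simp [hR])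
  have hxy : (x * y) ^ 2 = 1 := PresentedGroup.one_of_mem
    (x := (FreeGroup.of (0 : Fin 2) * FreeGroup.of 1) ^ 2) (by simp [hR])
  have h := CL.Perm.card_closure_le_of_235 hx hy (z := 1) (by simp) (by simp) (by simp) hxy (m := 5)
    (by norm_num) (by rw [mul_one, hy])
  have htop : Subgroup.closure ({x, y} : Set (PresentedGroup R)) = ⊤ := by
    rw [eq_top_iff, ← PresentedGroup.closure_range_of, Subgroup.closure_le]
    rintro _ ⟨i, rfl⟩
    fin_cases i
    · exact Subgroup.subset_closure (Or.inl rfl)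
    · exact Subgroup.subset_closure (Or.inr rfl)
  rw [htop, Subgroup.card_top] at h
  have : Finite (PresentedGroup R) := by
    have := h.1
    exact Finite.of_equiv _ Subgroup.topEquiv.toEquiv
  exact ⟨MulEquiv.ofBijective f ((Nat.bijective_iff_surjective_and_card f).mpr
    ⟨hf, le_antisymm (CL.Perm.card_alt_five ▸ h.2) (Nat.card_le_card_of_surjective f hf)⟩)⟩

end Cfsg.Agent.S3377
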