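import Cfsg.Statements.S3378
import Cfsg.Agent.Perm.SL25Pres

set_option autoImplicit false
open Cfsg

namespace Cfsg.Agent.S3378

/-- Every non-solvable group of order 120 whose Sylow 2-subgroups are quaternion of order 8 is isomorphic to SL(2,5), and SL(2,5) has the presentation ⟨x, y, z | x³ = y⁵ = z² = 1, z⁻¹xz = x, z⁻¹yz = y, (xy)² = z⟩. -/
theorem result :
    (∀ (G : Type*) [Group G] [Finite G], Nat.card G = 120 → ¬ Group.IsSolvable G →
      (∀ P : Sylow 2 G, Nonempty ((P : Subgroup G) ≃* QuaternionGroup 2)) →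
      Nonempty (G ≃* Matrix.SpecialLinearGroup (Fin 2) (ZMod 5))) ∧
    Nonempty (PresentedGroup ({FreeGroup.of (0 : Fin 3) ^ 3, FreeGroup.of (1 : Fin 3) ^ 5, FreeGroup.of (2 : Fin 3) ^ 2,
        (FreeGroup.of (2 : Fin 3))⁻¹ * FreeGroup.of 0 * FreeGroup.of 2 * (FreeGroup.of (0 : Fin 3))⁻¹,
        (FreeGroup.of (2 : Fin 3))⁻¹ * FreeGroup.of 1 * FreeGroup.of 2 * (FreeGroup.of (1 : Fin 3))⁻¹,
        (FreeGroup.of (0 : Fin 3) * FreeGroup.of 1) ^ 2 * (FreeGroup.of (2 : Fin 3))⁻¹} : Set (FreeGroup (Fin 3)))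
      ≃* Matrix.SpecialLinearGroup (Fin 2) (ZMod 5)) := by
  refine ⟨fun G _ _ h hs hP => CL.Perm.nonempty_SL2_five h hs fun a b ha hb hab => ?_,
    CL.Perm.nonempty_pres235_SL⟩
  have hc : Commute a b := hab
  have h1 : IsPGroup 2 (Subgroup.zpowers a) := IsPGroup.of_card_dvd_pow (n := 1) (by
    rw [Nat.card_zpowers]; exact orderOf_dvd_of_pow_eq_one (by rw [pow_one, sq, ha]))
  have h2 : IsPGroup 2 (Subgroup.zpowers b) := IsPGroup.of_card_dvd_pow (n := 1) (by
    rw [Nat.card_zpowers]; exact orderOf_dvd_of_pow_eq_one (by rw [pow_one, sq, hb]))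
  have h3 : IsPGroup 2 (Subgroup.zpowers a ⊔ Subgroup.zpowers b : Subgroup G) :=
    h1.to_sup_of_normal_right' h2 (Subgroup.zpowers_le.mpr (Subgroup.centralizer_le_normalizer _ (by
      rintro _ ⟨k, rfl⟩
      exact (hc.symm.zpow_left k).eq)))
  obtain ⟨P, hle⟩ := h3.exists_le_sylow
  obtain ⟨e⟩ := hP P
  have haP : a ∈ (P : Subgroup G) := hle (Subgroup.mem_sup_left (Subgroup.mem_zpowers a))
  have hbP : b ∈ (P : Subgroup G) := hle (Subgroup.mem_sup_right (Subgroup.mem_zpowers b))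
  have key : ∀ u v : QuaternionGroup 2, u * u = 1 → v * v = 1 → u = 1 ∨ v = 1 ∨ u = v := by decide
  rcases key (e ⟨a, haP⟩) (e ⟨b, hbP⟩)
    (by rw [← map_mul, MulEquiv.map_eq_one_iff]; exact Subtype.ext ha)
    (by rw [← map_mul, MulEquiv.map_eq_one_iff]; exact Subtype.ext hb) with h | h | h
  · exact Or.inl (congrArg Subtype.val ((MulEquiv.map_eq_one_iff e).mp h))
  · exact Or.inr (Or.inl (congrArg Subtype.val ((MulEquiv.map_eq_one_iff e).mp h)))
  · exact Or.inr (Or.inr (congrArg Subtype.val (e.injective h)))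

end Cfsg.Agent.S3378
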