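import Cfsg.Statements.S3380
import Cfsg.Agent.Loc.PImprim

set_option autoImplicit false
open Cfsg

namespace Cfsg.Agent.S3380

/-- Let a finite p-group G act faithfully and irreducibly on a non-trivial finite vector space V over the field with q elements (q prime), and suppose G is not cyclic, generalized quaternion, dihedral or semidihedral. Then G has a subgroup H of index p and V is the direct sum of p subspaces, each invariant under H, on none of which H acts faithfully, and which every element of G outside H permutes in a single p-cycle. -/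
theorem result
    (q : ℕ) [Fact q.Prime] {V : Type*} [AddCommGroup V] [Module (ZMod q) V] [Finite V] [Nontrivial V]
    {G : Type*} [Group G] [Finite G] (p : ℕ) [Fact p.Prime] (hG : IsPGroup p G)
    (ρ : G →* (V ≃ₗ[ZMod q] V)) (hρ : Function.Injective ρ)
    (hirr : ∀ W : Submodule (ZMod q) V, (∀ g : G, ∀ w ∈ W, ρ g w ∈ W) → W = ⊥ ∨ W = ⊤)
    (hnc : ¬ IsCyclic G) (hnq : ∀ n : ℕ, ¬ Nonempty (G ≃* QuaternionGroup n))
    (hnd : ∀ n : ℕ, ¬ Nonempty (G ≃* DihedralGroup n)) (hnsd : ¬ Cfsg.IsQuasiDihedral G) :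
    ∃ (H : Subgroup G) (W : Fin p → Submodule (ZMod q) V), H.index = p ∧
      iSup W = ⊤ ∧ iSupIndep W ∧
      (∀ h ∈ H, ∀ i, ∀ w ∈ W i, ρ h w ∈ W i) ∧
      (∀ i, ∃ h ∈ H, h ≠ 1 ∧ ∀ w ∈ W i, ρ h w = w) ∧
      ∀ g : G, g ∉ H → ∃ σ : Equiv.Perm (Fin p), orderOf σ = p ∧ ∀ i, (W i).map (ρ g : V →ₗ[ZMod q] V) = W (σ i) := by
  by_cases h : ∀ E : Subgroup G, E.Normal → Cfsg.IsElementaryAbelian p E → Nat.card E ≠ p ^ 2
  · rcases CL.Grp.isCyclic_or_dqsGen_of_forall_normal hG h with h | ⟨-, n, a, b, hb⟩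
    · exact absurd h hnc
    · rcases hb.rel with ⟨h4, h5⟩ | ⟨h4, h5⟩ | ⟨h6, h4, h5⟩
      · exact absurd (hb.nonempty_dihedral h4 h5) (hnd _)
      · exact absurd (hb.nonempty_quaternion h4 h5) (hnq _)
      · exact absurd (hb.isQuasiDihedral h6 h4 h5) hnsd
  push Not at h
  obtain ⟨E, hn, hE, hc⟩ := h
  obtain ⟨z, e, hz, hzo, hep, hez, hce⟩ := CL.Loc.exists_central_pair hG hE hc
  exact CL.Loc.exists_imprimitive q p ρ hρ hirr hz hzo hep hez hce

end Cfsg.Agent.S3380
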