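import Cfsg.Statements.S3381
import Cfsg.Agent.Base

set_option autoImplicit false
open Cfsg

namespace Cfsg.Agent.S3381

/-- Let G be a finite group acting faithfully and linearly on a non-trivial finite vector space V over the field with q elements (q prime) so that every non-zero vector has a stabilizer of order 2, and suppose G has a central involution. Then V has q^(2r) elements for some r and G contains exactly q^r + 1 non-central involutions. -/
theorem result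
    (q : ℕ) [Fact q.Prime] {V : Type*} [AddCommGroup V] [Module (ZMod q) V] [Finite V] [Nontrivial V]
    {G : Type*} [Group G] [Finite G] (ρ : G →* (V ≃ₗ[ZMod q] V)) (hρ : Function.Injective ρ)
    (hstab : ∀ v : V, v ≠ 0 → Nat.card {g : G // ρ g v = v} = 2)
    (z : G) (hz : orderOf z = 2) (hzc : z ∈ Subgroup.center G) :
    ∃ r : ℕ, Nat.card V = q ^ (2 * r) ∧
      Nat.card {g : G // orderOf g = 2 ∧ g ∉ Subgroup.center G} = q ^ r + 1 := by
  classical
  have uq : ∀ v, v ≠ 0 → ∃! t, t ≠ 1 ∧ ρ t v = v := fun v hv => by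
    obtain ⟨y, hy, h⟩ := (Nat.card_eq_two_iff' (⟨1, by simp⟩ : {g : G // ρ g v = v})).1 (hstab v hv)
    exact ⟨y, ⟨fun e => hy (Subtype.ext e), y.2⟩, fun t ht => congrArg Subtype.val (h ⟨t, ht.2⟩ fun e =>
      ht.1 (congrArg Subtype.val e))⟩
  have sq : ∀ v, v ≠ 0 → ∀ t, t ≠ 1 → ρ t v = v → t * t = 1 := fun v hv t h1 h2 => by_contra fun h =>
    h1 (mul_eq_left.1 ((uq v hv).unique ⟨h, by simp [h2]⟩ ⟨h1, h2⟩))
  have ne : ∀ {t : G}, orderOf t = 2 ↔ t ≠ 1 ∧ t * t = 1 := fun {t} =>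
    ⟨fun h => ⟨by rintro rfl; simp at h, by rw [← pow_two, ← h, pow_orderOf_eq_one]⟩,
      fun h => orderOf_eq_prime (by rw [pow_two, h.2]) h.1⟩
  have ap : ∀ t, t * t = 1 → ∀ v, ρ t (ρ t v) = v := fun t h v => by rw [← LinearEquiv.mul_apply, ← map_mul, h]; simp
  have cen : ∀ z, orderOf z = 2 → z ∈ Subgroup.center G → ∀ v, ρ z v = -v ∧ (ρ z v = v → v = 0) := fun z hz hc => by
    have h1 : ∀ u, ρ z u ≠ u → ρ z u = -u := fun u hu => by
      obtain ⟨t, ht, -⟩ := uq u (by rintro rfl; simp at hu)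
      by_contra h
      refine hu ((uq (ρ z u + u) fun e => h (eq_neg_of_add_eq_zero_left e)).unique ⟨ht.1, ?_⟩
        ⟨(ne.1 hz).1, by rw [map_add, ap z (ne.1 hz).2, add_comm]⟩ ▸ ht.2)
      rw [map_add, ← LinearEquiv.mul_apply, ← map_mul, Subgroup.mem_center_iff.1 hc, map_mul, LinearEquiv.mul_apply, ht.2]
    obtain ⟨u, hu⟩ : ∃ u, ρ z u ≠ u := by_contra fun h =>
      (ne.1 hz).1 (hρ (LinearEquiv.ext fun v => by simpa using not_exists.1 h v))
    have h2 : ∀ v, ρ z v = v → v = 0 := fun v hv => by_contra fun h0 => by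
      have h3 := h1 (u + v) (by simpa [hv] using hu)
      rw [map_add, hv, h1 u hu, neg_add, add_right_inj] at h3
      have h4 : (2 : ZMod q) = 0 := (smul_eq_zero.1 (by rw [two_smul]; exact eq_neg_iff_add_eq_zero.1 h3)).resolve_right h0
      exact hu ((h1 u hu).trans (neg_eq_of_add_eq_zero_left (by rw [← two_smul (ZMod q), h4, zero_smul])))
    exact fun v => ⟨by_contra fun h => h (by rw [h2 v (by_contra fun h' => h (h1 v h'))]; simp), h2 v⟩
  have hz' := cen z hz hzc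
  let W : G → Submodule (ZMod q) V := fun t => LinearMap.eqLocus (ρ t).toLinearMap LinearMap.id
  have hW : ∀ t v, v ∈ W t ↔ ρ t v = v := fun _ _ => Iff.rfl
  have dj : ∀ s t, s ≠ 1 → t ≠ 1 → s ≠ t → Module.finrank (ZMod q) (W s) + Module.finrank (ZMod q) (W t) ≤
      Module.finrank (ZMod q) V := fun s t hs ht h => Submodule.finrank_add_finrank_le_of_disjoint
    (Submodule.disjoint_def.2 fun v h1 h2 => by_contra fun h0 => h ((uq v h0).unique ⟨hs, h1⟩ ⟨ht, h2⟩))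
  have h2 : (2 : ZMod q) ≠ 0 := fun h => by
    obtain ⟨u, hu⟩ := exists_ne (0 : V)
    exact hu ((hz' u).2 ((hz' u).1.trans (neg_eq_of_add_eq_zero_left (by rw [← two_smul (ZMod q), h, zero_smul]))))
  have mz : ∀ t v, ρ (t * z) v = -ρ t v := fun t v => by rw [map_mul, LinearEquiv.mul_apply, (hz' v).1, map_neg]
  have nc : ∀ t, orderOf t = 2 ∧ t ∉ Subgroup.center G → (orderOf (t * z) = 2 ∧ t * z ∉ Subgroup.center G) ∧ t ≠ t * z ∧
      (∃ v, v ≠ 0 ∧ ρ t v = v) ∧ Module.finrank (ZMod q) V ≤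
        Module.finrank (ZMod q) (W t) + Module.finrank (ZMod q) (W (t * z)) := fun t ht => by
    have h3 : t * z ∉ Subgroup.center G := fun h => ht.2 ((Subgroup.mul_mem_cancel_right _ hzc).1 h)
    refine ⟨⟨ne.2 ⟨by rintro e; exact h3 (e ▸ one_mem _), ?_⟩, h3⟩, by simpa using (ne.1 hz).1, by_contra fun h => h3 ?_, ?_⟩
    · rw [mul_assoc, ← mul_assoc z, ← Subgroup.mem_center_iff.1 hzc, mul_assoc, (ne.1 hz).2, mul_one, (ne.1 ht.1).2]
    · rw [show t * z = 1 from hρ (LinearEquiv.ext fun v => ?_)]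
      · exact one_mem _
      · have : ρ t v + v = 0 := by_contra fun h0 => h ⟨_, h0, by rw [map_add, ap t (ne.1 ht.1).2, add_comm]⟩
        rw [mz, eq_neg_of_add_eq_zero_left this]; simp
    · rw [← finrank_top, show ⊤ = W t ⊔ W (t * z) from top_le_iff.1 (fun v _ => ?_) |>.symm]
      · exact Submodule.finrank_add_le_finrank_add_finrank _ _
      · refine Submodule.mem_sup.2 ⟨(2 : ZMod q)⁻¹ • (v + ρ t v), (W t).smul_mem _ ?_, (2 : ZMod q)⁻¹ • (v - ρ t v),
          (W _).smul_mem _ ?_, by rw [← smul_add, add_add_sub_cancel, ← two_smul (ZMod q), inv_smul_smul₀ h2]⟩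
        · rw [hW, map_add, ap t (ne.1 ht.1).2, add_comm]
        · rw [hW, mz, map_sub, ap t (ne.1 ht.1).2, neg_sub]
  have fx : ∀ v, v ≠ 0 → ∀ t, t ≠ 1 → ρ t v = v → orderOf t = 2 ∧ t ∉ Subgroup.center G := fun v hv t h1 h =>
    ⟨ne.2 ⟨h1, sq v hv t h1 h⟩, fun hc => hv ((cen t (ne.2 ⟨h1, sq v hv t h1 h⟩) hc v).2 h)⟩
  have dim : ∀ t, orderOf t = 2 ∧ t ∉ Subgroup.center G → Module.finrank (ZMod q) V = 2 * Module.finrank (ZMod q) (W t) :=
    fun t ht => by
      obtain ⟨h3, h4, ⟨v, hv, hv'⟩, h5⟩ := nc t ht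
      obtain ⟨w, hw, hw'⟩ := (nc _ h3).2.2.1
      have e : ∀ u, ρ t u = u → ρ (t * z) u = u → u = 0 := fun u a b => by_contra fun h0 =>
        h4 ((uq u h0).unique ⟨(ne.1 ht.1).1, a⟩ ⟨(ne.1 h3.1).1, b⟩)
      have h0 : v + w ≠ 0 := fun h => hv (e v hv' (by rw [eq_neg_of_add_eq_zero_left h, map_neg, hw']))
      obtain ⟨s, hs, -⟩ := uq _ h0
      obtain ⟨h6, -, -, h7⟩ := nc s (fx _ h0 s hs.1 hs.2)
      have a1 : s ≠ t := by rintro rfl; exact hw (e w (by simpa [hv'] using hs.2) hw')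
      have a2 : s ≠ t * z := by rintro rfl; exact hv (e v hv' (by simpa only [map_add, hw', add_left_inj] using hs.2))
      have a3 : s * z ≠ t := by
        rintro rfl; exact a2 (by rw [mul_assoc, (ne.1 hz).2, mul_one])
      have := dj t _ (ne.1 ht.1).1 (ne.1 h3.1).1 h4
      have := dj s t hs.1 (ne.1 ht.1).1 a1
      have := dj s _ hs.1 (ne.1 h3.1).1 a2
      have := dj _ t (ne.1 h6.1).1 (ne.1 ht.1).1 a3
      have := dj _ _ (ne.1 h6.1).1 (ne.1 h3.1).1 (fun e => a1 (mul_right_cancel e))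
      omega
  obtain ⟨u, hu⟩ := exists_ne (0 : V)
  obtain ⟨t₀, ht₀, -⟩ := uq u hu
  have h3 := dim t₀ (fx u hu t₀ ht₀.1 ht₀.2)
  set r := Module.finrank (ZMod q) (W t₀)
  have h4 : Nat.card V = q ^ (2 * r) := by rw [Module.natCard_eq_pow_finrank (K := ZMod q), Nat.card_zmod, h3]
  refine ⟨r, h4, ?_⟩
  have card : ∀ (X : Type _) [Finite X] [Zero X], Nat.card {v : X // v ≠ 0} + 1 = Nat.card X := fun X _ _ => by
    rw [← Nat.card_congr (Equiv.optionSubtypeNe (0 : X)), Finite.card_option]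
  have h5 : Nat.card {v : V // v ≠ 0} = Nat.card (Σ t : {g : G // orderOf g = 2 ∧ g ∉ Subgroup.center G},
      {v : W t // v ≠ 0}) := (Nat.card_eq_of_bijective (fun x => ⟨x.2.1.1, fun e => x.2.2 (Subtype.ext e)⟩) ⟨by
        rintro ⟨⟨s, hs⟩, ⟨v, hv⟩, h0⟩ ⟨⟨t, ht⟩, ⟨w, hw⟩, h0'⟩ e
        obtain rfl : v = w := congrArg Subtype.val e
        obtain rfl := (uq v fun e => h0 (Subtype.ext e)).unique ⟨(ne.1 hs.1).1, hv⟩ ⟨(ne.1 ht.1).1, hw⟩
        rfl, fun v => by
        obtain ⟨t, ht, -⟩ := uq v.1 v.2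
        exact ⟨⟨⟨t, fx _ v.2 t ht.1 ht.2⟩, ⟨v, ht.2⟩, fun e => v.2 (congrArg Subtype.val e)⟩, rfl⟩⟩).symm
  have := Fintype.ofFinite {g : G // orderOf g = 2 ∧ g ∉ Subgroup.center G}
  have h6 : 1 < q ^ r := Nat.one_lt_pow (by have := Module.finrank_pos (R := ZMod q) (M := V); omega) (Fact.out : q.Prime).one_lt
  rw [Nat.card_sigma, Finset.sum_congr rfl (g := fun _ => q ^ r - 1) fun t _ => by
    have := card (W t)
    rw [Module.natCard_eq_pow_finrank (K := ZMod q) (V := W t), Nat.card_zmod, show Module.finrank (ZMod q) (W t) = r by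
      have := dim t t.2; omega] at this
    omega, Finset.sum_const, smul_eq_mul, Finset.card_univ, ← Nat.card_eq_fintype_card] at h5
  have h7 := card V
  rw [h5, h4, pow_mul'] at h7
  obtain ⟨k, hk⟩ := Nat.exists_eq_add_of_lt h6
  rw [hk] at h7 ⊢
  refine Nat.eq_of_mul_eq_mul_right (m := 1 + k + 1 - 1) (by omega) ?_
  simp only [Nat.add_sub_cancel] at h7 ⊢
  nlinarith

end Cfsg.Agent.S3381
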