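import Cfsg.Statements.S3382
import Cfsg.Agent.Fus.FratChain
import Cfsg.Agent.Fus.SmallCtrl

set_option autoImplicit false
open Cfsg

namespace Cfsg.Agent.S3382

theorem key {G : Type*} [Group G] [Finite G] (hG : IsPGroup 2 G) (C D : Subgroup G)
    (hC : ∀ α : MulAut G, ∀ x ∈ C, α x ∈ C) (hD : ∀ α : MulAut G, ∀ x ∈ D, α x ∈ D)
    (h2 : ∀ x y, x ∉ D → y ∉ D → x * y ∈ D) (h1 : ∀ x ∈ D, ∀ y ∈ D, x ∉ C → y ∉ C → x * y ∈ C)
    (h0 : ∀ x ∈ C, ∀ y ∈ C, (∀ z, x ≠ z * z) → (∀ z, y ≠ z * z) → ∃ z, x * y = z * z) : IsPGroup 2 (MulAut G) :=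
  CL.Fus.isPGroup_of_forall_coprime fun α hα => by
    have hF : ∀ α : MulAut G, ∀ x ∈ frattini G, α x ∈ frattini G := fun α x hx =>
      (Subgroup.characteristic_iff_le_comap.1 inferInstance α) hx
    have st : ∀ X Y : Subgroup G, (∀ α : MulAut G, ∀ x ∈ X, α x ∈ X) → (∀ α : MulAut G, ∀ x ∈ Y, α x ∈ Y) →
        (∀ x ∈ Y, ∀ y ∈ Y, x ∉ X → y ∉ X → x * y ∈ X) → ∀ x ∈ Y, x⁻¹ * α x ∈ X := fun X Y hX hY h x hx => by
      by_cases e : x ∈ X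
      · exact mul_mem (inv_mem e) (hX α x e)
      · exact h _ (inv_mem hx) _ (hY α x hx) (by simpa using e) fun e' => e (by simpa using hX α⁻¹ _ e')
    have sq : ∀ z, z * z ∈ frattini G := fun z => pow_two z ▸ CL.Grp.pow_mem_frattini hG z
    refine CL.Fus.mulAut_eq_one_of_chain_frattini hG hα 2 (fun i => if i = 0 then frattini G else if i = 1 then C else D)
      (fun i _ => by split_ifs; exacts [hF α, hC α, hD α]) le_rfl
      (fun x => st D ⊤ hD (fun _ _ _ => trivial) (fun x _ y _ => h2 x y) x trivial) fun i hi => ?_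
    obtain rfl | rfl : i = 0 ∨ i = 1 := by omega
    · refine st _ C hF hC fun x hx y hy a b => ?_
      obtain ⟨z, e⟩ := h0 x hx y hy (fun z e => a (e ▸ sq z)) fun z e => b (e ▸ sq z)
      exact e ▸ sq z
    · exact st C D hC hD h1

section

variable {F : Type*} [Field F] {f g : (Fin 2 → F) ≃ₗ[F] (Fin 2 → F)} {a b c d : F}

/-- A diagonal map. -/
def Dg (f : (Fin 2 → F) ≃ₗ[F] (Fin 2 → F)) (a b : F) : Prop := ∀ v, f v = ![a * v 0, b * v 1]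
/-- An antidiagonal map. -/
def An (f : (Fin 2 → F) ≃ₗ[F] (Fin 2 → F)) (a b : F) : Prop := ∀ v, f v = ![b * v 1, a * v 0]

theorem Dg.dg (h : Dg f a b) (h' : Dg g c d) : Dg (f * g) (a * c) (b * d) := fun v => by simp [h _, h' _, mul_assoc]
theorem Dg.an (h : Dg f a b) (h' : An g c d) : An (f * g) (b * c) (a * d) := fun v => by simp [h _, h' _, mul_assoc]
theorem An.dg (h : An f a b) (h' : Dg g c d) : An (f * g) (a * c) (b * d) := fun v => by simp [h _, h' _, mul_assoc]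
theorem An.an (h : An f a b) (h' : An g c d) : Dg (f * g) (b * c) (a * d) := fun v => by simp [h _, h' _, mul_assoc]
theorem dg_one : Dg (1 : (Fin 2 → F) ≃ₗ[F] (Fin 2 → F)) 1 1 := fun v => by ext i; fin_cases i <;> simp
theorem Dg.eq_iff (h : Dg f a b) (h' : Dg g c d) : f = g ↔ a = c ∧ b = d :=
  ⟨by rintro rfl; simpa using (h 1).symm.trans (h' 1), by rintro ⟨rfl, rfl⟩; exact LinearEquiv.ext fun v => (h v).trans (h' v).symm⟩
theorem An.eq_iff (h : An f a b) (h' : An g c d) : f = g ↔ a = c ∧ b = d :=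
  ⟨by rintro rfl; simpa [and_comm] using (h 1).symm.trans (h' 1),
    by rintro ⟨rfl, rfl⟩; exact LinearEquiv.ext fun v => (h v).trans (h' v).symm⟩
theorem Dg.not_an (h : Dg f a b) (h' : An f c d) : False := by
  have h1 : a = 0 ∧ c = 0 := by simpa [eq_comm] using (h ![1, 0]).symm.trans (h' ![1, 0])
  simpa [h1.1] using f.map_eq_zero_iff.1 ((h ![1, 0]).trans (by simp [h1.1]))
theorem Dg.pow (h : Dg f a b) (n : ℕ) : Dg (f ^ n) (a ^ n) (b ^ n) := by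
  induction n with
  | zero => simpa using dg_one
  | succ n ih => simpa only [pow_succ] using ih.dg h
theorem exists_dg (ha : a ≠ 0) (hb : b ≠ 0) : ∃ f : (Fin 2 → F) ≃ₗ[F] (Fin 2 → F), Dg f a b :=
  ⟨LinearEquiv.piCongrRight fun i => LinearEquiv.smulOfNeZero F F (![a, b] i) (by fin_cases i <;> assumption),
    fun v => by ext i; fin_cases i <;> rfl⟩
theorem exists_an : ∃ f : (Fin 2 → F) ≃ₗ[F] (Fin 2 → F), An f 1 1 :=
  ⟨LinearEquiv.funCongrLeft F F (Equiv.swap 0 1), fun v => by ext i; fin_cases i <;> simp⟩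

end

theorem z2 : ∀ a b : ZMod 2, a ≠ 0 ∧ b ≠ 0 → a = 1 ∧ b = 1 := by decide
theorem z3 : ∀ a b : ZMod 3, a ≠ 0 ∧ b ≠ 0 → a * a = 1 ∧ b * b = 1 ∧ (a * b = 1 ↔ a = b) ∧ a ≠ -a ∧
    (a * b = -1 ↔ ¬ a * b = 1) := by decide
theorem z3' : ∀ a b c d : ZMod 3, (a * b = 1 → a = 1 ∧ b = 1 ∨ a = -1 ∧ b = -1) ∧
    (a * b = -1 → c * d = -1 → b * c * (a * d) = 1) := by decide


/-- Let q = 2^m + 1 be a prime other than 5. Then the automorphism group of the group of linear maps of F_q² of the forms (x, y) ↦ (a x, ± a⁻¹ y) and (x, y) ↦ (± a⁻¹ y, a x) with a ≠ 0 is itself a 2-group. -/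
theorem result (q m : ℕ) [Fact q.Prime] (hq : q = 2 ^ m + 1) (hq5 : q ≠ 5)
    (T : Subgroup ((Fin 2 → ZMod q) ≃ₗ[ZMod q] (Fin 2 → ZMod q)))
    (hT : ∀ f, f ∈ T ↔ ∃ a s : ZMod q, a ≠ 0 ∧ (s = 1 ∨ s = -1) ∧
      ((∀ v, f v = ![a * v 0, s * a⁻¹ * v 1]) ∨ (∀ v, f v = ![s * a⁻¹ * v 1, a * v 0]))) :
    IsPGroup 2 (MulAut T) := by
  have hT' : ∀ f, f ∈ T ↔ ∃ a b : ZMod q, (a * b = 1 ∨ a * b = -1) ∧ (Dg f a b ∨ An f a b) := fun f => (hT f).trans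
    ⟨fun ⟨a, s, ha, hs, h⟩ => ⟨a, s * a⁻¹, by rwa [mul_left_comm, mul_inv_cancel₀ ha, mul_one], h⟩,
      fun ⟨a, b, h, h'⟩ => by
        have ha : a ≠ 0 := by rintro rfl; simp at h
        exact ⟨a, a * b, ha, h, by rwa [mul_right_comm, mul_inv_cancel₀ ha, one_mul]⟩⟩
  have nz : ∀ {a b : ZMod q}, a * b = 1 ∨ a * b = -1 → a ≠ 0 ∧ b ≠ 0 := fun h => by
    constructor <;> rintro rfl <;> simp at h
  have ml : ∀ {a b : ZMod q}, a = 1 ∨ a = -1 → b = 1 ∨ b = -1 → a * b = 1 ∨ a * b = -1 := by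
    rintro _ _ (rfl | rfl) (rfl | rfl) <;> simp
  have ex : ∀ a b : ZMod q, a * b = 1 ∨ a * b = -1 → ∃ f : T, Dg f.1 a b := fun a b h =>
    let ⟨f, hf⟩ := exists_dg (nz h).1 (nz h).2
    ⟨⟨f, (hT' f).2 ⟨a, b, h, Or.inl hf⟩⟩, hf⟩
  have : Finite ((Fin 2 → ZMod q) ≃ₗ[ZMod q] (Fin 2 → ZMod q)) := Finite.of_injective _ DFunLike.coe_injective
  have fm : ∀ a : ZMod q, a ≠ 0 → a ^ 2 ^ m = 1 := fun a ha => by simpa [hq] using ZMod.pow_card_sub_one_eq_one ha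
  have hG : IsPGroup 2 T := fun x => ⟨m + 1, Subtype.ext (by
    obtain ⟨a, b, h, h' | h'⟩ := (hT' x).1 x.2
    · rw [pow_succ', pow_mul, pow_two]
      exact (((h'.dg h').pow _).eq_iff dg_one).2 ⟨by simp [fm, nz h], by simp [fm, nz h]⟩
    · rw [pow_succ', pow_mul, pow_two]
      exact (((h'.an h').pow _).eq_iff dg_one).2 ⟨by simp [fm, nz h], by simp [fm, nz h]⟩)⟩
  have sub : ∀ p : T → Prop, p 1 → (∀ x y, p x → p y → p (x * y)) → ∃ C : Subgroup T, ∀ x, x ∈ C ↔ p x := fun p h1 h2 =>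
    ⟨⟨⟨⟨{x | p x}, fun {x y} => h2 x y⟩, h1⟩, fun {x} hx => by
      rw [inv_eq_of_mul_eq_one_left (a := x ^ (orderOf x - 1)) (by
        rw [← pow_succ, Nat.sub_add_cancel (orderOf_pos x), pow_orderOf_eq_one])]
      exact Submonoid.pow_mem (⟨⟨{x | p x}, fun {x y} => h2 x y⟩, h1⟩ : Submonoid T) hx _⟩, fun _ => Iff.rfl⟩
  have e1 : ∀ {x y : T}, x = y ↔ x.1 = y.1 := Subtype.ext_iff
  obtain ⟨w, hw⟩ : ∃ w : T, An w.1 1 1 := let ⟨f, hf⟩ := exists_an (F := ZMod q); ⟨⟨f, (hT' f).2 ⟨1, 1, by simp, Or.inr hf⟩⟩, hf⟩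
  obtain rfl | rfl | rfl | hm : m = 0 ∨ m = 1 ∨ m = 2 ∨ 3 ≤ m := by omega
  · subst hq
    refine key hG ⊤ ⊤ (by simp) (by simp) (by simp) (by simp) fun x _ y _ hx hy => ⟨x, congrArg _ ?_⟩
    have : ∀ x : T, x ≠ 1 * 1 → An x.1 1 1 := fun x hx => by
      obtain ⟨a, b, h, h'⟩ := (hT' x).1 x.2
      obtain ⟨rfl, rfl⟩ := z2 a b (nz h)
      exact h'.resolve_left fun h => hx (e1.2 ((h.eq_iff (dg_one.dg dg_one)).2 (by simp)))
    exact e1.2 (((this y (hy 1)).eq_iff (this x (hx 1))).2 ⟨rfl, rfl⟩)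
  · subst hq
    obtain ⟨C, hC⟩ := sub (fun x => ∃ a b : ZMod 3, a * b = 1 ∧ Dg x.1 a b ∨ a * b = -1 ∧ An x.1 a b)
      ⟨1, 1, Or.inl ⟨rfl, dg_one⟩⟩ (by
        rintro x y ⟨a, b, ⟨h, h'⟩ | ⟨h, h'⟩⟩ ⟨c, d, ⟨k, k'⟩ | ⟨k, k'⟩⟩
        exacts [⟨_, _, Or.inl ⟨by linear_combination c * d * h + k, h'.dg k'⟩⟩,
          ⟨_, _, Or.inr ⟨by linear_combination c * d * h + k, h'.an k'⟩⟩,
          ⟨_, _, Or.inr ⟨by linear_combination c * d * h - k, h'.dg k'⟩⟩,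
          ⟨_, _, Or.inl ⟨by linear_combination c * d * h - k, h'.an k'⟩⟩])
    have c1 : ∀ {x : T} {a b : ZMod 3}, Dg x.1 a b → (x ∈ C ↔ a * b = 1) := fun {x a b} h => (hC x).trans
      ⟨by
        rintro ⟨c, d, ⟨k, k'⟩ | ⟨k, k'⟩⟩
        exacts [by obtain ⟨rfl, rfl⟩ := (h.eq_iff k').1 rfl; exact k, (h.not_an k').elim], fun e => ⟨a, b, Or.inl ⟨e, h⟩⟩⟩
    have c2 : ∀ {x : T} {a b : ZMod 3}, An x.1 a b → (x ∈ C ↔ a * b = -1) := fun {x a b} h => (hC x).trans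
      ⟨by
        rintro ⟨c, d, ⟨k, k'⟩ | ⟨k, k'⟩⟩
        exacts [(k'.not_an h).elim, by obtain ⟨rfl, rfl⟩ := (h.eq_iff k').1 rfl; exact k], fun e => ⟨a, b, Or.inr ⟨e, h⟩⟩⟩
    obtain ⟨e, he⟩ := ex 1 (-1) (by simp)
    have hC' : ∀ x, x ∈ C ↔ x * x ≠ 1 ∨ ∀ y, x * y = y * x := fun x => by
      obtain ⟨a, b, h, h' | h'⟩ := (hT' x).1 x.2
      · obtain ⟨k1, k2, k3, -⟩ := z3 a b (nz h)
        rw [c1 h', k3, or_iff_right (not_not.2 (e1.2 (((h'.dg h').eq_iff dg_one).2 ⟨k1, k2⟩)))]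
        refine ⟨?_, fun k => by simpa [eq_comm] using (((h'.an hw).eq_iff (hw.dg h')).1 (e1.1 (k w))).1⟩
        rintro rfl y
        obtain ⟨c, d, -, k | k⟩ := (hT' y).1 y.2
        exacts [e1.2 (((h'.dg k).eq_iff (k.dg h')).2 ⟨mul_comm _ _, mul_comm _ _⟩),
          e1.2 (((h'.an k).eq_iff (k.dg h')).2 ⟨mul_comm _ _, mul_comm _ _⟩)]
      · obtain ⟨-, -, -, k1, k2⟩ := z3 a b (nz h)
        rw [c2 h', k2, or_iff_left fun k => k1 (by simpa using (((h'.dg he).eq_iff (he.an h')).1 (e1.1 (k e))).1), Ne, e1]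
        exact not_congr (by simpa [mul_comm b a] using ((h'.an h').eq_iff dg_one).symm)
    have sq : ∀ {x : T} {a b : ZMod 3}, Dg x.1 a b → a * b = 1 → ∃ z, x = z * z := fun {x a b} h k => by
      rcases (z3' a b 0 0).1 k with ⟨rfl, rfl⟩ | ⟨rfl, rfl⟩
      exacts [⟨1, e1.2 ((h.eq_iff (dg_one.dg dg_one)).2 (by simp))⟩,
        ⟨w * e, e1.2 ((h.eq_iff ((hw.dg he).an (hw.dg he))).2 (by simp))⟩]
    refine key hG C ⊤ (fun α x hx => ?_) (by simp) (by simp) (fun x _ y _ hx hy => ?_) fun x hx y hy h1 h2 => ?_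
    · rw [hC'] at hx ⊢
      exact hx.imp (fun h k => h (α.injective (by simpa using k))) fun h y => by simpa using congrArg α (h (α.symm y))
    · obtain ⟨a, b, h, h' | h'⟩ := (hT' x).1 x.2 <;> obtain ⟨c, d, k, k' | k'⟩ := (hT' y).1 y.2
      · exact (c1 (h'.dg k')).2 (by
          linear_combination c * d * h.resolve_left (mt (c1 h').2 hx) - k.resolve_left (mt (c1 k').2 hy))
      · exact (c2 (h'.an k')).2 (by
          linear_combination c * d * h.resolve_left (mt (c1 h').2 hx) - k.resolve_right (mt (c2 k').2 hy))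
      · exact (c2 (h'.dg k')).2 (by
          linear_combination c * d * h.resolve_right (mt (c2 h').2 hx) + k.resolve_left (mt (c1 k').2 hy))
      · exact (c1 (h'.an k')).2 (by
          linear_combination c * d * h.resolve_right (mt (c2 h').2 hx) + k.resolve_right (mt (c2 k').2 hy))
    · obtain ⟨a, b, ⟨h, h'⟩ | ⟨h, h'⟩⟩ := (hC x).1 hx
      · exact ((sq h' h).elim h1).elim
      obtain ⟨c, d, ⟨k, k'⟩ | ⟨k, k'⟩⟩ := (hC y).1 hy
      exacts [((sq k' k).elim h2).elim, sq (h'.an k') ((z3' a b c d).2 h k)]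
  · exact absurd hq hq5
  obtain ⟨g, hg⟩ := IsCyclic.exists_ofOrder_eq_natCard (α := (ZMod q)ˣ)
  rw [Nat.card_eq_fintype_card, ZMod.card_units, Nat.sub_eq_of_eq_add hq] at hg
  obtain ⟨k, rfl⟩ := Nat.exists_eq_add_of_le hm
  have g4 : (g : ZMod q) ^ 4 ≠ 1 := fun h => by
    have := Nat.le_of_dvd (by decide) (orderOf_dvd_of_pow_eq_one (Units.ext h : g ^ 4 = 1))
    rw [hg, pow_add] at this
    have := Nat.one_le_two_pow (n := k)
    omega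
  have m1 : IsSquare (-1 : ZMod q) := ZMod.exists_sq_eq_neg_one_iff.2 (by rw [pow_add] at hq; omega)
  obtain ⟨D, hD⟩ := sub (fun x => ∃ a b, Dg x.1 a b) ⟨1, 1, dg_one⟩ fun x y ⟨_, _, h⟩ ⟨_, _, k⟩ => ⟨_, _, h.dg k⟩
  obtain ⟨C, hC⟩ := sub (fun x => ∃ a b, IsSquare a ∧ Dg x.1 a b) ⟨1, 1, IsSquare.one, dg_one⟩
    fun x y ⟨_, _, h', h⟩ ⟨_, _, k', k⟩ => ⟨_, _, h'.mul k', h.dg k⟩
  have c1 : ∀ {x : T} {a b : ZMod q}, Dg x.1 a b → (x ∈ C ↔ IsSquare a) := fun {x a b} h => (hC x).trans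
    ⟨fun ⟨c, d, k, k'⟩ => ((h.eq_iff k').1 rfl).1 ▸ k, fun e => ⟨a, b, e, h⟩⟩
  have dt : ∀ {x : T} {a b : ZMod q}, Dg x.1 a b → a * b = 1 ∨ a * b = -1 := fun {x a b} h => by
    obtain ⟨c, d, k, k' | k'⟩ := (hT' x).1 x.2
    exacts [by obtain ⟨rfl, rfl⟩ := (h.eq_iff k').1 rfl; exact k, (h.not_an k').elim]
  have sq : ∀ {x : T} {a b : ZMod q}, Dg x.1 a b → IsSquare a → a * b = 1 → ∃ z, x = z * z := by
    rintro x _ b h ⟨c, rfl⟩ k
    obtain ⟨z, hz⟩ := ex c (c * b) (Or.inl (by rw [← mul_assoc, k]))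
    exact ⟨z, e1.2 ((h.eq_iff (hz.dg hz)).2 ⟨rfl, by linear_combination -b * k⟩)⟩
  have hD' : ∀ x, x ∈ D ↔ ∀ y, x * (y * y) = y * y * x := fun x => (hD x).trans ⟨fun ⟨a, b, h⟩ y => by
      obtain ⟨c, d, -, k | k⟩ := (hT' y).1 y.2
      exacts [e1.2 (((h.dg (k.dg k)).eq_iff ((k.dg k).dg h)).2 ⟨mul_comm _ _, mul_comm _ _⟩),
        e1.2 (((h.dg (k.an k)).eq_iff ((k.an k).dg h)).2 ⟨mul_comm _ _, mul_comm _ _⟩)], fun h => by
      obtain ⟨a, b, h1, k | k⟩ := (hT' x).1 x.2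
      · exact ⟨a, b, k⟩
      obtain ⟨y, hy⟩ := ex g (g : ZMod q)⁻¹ (Or.inl (mul_inv_cancel₀ g.ne_zero))
      have := (((k.dg (hy.dg hy)).eq_iff ((hy.dg hy).an k)).1 (e1.1 (h y))).1
      rw [mul_comm, mul_left_inj' (nz h1).1] at this
      refine (g4 ?_).elim
      rw [show (g : ZMod q) ^ 4 = g * g * (g * g) by ring]
      nth_rewrite 1 [this]
      rw [mul_mul_mul_comm, inv_mul_cancel₀ g.ne_zero, one_mul]⟩
  have iD : ∀ α : MulAut T, ∀ x ∈ D, α x ∈ D := fun α x hx => by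
    rw [hD'] at hx ⊢
    exact fun y => by simpa using congrArg α (hx (α.symm y))
  have hC' : ∀ x, x ∈ C ↔ x ∈ D ∧ ∃ y ∈ D, x * x = y * y * (y * y) := fun x => ⟨fun hx => by
      obtain ⟨_, b, ⟨c, rfl⟩, h⟩ := (hC x).1 hx
      have hc : c ≠ 0 := left_ne_zero_of_mul (nz (dt h)).1
      obtain ⟨y, hy⟩ := ex c c⁻¹ (Or.inl (mul_inv_cancel₀ hc))
      refine ⟨(hD x).2 ⟨_, _, h⟩, y, (hD y).2 ⟨_, _, hy⟩, e1.2 (((h.dg h).eq_iff ((hy.dg hy).dg (hy.dg hy))).2 ⟨rfl, ?_⟩)⟩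
      field_simp
      rcases dt h with e | e
      exacts [by linear_combination (c * c * b + 1) * e, by linear_combination (c * c * b - 1) * e],
    fun ⟨hx, y, hy, e⟩ => by
      obtain ⟨a, b, h⟩ := (hD x).1 hx
      obtain ⟨c, d, k⟩ := (hD y).1 hy
      rcases mul_self_eq_mul_self_iff.1 (((h.dg h).eq_iff ((k.dg k).dg (k.dg k))).1 (e1.1 e)).1 with rfl | rfl
      exacts [(c1 h).2 ⟨c, rfl⟩, (c1 h).2 (neg_one_mul (c * c) ▸ m1.mul ⟨c, rfl⟩)]⟩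
  refine key hG C D (fun α x hx => ?_) iD (fun x y hx hy => ?_) (fun x hx y hy h1 h2 => ?_) fun x hx y hy h1 h2 => ?_
  · rw [hC'] at hx ⊢
    obtain ⟨h, y, hy, e⟩ := hx
    exact ⟨iD α x h, α y, iD α y hy, by simpa using congrArg α e⟩
  · obtain ⟨a, b, -, h⟩ := (hT' x).1 x.2
    obtain ⟨c, d, -, k⟩ := (hT' y).1 y.2
    exact (hD _).2 ⟨_, _, (h.resolve_left fun h => hx ((hD x).2 ⟨_, _, h⟩)).an (k.resolve_left fun k => hy ((hD y).2 ⟨_, _, k⟩))⟩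
  · obtain ⟨a, b, h⟩ := (hD x).1 hx
    obtain ⟨c, d, k⟩ := (hD y).1 hy
    refine (c1 (h.dg k)).2 ((quadraticChar_one_iff_isSquare (mul_ne_zero (nz (dt h)).1 (nz (dt k)).1)).1 ?_)
    rw [map_mul, quadraticChar_neg_one_iff_not_isSquare.2 (mt (c1 h).2 h1),
      quadraticChar_neg_one_iff_not_isSquare.2 (mt (c1 k).2 h2)]
    rfl
  · obtain ⟨a, b, h', h⟩ := (hC x).1 hx
    obtain ⟨c, d, k', k⟩ := (hC y).1 hy
    exact sq (h.dg k) (h'.mul k') (by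
      linear_combination c * d * (dt h).resolve_left (fun e => (sq h h' e).elim h1) -
        (dt k).resolve_left (fun e => (sq k k' e).elim h2))

end Cfsg.Agent.S3382
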