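import Cfsg.Statements.S3383
import Cfsg.Agent.Grp.FrobKernel

set_option autoImplicit false
open Cfsg

namespace Cfsg.Agent.S3383

/-- Let H be a Frobenius complement in a finite group L and K the Frobenius kernel (as a subgroup). Then K is characteristic in L, and every normal subgroup of L either contains K or is contained in K. -/
theorem result {L : Type*} [Group L] [Finite L]
    (H : Subgroup L) (hH : Cfsg.IsFrobeniusComplement H)
    (K : Subgroup L) (hK : (K : Set L) = Cfsg.frobeniusKernel H) :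
    K.Characteristic ∧ ∀ N : Subgroup L, N.Normal → K ≤ N ∨ N ≤ K := by
  obtain ⟨K', hK', hKn, -, -, -, hC⟩ := CL.Grp.exists_frobenius_kernel hH
  obtain rfl : K = K' := SetLike.coe_injective (hK.trans hK'.symm)
  have key : ∀ N : Subgroup L, N.Normal → K ≤ N ∨ N ≤ K := by
    intro N hN
    rw [or_iff_not_imp_right]
    intro hNK
    obtain ⟨x, hxN, hxK⟩ := SetLike.not_le_iff_exists.mp hNK
    let f : K → K := fun k => ⟨k * (x * (k : L)⁻¹ * x⁻¹), K.mul_mem k.2 (hKn.conj_mem _ (K.inv_mem k.2) x)⟩
    have hf : Function.Injective f := by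
      intro a b hab
      have h1 : (a : L) * (x * (a : L)⁻¹ * x⁻¹) = b * (x * (b : L)⁻¹ * x⁻¹) := congrArg Subtype.val hab
      by_contra hne
      apply hxK
      refine hC ((b : L)⁻¹ * a) (K.mul_mem (K.inv_mem b.2) a.2)
        (fun h => hne (Subtype.ext (inv_mul_eq_one.mp h).symm)) ?_
      rw [Subgroup.mem_centralizer_singleton_iff]
      calc x * ((b : L)⁻¹ * a) = (b : L)⁻¹ * (b * (x * (b : L)⁻¹ * x⁻¹)) * x * a := by group
        _ = (b : L)⁻¹ * a * x := by rw [← h1]; group
    intro k hk
    obtain ⟨a, ha⟩ := Finite.surjective_of_injective hf ⟨k, hk⟩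
    have h2 : (a : L) * (x * (a : L)⁻¹ * x⁻¹) = k := congrArg Subtype.val ha
    rw [← h2, ← mul_assoc, ← mul_assoc]
    exact N.mul_mem (hN.conj_mem _ hxN a) (N.inv_mem hxN)
  refine ⟨Subgroup.characteristic_iff_map_eq.mpr fun φ => ?_, key⟩
  have hc : Nat.card (K.map φ.toMonoidHom) = Nat.card K :=
    Subgroup.card_map_of_injective φ.injective
  rcases key (K.map φ.toMonoidHom) (hKn.map _ φ.surjective) with h | h
  · exact (Subgroup.eq_of_le_of_card_ge h hc.le).symm
  · exact Subgroup.eq_of_le_of_card_ge h hc.ge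

end Cfsg.Agent.S3383
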