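import Cfsg.Statements.S3419
import Cfsg.Agent.Perm.SpecBigPrimes
import Cfsg.Agent.Perm.TwoPrimes
import Cfsg.Agent.Perm.SpecAlt

set_option autoImplicit false
open Cfsg

namespace Cfsg.Agent.S3419

/-- Let n ≥ 5 and let G be a finite group with the same order and the same set of element orders as the alternating group of degree n. Then G is not solvable. -/
theorem result {G : Type*} [Group G] [Finite G] (n : ℕ) (hn : 5 ≤ n)
    (hcard : Nat.card G = Nat.card ↥(alternatingGroup (Fin n)))
    (hspec : Set.range (orderOf : G → ℕ) = Set.range (orderOf : ↥(alternatingGroup (Fin n)) → ℕ)) :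
    ¬ Group.IsSolvable G := by
  have key : ∀ p q : ℕ, p.Prime → q.Prime → p < q → n < 2 * p → q ≤ n → ¬ Group.IsSolvable G := by
    intro p q hp hq h1 h2 h3
    obtain ⟨N, H, _, -, -, a, b, -⟩ := CL.Perm.exists_simple_chief_of_alt hn hcard hspec hp hq h1 h2 h3
    exact CL.Perm.not_isSolvable_of_simple_section a b
  have hs : CL.Perm.Spec G = CL.Perm.Spec (alternatingGroup (Fin n)) := hspec
  by_cases h : 11 ≤ n
  · obtain ⟨p, q, hp, hq, h1, h2, h3⟩ := CL.Perm.exists_two_primes n h
    exact key p q hp hq h1 h2 h3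
  have hn' : n = 5 ∨ n = 6 ∨ (7 ≤ n ∧ n ≤ 9) ∨ n = 10 := by omega
  rcases hn' with rfl | rfl | h | rfl
  · exact key 3 5 (by norm_num) (by norm_num) (by norm_num) (by norm_num) le_rfl
  · intro hG
    have h1 : ∀ r, r.Prime → r ∈ [1, 2, 3, 4, 5] → r ∣ Nat.card G := fun r hr h => by
      rw [← CL.Perm.prime_mem_spec_iff hr, hs, CL.Perm.spec_alt6]; exact h
    have := CL.Perm.three_primes_of_isSolvable hG Nat.prime_two Nat.prime_three Nat.prime_five
      (by norm_num) (by norm_num) (by norm_num) (h1 _ Nat.prime_two (by simp))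
      (h1 _ Nat.prime_three (by simp)) (h1 _ Nat.prime_five (by simp))
    rw [hs, CL.Perm.spec_alt6] at this
    simp at this
  · exact key 5 7 (by norm_num) (by norm_num) (by norm_num) (by omega) h.1
  · intro hG
    rw [nat_card_alternatingGroup, Nat.card_fin] at hcard
    obtain ⟨H, hH⟩ := CL.Grp.exists_piHall_of_solvable {p | ¬ p ∣ 10368} G
    have hc : Nat.card H = 175 :=
      (CL.Grp.isPiHall_iff_card_eq (m := 175) (n := 10368) (by rw [hcard]; rfl) (by norm_num)).1 hH
    have : Fact (Nat.Prime 7) := ⟨by norm_num⟩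
    have : Fact (Nat.Prime 5) := ⟨by norm_num⟩
    obtain ⟨P⟩ : Nonempty (Sylow 7 H) := inferInstance
    have hP : Nat.card P = 7 := by
      rw [P.card_eq_multiplicity, hc, show 175 = 7 * 5 ^ 2 by norm_num,
        Nat.factorization_mul (by norm_num) (by norm_num), Nat.Prime.factorization (by norm_num),
        Nat.Prime.factorization_pow (by norm_num)]
      simp
    have hi : (P : Subgroup H).index = 25 := by
      have := (P : Subgroup H).card_mul_index
      rw [hP, hc] at this
      omega
    have h1 : Nat.card (Sylow 7 H) = 1 := by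
      have h2 := P.card_dvd_index
      have h3 := card_sylow_modEq_one 7 H
      rw [hi] at h2
      have := Nat.le_of_dvd (by norm_num) h2
      generalize Nat.card (Sylow 7 H) = k at *
      interval_cases k <;> simp_all [Nat.ModEq]
    have : Subsingleton (Sylow 7 H) := (Nat.card_eq_one_iff_unique.1 h1).1
    have hN : (P : Subgroup H).Normal := Sylow.normal_of_subsingleton P
    obtain ⟨x, hx⟩ := exists_prime_orderOf_dvd_card' (G := H) 5 (by rw [hc]; norm_num)
    rcases CL.Perm.mul_mem_spec_or_dvd_of_normalizer (p := 7) (q := 5) (by norm_num) (by norm_num)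
      (by norm_num) hP hx (Subgroup.le_normalizer_of_normal (Subgroup.mem_top x)) with h2 | h2
    · have h3 := CL.Perm.spec_subgroup_subset H h2
      rw [hs, CL.Perm.spec_alt10] at h3
      simp at h3
    · norm_num at h2

end Cfsg.Agent.S3419
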