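import Cfsg.Statements.S3421
import Cfsg.Agent.Inv.IsoP3
import Cfsg.Agent.Perm.SpecGL2

set_option autoImplicit false
open Cfsg

namespace Cfsg.Agent.S3421

/-- Let F be a finite field with more than 3 elements. A finite group G is isomorphic to PSL(2, F) if and only if G has the same set of element orders and the same order as PSL(2, F). -/
theorem result {G : Type*} [Group G] [Finite G] {F : Type*} [Field F] [Fintype F] (hF : 3 < Fintype.card F) :
    Nonempty (G ≃* Matrix.ProjectiveSpecialLinearGroup (Fin 2) F) ↔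
      (Set.range (orderOf : G → ℕ) = Set.range (orderOf : Matrix.ProjectiveSpecialLinearGroup (Fin 2) F → ℕ) ∧
        Nat.card G = Nat.card (Matrix.ProjectiveSpecialLinearGroup (Fin 2) F)) := by
  constructor
  · rintro ⟨e⟩
    refine ⟨Set.ext fun k => ⟨?_, ?_⟩, Nat.card_congr e.toEquiv⟩
    · rintro ⟨g, rfl⟩
      exact ⟨e g, e.orderOf_eq g⟩
    · rintro ⟨g, rfl⟩
      exact ⟨e.symm g, e.symm.orderOf_eq g⟩
  rintro ⟨hs, hc⟩
  obtain ⟨p, hchar, ⟨n, hn⟩, hp, hq⟩ := FiniteField.card' F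
  have := Fact.mk hp
  have hspec : ∀ g : G, orderOf g ∣ (Fintype.card F + 1) / Nat.gcd 2 (Fintype.card F - 1) ∨
      orderOf g ∣ (Fintype.card F - 1) / Nat.gcd 2 (Fintype.card F - 1) ∨ orderOf g = p := fun g => by
    obtain ⟨x, hx⟩ : orderOf g ∈ Set.range
      (orderOf : Matrix.ProjectiveSpecialLinearGroup (Fin 2) F → ℕ) := hs ▸ ⟨g, rfl⟩
    exact hx ▸ CL.SL2.psl_orderOf_cases p x
  have hd1 : Nat.gcd 2 (Fintype.card F - 1) ∣ Fintype.card F - 1 := Nat.gcd_dvd_right _ _
  have hd2 : Nat.gcd 2 (Fintype.card F - 1) ∣ Fintype.card F + 1 := by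
    rw [show Fintype.card F + 1 = Fintype.card F - 1 + 2 by omega]
    exact dvd_add hd1 (Nat.gcd_dvd_left _ _)
  have hiso : CL.Inv.IsoP p G := fun g hg => by
    rcases hspec g with h | h | h
    · exact absurd ((hg.trans h).trans (Nat.div_dvd_of_dvd hd2)) (CL.SL2.not_dvd_card_add_one p)
    · exact absurd ((hg.trans h).trans (Nat.div_dvd_of_dvd hd1)) (CL.SL2.not_dvd_card_sub_one p)
    · rw [← h, pow_orderOf_eq_one]
  have hcard := CL.SL2.card_psl_mul (F := F)
  rw [← hc] at hcard
  by_cases h2 : p = 2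
  · subst h2
    rw [CL.SL2.gcd_two_of_eq (CharP.cast_eq_zero F 2), mul_one] at hcard
    exact hiso.psl_even hq hcard
  · have h2' : (2 : F) ≠ 0 := fun e => h2 ((Nat.prime_dvd_prime_iff_eq hp Nat.prime_two).1
      ((CharP.cast_eq_zero_iff F p 2).1 e))
    rw [CL.SL2.gcd_two_of_ne h2'] at hcard hspec
    rcases hiso.psl_odd hq h2 hF (by rw [← hcard, mul_comm]) with h | ⟨h7, g, hg⟩
    · exact h
    · exfalso
      have h := hspec g
      rw [hg, h7] at h
      rcases h with h | h | h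
      · omega
      · omega
      · exact absurd (h ▸ hp) (by norm_num)

end Cfsg.Agent.S3421
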