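import Cfsg.Statements.S3430
import Cfsg.Agent.Fgs.Zsigmondy

set_option autoImplicit false
open Cfsg

namespace Cfsg.Agent.S3430

theorem of_divisor (q n m : ℕ) (hq : 2 ≤ q) (hn : 2 ≤ n) (hm1 : n + 1 < m) (hm : m ∣ q ^ n - 1)
    (hcop : ∀ i : ℕ, 1 ≤ i → i < n → Nat.Coprime m (q ^ i - 1)) :
    ∃ p : ℕ, p.Prime ∧ p ∣ q ^ n - 1 ∧ (∀ i : ℕ, 1 ≤ i → i < n → ¬ p ∣ q ^ i - 1) ∧
      (n + 1 < p ∨ p ^ 2 ∣ q ^ n - 1) := by
  have hprim : ∀ r : ℕ, r.Prime → r ∣ m → ∀ i : ℕ, 1 ≤ i → i < n → ¬ r ∣ q ^ i - 1 :=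
    fun r hr hrm k hk hkn hd => hr.one_lt.ne' (Nat.eq_one_of_dvd_coprimes (hcop k hk hkn) hrm hd)
  have hge : ∀ r : ℕ, r.Prime → r ∣ m → n + 1 ≤ r := by
    intro r hr hrm
    have h := (CL.Fgs.dvd_sub_one_of_primitive r q n hr (by omega) (by omega) (hrm.trans hm)
      (hprim r hr hrm)).2
    have h2 := hr.two_le
    have := Nat.le_of_dvd (by omega) h
    omega
  obtain ⟨r, hr, c, hc⟩ := Nat.exists_prime_and_dvd (n := m) (by omega)
  have hrm : r ∣ m := ⟨c, hc⟩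
  by_cases hbig : n + 1 < r
  · exact ⟨r, hr, hrm.trans hm, hprim r hr hrm, Or.inl hbig⟩
  have hre : r = n + 1 := le_antisymm (by omega) (hge r hr hrm)
  have hc1 : c ≠ 1 := by
    rintro rfl
    omega
  obtain ⟨s, hs, hsc⟩ := Nat.exists_prime_and_dvd hc1
  have hsm : s ∣ m := hc ▸ hsc.mul_left _
  by_cases hbig' : n + 1 < s
  · exact ⟨s, hs, hsm.trans hm, hprim s hs hsm, Or.inl hbig'⟩
  have hse : s = n + 1 := le_antisymm (by omega) (hge s hs hsm)
  refine ⟨r, hr, hrm.trans hm, hprim r hr hrm, Or.inr (Dvd.dvd.trans ?_ hm)⟩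
  rw [hc, pow_two]
  exact Nat.mul_dvd_mul_left _ (by rw [hre, ← hse]; exact hsc)

/-- Let q, n ≥ 2 be integers. Unless (n = 2 and q + 1 = 2^s·3^t for some s ≥ 0 and t ≤ 1), or (q = 2 and n ∈ {4, 6, 10, 12, 18}), or (q = 3 and n ∈ {4, 6}), or (q, n) = (5, 6), there is a prime p dividing q^n − 1 but no q^i − 1 with 1 ≤ i < n (a primitive prime divisor), such that p > n + 1 or p² divides q^n − 1. -/
theorem result (q n : ℕ) (hq : 2 ≤ q) (hn : 2 ≤ n)
    (h1 : ¬ (n = 2 ∧ ∃ s t : ℕ, t ≤ 1 ∧ q + 1 = 2 ^ s * 3 ^ t))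
    (h2 : ¬ (q = 2 ∧ (n = 4 ∨ n = 6 ∨ n = 10 ∨ n = 12 ∨ n = 18)))
    (h3 : ¬ (q = 3 ∧ (n = 4 ∨ n = 6))) (h4 : ¬ (q = 5 ∧ n = 6)) :
    ∃ p : ℕ, p.Prime ∧ p ∣ q ^ n - 1 ∧ (∀ i : ℕ, 1 ≤ i → i < n → ¬ p ∣ q ^ i - 1) ∧ (n + 1 < p ∨ p ^ 2 ∣ q ^ n - 1) := by
  by_cases hn2 : n = 2
  · subst hn2
    obtain ⟨k, m, hm, hkm⟩ := Nat.exists_eq_two_pow_mul_odd (n := q + 1) (by omega)
    have hm1 : m ≠ 1 := by
      rintro rfl
      exact h1 ⟨rfl, k, 0, by omega, by simpa using hkm⟩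
    have hm3 : m ≠ 3 := by
      rintro rfl
      exact h1 ⟨rfl, k, 1, by omega, by simpa using hkm⟩
    have hma : m ∣ q + 1 := hkm ▸ dvd_mul_left _ _
    refine of_divisor q 2 m hq hn ?_ ?_ ?_
    · obtain ⟨c, rfl⟩ := hm
      omega
    · have : q ^ 2 - 1 = (q + 1) * (q - 1) := by
        have := Nat.sq_sub_sq q 1
        simpa using this
      rw [this]
      exact hma.mul_right _
    · intro i hi1 hi2
      have : i = 1 := by omega
      subst this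
      rw [pow_one]
      apply Nat.coprime_of_dvd
      intro r hr hrm hd
      have h3 : r ∣ (q + 1) - (q - 1) := Nat.dvd_sub (hrm.trans hma) hd
      have h4 : q + 1 - (q - 1) = 2 := by omega
      rw [h4] at h3
      have h5 : r = 2 := (Nat.prime_dvd_prime_iff_eq hr Nat.prime_two).1 h3
      subst h5
      exact (Nat.not_even_iff_odd.2 hm) (even_iff_two_dvd.2 hrm)
  · by_cases hexc : (q, n) ∈ CL.Fgs.zsigExc
    · simp only [CL.Fgs.zsigExc, List.mem_cons, Prod.mk.injEq, List.not_mem_nil, or_false] at hexc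
      rcases hexc with ⟨rfl, rfl⟩ | ⟨rfl, rfl⟩ | ⟨rfl, rfl⟩ | ⟨rfl, rfl⟩ | ⟨rfl, rfl⟩ | ⟨rfl, rfl⟩ |
        ⟨rfl, rfl⟩ | ⟨rfl, rfl⟩ | ⟨rfl, rfl⟩ | ⟨rfl, rfl⟩ | ⟨rfl, rfl⟩ | ⟨rfl, rfl⟩ | ⟨rfl, rfl⟩
      · exact absurd (by simp) h2
      · exact absurd (by simp) h2
      · exact absurd (by simp) h2
      · exact absurd (by simp) h2
      · exact absurd (by simp) h2
      · exact absurd (by simp) h3
      · exact absurd (by simp) h3
      · exact absurd (by simp) h4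
      · exact of_divisor _ _ 7 hq hn (by decide) (by decide) (by intro i h1 h2; interval_cases i <;> decide)
      · exact of_divisor _ _ 17 hq hn (by decide) (by decide) (by intro i h1 h2; interval_cases i <;> decide)
      · exact of_divisor _ _ 41 hq hn (by decide) (by decide) (by intro i h1 h2; interval_cases i <;> decide)
      · exact of_divisor _ _ 7 hq hn (by decide) (by decide) (by intro i h1 h2; interval_cases i <;> decide)
      · exact of_divisor _ _ 13 hq hn (by decide) (by decide) (by intro i h1 h2; interval_cases i <;> decide)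
    · obtain ⟨m, h1, h2, h3⟩ := CL.Fgs.exists_large_primitive_divisor q n hq (by omega) hexc
      exact of_divisor q n m hq hn (by omega) h1 h2

end Cfsg.Agent.S3430
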