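import Cfsg.Statements.S3704
import Cfsg.Agent.Char.Prod
import Cfsg.Agent.Char.Constituent

set_option autoImplicit false
open Cfsg

namespace Cfsg.Agent.S3704

/-- Let G be a finite group acting faithfully and 2-transitively on a finite set Ω of size n, and let H be a subgroup of index n in G which is not transitive on Ω and fixes no point of Ω. Then H has exactly two orbits on Ω. -/
theorem result {G Ω : Type*} [Group G] [Finite G] [MulAction G Ω] [FaithfulSMul G Ω] [Finite Ω] (h2 : MulAction.IsMultiplyPretransitive G Ω 2) (H : Subgroup G) (hidx : H.index = Nat.card Ω) (hnt : ¬ MulAction.IsPretransitive H Ω) (hfix : ∀ a : Ω, ∃ h : H, h • a ≠ a) : Nat.card (MulAction.orbitRel.Quotient H Ω) = 2 := by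
  classical
  have := Fintype.ofFinite G
  have hn0 : Nat.card Ω ≠ 0 := hidx ▸ Subgroup.index_ne_zero_of_finite
  have hne : Nonempty Ω := (Nat.card_ne_zero.mp hn0).1
  have hnt' : Nontrivial Ω := by
    obtain ⟨a⟩ := hne
    obtain ⟨h, hh⟩ := hfix a
    exact ⟨⟨_, _, hh⟩⟩
  have htr := MulAction.isPretransitive_of_is_two_pretransitive (G := G) (α := Ω)
  have hχ := (CL.Char.isIrrCharacter_card_fixedBy_sub_one_iff (G := G) Ω).mpr h2
  have hθ := CL.Char.isCharacter_card_fixedBy_sub_one (G := G) (G ⧸ H)
  have horb : Nat.card (MulAction.orbitRel.Quotient G ((G ⧸ H) × Ω)) =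
      Nat.card (MulAction.orbitRel.Quotient H Ω) := by
    symm
    refine Nat.card_congr (Equiv.ofBijective (Quotient.map (fun ω => (((1 : G) : G ⧸ H), ω)) ?_)
      ⟨?_, ?_⟩)
    · rintro a b ⟨h, rfl⟩
      refine ⟨h, Prod.ext ?_ rfl⟩
      change (((h : G) * 1 : G) : G ⧸ H) = (1 : G)
      rw [QuotientGroup.eq]
      simp
    · intro a b
      induction a using Quotient.inductionOn with | h a => ?_
      induction b using Quotient.inductionOn with | h b => ?_
      intro e
      obtain ⟨g, hg⟩ := Quotient.exact e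
      have e1 : ((g * 1 : G) : G ⧸ H) = (1 : G) := congrArg Prod.fst hg
      rw [QuotientGroup.eq] at e1
      exact Quotient.sound ⟨⟨g, by simpa using e1⟩, congrArg Prod.snd hg⟩
    · intro x
      induction x using Quotient.inductionOn with | h x => ?_
      obtain ⟨x, ω⟩ := x
      induction x using QuotientGroup.induction_on with | H g => ?_
      refine ⟨Quotient.mk _ (g⁻¹ • ω), Quotient.sound ⟨g⁻¹, Prod.ext ?_ rfl⟩⟩
      change ((g⁻¹ * g : G) : G ⧸ H) = (1 : G)
      rw [inv_mul_cancel]
  have ht : 1 < Nat.card (MulAction.orbitRel.Quotient H Ω) := by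
    rw [Finite.one_lt_card_iff_nontrivial, ← not_subsingleton_iff_nontrivial,
      ← MulAction.pretransitive_iff_subsingleton_quotient]
    exact hnt
  have hinner : classInner (fun g : G => (Nat.card (MulAction.fixedBy (G ⧸ H) g) : ℂ) - 1)
      (fun g : G => (Nat.card (MulAction.fixedBy Ω g) : ℂ) - 1) =
      ((Nat.card (MulAction.orbitRel.Quotient H Ω) - 1 : ℕ) : ℂ) := by
    have e1 := CL.Char.classInner_card_fixedBy (G := G) (G ⧸ H) Ω
    have e2 := CL.Char.classInner_card_fixedBy_one (G := G) (G ⧸ H)
    have e3 := CL.Char.classInner_card_fixedBy_one (G := G) Ω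
    rw [CL.Char.card_orbits_of_isPretransitive] at e2 e3
    have e4 : classInner (fun _ : G => (1 : ℂ)) (fun g : G => (Nat.card (MulAction.fixedBy Ω g) : ℂ))
        = 1 := by
      rw [← CL.Char.conj_classInner, e3]; simp
    have e5 := (CL.Char.isIrrCharacter_one (G := G)).classInner_self
    have e6 : ∀ f : G → ℂ, (fun g => f g - 1) = f - fun _ => 1 := fun f => rfl
    rw [e6, e6, CL.Char.classInner_sub_left, CL.Char.classInner_sub_right, CL.Char.classInner_sub_right,
      e1, e2, e4, e5, horb, Nat.cast_sub ht.le]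
    simp
  have h1 : 1 < Nat.card Ω := Finite.one_lt_card
  have := CL.Char.mul_degree_le_of_classInner hθ hχ hinner (a := Nat.card Ω - 1)
    (d := Nat.card Ω - 1)
    (by rw [MulAction.fixedBy_one_eq_univ, Nat.card_univ, Nat.cast_sub h1.le, ← hidx,
      Nat.cast_one, Subgroup.index_eq_card])
    (by rw [MulAction.fixedBy_one_eq_univ, Nat.card_univ, Nat.cast_sub h1.le]; simp)
  have h3 : Nat.card (MulAction.orbitRel.Quotient H Ω) - 1 ≤ 1 := by
    by_contra h
    have := Nat.mul_le_mul_right (Nat.card Ω - 1) (not_le.mp h)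
    omega
  omega

end Cfsg.Agent.S3704
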