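import Cfsg.Statements.S3733
import Cfsg.Agent.Base

set_option autoImplicit false
open Cfsg

namespace Cfsg.Agent.S3733

open scoped IsMulCommutative

/-- Let A and V be subgroups of a finite group with V abelian and nontrivial and A normalizing V. Suppose a nonempty finite family of proper subgroups of A partitions A: every non-identity element of A lies in exactly one member. If the number of members minus one is coprime to the order of V, then some member B of the family has a non-identity fixed point on V, that is V ∩ C(B) ≠ 1. -/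
theorem result {G : Type*} [Group G] [Finite G] (A V : Subgroup G) (hVab : IsMulCommutative V) (hV : V ≠ ⊥) (hAV : A ≤ Subgroup.normalizer (V : Set G)) (𝒜 : Finset (Subgroup G)) (hne : 𝒜.Nonempty) (hprop : ∀ B ∈ 𝒜, B < A) (hpart : ∀ a ∈ A, a ≠ 1 → ∃! B, B ∈ 𝒜 ∧ a ∈ B) (hk : (𝒜.card - 1).Coprime (Nat.card V)) : ∃ B ∈ 𝒜, V ⊓ Subgroup.centralizer (B : Set G) ≠ ⊥ := by
  classical
  by_contra hcon
  push Not at hcon
  letI := Fintype.ofFinite G
  -- the conjugation function
  have hmem : ∀ a ∈ A, ∀ v : V, a * v * a⁻¹ ∈ V := fun a ha v =>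
    (Subgroup.mem_normalizer_iff.1 (hAV ha) v).1 v.2
  let f : V → G → V := fun v a => if ha : a ∈ A then ⟨a * v * a⁻¹, hmem a ha v⟩ else 1
  have hf : ∀ v a, a ∈ A → ((f v a : V) : G) = a * v * a⁻¹ := by
    intro v a ha
    simp only [f, dif_pos ha]
  -- norms are fixed
  have hnorm : ∀ B : Subgroup G, B ≤ A → ∀ v : V,
      ((∏ b ∈ Finset.univ.filter (· ∈ B), f v b : V) : G) ∈ Subgroup.centralizer (B : Set G) := by
    intro B hB v
    rw [Subgroup.mem_centralizer_iff]
    intro c hc
    have hcA : c ∈ A := hB hc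
    let φ : V →* V :=
      { toFun := fun w => ⟨c * w * c⁻¹, hmem c hcA w⟩
        map_one' := by ext; simp
        map_mul' := by intro x y; ext; simp [mul_assoc] }
    have h1 : φ (∏ b ∈ Finset.univ.filter (· ∈ B), f v b) =
        ∏ b ∈ Finset.univ.filter (· ∈ B), f v b := by
      rw [map_prod]
      refine Finset.prod_bij (fun b _ => c * b) ?_ ?_ ?_ ?_
      · intro b hb
        simp only [Finset.mem_filter, Finset.mem_univ, true_and] at hb ⊢
        exact B.mul_mem hc hb
      · intro a _ b _ h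
        exact mul_left_cancel h
      · intro b hb
        simp only [Finset.mem_filter, Finset.mem_univ, true_and] at hb ⊢
        exact ⟨c⁻¹ * b, B.mul_mem (B.inv_mem hc) hb, by simp⟩
      · intro b hb
        simp only [Finset.mem_filter, Finset.mem_univ, true_and] at hb
        apply Subtype.ext
        change c * (f v b : G) * c⁻¹ = _
        rw [hf v b (hB hb), hf v (c * b) (A.mul_mem hcA (hB hb))]
        simp [mul_assoc]
    have h2 := congrArg Subtype.val h1
    change c * _ * c⁻¹ = _ at h2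
    rw [mul_inv_eq_iff_eq_mul] at h2
    exact h2
  have hB1 : ∀ B ∈ 𝒜, ∀ v : V, ∏ b ∈ Finset.univ.filter (· ∈ B), f v b = 1 := by
    intro B hB v
    have h1 := hnorm B (hprop B hB).le v
    have h2 : ((∏ b ∈ Finset.univ.filter (· ∈ B), f v b : V) : G) ∈
        V ⊓ Subgroup.centralizer (B : Set G) := ⟨Subtype.property _, h1⟩
    rw [hcon B hB] at h2
    exact Subtype.ext (Subgroup.mem_bot.1 h2)
  have hA1 : ∀ v : V, ∏ b ∈ Finset.univ.filter (· ∈ A), f v b = 1 := by
    intro v
    obtain ⟨B, hB⟩ := hne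
    have h1 := hnorm A le_rfl v
    have h2 : ((∏ b ∈ Finset.univ.filter (· ∈ A), f v b : V) : G) ∈
        V ⊓ Subgroup.centralizer (B : Set G) :=
      ⟨Subtype.property _, Subgroup.centralizer_le (hprop B hB).le h1⟩
    rw [hcon B hB] at h2
    exact Subtype.ext (Subgroup.mem_bot.1 h2)
  have hsplit : ∀ B : Subgroup G, ∀ v : V, ∏ b ∈ Finset.univ.filter (· ∈ B), f v b =
      v * ∏ b ∈ (Finset.univ.filter (· ∈ B)).erase 1, f v b := by
    intro B v
    rw [← Finset.mul_prod_erase _ _ (a := (1 : G)) (by simp)]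
    congr 1
    apply Subtype.ext
    rw [hf v 1 A.one_mem]; simp
  have hall : ∀ v : V, v ^ (𝒜.card - 1) = 1 := by
    intro v
    have h1 : ∏ B ∈ 𝒜, ∏ b ∈ (Finset.univ.filter (· ∈ B)).erase 1, f v b =
        ∏ b ∈ (Finset.univ.filter (· ∈ A)).erase 1, f v b := by
      rw [← Finset.prod_biUnion]
      · congr 1
        ext a
        simp only [Finset.mem_biUnion, Finset.mem_erase, Finset.mem_filter, Finset.mem_univ,
          true_and]
        constructor
        · rintro ⟨B, hB, h1, h2⟩
          exact ⟨h1, (hprop B hB).le h2⟩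
        · rintro ⟨h1, h2⟩
          obtain ⟨B, ⟨hB, haB⟩, -⟩ := hpart a h2 h1
          exact ⟨B, hB, h1, haB⟩
      · intro B hB C hC hBC
        rw [Function.onFun, Finset.disjoint_left]
        intro a h1 h2
        simp only [Finset.mem_erase, Finset.mem_filter, Finset.mem_univ, true_and] at h1 h2
        obtain ⟨D, -, hD⟩ := hpart a ((hprop B hB).le h1.2) h1.1
        exact hBC ((hD B ⟨hB, h1.2⟩).trans (hD C ⟨hC, h2.2⟩).symm)
    have h2 : ∏ B ∈ 𝒜, ∏ b ∈ Finset.univ.filter (· ∈ B), f v b = 1 :=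
      Finset.prod_eq_one fun B hB => hB1 B hB v
    rw [Finset.prod_congr rfl (fun B _ => hsplit B v), Finset.prod_mul_distrib, h1,
      Finset.prod_const] at h2
    have h3 := hA1 v
    rw [hsplit A v] at h3
    have hc : 𝒜.card = (𝒜.card - 1) + 1 := by
      have := hne.card_pos; omega
    rw [hc, pow_succ, mul_assoc, h3, mul_one] at h2
    exact h2
  apply hV
  rw [eq_bot_iff]
  intro v hv
  have h1 := hall ⟨v, hv⟩
  have h2 : (⟨v, hv⟩ : V) ^ Nat.card V = 1 := pow_card_eq_one'
  have h3 := pow_gcd_eq_one.2 ⟨h1, h2⟩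
  rw [hk.gcd_eq_one, pow_one] at h3
  exact Subgroup.mem_bot.2 (congrArg Subtype.val h3)

end Cfsg.Agent.S3733
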