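import Cfsg.Statements.S3739
import Cfsg.Agent.Fgs.ThreeElt
import Cfsg.Agent.Loc.SigGen

set_option autoImplicit false
open Cfsg

namespace Cfsg.Agent.S3739

open CL.Odd CL.Grp CL.Fgs Cfsg
open scoped Pointwise


/-- Let G be a finite group with C_G(O₂(G)) ≤ O₂(G) containing an element of order 6, and let d be a non-identity 3-element of G normalizing a nontrivial elementary abelian 2-subgroup W with C_W(d) = 1. Then G has an elementary abelian subgroup of order 8. -/
theorem result {G : Type*} [Group G] [Finite G] (hchar : Subgroup.centralizer (Cfsg.pCore 2 G : Set G) ≤ Cfsg.pCore 2 G) (hsix : ∃ g : G, orderOf g = 6) (d : G) (hd1 : d ≠ 1) (hd : IsPGroup 3 ↥(Subgroup.zpowers d)) (W : Subgroup G) (hW : Cfsg.IsElementaryAbelian 2 W) (hW1 : W ≠ ⊥) (hdW : d ∈ Subgroup.normalizer (W : Set G)) (hfpf : W ⊓ Subgroup.centralizer {d} = ⊥) : ∃ E : Subgroup G, Cfsg.IsElementaryAbelian 2 E ∧ Nat.card E = 8 := by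
  obtain ⟨g, hg⟩ := hsix
  obtain ⟨E, hE, h4⟩ := exists_eight_of_fpf hchar hg hd hW hW1 hdW hfpf
  obtain ⟨n, hn⟩ := CL.Loc.ea_card_eq_pow hE
  obtain ⟨B, hB, hc⟩ := CL.Loc.exists_le_card_eq_pow_of_isPGroup (CL.Loc.ea_isPGroup hE) (k := 3) (by
    rw [hn] at h4 ⊢
    refine Nat.pow_le_pow_right (by norm_num) ?_
    by_contra h
    have := Nat.pow_le_pow_right (by norm_num : 0 < 2) (show n ≤ 2 by omega)
    omega)
  exact ⟨B, CL.Loc.ea_mono hE hB, hc⟩

end Cfsg.Agent.S3739
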