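import Cfsg.Statements.S3740
import Cfsg.Agent.Cls.SL2Class2


set_option autoImplicit false
open Cfsg Matrix Subgroup CL.GL2 CL.SL2

namespace Cfsg.Agent.S3740

theorem aux {G : Type*} [Group G] (R : Subgroup G) {a : G} (haR : a ∈ normalizer (R : Set G)) {p : ℕ}
    (hap : a ^ p = 1) : (∀ x ∈ R ⊔ zpowers a, ∀ y ∈ R ⊔ zpowers a, x * y * x⁻¹ * y⁻¹ ∈ R) ∧
      (R.subgroupOf (R ⊔ zpowers a)).index ∣ p := by
  have haH : a ∈ R ⊔ zpowers a := mem_sup_right (mem_zpowers a)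
  have hle : zpowers a ≤ normalizer (R : Set _) := zpowers_le.2 haR
  have hN : (R.subgroupOf (R ⊔ zpowers a)).Normal :=
    normal_subgroupOf_of_le_normalizer (sup_le le_normalizer hle)
  have hq : ∀ x : ↥(R ⊔ zpowers a) ⧸ R.subgroupOf (R ⊔ zpowers a),
      x ∈ zpowers (QuotientGroup.mk ⟨a, haH⟩) := by
    intro x
    induction x using QuotientGroup.induction_on with | H x =>
    obtain ⟨r, hr, _, ⟨k, rfl⟩, h⟩ := (coe_mul_of_right_le_normalizer_left _ _ hle).le x.2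
    refine ⟨k, ?_⟩
    have : x = ⟨r, mem_sup_left hr⟩ * ⟨a, haH⟩ ^ k := Subtype.ext h.symm
    rw [this, QuotientGroup.mk_mul, (QuotientGroup.eq_one_iff
      (⟨r, mem_sup_left hr⟩ : ↥(R ⊔ zpowers a))).2 (mem_subgroupOf.2 hr), one_mul,
      QuotientGroup.mk_zpow]
  refine ⟨fun x hx y hy => ?_, ?_⟩
  · refine (QuotientGroup.eq_one_iff (N := R.subgroupOf (R ⊔ zpowers a))
      (⟨x, hx⟩ * ⟨y, hy⟩ * ⟨x, hx⟩⁻¹ * ⟨y, hy⟩⁻¹ : ↥(R ⊔ zpowers a))).1 ?_
    obtain ⟨k, hk⟩ := hq (⟨x, hx⟩ : ↥(R ⊔ zpowers a))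
    obtain ⟨l, hl⟩ := hq (⟨y, hy⟩ : ↥(R ⊔ zpowers a))
    simp only [QuotientGroup.mk_mul, QuotientGroup.mk_inv, ← hk, ← hl]
    group
  · rw [index_eq_card, ← orderOf_eq_card_of_forall_mem_zpowers hq, orderOf_dvd_iff_pow_eq_one,
      ← QuotientGroup.mk_pow, show (⟨a, haH⟩ : ↥(R ⊔ zpowers a)) ^ p = 1 from Subtype.ext hap,
      QuotientGroup.mk_one]

/-- Let F be a finite field of odd characteristic p and let a be a p-element of SL₂(F) normalizing a subgroup R of order prime to p with [R, a] ≠ 1. Then p = 3, R is a quaternion group of order 8, and R⟨a⟩ is isomorphic to SL₂(3). -/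
theorem result (F : Type) [Field F] [Fintype F] {p : ℕ} [Fact p.Prime] [CharP F p] (hp : p ≠ 2) (a : Matrix.SpecialLinearGroup (Fin 2) F) (ha : IsPGroup p ↥(Subgroup.zpowers a)) (R : Subgroup (Matrix.SpecialLinearGroup (Fin 2) F)) (hR : (Nat.card R).Coprime p) (haR : a ∈ Subgroup.normalizer (R : Set (Matrix.SpecialLinearGroup (Fin 2) F))) (hnt : ⁅R, Subgroup.zpowers a⁆ ≠ ⊥) : p = 3 ∧ Nonempty (↥R ≃* QuaternionGroup 2) ∧ Nonempty (↥(R ⊔ Subgroup.zpowers a) ≃* Matrix.SpecialLinearGroup (Fin 2) (ZMod 3)) := by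
  have hpp : p.Prime := Fact.out
  have h2 : (2 : F) ≠ 0 := two_ne_zero_of_odd (odd_of_charP hp)
  have hap : a ^ p = 1 := by
    obtain ⟨k, hk⟩ := ha ⟨a, mem_zpowers a⟩
    exact (uhyp_sl p).pow a k (congrArg Subtype.val hk)
  have hR1 : ∀ x ∈ R, x ^ p = 1 → x = 1 := fun x hx h => orderOf_eq_one_iff.1
    (Nat.eq_one_of_dvd_coprimes hR (Subgroup.orderOf_dvd_natCard R hx) (orderOf_dvd_of_pow_eq_one h))
  set H := R ⊔ zpowers a with hH
  have haH : a ∈ H := (le_sup_right : _ ≤ H) (mem_zpowers a)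
  obtain ⟨hcomm, h7⟩ := aux R haR hap
  rw [← hH] at hcomm h7
  have hcomm' : ∀ x ∈ H.map SpecialLinearGroup.toPGL, ∀ y ∈ H.map SpecialLinearGroup.toPGL,
      (x * y * x⁻¹ * y⁻¹) ^ p = 1 → x * y * x⁻¹ * y⁻¹ = 1 := by
    rintro _ ⟨x, hx, rfl⟩ _ ⟨y, hy, rfl⟩ h
    simp only [← map_inv, ← map_mul, ← map_pow] at h ⊢
    have h3 := hR1 _ (pow_mem (hcomm x hx y hy) 2) (by
      rw [← pow_mul, mul_comm, pow_mul]
      rcases toPGL_eq_one_iff.1 h with h | h <;> rw [h] <;> simp)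
    exact toPGL_eq_one_iff.2 (sl_eq_of_mul_self h2 ((sq _).symm.trans h3))
  obtain ⟨r, hr, hra⟩ : ∃ r ∈ R, ¬ Commute a (r * a * r⁻¹) := by
    by_contra h
    push Not at h
    refine hnt (commutator_eq_bot_iff_le_centralizer.2 fun r hr => mem_centralizer_iff.2 ?_)
    rintro _ ⟨k, rfl⟩
    have h3 := hR1 _ (hcomm r ((le_sup_left : _ ≤ H) hr) a haH) (by
      rw [(h r hr).symm.inv_right.mul_pow, conj_pow, inv_pow, hap]; simp)
    rw [mul_inv_eq_one, mul_inv_eq_iff_eq_mul] at h3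
    exact (Commute.zpow_left (show Commute a r from h3.symm) k).eq
  have hrp : (r * a * r⁻¹) ^ p = 1 := by rw [conj_pow, hap]; simp
  have hrH : r * a * r⁻¹ ∈ H :=
    mul_mem (mul_mem ((le_sup_left : _ ≤ H) hr) haH) (inv_mem ((le_sup_left : _ ≤ H) hr))
  rcases dickson_of_not_commute p hp (H.map SpecialLinearGroup.toPGL) (mem_map_of_mem _ haH)
    (mem_map_of_mem _ hrH) (by rw [← map_pow, hap, map_one]) (by rw [← map_pow, hrp, map_one])
    (not_commute_toPGL p hap hrp hra) with ⟨rfl, ⟨e⟩⟩ | ⟨L, c, hL, h3, h | h⟩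
  · obtain ⟨x, y, h3, h4⟩ : ∃ x y : alternatingGroup (Fin 5), (x * y * x⁻¹ * y⁻¹) ^ 3 = 1 ∧
        x * y * x⁻¹ * y⁻¹ ≠ 1 := by decide +kernel
    refine (h4 (e.symm.injective (Subtype.ext ?_))).elim
    simp only [map_mul, map_inv, map_one]
    refine hcomm' _ (e.symm x).2 _ (e.symm y).2 ?_
    have := congrArg e.symm h3
    simp only [map_mul, map_inv, map_one, map_pow] at this
    exact congrArg Subtype.val this
  · have := Fintype.ofFinite L
    obtain ⟨c, rfl⟩ := ProjGenLinGroup.mk_surjective c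
    have h4 : H = (slHom L.subtype c).range := le_antisymm (fun x hx => by
      obtain ⟨y, hy⟩ := h.le (mem_map_of_mem _ hx)
      induction y using QuotientGroup.induction_on with | H y =>
      rcases toPGL_eq_iff.1 ((toPGL_slHom L c y).trans hy) with h | h
      · exact ⟨y, h⟩
      · exact ⟨-y, by rw [slHom_apply, ← neg_one_mul, map_mul, sl_map_neg_one, neg_one_mul,
          slConj_neg, ← slHom_apply, h, neg_neg]⟩) (slHom_range_le p hp h.ge)
    have h5 : Fintype.card L = 3 := by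
      by_contra h5
      rw [Nat.card_eq_fintype_card] at h3
      obtain ⟨t, ht'⟩ := IsCyclic.exists_ofOrder_eq_natCard (α := Lˣ)
      have ht : t ^ 2 ≠ 1 := fun h => by
        have := Nat.le_of_dvd two_pos (orderOf_dvd_of_pow_eq_one h)
        rw [ht', CL.SLn.card_units] at this
        omega
      have h6 : diagSL t * upT 1 * (diagSL t)⁻¹ * (upT 1)⁻¹ = (upT (t ^ 2 - 1 : L)) := by
        rw [← map_inv, ← upT_neg]
        apply ext_SL
        simp only [coe_mul_SL, coe_diagSL, coe_upT]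
        ext i j; fin_cases i <;> fin_cases j <;> simp [sq, sub_eq_neg_add]
      have h7 := hR1 _ (hcomm _ (h4.ge ⟨diagSL t, rfl⟩) _ (h4.ge ⟨upT 1, rfl⟩))
      simp only [← map_inv (slHom L.subtype c), ← map_mul, ← map_pow, h6,
        map_eq_one_iff _ (slHom_injective _ _)] at h7
      have h8 := congrFun (congrFun (congrArg Subtype.val (h7 (transvection_pow_char p _ _))) 0) 1
      exact ht (Units.ext (by simpa [coe_upT, sub_eq_zero] using h8))
    obtain ⟨n, -, hn⟩ := FiniteField.card L p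
    obtain rfl : p = 3 := (Nat.prime_dvd_prime_iff_eq hpp Nat.prime_three).1
      (h5 ▸ hn ▸ dvd_pow_self p n.ne_zero)
    obtain ⟨e⟩ := CL.SLn.nonempty_sl_equiv_of_card_eq (ι := Fin 2) (h5.trans (ZMod.card 3).symm)
    have e' := ((MulEquiv.subgroupCongr h4).trans
      (MonoidHom.ofInjective (slHom_injective _ _)).symm).trans e
    refine ⟨rfl, ?_, ⟨e'⟩⟩
    have h6 := card_mul_index (R.subgroupOf H)
    rw [Nat.card_congr (subgroupOfEquivOfLe le_sup_left).toEquiv, Nat.card_congr e'.toEquiv,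
      card_SL2, ZMod.card] at h6
    have h8 : Nat.card R = 2 ^ 3 := by
      rcases (Nat.dvd_prime Nat.prime_three).1 h7 with h | h <;> rw [h] at h6
      · rw [show Nat.card R = 24 by omega] at hR
        exact absurd hR (by decide)
      · omega
    rcases isCyclic_or_quaternion h2 (IsPGroup.of_card h8) R.subtype R.subtype_injective with
      h9 | ⟨k, ⟨e2⟩⟩
    · obtain ⟨g, hg⟩ := h9.exists_ofOrder_eq_natCard
      have h10 : ∀ x : Matrix.SpecialLinearGroup (Fin 2) (ZMod 3), x ^ 12 = 1 := by decide +kernel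
      have h11 := orderOf_dvd_of_pow_eq_one (h10 (e' ⟨g, (le_sup_left : _ ≤ H) g.2⟩))
      rw [MulEquiv.orderOf_eq, orderOf_mk, orderOf_coe, hg, h8] at h11
      exact absurd h11 (by decide)
    · have h9 := Nat.card_congr e2.toEquiv
      rw [h8, Nat.card_eq_fintype_card, QuaternionGroup.card, pow_succ 2 k] at h9
      obtain rfl : k = 0 := (Nat.pow_eq_one.1 (by omega : 2 ^ k = 1)).resolve_left (by decide)
      exact ⟨e2⟩
  · have h4 := hcomm' _ (h.ge ⟨aff (-1) 0, rfl⟩) _ (h.ge ⟨aff 1 1, rfl⟩)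
    have h5 : aff (-1 : Lˣ) 0 * aff 1 1 * (aff (-1) 0)⁻¹ * (aff 1 1)⁻¹ = aff 1 (-2) := by
      simp only [aff_inv, aff_mul, aff_inj]
      norm_num
    simp only [← map_inv (pglEmb L c), ← map_mul, ← map_pow, h5,
      map_eq_one_iff _ (pglEmb_injective _ _)] at h4
    exact (h2 (congrArg Subtype.val (neg_eq_zero.1
      (aff_eq_one_iff.1 (h4 ((aff_pow_char_eq_one_iff p _ _).2 rfl))).2))).elim

end Cfsg.Agent.S3740
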