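import Cfsg.Statements.S3744
import Cfsg.Agent.Grp.Hall2

set_option autoImplicit false
open Cfsg

namespace Cfsg.Agent.S3744

/-- A finite p-soluble group has a p-complement, all its p-complements are conjugate, and every subgroup of order prime to p lies in one of them. Here a p-complement is a subgroup of order prime to p whose index is a power of p. -/
theorem result {G : Type*} [Group G] [Finite G] {p : ℕ} [Fact p.Prime] (hG : Cfsg.IsPSolvable p G) : (∃ H : Subgroup G, (Nat.card H).Coprime p ∧ ∃ n : ℕ, H.index = p ^ n) ∧ (∀ H₁ H₂ : Subgroup G, (Nat.card H₁).Coprime p → (∃ n : ℕ, H₁.index = p ^ n) → (Nat.card H₂).Coprime p → (∃ n : ℕ, H₂.index = p ^ n) → ∃ g : G, H₂ = H₁.map (MulAut.conj g).toMonoidHom) ∧ (∀ U : Subgroup G, (Nat.card U).Coprime p → ∃ H : Subgroup G, (Nat.card H).Coprime p ∧ (∃ n : ℕ, H.index = p ^ n) ∧ ∃ g : G, U.map (MulAut.conj g).toMonoidHom ≤ H) := by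
  have hp : p.Prime := Fact.out
  have hD := CL.Grp.hallD_compl_of_isPSolvable hp hG
  have key : ∀ H : Subgroup G, IsPiHall {p}ᶜ H ↔ (Nat.card H).Coprime p ∧ ∃ n : ℕ, H.index = p ^ n := by
    intro H
    rw [CL.Grp.isPiHall_compl_singleton_iff hp, Nat.coprime_comm, hp.coprime_iff_not_dvd]
  refine ⟨hD.exists_hall.imp fun H hH => (key H).1 hH, fun H₁ H₂ a b c d => ?_, fun U hU => ?_⟩
  · exact (hD.conj ((key _).2 ⟨a, b⟩) ((key _).2 ⟨c, d⟩)).imp fun g hg => hg.symm
  · obtain ⟨H, hH, hle⟩ := hD.exists_hall_ge (K := U) (fun q hq hd hqp => by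
      rw [Set.mem_singleton_iff] at hqp
      subst hqp
      exact hq.one_lt.ne' (Nat.eq_one_of_dvd_coprimes hU hd dvd_rfl))
    refine ⟨H, ((key H).1 hH).1, ((key H).1 hH).2, 1, ?_⟩
    intro x hx
    obtain ⟨y, hy, rfl⟩ := hx
    simpa using hle hy

end Cfsg.Agent.S3744
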