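import Cfsg.Statements.S3746
import Cfsg.Agent.Loc.Components
import Cfsg.Agent.Grp.Subnormal

set_option autoImplicit false
open Cfsg

namespace Cfsg.Agent.S3746

/-- Let Z ≤ Z(G) be a central subgroup of a finite group G and E a subgroup of G containing Z whose image E/Z is a component of G/Z (subnormal and quasisimple). Then the derived subgroup [E, E] is a component of G. -/
theorem result {G : Type*} [Group G] [Finite G] (Z : Subgroup G) (hZ : Z ≤ Subgroup.center G) [Z.Normal] (E : Subgroup G) (hZE : Z ≤ E) (hE : Cfsg.IsComponent (E.map (QuotientGroup.mk' Z))) : Cfsg.IsComponent ⁅E, E⁆ := by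
  have hker : ⁅E ⊓ (QuotientGroup.mk' Z).ker, E⁆ = ⊥ := by
    rw [QuotientGroup.ker_mk', Subgroup.commutator_eq_bot_iff_le_centralizer]
    exact inf_le_right.trans (hZ.trans (Subgroup.center_le_centralizer _))
  refine ⟨?_, (CL.Loc.isQuasisimple_commutator_of_map _ hE.2 hker).1⟩
  have h1 : E.IsSubnormal := by
    have := hE.1.comap (QuotientGroup.mk' Z)
    rwa [Subgroup.comap_map_eq, QuotientGroup.ker_mk', sup_eq_left.2 hZE] at this
  exact (CL.Grp.SubnIn.of_le_normalizer (Subgroup.commutator_le_self E)
    (Subgroup.normalizer_commutator_ge_left E E)).isSubnormal_of h1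

end Cfsg.Agent.S3746
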