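import Cfsg.Statements.S3747
import Cfsg.Agent.Loc.Components
import Cfsg.Agent.Grp.Fitting

set_option autoImplicit false
open Cfsg
open scoped Pointwise

namespace Cfsg.Agent.S3747

theorem part_a {G : Type*} [Group G] [Finite G] (K : Subgroup G) (hK : Cfsg.IsComponent K)
    (hZ : Subgroup.center ↥K = ⊥) :
    Subgroup.normalClosure (K : Set G) ≠ ⊥ ∧ ∀ N : Subgroup G, N.Normal →
      N ≤ Subgroup.normalClosure (K : Set G) → N = ⊥ ∨ N = Subgroup.normalClosure (K : Set G) := by
  refine ⟨fun h => CL.Loc.IsComponent.ne_bot hK (eq_bot_iff.2 (h ▸ Subgroup.le_normalClosure)), ?_⟩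
  intro N hN hNK
  rcases CL.Loc.IsComponent.le_or_commutator_eq_bot hK hN.isSubnormal with h | h
  · exact Or.inr (le_antisymm hNK (Subgroup.normalClosure_le_normal h))
  left
  set S : Set (Subgroup G) := Set.range fun g : G => K.map (MulAut.conj g).toMonoidHom with hS
  have hSc : ∀ L ∈ S, Cfsg.IsComponent L := by
    rintro _ ⟨g, rfl⟩
    exact CL.Loc.IsComponent.conj hK g
  have hle : Subgroup.normalClosure (K : Set G) ≤ sSup S := by
    rw [Subgroup.normalClosure, Subgroup.closure_le]
    intro x hx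
    obtain ⟨k, hk, hc⟩ := Group.mem_conjugatesOfSet_iff.1 hx
    obtain ⟨g, rfl⟩ := isConj_iff.1 hc
    exact (le_sSup (s := S) ⟨g, rfl⟩) (Subgroup.mem_map_of_mem (MulAut.conj g).toMonoidHom hk)
  have hge : sSup S ≤ Subgroup.normalClosure (K : Set G) := by
    apply sSup_le
    rintro _ ⟨g, rfl⟩ _ ⟨k, hk, rfl⟩
    exact Subgroup.normalClosure_normal.conj_mem _ (Subgroup.le_normalClosure hk) g
  have hcen : N ≤ Subgroup.centralizer ((sSup S : Subgroup G) : Set G) := by
    rw [Subgroup.le_centralizer_iff]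
    refine hge.trans (Subgroup.normalClosure_le_normal ?_)
    exact Subgroup.commutator_eq_bot_iff_le_centralizer.1 h
  have h1 := CL.Loc.sSup_inf_centralizer_eq (Set.toFinite S) (CL.Loc.pairwise_components S hSc)
  have h2 : N ≤ ⨆ L ∈ S, L ⊓ Subgroup.centralizer (L : Set G) := h1 ▸ le_inf (hNK.trans hle) hcen
  rw [eq_bot_iff]
  refine h2.trans (iSup₂_le ?_)
  rintro _ ⟨g, rfl⟩ _ ⟨⟨k, hk, rfl⟩, hc⟩
  have h3 : (⟨k, hk⟩ : K) ∈ Subgroup.center K := by
    rw [Subgroup.mem_center_iff]
    intro y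
    apply Subtype.ext
    apply (MulAut.conj g).injective
    simp only [Subgroup.coe_mul, map_mul]
    exact hc _ ⟨y, y.2, rfl⟩
  rw [hZ, Subgroup.mem_bot] at h3
  have h4 : k = 1 := congrArg Subtype.val h3
  simp [h4]

/-- Let G be a finite group. (a) If K is a component of G with trivial centre, then the normal closure of K in G is a minimal normal subgroup of G. (b) If the Fitting subgroup of G is trivial, then the layer E(G) is generated by the minimal normal subgroups of G. -/
theorem result {G : Type*} [Group G] [Finite G] : (∀ K : Subgroup G, Cfsg.IsComponent K → Subgroup.center ↥K = ⊥ → (Subgroup.normalClosure (K : Set G) ≠ ⊥ ∧ ∀ N : Subgroup G, N.Normal → N ≤ Subgroup.normalClosure (K : Set G) → N = ⊥ ∨ N = Subgroup.normalClosure (K : Set G))) ∧ (Cfsg.fittingSubgroup G = ⊥ → sSup {N : Subgroup G | N ≠ ⊥ ∧ N.Normal ∧ ∀ N' : Subgroup G, N'.Normal → N' ≤ N → N' = ⊥ ∨ N' = N} = Cfsg.layer G) := by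
  refine ⟨part_a, fun hF => le_antisymm ?_ ?_⟩
  · apply sSup_le
    rintro N ⟨hN1, hN, hmin⟩
    obtain ⟨L, ⟨hL1, hLs, hLN⟩, hLmin⟩ := (wellFounded_lt (α := Subgroup G)).has_min
      {L | L ≠ ⊥ ∧ L.IsSubnormal ∧ L ≤ N} ⟨N, hN1, hN.isSubnormal, le_rfl⟩
    haveI : Nontrivial L := (Subgroup.nontrivial_iff_ne_bot L).2 hL1
    haveI : IsSimpleGroup L := ⟨fun M hM => by
      by_cases hM1 : M = ⊥
      · exact Or.inl hM1
      · right
        by_contra hMt
        apply hLmin (M.map L.subtype) ⟨by simpa [Subgroup.map_eq_bot_iff] using hM1,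
          hM.isSubnormal.trans' hLs, (Subgroup.map_subtype_le M).trans hLN⟩
        refine lt_of_le_of_ne (Subgroup.map_subtype_le M) fun h => hMt ?_
        apply Subgroup.map_injective L.subtype_injective
        rw [h, ← MonoidHom.range_eq_map, Subgroup.range_subtype]⟩
    have hna : ¬ IsMulCommutative L := by
      intro h
      have := CL.Grp.le_fittingSubgroup_of_isSubnormal hLs (CL.Grp.isNilpotent_of_isMulCommutative h)
      rw [hF] at this
      exact hL1 (eq_bot_iff.2 this)
    have hLc : Cfsg.IsComponent L := ⟨hLs, CL.Loc.isQuasisimple_of_isSimpleGroup hna⟩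
    rcases hmin (N ⊓ Cfsg.layer G) inferInstance inf_le_left with h | h
    · exact absurd (eq_bot_iff.2 (h ▸ le_inf hLN (CL.Loc.IsComponent.le_layer hLc))) hL1
    · exact h ▸ inf_le_right
  · rw [CL.Loc.layer_le_iff]
    intro K hK
    have hZ : Subgroup.center K = ⊥ := by
      have h1 := CL.Grp.le_fittingSubgroup_of_isSubnormal
        ((inferInstance : (Subgroup.center K).Normal).isSubnormal.trans' hK.1)
        (CL.Grp.isNilpotent_map_subtype_iff.2 (CL.Grp.isNilpotent_of_isMulCommutative inferInstance))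
      rw [hF, le_bot_iff, Subgroup.map_eq_bot_iff_of_injective _ K.subtype_injective] at h1
      exact h1
    obtain ⟨h1, h2⟩ := part_a K hK hZ
    exact Subgroup.le_normalClosure.trans (le_sSup ⟨h1, inferInstance, h2⟩)

end Cfsg.Agent.S3747
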