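import Cfsg.Statements.S3749
import Cfsg.Agent.Fgs.PrimPair

set_option autoImplicit false
open Cfsg

namespace Cfsg.Agent.S3749

open CL.Grp CL.Loc CL.Fgs Cfsg
open scoped Pointwise


/-- Call a proper subgroup M of G primitive when M = N_G(N) for every non-trivial normal subgroup N of M. Let M be a primitive subgroup of the finite group G, p a prime with O_p(M) ≠ 1, and N a normal subgroup of G with M ∩ N = 1. Then p does not divide the order of N; for every prime q there is exactly one Sylow q-subgroup of N normalized by M; and if the order of N has at least two prime divisors then M is not a maximal subgroup of G. -/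
theorem result {G : Type*} [Group G] [Finite G] (M : Subgroup G) (hM : M ≠ ⊤) (hprim : ∀ N : Subgroup G, N ≤ M → M ≤ Subgroup.normalizer (N : Set G) → N ≠ ⊥ → Subgroup.normalizer (N : Set G) = M) {p : ℕ} [Fact p.Prime] (hOp : Cfsg.pCore p ↥M ≠ ⊥) (N : Subgroup G) [N.Normal] (hMN : M ⊓ N = ⊥) : ¬ p ∣ Nat.card N ∧ (∀ q : ℕ, [Fact q.Prime] → ∃! Q : Sylow q ↥N, M ≤ Subgroup.normalizer ((Q : Subgroup ↥N).map N.subtype : Set G)) ∧ ((∃ q r : ℕ, q.Prime ∧ r.Prime ∧ q ≠ r ∧ q ∣ Nat.card N ∧ r ∣ Nat.card N) → ¬ IsCoatom M) := by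
  have hOp' : pCoreOf p M ≠ ⊥ := by
    rw [pCoreOf_def, Ne, Subgroup.map_eq_bot_iff_of_injective _ M.subtype_injective]
    exact hOp
  refine ⟨IsPrimSub.not_dvd_card hprim hOp' hMN, fun q _ => ?_, ?_⟩
  · obtain ⟨Q, hQ, hQn, huniq⟩ := IsPrimSub.existsUnique_sylow hprim hOp' hMN q
    refine ⟨hQ.toSylow, ?_, fun Q' hQ' => ?_⟩
    · show M ≤ Subgroup.normalizer _
      rw [hQ.map_toSylow]; exact hQn
    · apply Sylow.ext
      apply Subgroup.map_injective N.subtype_injective
      rw [hQ.map_toSylow]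
      exact huniq _ (isSylowIn_map_subtype Q') hQ'
  · rintro ⟨q, r, hq, hr, hqr, h1, h2⟩
    exact IsPrimSub.not_isCoatom hprim hOp' hMN hq hr hqr h1 h2

end Cfsg.Agent.S3749
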