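import Cfsg.Statements.S3754
import Cfsg.Agent.Fgs.TwoConj
import Cfsg.Agent.Loc.FFHol
import Cfsg.Agent.Loc.PSolv
import Cfsg.Agent.Odd.BG1b

set_option autoImplicit false
open Cfsg

namespace Cfsg.Agent.S3754

open CL.Grp CL.Loc CL.Fgs Cfsg
open scoped Pointwise


/-- Let M be a finite p-soluble group and A a p-subgroup of M with Φ(A) ≤ O_p(M) but A ≰ O_p(M). Then there is x ∈ O_{p,p'}(M) such that L = ⟨A, xAx⁻¹⟩ satisfies: x ∈ O^p(L) and O^p(L) ≤ O_{p,p'}(M); [O^p(L), A] = O^p(L); A ∩ O_p(L) has index p in A; and [A ∩ O_p(L), L] ≤ O_p(M). Here O^p(L) is the subgroup generated by the p'-elements of L and O_{p,p'}(M) the preimage of O_{p'}(M/O_p(M)). -/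
theorem result {M : Type*} [Group M] [Finite M] {p : ℕ} [Fact p.Prime] (hM : Cfsg.IsPSolvable p M) (A : Subgroup M) (hA : IsPGroup p A) (hΦ : (frattini ↥A).map A.subtype ≤ Cfsg.pCore p M) (hnot : ¬ A ≤ Cfsg.pCore p M) : ∃ x ∈ (Cfsg.pPrimeCore p (M ⧸ Cfsg.pCore p M)).comap (QuotientGroup.mk' (Cfsg.pCore p M)), x ∈ (Cfsg.pResidual p ↥(A ⊔ A.map (MulAut.conj x).toMonoidHom)).map (A ⊔ A.map (MulAut.conj x).toMonoidHom).subtype ∧ (Cfsg.pResidual p ↥(A ⊔ A.map (MulAut.conj x).toMonoidHom)).map (A ⊔ A.map (MulAut.conj x).toMonoidHom).subtype ≤ (Cfsg.pPrimeCore p (M ⧸ Cfsg.pCore p M)).comap (QuotientGroup.mk' (Cfsg.pCore p M)) ∧ ⁅(Cfsg.pResidual p ↥(A ⊔ A.map (MulAut.conj x).toMonoidHom)).map (A ⊔ A.map (MulAut.conj x).toMonoidHom).subtype, A⁆ = (Cfsg.pResidual p ↥(A ⊔ A.map (MulAut.conj x).toMonoidHom)).map (A ⊔ A.map (MulAut.conj x).toMonoidHom).subtype ∧ (A ⊓ (Cfsg.pCore p ↥(A ⊔ A.map (MulAut.conj x).toMonoidHom)).map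 (A ⊔ A.map (MulAut.conj x).toMonoidHom).subtype).relIndex A = p ∧ ⁅A ⊓ (Cfsg.pCore p ↥(A ⊔ A.map (MulAut.conj x).toMonoidHom)).map (A ⊔ A.map (MulAut.conj x).toMonoidHom).subtype, A ⊔ A.map (MulAut.conj x).toMonoidHom⁆ ≤ Cfsg.pCore p M := by
  have hp : p.Prime := Fact.out
  have hΦ' := (CL.Odd.Phi_le_iff (N := pCore p M) hp hA).1 hΦ
  have hE : IsElementaryAbelian p (A.map (QuotientGroup.mk' (pCore p M))) := by
    refine ⟨Subgroup.le_centralizer_iff_isMulCommutative.1 ?_, ?_⟩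
    · rw [← Subgroup.commutator_eq_bot_iff_le_centralizer, ← Subgroup.map_commutator,
        Subgroup.map_eq_bot_iff, QuotientGroup.ker_mk']
      exact hΦ'.1
    · rintro _ ⟨a, ha, rfl⟩
      rw [← map_pow, QuotientGroup.mk'_apply, QuotientGroup.eq_one_iff]
      exact hΦ'.2 a ha
  have hc := centralizer_pPrimeCore_le_of_isPSolvable (isPSolvable_quotient hM (pCore p M))
    (pCore_quotient_pCore p M)
  have hnc : ¬ pPrimeCore p (M ⧸ pCore p M) ≤
      Subgroup.centralizer ((A.map (QuotientGroup.mk' (pCore p M)) : Subgroup _) : Set _) := by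
    intro h
    have h1 := (Subgroup.le_centralizer_iff.1 h).trans hc
    have h2 := inf_pPrimeCore_eq_bot (hA.map (QuotientGroup.mk' (pCore p M)))
    rw [inf_eq_left.2 h1, Subgroup.map_eq_bot_iff, QuotientGroup.ker_mk'] at h2
    exact hnot h2
  have h := exists_two_conj (QuotientGroup.mk' (pCore p M)) (QuotientGroup.mk'_surjective _)
    (by rw [QuotientGroup.ker_mk']; exact pCore_isPGroup p M) _ (not_dvd_card_pPrimeCore p _) hA hE
    hnc
  rw [QuotientGroup.ker_mk'] at h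
  exact h

end Cfsg.Agent.S3754
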