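import Cfsg.Statements.S3760
import Cfsg.Agent.Grp.SylowIn

set_option autoImplicit false
open Cfsg
open scoped Pointwise

namespace Cfsg.Agent.S3760

/-- Let the group G act transitively on a set X, let x ∈ X with stabilizer H = G_x, and let K ≤ H. Then N_G(K) acts transitively on the set of fixed points of K if and only if every G-conjugate of K contained in H is already an H-conjugate of K. -/
theorem result {G : Type*} [Group G] {X : Type*} [MulAction G X] (htrans : ∀ a b : X, ∃ g : G, g • a = b) (x : X) (K : Subgroup G) (hK : K ≤ MulAction.stabilizer G x) : (∀ a b : X, (∀ k ∈ K, k • a = a) → (∀ k ∈ K, k • b = b) → ∃ g ∈ Subgroup.normalizer (K : Set G), g • a = b) ↔ ∀ g : G, K.map (MulAut.conj g).toMonoidHom ≤ MulAction.stabilizer G x → ∃ h ∈ MulAction.stabilizer G x, K.map (MulAut.conj g).toMonoidHom = K.map (MulAut.conj h).toMonoidHom := by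
  simp only [← CL.Grp.conj_smul_eq_map]
  constructor
  · intro h g hg
    obtain ⟨n, hn, hnx⟩ := h (g⁻¹ • x) x (fun k hk => by
      have := hg (CL.Grp.conj_mem_conj_smul g hk)
      rw [MulAction.mem_stabilizer_iff, mul_smul, mul_smul] at this
      rw [eq_inv_smul_iff, this]) (fun k hk => hK hk)
    refine ⟨g * n⁻¹, ?_, ?_⟩
    · rw [MulAction.mem_stabilizer_iff, mul_smul, ← eq_inv_smul_iff, inv_smul_eq_iff, hnx]
    · rw [← CL.Grp.conj_smul_conj_smul, (CL.Grp.conj_smul_eq_self_iff _ K).2 (Subgroup.inv_mem _ hn)]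
  · intro h
    have key : ∀ a : X, (∀ k ∈ K, k • a = a) → ∃ g ∈ Subgroup.normalizer (K : Set G), g • a = x := by
      intro a ha
      obtain ⟨g, rfl⟩ := htrans a x
      obtain ⟨s, hs, hgs⟩ := h g (by
        rw [CL.Grp.conj_smul_le_iff]
        intro k hk
        rw [MulAction.mem_stabilizer_iff, mul_smul, mul_smul, inv_smul_smul, ha k hk])
      refine ⟨s⁻¹ * g, ?_, ?_⟩
      · rw [← CL.Grp.conj_smul_eq_self_iff, ← CL.Grp.conj_smul_conj_smul, hgs,
          CL.Grp.conj_smul_conj_smul]
        simp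
      · rw [mul_smul, inv_smul_eq_iff]
        exact hs.symm
    intro a b ha hb
    obtain ⟨g, hg, hga⟩ := key a ha
    obtain ⟨g', hg', hgb⟩ := key b hb
    exact ⟨g'⁻¹ * g, Subgroup.mul_mem _ (Subgroup.inv_mem _ hg') hg, by
      rw [mul_smul, hga, inv_smul_eq_iff, hgb]⟩

end Cfsg.Agent.S3760
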