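import Cfsg.Statements.S3763
import Cfsg.Agent.Grp.ExtraTwo

set_option autoImplicit false
open Cfsg

namespace Cfsg.Agent.S3763

/-- Let E be an extraspecial 2-group of order 2^(2n+1). Then the largest elementary abelian subgroups of E have order 2^n or 2^(n+1); and two extraspecial 2-groups of the same order whose largest elementary abelian subgroups have the same order are isomorphic. -/
theorem result {E : Type*} [Group E] [Finite E] (hE : Cfsg.IsExtraspecial 2 E) (n : ℕ) (hn : Nat.card E = 2 ^ (2 * n + 1)) : ((Cfsg.PRankLE 2 n E ∧ ¬ Cfsg.PRankLE 2 (n - 1) E) ∨ (Cfsg.PRankLE 2 (n + 1) E ∧ ¬ Cfsg.PRankLE 2 n E)) ∧ ∀ (E' : Type*) [Group E'] [Finite E'], Cfsg.IsExtraspecial 2 E' → Nat.card E' = Nat.card E → (∀ k : ℕ, Cfsg.PRankLE 2 k E ↔ Cfsg.PRankLE 2 k E') → Nonempty (E ≃* E') := by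
  refine ⟨?_, fun E' _ _ h' hc hr => ?_⟩
  · by_cases h : Cfsg.PRankLE 2 n E
    · exact Or.inl ⟨h, CL.Grp.extra2_not_pRankLE_pred hE hn⟩
    · exact Or.inr ⟨CL.Grp.extra_pRankLE hE hn, h⟩
  · refine CL.Grp.extra2_nonempty_mulEquiv_of_type hE h' hn (hc.trans hn) ?_
    have := hr n
    rw [CL.Grp.extra_pRankLE_iff hE hn, CL.Grp.extra_pRankLE_iff h' (hc.trans hn)] at this
    exact not_iff_not.mp this

end Cfsg.Agent.S3763
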