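import Cfsg.Statements.S3765
import Cfsg.Agent.Fgs.PrimeAct

set_option autoImplicit false
open Cfsg

namespace Cfsg.Agent.S3765

open CL.Odd CL.Grp CL.Fgs Cfsg
open scoped Pointwise


/-- Let p, q, r be distinct primes and let X, Q, V be subgroups of a finite group with X of order r normalizing the q-group Q and acting faithfully on it (X ∩ C(Q) = 1), and V a nontrivial elementary abelian p-group normalized by X and Q on which XQ acts faithfully. If q = 2 and r has the form 2^n + 1, assume in addition that Q is abelian. Then C_V(X) ≠ 1. -/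
theorem result {G : Type*} [Group G] [Finite G] {p q r : ℕ} (hp : p.Prime) (hq : q.Prime) (hr : r.Prime) (hpq : p ≠ q) (hpr : p ≠ r) (hqr : q ≠ r) (X Q V : Subgroup G) (hX : Nat.card X = r) (hQ : IsPGroup q Q) (hXQ : X ≤ Subgroup.normalizer (Q : Set G)) (hXfaith : X ⊓ Subgroup.centralizer (Q : Set G) = ⊥) (hV : Cfsg.IsElementaryAbelian p V) (hV1 : V ≠ ⊥) (hXV : X ≤ Subgroup.normalizer (V : Set G)) (hQV : Q ≤ Subgroup.normalizer (V : Set G)) (hfaith : (X ⊔ Q) ⊓ Subgroup.centralizer (V : Set G) = ⊥) (hexc : q = 2 → (∃ n : ℕ, r = 2 ^ n + 1) → IsMulCommutative Q) : V ⊓ Subgroup.centralizer (X : Set G) ≠ ⊥ := by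
  subst hX
  have := Fact.mk hp
  have := Fact.mk hq
  intro hCV
  have hVp : IsPGroup p V := fun v => ⟨1, Subtype.ext (by simpa using hV.2 v v.2)⟩
  obtain ⟨k, hk⟩ := IsPGroup.iff_card.1 hQ
  obtain ⟨l, hl⟩ := IsPGroup.iff_card.1 hVp
  have hc : (Nat.card Q).Coprime (Nat.card X) := by
    rw [hk]; exact ((Nat.coprime_primes hq hr).2 hqr).pow_left _
  have h1 : ⁅X, Q⁆ ≤ C[V] := by
    refine comm_le_cent_of_prime_fermat (sol_of_isPGroup hq hQ) (fun n hn => ?_) hXQ hc hr ?_
      (sup_le hQV hXV) (sol_of_isPGroup hp hVp) hCV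
    · by_cases h2 : q = 2
      · have h3 := hexc h2 ⟨n, hn⟩
        exact fun T _ => inferInstance
      · exact abelianTwo_of_odd (by rw [hk]; exact (hq.odd_of_ne_two h2).pow)
    · rw [sup_comm, hl]
      refine (Nat.Coprime.coprime_dvd_left (card_sup_dvd hXQ) ?_).pow_right _
      rw [hk]
      exact Nat.Coprime.mul_left ((Nat.coprime_primes hr hp).2 hpr.symm)
        (((Nat.coprime_primes hq hp).2 hpq.symm).pow_left _)
  have h2 : ⁅X, Q⁆ = ⊥ :=
    le_bot_iff.1 (hfaith ▸ le_inf ((comm_le_right hXQ).trans le_sup_right) h1)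
  have h3 : X = ⊥ := le_bot_iff.1 (hXfaith ▸ le_inf le_rfl (comm_eq_bot_iff.1 h2))
  rw [h3, Subgroup.card_bot] at hr
  exact Nat.not_prime_one hr

end Cfsg.Agent.S3765
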