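import Cfsg.Statements.S3766
import Cfsg.Agent.Odd.BG1e

set_option autoImplicit false
open Cfsg

namespace Cfsg.Agent.S3766

open CL.Odd CL.Grp Cfsg
open scoped Pointwise


/-- Let G be a finite solvable group and N a normal subgroup of G. Call a pair V < U of normal subgroups of G a chief factor of G when no normal subgroup of G lies strictly between them; an element g centralizes the chief factor U/V when u g u⁻¹ g⁻¹ ∈ V for all u ∈ U. Then an element of G lies in the Fitting subgroup F(N) if and only if it lies in N and centralizes every chief factor of G; and also if and only if it lies in N and centralizes every chief factor U/V of G with U ≤ F(N). -/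
theorem result {G : Type*} [Group G] [Finite G] (hG : Group.IsSolvable G) (N : Subgroup G) [N.Normal] (g : G) : (g ∈ (Cfsg.fittingSubgroup ↥N).map N.subtype ↔ g ∈ N ∧ ∀ U V : Subgroup G, (U.Normal ∧ V.Normal ∧ V < U ∧ ∀ W : Subgroup G, W.Normal → V ≤ W → W ≤ U → W = V ∨ W = U) → ∀ u ∈ U, u * g * u⁻¹ * g⁻¹ ∈ V) ∧ (g ∈ (Cfsg.fittingSubgroup ↥N).map N.subtype ↔ g ∈ N ∧ ∀ U V : Subgroup G, (U.Normal ∧ V.Normal ∧ V < U ∧ ∀ W : Subgroup G, W.Normal → V ≤ W → W ≤ U → W = V ∨ W = U) → U ≤ (Cfsg.fittingSubgroup ↥N).map N.subtype → ∀ u ∈ U, u * g * u⁻¹ * g⁻¹ ∈ V) := by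
  have hN : N ⊴ ⊤ := ⟨le_top, by rw [Subgroup.normalizer_eq_top]⟩
  have hnorm : ∀ {W : Subgroup G}, W.Normal ↔ ⊤ ≤ N[W] := fun {W} => by
    rw [top_le_iff, Subgroup.normalizer_eq_top_iff]
  have hcf : ∀ U V : Subgroup G, (U.Normal ∧ V.Normal ∧ V < U ∧
      ∀ W : Subgroup G, W.Normal → V ≤ W → W ≤ U → W = V ∨ W = U) ↔ ChiefFactor ⊤ V U := fun U V =>
    ⟨fun ⟨a, b, c, d⟩ => ⟨c, ⟨le_top, hnorm.1 b⟩, ⟨le_top, hnorm.1 a⟩, fun W h1 h2 h3 => d W (hnorm.2 h3) h1 h2⟩,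
      fun ⟨a, b, c, d⟩ => ⟨hnorm.2 c.2, hnorm.2 b.2, a, fun W h1 h2 h3 => d W h2 h3 (hnorm.1 h1)⟩⟩
  have h1 : g ∈ fittingOf N → ∀ U V : Subgroup G, ChiefFactor ⊤ V U → ∀ u ∈ U, u * g * u⁻¹ * g⁻¹ ∈ V :=
    fun hg U V h u hu => Fitting_stab_chief hN h (Subgroup.commutator_mem_commutator hu hg)
  have h2 : g ∈ N → (∀ U V : Subgroup G, ChiefFactor ⊤ V U → U ≤ fittingOf N →
      ∀ u ∈ U, u * g * u⁻¹ * g⁻¹ ∈ V) → g ∈ fittingOf N := by
    intro hgN hg
    have hs : Group.IsSolvable (⊤ : Subgroup G) := inferInstance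
    refine chief_stab_sub_Fitting hs hN (K := Subgroup.normalClosure {g}) ⟨le_top, hnorm.1 inferInstance⟩ ?_
      (Subgroup.mem_inf.2 ⟨Subgroup.subset_normalClosure rfl, hgN⟩)
    intro U V h hU
    have hV : V.Normal := hnorm.2 h.2.1.2
    have hUn : U.Normal := hnorm.2 h.2.2.1.2
    have hle : Subgroup.normalClosure {g} ≤ (Subgroup.centralizer (U.map (QuotientGroup.mk' V) : Set (G ⧸ V))).comap
        (QuotientGroup.mk' V) := by
      refine Subgroup.normalClosure_le_normal ?_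
      rintro _ rfl
      rw [SetLike.mem_coe, Subgroup.mem_comap, Subgroup.mem_centralizer_iff]
      rintro _ ⟨u, hu, rfl⟩
      have := (QuotientGroup.eq_one_iff _).2 (hg U V h hU u hu)
      simp only [QuotientGroup.mk_mul, QuotientGroup.mk_inv, mul_inv_eq_iff_eq_mul, one_mul] at this
      exact this
    rw [Subgroup.commutator_le]
    intro u hu x hx
    have := (Subgroup.mem_centralizer_iff.1 (hle hx)) _ ⟨u, hu, rfl⟩
    rw [← QuotientGroup.eq_one_iff, commutatorElement_def]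
    simp only [QuotientGroup.mk_mul, QuotientGroup.mk_inv, mul_inv_eq_iff_eq_mul, one_mul]
    exact this
  simp only [hcf]
  exact ⟨⟨fun hg => ⟨fittingOf_le N hg, h1 hg⟩, fun ⟨a, b⟩ => h2 a fun U V h _ => b U V h⟩,
    ⟨fun hg => ⟨fittingOf_le N hg, fun U V h _ => h1 hg U V h⟩, fun ⟨a, b⟩ => h2 a b⟩⟩

end Cfsg.Agent.S3766
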