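import Cfsg.Statements.S3771
import Cfsg.Agent.Odd.BG4I

set_option autoImplicit false
open Cfsg

namespace Cfsg.Agent.S3771

open CL.Odd CL.Grp Cfsg
open scoped Pointwise


/-- Let p be a prime and R a finite p-group of p-rank at most 2 (no elementary abelian subgroup of order p³) in which every element has order dividing p. Then R has order at most p³. -/
theorem result {R : Type*} [Group R] [Finite R] {p : ℕ} [Fact p.Prime] (hR : IsPGroup p R) (hrank : Cfsg.PRankLE p 2 R) (hexp : ∀ x : R, x ^ p = 1) : Nat.card R ≤ p ^ 3 := by
  have hp : p.Prime := Fact.out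
  have := BG4_8.a (R := (⊤ : Subgroup R)) hp (hR.to_subgroup ⊤) ((pRankLE_iff_prank_top hp).1 hrank)
    (fun x _ => hexp x)
  rwa [Subgroup.card_top] at this

end Cfsg.Agent.S3771
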