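import Cfsg.Statements.S3772
import Cfsg.Agent.Grp.ExtraTwo

set_option autoImplicit false
open Cfsg

namespace Cfsg.Agent.S3772

/-- Let G be a finite 2-group whose Frattini subgroup Φ(G) has order 2, with |G : Φ(G)| = 2^d, and let j be the number of elements x of G with x² = 1. Then j = 2^d, or j = 2^d + 2^(d−r) or j = 2^d − 2^(d−r) for some positive integer r with 2r ≤ d. Moreover if d = 2r and j is 2^d + 2^r or 2^d − 2^r, then G is extraspecial. -/
theorem result {G : Type*} [Group G] [Finite G] (hG : IsPGroup 2 G) (hΦ : Nat.card (frattini G) = 2) (d : ℕ) (hd : (frattini G).index = 2 ^ d) : (Nat.card {x : G // x ^ 2 = 1} = 2 ^ d ∨ ∃ r : ℕ, 1 ≤ r ∧ 2 * r ≤ d ∧ (Nat.card {x : G // x ^ 2 = 1} = 2 ^ d + 2 ^ (d - r) ∨ Nat.card {x : G // x ^ 2 = 1} + 2 ^ (d - r) = 2 ^ d)) ∧ (∀ r : ℕ, d = 2 * r → (Nat.card {x : G // x ^ 2 = 1} = 2 ^ d + 2 ^ r ∨ Nat.card {x : G // x ^ 2 = 1} + 2 ^ r = 2 ^ d) → Cfsg.IsExtraspecial 2 G) := by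
  have hcen := CL.Grp.le_center_of_normal_card_prime hG (frattini G) hΦ
  obtain ⟨z, hz, hz1⟩ := (frattini G).bot_or_exists_ne_one.resolve_left (fun h => by
    rw [h, Subgroup.card_bot] at hΦ; omega)
  have hz2 : z ^ 2 = 1 := by
    have := pow_card_eq_one' (x := (⟨z, hz⟩ : frattini G))
    rw [hΦ] at this
    exact congrArg Subtype.val this
  have ho : orderOf z = 2 := orderOf_eq_prime hz2 hz1
  have hzp : Subgroup.zpowers z = frattini G :=
    Subgroup.eq_of_le_of_card_ge (Subgroup.zpowers_le.mpr hz) (by rw [hΦ, Nat.card_zpowers, ho])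
  obtain ⟨d', H, hH⟩ := CL.Grp.exists_heis_fin (p := 2) (hcen hz) ho
    (fun a b => hzp ▸ CL.Grp.commutatorElement_mem_frattini hG a b)
    (fun a => hzp ▸ CL.Grp.pow_mem_frattini hG a)
  have hZ : H.Z = frattini G := by rw [H.Z_eq_zpowers, hH, hzp]
  have hd' : d' = d := by
    have := H.index_Z
    rw [hZ, hd, Nat.card_fun, Nat.card_zmod, Nat.card_fin] at this
    exact (Nat.pow_right_injective (le_refl 2) this).symm
  subst hd'
  have h1 := H.card_sq_eq_one
  have h2 := CL.Grp.gauss2_sq H.q_add_two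
  rw [Nat.card_fun, Nat.card_zmod, Nat.card_fin] at h1 h2
  rw [CL.Grp.card_eq_pow_finrank_zmod (p := 2) (H.B.orthogonal ⊤)] at h2
  have hk := (H.B.orthogonal ⊤).finrank_le
  rw [Module.finrank_fin_fun] at hk
  have hne : (∀ u ∈ H.B.orthogonal ⊤, H.q u = 0) →
      Module.finrank (ZMod 2) (H.B.orthogonal ⊤) ≠ d' := fun hq hk' => by
    have htop : H.B.orthogonal ⊤ = ⊤ :=
      Submodule.eq_top_of_finrank_eq (by rw [hk', Module.finrank_fin_fun])
    have hmem : ∀ v, v ∈ H.B.orthogonal ⊤ := fun v => by rw [htop]; trivial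
    have : IsMulCommutative G := ⟨⟨fun a b => H.B_eq_zero_iff.mp (hmem _ _ Submodule.mem_top)⟩⟩
    have h3 := CL.Grp.frattini_eq_bot_of_elementary (G := G) (p := 2) fun x =>
      H.q_eq_zero_iff.mp (hq _ (hmem _))
    rw [h3, Subgroup.card_bot] at hΦ; omega
  set k := Module.finrank (ZMod 2) (H.B.orthogonal ⊤) with hkdef
  set g := CL.Grp.gauss2 H.q
  constructor
  · split_ifs at h2 with hq
    · right
      have h3 : g.natAbs ^ 2 = 2 ^ (d' + k) := by
        zify; rw [sq_abs, h2]; push_cast; ring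
      obtain ⟨a, -, ha⟩ := (Nat.dvd_prime_pow Nat.prime_two).mp
        (show g.natAbs ∣ 2 ^ (d' + k) from h3 ▸ dvd_pow_self _ (by norm_num))
      have h4 : a * 2 = d' + k := by
        rw [ha, ← pow_mul] at h3
        exact Nat.pow_right_injective (le_refl 2) h3
      have h5 := hne hq
      refine ⟨d' - a, by omega, by omega, ?_⟩
      rw [show d' - (d' - a) = a by omega]
      rcases Int.natAbs_eq g with h6 | h6
      · left; rw [h6, ha] at h1; exact_mod_cast h1
      · right; rw [h6, ha] at h1; zify; rw [h1]; push_cast; ring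
    · left
      rw [pow_eq_zero_iff (by norm_num)] at h2
      rw [h2, add_zero] at h1
      exact_mod_cast h1
  · intro r hr hj
    have h3 : g ^ 2 = 2 ^ d' := by
      rw [hr, mul_comm, pow_mul]
      apply sq_eq_sq_iff_eq_or_eq_neg.mpr
      rcases hj with hj | hj
      · left; rw [hj] at h1; push_cast at h1; linarith
      · right; zify at hj; push_cast at h1; linarith
    split_ifs at h2 with hq
    · have h4 : k = 0 := by
        rw [h3] at h2
        push_cast at h2
        rw [← pow_add] at h2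
        have := pow_right_injective₀ (by norm_num) (by norm_num) h2
        omega
      have h5 := hne hq
      have : Nonempty (Fin d') := ⟨⟨0, by omega⟩⟩
      have h6 : H.B.orthogonal ⊤ = ⊥ := Submodule.finrank_eq_zero.mp h4
      refine H.isExtraspecial fun x hx => ?_
      rw [← Submodule.mem_bot (ZMod 2), ← h6]
      exact fun y _ => H.B_isRefl _ _ (hx y)
    · rw [h3] at h2
      exact absurd h2 (by positivity)

end Cfsg.Agent.S3772
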