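import Cfsg.Statements.S3773
import Cfsg.Agent.Fgs.QuadCount

set_option autoImplicit false
open Cfsg

namespace Cfsg.Agent.S3773

open CL.Fgs CL.Grp Subgroup
open scoped commutatorElement


/-- Let G be a finite 2-group of nilpotency class at most 2 and exponent dividing 4 in which the elements x with x² = 1 form a subgroup N. Then |G| ≤ |N|³, and |G| < |N|³ unless G is special. -/
theorem result {G : Type*} [Group G] [Finite G] (hG : IsPGroup 2 G) (hcl : (⊤ : Subgroup G).lowerCentralSeries 2 = ⊥) (hexp : ∀ x : G, x ^ 4 = 1) (hN : ∀ x y : G, x ^ 2 = 1 → y ^ 2 = 1 → (x * y) ^ 2 = 1) : Nat.card G ≤ Nat.card {x : G // x ^ 2 = 1} ^ 3 ∧ (¬ Cfsg.IsSpecial 2 G → Nat.card G < Nat.card {x : G // x ^ 2 = 1} ^ 3) := by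
  obtain ⟨hZ, hZ2⟩ := frattini_le_center_of_class_two hG hcl hexp
  let N : Subgroup G :=
    { carrier := {x | x ^ 2 = 1}
      one_mem' := one_pow 2
      mul_mem' := fun {a b} ha hb => hN a b ha hb
      inv_mem' := fun {a} ha => by rw [Set.mem_ofPred_eq, inv_pow, ha, inv_one] }
  change Nat.card G ≤ Nat.card N ^ 3 ∧ (_ → Nat.card G < Nat.card N ^ 3)
  have hFN : frattini G ≤ N := hZ2
  have h1 := card_mul_card_dvd_sq hZ le_rfl hZ2 (pow_mem_frattini hG) (commutatorElement_mem_frattini hG)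
  change _ ∣ (_ * Nat.card N) ^ 2 at h1
  obtain ⟨g, hg⟩ := IsPGroup.iff_card.1 hG
  obtain ⟨n, hn⟩ := IsPGroup.iff_card.1 (hG.to_subgroup N)
  obtain ⟨f, hf⟩ := IsPGroup.iff_card.1 (hG.to_subgroup (frattini G))
  obtain ⟨z, hz⟩ := IsPGroup.iff_card.1 (hG.to_subgroup (center G))
  have h2 := card_le_of_le hFN
  have h3 := card_le_of_le hZ
  rw [hf, hn, Nat.pow_le_pow_iff_right one_lt_two] at h2
  rw [hf, hz, Nat.pow_le_pow_iff_right one_lt_two] at h3
  rw [hg, hz, hf, hn, ← pow_add, ← pow_add, ← pow_mul, Nat.pow_dvd_pow_iff_le_right one_lt_two] at h1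
  rw [hg, hn, ← pow_mul, Nat.pow_le_pow_iff_right one_lt_two, Nat.pow_lt_pow_iff_right one_lt_two]
  refine ⟨by omega, fun hs => ?_⟩
  by_contra hlt
  have e1 : frattini G = center G := eq_of_le_of_card_ge hZ (by rw [hz, hf, show z = f by omega])
  have e2 : frattini G = N := eq_of_le_of_card_ge hFN (by rw [hn, hf, show n = f by omega])
  refine hs ⟨hG, e1, e1 ▸ le_antisymm (commutator_le_frattini hG) ?_⟩
  by_contra hc
  -- an index-two subgroup `M` of `Φ(G)` containing `G'`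
  have hlt' : (commutator G).subgroupOf (frattini G) ≠ ⊤ := fun e => hc (subgroupOf_eq_top.1 e)
  obtain ⟨M, -, hM1, hM2⟩ := exists_normal_index_eq_ge (hG.to_subgroup _) hlt'
  set L := M.map (frattini G).subtype with hL
  have hLF : L ≤ frattini G := map_subtype_le M
  have hDL : ∀ x y : G, ⁅x, y⁆ ∈ L := fun x y =>
    ⟨⟨_, commutatorElement_mem_frattini hG x y⟩, hM1 (comm_mem_commutator x y), rfl⟩
  have hmem : ∀ x : G, x ^ 2 ∈ L ↔ (⟨x ^ 2, pow_mem_frattini hG x⟩ : frattini G) ∈ M := fun x =>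
    mem_map_iff_mem (frattini G).subtype_injective (x := ⟨x ^ 2, pow_mem_frattini hG x⟩)
  have hmul : ∀ x y : G, (x * y) ^ 2 ∈ L ↔ (x ^ 2 ∈ L ↔ y ^ 2 ∈ L) := fun x y => by
    rw [mul_pow_of_central (hZ (hLF (hDL y x))), L.mul_mem_cancel_right (pow_mem (hDL y x) _), hmem, hmem,
      ← mul_mem_iff_of_index_two hM2]
    exact mem_map_iff_mem (frattini G).subtype_injective
      (x := ⟨x ^ 2, pow_mem_frattini hG x⟩ * ⟨y ^ 2, pow_mem_frattini hG y⟩)
  let K : Subgroup G :=
    { carrier := {x | x ^ 2 ∈ L}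
      one_mem' := by simp
      mul_mem' := fun {a b} ha hb => (hmul a b).2 (iff_of_true ha hb)
      inv_mem' := fun {a} ha => by rw [Set.mem_ofPred_eq, inv_pow]; exact inv_mem ha }
  have hLc : 2 * Nat.card L = 2 ^ f := by
    rw [card_map_of_injective (frattini G).subtype_injective, ← hf, ← M.index_mul_card, hM2]
  have hKi : K.index = 2 := by
    obtain ⟨t, ht⟩ : ∃ t : G, t ^ 2 ∉ L := by
      by_contra h
      push Not at h
      have := card_le_of_le ((frattini_le_iff_pGroup hG).2 ⟨commutator_le.2 fun x _ y _ => hDL x y, h⟩)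
      have := Nat.card_pos (α := L)
      omega
    refine index_eq_two_iff.2 ⟨t, fun b => ?_⟩
    change Xor ((b * t) ^ 2 ∈ L) (b ^ 2 ∈ L)
    rw [hmul]; unfold Xor; tauto
  have hNK : N ≤ K := fun x hx => by change x ^ 2 ∈ L; rw [(hx : x ^ 2 = 1)]; exact one_mem _
  have h5 := card_mul_card_dvd_sq (H := K) (Z := L.subgroupOf K) (B := N.subgroupOf K)
    (fun x hx => mem_center_iff.2 fun g => Subtype.ext (mem_center_iff.1 (hZ (hLF hx)) g))
    (fun x hx => mem_center_iff.2 fun g => Subtype.ext (mem_center_iff.1 (hZ (e2.ge hx)) g))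
    (fun x hx => Subtype.ext (hZ2 x (hLF hx))) (fun x => x.2) (fun x y => hDL x y)
  have h6 : Nat.card {x : K // x ^ 2 = 1} = Nat.card (N.subgroupOf K) :=
    Nat.card_congr (Equiv.subtypeEquivRight fun x => ⟨fun hx => congrArg Subtype.val hx, fun hx => Subtype.ext hx⟩)
  rw [h6, Nat.card_congr (subgroupOfEquivOfLe hNK).toEquiv,
    Nat.card_congr (subgroupOfEquivOfLe ((hLF.trans hFN).trans hNK)).toEquiv] at h5
  have h7 : 2 * Nat.card K = 2 ^ g := by rw [← hg, ← K.index_mul_card, hKi]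
  have h8 : 2 * (2 ^ g * 2 ^ n) ∣ (2 ^ f * 2 ^ n) ^ 2 := by
    rw [← h7, ← hLc, ← hn]
    have := Nat.mul_dvd_mul_left 4 h5
    convert this using 1 <;> ring
  rw [← pow_add, ← pow_succ', ← pow_add, ← pow_mul, Nat.pow_dvd_pow_iff_le_right one_lt_two] at h8
  omega

end Cfsg.Agent.S3773
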