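import Cfsg.Statements.S3774
import Cfsg.Agent.Grp.PGroupMaxClass

set_option autoImplicit false
open Cfsg

namespace Cfsg.Agent.S3774

open CL.Grp Subgroup


/-- Let G be a nontrivial finite 2-group whose automorphism group permutes the involutions of G transitively. Then every involution of G is central, so that the involutions together with 1 form the subgroup Ω₁(Z(G)), and if this subgroup has order q then |G| is a power of q. -/
theorem result {G : Type*} [Group G] [Finite G] [Nontrivial G] (hG : IsPGroup 2 G) (htrans : ∀ x y : G, x ≠ 1 → x ^ 2 = 1 → y ≠ 1 → y ^ 2 = 1 → ∃ a : MulAut G, a x = y) : (∀ x : G, x ^ 2 = 1 → x ∈ Subgroup.center G) ∧ ∃ m : ℕ, Nat.card G = Nat.card {z : G // z ^ 2 = 1} ^ m := by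
  classical
  obtain ⟨z, hz⟩ := exists_prime_orderOf_dvd_card' (G := center G) 2 (dvd_card_center hG)
  have hz1 : (z : G) ≠ 1 := fun h => by
    rw [← Subgroup.orderOf_coe, h, orderOf_one] at hz; exact absurd hz (by norm_num)
  have hz2 : (z : G) ^ 2 = 1 := by rw [← hz, ← Subgroup.orderOf_coe, pow_orderOf_eq_one]
  have hc : ∀ x : G, x ^ 2 = 1 → x ∈ center G := by
    intro x hx
    by_cases hx1 : x = 1
    · exact hx1 ▸ one_mem _
    obtain ⟨a, rfl⟩ := htrans z x hz1 hz2 hx1 hx
    exact mem_center_iff.2 fun g => by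
      rw [← a.apply_symm_apply g, ← map_mul, ← map_mul, mem_center_iff.1 z.2]
  refine ⟨hc, ?_⟩
  let Ω : Subgroup G :=
    { carrier := {x | x ^ 2 = 1}
      one_mem' := one_pow 2
      mul_mem' := fun {a b} ha hb => by
        have : Commute a b := (mem_center_iff.1 (hc b hb) a)
        rw [Set.mem_ofPred_eq, this.mul_pow, ha, hb, one_mul]
      inv_mem' := fun {a} ha => by rw [Set.mem_ofPred_eq, inv_pow, ha, inv_one] }
  obtain ⟨n, hn⟩ := IsPGroup.iff_card.1 (hG.to_subgroup Ω)
  obtain ⟨g, hg⟩ := IsPGroup.iff_card.1 hG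
  change ∃ m, Nat.card G = Nat.card Ω ^ m
  haveI := Fintype.ofFinite G
  let X : Finset G := Finset.univ.erase 1
  let I : Finset G := (Finset.univ.filter (· ∈ Ω)).erase 1
  have hX : X.card = 2 ^ g - 1 := by
    rw [Finset.card_erase_of_mem (Finset.mem_univ _), Finset.card_univ, ← Nat.card_eq_fintype_card, hg]
  have hI : I.card = 2 ^ n - 1 := by
    rw [Finset.card_erase_of_mem (by simp), ← hn, Nat.card_eq_fintype_card, Fintype.card_subtype]
  let f : G → G := fun x => x ^ (orderOf x / 2)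
  have hf : ∀ x ∈ X, f x ∈ I := by
    intro x hx
    have hx1 : x ≠ 1 := (Finset.mem_erase.1 hx).1
    obtain ⟨k, hk⟩ := IsPGroup.iff_orderOf.1 hG x
    have h2 : 2 ∣ orderOf x := by
      rw [hk]; refine dvd_pow_self 2 fun h => hx1 ?_
      rwa [h, pow_zero, orderOf_eq_one_iff] at hk
    refine Finset.mem_erase.2 ⟨?_, Finset.mem_filter.2 ⟨Finset.mem_univ _, ?_⟩⟩
    · exact pow_ne_one_of_lt_orderOf (by have := orderOf_pos x; omega) (by have := orderOf_pos x; omega)
    · change (x ^ (orderOf x / 2)) ^ 2 = 1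
      rw [← pow_mul, Nat.div_mul_cancel h2, pow_orderOf_eq_one]
  have hfa : ∀ (a : MulAut G) (x : G), f (a x) = a (f x) := fun a x => by
    simp only [f, MulEquiv.orderOf_eq, map_pow]
  have hfib : ∀ y ∈ I, (X.filter (f · = y)).card = (X.filter (f · = z)).card := by
    intro y hy
    obtain ⟨a, ha⟩ := htrans y z (Finset.mem_erase.1 hy).1
      (Finset.mem_filter.1 (Finset.mem_erase.1 hy).2).2 hz1 hz2
    refine Finset.card_bijective a a.bijective fun x => ?_
    simp only [X, Finset.mem_filter, Finset.mem_erase, Finset.mem_univ, and_true, hfa, ← ha,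
      EmbeddingLike.apply_eq_iff_eq, ne_eq, EmbeddingLike.map_eq_one_iff]
  have hsum := Finset.card_eq_sum_card_fiberwise hf
  rw [Finset.sum_congr rfl hfib, Finset.sum_const, smul_eq_mul, hX, hI] at hsum
  have h1 : Nat.gcd (2 ^ n - 1) (2 ^ g - 1) = 2 ^ n - 1 := Nat.gcd_eq_left ⟨_, hsum⟩
  rw [Nat.pow_sub_one_gcd_pow_sub_one] at h1
  have h2 : Nat.gcd n g = n := Nat.pow_right_injective le_rfl (by
    have := Nat.two_pow_pos (Nat.gcd n g); have := Nat.two_pow_pos n
    change 2 ^ _ = 2 ^ _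
    omega)
  obtain ⟨m, hm⟩ := h2 ▸ Nat.gcd_dvd_right n g
  exact ⟨m, by rw [hg, hn, hm, pow_mul]⟩

end Cfsg.Agent.S3774
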