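import Cfsg.Statements.S3775
import Cfsg.Agent.Grp.CoprimeAct

set_option autoImplicit false
open Cfsg

namespace Cfsg.Agent.S3775

section Helpers
open Subgroup CL.Grp

theorem exists_compl {V : Type*} [CommGroup V] [Finite V] {p n : ℕ} (hp : p.Prime)
    (hV : ∀ v : V, v ^ p ^ (n + 1) = 1) (U : Subgroup V)
    (hU : ∀ u ∈ U, u ^ p ^ n = 1 → ∃ v ∈ U, v ^ p = u) : ∃ W : Subgroup V, U ⊓ W = ⊥ ∧ U ⊔ W = ⊤ := by
  obtain ⟨W, hW, hmax⟩ := Finite.exists_le_maximal (p := fun W : Subgroup V => U ⊓ W = ⊥)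
    (a := ⊥) (inf_bot_eq U)
  refine ⟨W, hmax.prop, ?_⟩
  have key : ∀ a : V, a ^ p ∈ U ⊔ W → a ∈ U ⊔ W := by
    intro a ha
    obtain ⟨u, hu, w, hw, e⟩ := mem_sup.1 ha
    have h1 : u ^ p ^ n = 1 := by
      have h2 : u ^ p ^ n = (w ^ p ^ n)⁻¹ := by
        rw [eq_inv_iff_mul_eq_one, ← mul_pow, e, ← pow_mul, ← pow_succ', hV]
      exact mem_bot.1 (hmax.prop ▸ ⟨U.pow_mem hu _, h2 ▸ W.inv_mem (W.pow_mem hw _)⟩)
    obtain ⟨v, hv, rfl⟩ := hU u hu h1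
    have h2 : (a * v⁻¹) ^ p ∈ W := by
      rw [mul_pow, ← e, inv_pow, mul_comm, inv_mul_cancel_left]; exact hw
    by_contra hc
    have h3 : a * v⁻¹ ∉ U ⊔ W := fun h => hc (by simpa using mul_mem h (mem_sup_left hv))
    refine h3 (mem_sup_right (hmax.le_of_ge (y := W ⊔ zpowers (a * v⁻¹)) (eq_bot_iff.2 fun x hx => ?_)
      le_sup_left (mem_sup_right (mem_zpowers _))))
    obtain ⟨w', hw', _, ⟨k, rfl⟩, e'⟩ := mem_sup.1 hx.2
    by_cases hk : (p : ℤ) ∣ k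
    · obtain ⟨k, rfl⟩ := hk
      refine hmax.prop ▸ ⟨hx.1, e' ▸ mul_mem hw' ?_⟩
      simp only [zpow_mul, zpow_natCast]
      exact zpow_mem h2 _
    · exfalso
      obtain ⟨s, t, hst⟩ := (Nat.prime_iff_prime_int.1 hp).coprime_iff_not_dvd.2 hk
      have h4 : (a * v⁻¹) ^ k ∈ U ⊔ W := by
        have := mul_mem (inv_mem (mem_sup_right hw' : w' ∈ U ⊔ W)) (mem_sup_left hx.1)
        rwa [← e', inv_mul_cancel_left] at this
      refine h3 ?_
      rw [← zpow_one (a * v⁻¹), ← hst, zpow_add, mul_comm s, mul_comm t, zpow_mul, zpow_mul,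
        zpow_natCast]
      exact mul_mem (zpow_mem (mem_sup_right h2) _) (zpow_mem h4 _)
  refine top_le_iff.1 fun a _ => ?_
  have : ∀ k, a ^ p ^ k ∈ U ⊔ W → a ∈ U ⊔ W := fun k => by
    induction k with
    | zero => simp
    | succ k ih => exact fun h => ih (key _ (by rwa [← pow_mul, ← pow_succ]))
  exact this (n + 1) (by rw [hV]; exact one_mem _)

variable {X : Type*} [Group X] [Finite X] {p : ℕ}

theorem le_pow {V : Type*} [CommGroup V] [Finite V] [MulDistribMulAction X V] (hp : p.Prime)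
    (hX : (Nat.card X).Coprime (Nat.card V)) (K : Subgroup V) (hK : ∀ a : X, ∀ x ∈ K, a • x ∈ K)
    (hKt : K ≠ ⊤) (h : ∀ W : Subgroup V, (∀ a : X, ∀ x ∈ W, a • x ∈ W) → W ≠ ⊤ → W ≤ K) :
    ∀ x ∈ K, ∃ v, v ^ p = x := by
  let N : Subgroup V := (powMonoidHom p).range
  have hN : ∀ a : X, ∀ x ∈ N, a • x ∈ N := by
    rintro a _ ⟨v, rfl⟩
    exact ⟨a • v, (smul_pow' a v p).symm⟩
  letI := quotAction N hN
  obtain ⟨W, h1, h2⟩ := exists_compl (n := 0) hp (V := V ⧸ N) (fun v => by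
    obtain ⟨v, rfl⟩ := QuotientGroup.mk_surjective v
    rw [zero_add, pow_one, ← QuotientGroup.mk_pow, QuotientGroup.eq_one_iff]
    exact ⟨v, rfl⟩) (K.map (QuotientGroup.mk' N)) fun u _ hu => ⟨1, one_mem _, by
      rw [pow_zero, pow_one] at hu; rw [hu, one_pow]⟩
  obtain ⟨W, hW, h1, h2⟩ := act_exists_invariant_complement (A := X) (by
      rintro a _ ⟨x, hx, rfl⟩
      exact ⟨a • x, hK a x hx, rfl⟩)
    (hX.coprime_dvd_right ((card_subgroup_dvd_card _).trans (card_quotient_dvd_card N))) h1 h2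
  have h3 : W.comap (QuotientGroup.mk' N) = ⊤ := by
    by_contra hc
    have h4 := h _ (fun a x hx => hW a _ hx) hc
    have h5 : W ≤ K.map (QuotientGroup.mk' N) := fun w hw => by
      obtain ⟨w, rfl⟩ := QuotientGroup.mk_surjective w
      exact ⟨w, h4 hw, rfl⟩
    rw [sup_eq_left.2 h5] at h2
    refine hKt (top_le_iff.1 fun x _ => ?_)
    obtain ⟨y, hy, e⟩ : (x : V ⧸ N) ∈ K.map (QuotientGroup.mk' N) := h2 ▸ mem_top _
    have h6 : y⁻¹ * x ∈ K := h4 ((ker_le_comap _ W) (by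
      rw [QuotientGroup.ker_mk']; exact QuotientGroup.eq.1 e))
    have := mul_mem hy h6
    rwa [mul_inv_cancel_left] at this
  intro x hx
  have : (x : V ⧸ N) ∈ (⊥ : Subgroup (V ⧸ N)) := h1 ▸ ⟨⟨x, hx, rfl⟩, (h3.ge (mem_top x) :)⟩
  exact (QuotientGroup.eq_one_iff x).1 this

theorem irr_of_indec {A : Type*} [CommGroup A] [Finite A] [MulDistribMulAction X A] (hp : p.Prime)
    (hA : IsPGroup p A) (hX : (Nat.card X).Coprime (Nat.card A))
    (h : ∀ B C : Subgroup A, (∀ a : X, ∀ x ∈ B, a • x ∈ B) → (∀ a : X, ∀ x ∈ C, a • x ∈ C) →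
      B ⊓ C = ⊥ → B ⊔ C = ⊤ → B = ⊥ ∨ C = ⊥)
    (B : Subgroup A) (hB : ∀ a : X, ∀ x ∈ B, a • x ∈ B) (hBp : ∀ b ∈ B, b ^ p = 1) (hB1 : B ≠ ⊥)
    (a : A) (ha : a ^ p = 1) : a ∈ B := by
  classical
  haveI := Fact.mk hp
  have hex : ∃ n, ∀ v : A, v ^ p ^ n = 1 := by
    obtain ⟨n, hn⟩ := IsPGroup.iff_card.1 hA
    exact ⟨n, fun v => hn ▸ pow_card_eq_one'⟩
  obtain ⟨b, hb, hb1⟩ := (B.bot_or_exists_ne_one).resolve_left hB1
  obtain ⟨n, hn⟩ : ∃ n, Nat.find hex = n + 1 := Nat.exists_eq_succ_of_ne_zero fun e =>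
    hb1 (by simpa [e] using Nat.find_spec hex b)
  have hV : ∀ v : A, v ^ p ^ (n + 1) = 1 := hn ▸ Nat.find_spec hex
  have hV' : ¬ ∀ v : A, v ^ p ^ n = 1 := Nat.find_min hex (by omega)
  obtain ⟨U, -, hU⟩ := Finite.exists_le_minimal (p := fun U : Subgroup A =>
    (∀ a : X, ∀ x ∈ U, a • x ∈ U) ∧ ¬ ∀ v ∈ U, v ^ p ^ n = 1) (a := ⊤)
    ⟨fun _ _ _ => trivial, fun h => hV' fun v => h v trivial⟩
  have hU1 : ∀ u ∈ U, u ^ p ^ n = 1 → ∃ v ∈ U, v ^ p = u := by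
    intro u hu h1
    letI := subAction U hU.prop.1
    obtain ⟨v, hv⟩ := le_pow (X := X) (V := U) hp (hX.coprime_dvd_right (card_subgroup_dvd_card _))
      (powMonoidHom (p ^ n)).ker (fun a x hx => by
        change (a • x) ^ p ^ n = 1
        rw [← smul_pow', show x ^ p ^ n = 1 from hx, smul_one])
      (fun e => hU.prop.2 fun v hv => congrArg Subtype.val (e.ge (mem_top (⟨v, hv⟩ : U))))
      (fun W hW hWt x hx => by
        by_contra hc
        refine hWt (top_le_iff.1 fun y _ => ?_)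
        obtain ⟨z, hz, e⟩ := hU.le_of_le (y := W.map U.subtype) ⟨by
          rintro a _ ⟨x, hx, rfl⟩
          exact ⟨a • x, hW a x hx, rfl⟩, fun h => hc (Subtype.ext (h x ⟨x, hx, rfl⟩))⟩
          (map_subtype_le W) y.2
        rwa [← Subtype.ext (show (z : A) = y from e)]) ⟨u, hu⟩ (Subtype.ext h1)
    exact ⟨v, v.2, congrArg Subtype.val hv⟩
  obtain ⟨W, h1, h2⟩ := exists_compl hp hV U hU1
  obtain ⟨W, hW, h1, h2⟩ := act_exists_invariant_complement hU.prop.1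
    (hX.coprime_dvd_right (card_subgroup_dvd_card _)) h1 h2
  rcases h U W hU.prop.1 hW h1 h2 with h3 | h3
  · exact absurd (fun v hv => by rw [mem_bot.1 (h3.le hv), one_pow]) hU.prop.2
  rw [h3, sup_bot_eq] at h2
  subst h2
  have root : ∀ a : A, a ^ p = 1 → ∀ j ≤ n, ∃ c, c ^ p ^ j = a := fun a ha j => by
    induction j with
    | zero => exact fun _ => ⟨a, by simp⟩
    | succ j ih =>
      intro hj
      obtain ⟨c, rfl⟩ := ih (by omega)
      obtain ⟨d, -, rfl⟩ := hU1 c trivial (by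
        obtain ⟨k, rfl⟩ := Nat.exists_eq_add_of_le hj
        rw [pow_add, pow_mul, pow_succ, pow_mul, ha, one_pow])
      exact ⟨d, by rw [pow_succ', pow_mul]⟩
  obtain ⟨c, rfl⟩ := root a ha n le_rfl
  obtain ⟨d, rfl⟩ := root b (hBp b hb) n le_rfl
  have hd : d ∈ B.comap (powMonoidHom (p ^ n)) := hb
  have : c ∈ B.comap (powMonoidHom (p ^ n)) :=
    hU.le_of_le (y := B.comap (powMonoidHom (p ^ n))) ⟨fun a x hx => by
      change (a • x) ^ p ^ n ∈ B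
      rw [← smul_pow']; exact hB a _ hx, fun h => hb1 (h d hd)⟩ le_top (mem_top c)
  exact this

end Helpers

/-- Let A be a finite abelian p-group and X a group of automorphisms of A of order prime to p. Call a subgroup of A invariant when every element of X maps it onto itself. Then the following are equivalent: (i) A is not the direct product of two nontrivial invariant subgroups; (ii) every invariant subgroup of A is one of the subgroups Ω_i(A) = {a : a^(p^i) = 1}; (iii) the subgroup Ω₁(A) of elements of order dividing p has no invariant subgroups other than 1 and itself. -/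
theorem result {A : Type*} [CommGroup A] [Finite A] {p : ℕ} [Fact p.Prime] (hA : IsPGroup p A) (X : Subgroup (MulAut A)) (hX : (Nat.card X).Coprime p) : ((¬ ∃ B C : Subgroup A, B ≠ ⊥ ∧ C ≠ ⊥ ∧ (∀ x ∈ X, B.map x.toMonoidHom = B) ∧ (∀ x ∈ X, C.map x.toMonoidHom = C) ∧ B ⊓ C = ⊥ ∧ B ⊔ C = ⊤) ↔ (∀ B : Subgroup A, (∀ x ∈ X, B.map x.toMonoidHom = B) → ∃ i : ℕ, ∀ a : A, a ∈ B ↔ a ^ p ^ i = 1)) ∧ ((∀ B : Subgroup A, (∀ x ∈ X, B.map x.toMonoidHom = B) → ∃ i : ℕ, ∀ a : A, a ∈ B ↔ a ^ p ^ i = 1) ↔ (∀ B : Subgroup A, (∀ x ∈ X, B.map x.toMonoidHom = B) → (∀ b ∈ B, b ^ p = 1) → B = ⊥ ∨ ∀ a : A, a ∈ B ↔ a ^ p = 1)) := by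
  classical
  have hp : p.Prime := Fact.out
  have inv : ∀ B : Subgroup A, (∀ x ∈ X, B.map x.toMonoidHom = B) ↔ ∀ a : X, ∀ x ∈ B, a • x ∈ B :=
    fun B => ⟨fun h a x hx => (h a a.2).le ⟨x, hx, rfl⟩, fun h x hx =>
      CL.Grp.invariant_iff_smul_eq.1 h ⟨x, hx⟩⟩
  simp only [inv]
  have h23 : (∀ B : Subgroup A, (∀ a : X, ∀ x ∈ B, a • x ∈ B) → ∃ i : ℕ, ∀ a : A, a ∈ B ↔ a ^ p ^ i = 1) →
      (∀ B : Subgroup A, (∀ a : X, ∀ x ∈ B, a • x ∈ B) → (∀ b ∈ B, b ^ p = 1) →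
        B = ⊥ ∨ ∀ a : A, a ∈ B ↔ a ^ p = 1) := by
    intro h B hB hBp
    obtain ⟨_ | i, hi⟩ := h B hB
    · exact Or.inl (eq_bot_iff.2 fun a ha => by simpa using (hi a).1 ha)
    · exact Or.inr fun a => ⟨hBp a, fun ha => (hi a).2 (by rw [pow_succ', pow_mul, ha, one_pow])⟩
  have h32 : (∀ B : Subgroup A, (∀ a : X, ∀ x ∈ B, a • x ∈ B) → (∀ b ∈ B, b ^ p = 1) →
        B = ⊥ ∨ ∀ a : A, a ∈ B ↔ a ^ p = 1) →
      (∀ B : Subgroup A, (∀ a : X, ∀ x ∈ B, a • x ∈ B) → ∃ i : ℕ, ∀ a : A, a ∈ B ↔ a ^ p ^ i = 1) := by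
    intro h B hB
    have hex : ∃ n, ∀ v ∈ B, v ^ p ^ n = 1 := by
      obtain ⟨n, hn⟩ := IsPGroup.iff_card.1 hA
      exact ⟨n, fun v _ => hn ▸ pow_card_eq_one'⟩
    refine ⟨Nat.find hex, fun a => ⟨Nat.find_spec hex a, ?_⟩⟩
    rcases hn : Nat.find hex with _ | n
    · intro ha
      rw [pow_zero, pow_one] at ha
      rw [ha]; exact one_mem _
    have hV : ∀ v ∈ B, v ^ p ^ (n + 1) = 1 := hn ▸ Nat.find_spec hex
    have hV' : ¬ ∀ v ∈ B, v ^ p ^ n = 1 := Nat.find_min hex (by omega)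
    have h1 := (h (B.map (powMonoidHom (p ^ n))) (by
      rintro a _ ⟨x, hx, rfl⟩
      exact ⟨a • x, hB a x hx, (smul_pow' a x _).symm⟩) (by
      rintro _ ⟨x, hx, rfl⟩
      rw [powMonoidHom_apply, ← pow_mul, ← pow_succ, hV x hx])).resolve_left fun e =>
        hV' fun v hv => Subgroup.mem_bot.1 (e ▸ ⟨v, hv, rfl⟩)
    have : ∀ j ≤ n + 1, ∀ a : A, a ^ p ^ j = 1 → a ∈ B := fun j => by
      induction j with
      | zero => intro _ a ha; rw [pow_zero, pow_one] at ha; rw [ha]; exact one_mem _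
      | succ j ih =>
        intro hj a ha
        obtain ⟨b, hb, e⟩ := (h1 (a ^ p ^ j)).2 (by rw [← pow_mul, ← pow_succ, ha])
        obtain ⟨k, rfl⟩ := Nat.exists_eq_add_of_le' (show j ≤ n by omega)
        have := ih (by omega) (a * (b ^ p ^ k)⁻¹) (by
          rw [mul_pow, ← e, inv_pow, ← pow_mul, ← pow_add, powMonoidHom_apply, mul_inv_cancel])
        simpa using mul_mem this (pow_mem hb (p ^ k))
    exact this _ le_rfl a
  refine ⟨⟨fun h => h32 fun B hB hBp => ?_, ?_⟩, h23, h32⟩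
  · by_cases hB1 : B = ⊥
    · exact Or.inl hB1
    obtain ⟨n, hn⟩ := IsPGroup.iff_card.1 hA
    refine Or.inr fun a => ⟨hBp a, irr_of_indec hp hA (hn ▸ hX.pow_right n)
      (fun B C hB hC h1 h2 => ?_) B hB hBp hB1 a⟩
    by_contra hc
    push Not at hc
    exact h ⟨B, C, hc.1, hc.2, hB, hC, h1, h2⟩
  · rintro h ⟨B, C, hB1, hC1, hB, hC, h1, -⟩
    obtain ⟨i, hi⟩ := h B hB
    obtain ⟨j, hj⟩ := h C hC
    rcases le_total i j with hij | hij
    · obtain ⟨k, rfl⟩ := Nat.exists_eq_add_of_le hij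
      exact hB1 (h1 ▸ (inf_eq_left.2 fun a ha => (hj a).2 (by
        rw [pow_add, pow_mul, (hi a).1 ha, one_pow])).symm)
    · obtain ⟨k, rfl⟩ := Nat.exists_eq_add_of_le hij
      exact hC1 (h1 ▸ (inf_eq_right.2 fun a ha => (hi a).2 (by
        rw [pow_add, pow_mul, (hj a).1 ha, one_pow])).symm)

end Cfsg.Agent.S3775
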