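import Cfsg.Statements.S3777
import Cfsg.Agent.Fgs.Breadth

set_option autoImplicit false
open Cfsg

namespace Cfsg.Agent.S3777

/-- Vaughan-Lee's Theorem: if G is a finite p-group in which every conjugacy class has at most p^b elements (every element has centralizer of index at most p^b), then the derived subgroup of G has order at most p^(b(b+1)/2). -/
theorem result {G : Type*} [Group G] [Finite G] {p : ℕ} [Fact p.Prime] (hG : IsPGroup p G) (b : ℕ) (hb : ∀ x : G, (Subgroup.centralizer ({x} : Set G)).index ≤ p ^ b) : Nat.card (commutator G) ≤ p ^ (b * (b + 1) / 2) := by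
  have h := CL.Fgs.card_commutator_le_of_breadth hG hb
  rwa [Nat.choose_two_right, Nat.add_sub_cancel, mul_comm] at h

end Cfsg.Agent.S3777
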