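import Cfsg.Statements.S3778
import Cfsg.Agent.Fgs.ClassCount
import Cfsg.Agent.Grp.PGroupMaxClass

set_option autoImplicit false
open Cfsg

namespace Cfsg.Agent.S3778

open Subgroup
open scoped commutatorElement

/-- If G is a finite p-group in which every conjugacy class has at most p^b elements (every element has centralizer of index at most p^b), then G is abelian when b = 0, and when b ≥ 1 its nilpotency class c satisfies (c − 1)(p − 1) < bp, that is c < bp/(p − 1) + 1, and hence c ≤ 2b. -/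
theorem result {G : Type*} [Group G] [Finite G] {p : ℕ} [Fact p.Prime] (hG : IsPGroup p G) (b : ℕ) (hb : ∀ x : G, (Subgroup.centralizer ({x} : Set G)).index ≤ p ^ b) : ∃ c : ℕ, (⊤ : Subgroup G).lowerCentralSeries c = ⊥ ∧ (b ≠ 0 → (c - 1) * (p - 1) < b * p ∧ c ≤ 2 * b) ∧ (b = 0 → c ≤ 1) := by
  classical
  have hp : p.Prime := Fact.out
  have := hG.isNilpotent
  have := Fintype.ofFinite G
  set c := Group.nilpotencyClass G with hc
  refine ⟨c, Subgroup.lowerCentralSeries_nilpotencyClass, fun hb0 => ?_, fun hb0 => ?_⟩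
  swap
  · rw [Group.IsNilpotent.nilpotencyClass_le_one_iff, ← center_eq_top_iff, eq_top_iff]
    intro x _
    have := hb x
    rw [hb0, pow_zero] at this
    exact CL.Fgs.cs_eq_one_iff.1 (le_antisymm this (CL.Fgs.cs_pos x))
  let γ := (⊤ : Subgroup G).lowerCentralSeries
  let C : ℕ → Subgroup G := fun i =>
    (centralizer ((γ i).map (QuotientGroup.mk' (γ (i + 2))) : Set (G ⧸ γ (i + 2)))).comap (QuotientGroup.mk' _)
  let D : G → ℕ → Subgroup G := fun x j => (centralizer ({(x : G ⧸ γ j)} : Set (G ⧸ γ j))).comap (QuotientGroup.mk' _)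
  have hq : ∀ (j : ℕ) (g x : G), (g : G ⧸ γ j) * x = x * g ↔ ⁅g, x⁆ ∈ γ j := fun j g x => by
    rw [← commutatorElement_eq_one_iff_mul_comm, ← QuotientGroup.eq_one_iff]; rfl
  have hD : ∀ x j g, g ∈ D x j ↔ ⁅g, x⁆ ∈ γ j := fun x j g => by
    rw [← hq, ← mem_centralizer_singleton_iff]; rfl
  have hC : ∀ i x, x ∈ C i ↔ ∀ g ∈ γ i, ⁅g, x⁆ ∈ γ (i + 2) := fun i x =>
    ⟨fun h g hg => (hq _ g x).1 (h _ (mem_map_of_mem _ hg)), by rintro h _ ⟨g, hg, rfl⟩; exact (hq _ g x).2 (h g hg)⟩
  have h1 : ∀ x k, p ^ ((Finset.range k).filter fun i => x ∉ C i).card ∣ (D x (k + 1)).index := by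
    intro x k
    induction k with
    | zero => simp
    | succ k ih =>
      have hle : D x (k + 1 + 1) ≤ D x (k + 1) := fun g hg =>
        (hD _ _ _).2 (Subgroup.lowerCentralSeries_antitone _ (Nat.le_succ _) ((hD _ _ _).1 hg))
      rw [Finset.range_add_one, Finset.filter_insert]
      split_ifs with h
      · exact ih.trans (index_dvd_of_le hle)
      · rw [Finset.card_insert_of_notMem (by simp), pow_succ']
        refine (Nat.mul_dvd_mul_left p ih).trans (CL.Grp.mul_index_dvd_index_of_lt hG (lt_of_le_of_ne hle fun e => h ?_))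
        exact (hC _ _).2 fun g hg => (hD _ _ _).1 (e ▸ (hD _ _ _).2 (commutator_mem_commutator hg (mem_top x)))
  have h2 : ∀ x, ((Finset.range (c - 1)).filter fun i => x ∉ C i).card ≤ b := fun x => by
    rw [← Nat.pow_le_pow_iff_right hp.one_lt]
    refine (Nat.le_of_dvd (Nat.pos_of_ne_zero index_ne_zero_of_finite) (h1 x (c - 1))).trans
      ((index_antitone fun g hg => (hD _ _ _).2 ?_).trans (hb x))
    rw [commutatorElement_eq_one_iff_mul_comm.2 (mem_centralizer_singleton_iff.1 hg)]
    exact one_mem _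
  have h3 : ∀ i ∈ Finset.range (c - 1), (p - 1) * Nat.card G ≤ p * (Finset.univ.filter fun x => x ∉ C i).card := by
    intro i hi
    have hi' := Finset.mem_range.1 hi
    have h4 : C i < ⊤ := lt_top_iff_ne_top.2 fun e => (CL.Grp.lowerCentralSeries_succ_lt hG (j := i + 1) (by omega)).not_ge
      (commutator_le.2 fun g hg x _ => (hC _ _).1 (e ▸ mem_top x) g hg)
    have h5 := Nat.le_of_dvd Nat.card_pos (CL.Grp.mul_card_dvd_card_of_lt hG h4)
    have h6 := Finset.card_filter_add_card_filter_not (s := (Finset.univ : Finset G)) (fun x => x ∈ C i)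
    rw [← CL.Fgs.card_subgroup_eq_filter, Finset.card_univ, ← Nat.card_eq_fintype_card] at h6
    rw [card_top] at h5
    obtain ⟨q, rfl⟩ : ∃ q, p = q + 1 := ⟨p - 1, by have := hp.pos; omega⟩
    rw [Nat.add_sub_cancel]
    nlinarith
  have h4 : ∑ i ∈ Finset.range (c - 1), (Finset.univ.filter fun x => x ∉ C i).card
      = ∑ x : G, ((Finset.range (c - 1)).filter fun i => x ∉ C i).card := by
    simp only [Finset.card_filter]
    exact Finset.sum_comm
  have h5 : ∑ x : G, ((Finset.range (c - 1)).filter fun i => x ∉ C i).card < ∑ _x : G, b :=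
    Finset.sum_lt_sum (fun x _ => h2 x) ⟨1, Finset.mem_univ _, by simp [one_mem]; omega⟩
  have h6 := Finset.sum_le_sum h3
  rw [Finset.sum_const, Finset.card_range, smul_eq_mul, ← Finset.mul_sum, h4] at h6
  rw [Finset.sum_const, Finset.card_univ, smul_eq_mul, ← Nat.card_eq_fintype_card] at h5
  have h7 : (c - 1) * (p - 1) < b * p := by
    refine Nat.lt_of_mul_lt_mul_right (a := Nat.card G) ?_
    calc _ = (c - 1) * ((p - 1) * Nat.card G) := by ring
      _ ≤ _ := h6
      _ < p * (Nat.card G * b) := Nat.mul_lt_mul_of_pos_left h5 hp.pos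
      _ = _ := by ring
  refine ⟨h7, ?_⟩
  obtain ⟨q, rfl⟩ : ∃ q, p = q + 2 := ⟨p - 2, by have := hp.two_le; omega⟩
  by_contra hlt
  have h8 : 2 * b ≤ c - 1 := by omega
  rw [show q + 2 - 1 = q + 1 by omega] at h7
  nlinarith

end Cfsg.Agent.S3778
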