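import Cfsg.Statements.S3780
import Cfsg.Agent.Grp.PGroupFrattini

set_option autoImplicit false
open Cfsg

namespace Cfsg.Agent.S3780

open Subgroup
open scoped commutatorElement

/-- Let V be a finite abelian p-group and α an automorphism of V of order p whose fixed-point subgroup has order p^n. Then V can be generated by pn elements: some subset of V with at most pn elements generates V. -/
theorem result {V : Type*} [CommGroup V] [Finite V] {p : ℕ} [Fact p.Prime] (hV : IsPGroup p V) (α : MulAut V) (hα : orderOf α = p) (n : ℕ) (hfix : Nat.card {v : V // α v = v} = p ^ n) : ∃ S : Finset V, S.card ≤ p * n ∧ Subgroup.closure (S : Set V) = ⊤ := by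
  have hp : p.Prime := Fact.out
  let δ : V →* V := MonoidHom.mk' (fun v => α v * v⁻¹) fun a b => by
    rw [map_mul, mul_inv, mul_mul_mul_comm]
  let d : ℕ → Monoid.End V := fun k => (show Monoid.End V from δ) ^ k
  have h1 : ∀ k, Nat.card (d k).ker ≤ p ^ (n * k) := by
    intro k
    induction k with
    | zero =>
      rw [show (d 0).ker = ⊥ from (MonoidHom.ker_eq_bot_iff _).2 fun _ _ h => h, card_bot]
      exact le_rfl
    | succ k ih =>
      have e1 : Nat.card δ.ker = p ^ n := by
        rw [← hfix]
        exact Nat.card_congr (Equiv.subtypeEquivRight fun v => mul_inv_eq_one)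
      have e2 := CL.Grp.card_eq_relIndex_mul_card (inf_le_right : δ.ker ⊓ (d (k + 1)).ker ≤ _)
      rw [inf_relIndex_right, relIndex_ker] at e2
      rw [e2, mul_add, mul_one, pow_add]
      refine Nat.mul_le_mul ((card_le_of_le ?_).trans ih) (e1 ▸ card_le_of_le inf_le_left)
      rintro _ ⟨v, hv, rfl⟩
      exact (show d k (δ v) = d (k + 1) v by simp only [d, pow_succ]; rfl).trans hv
  let π : V →* V := powMonoidHom p
  have h2 : π.ker ≤ (d p).ker := fun v hv => by
    let a : AddMonoid.End (Additive V) := MonoidHom.toAdditive δ
    have ha : ∀ k (w : V), d k w = Additive.toMul ((a ^ k) (Additive.ofMul w)) := fun k => by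
      induction k with
      | zero => intro w; rfl
      | succ k ih => intro w; simp only [d, pow_succ]; exact ih _
    have hb : ∀ k (w : V), (α ^ k) w = Additive.toMul (((a + 1) ^ k) (Additive.ofMul w)) := fun k => by
      induction k with
      | zero => intro w; rfl
      | succ k ih =>
        intro w
        rw [pow_succ, pow_succ, MulAut.mul_apply, ih]
        exact congrArg (fun u => Additive.toMul (((a + 1) ^ k) (Additive.ofMul u))) (inv_mul_cancel_right (α w) w).symm
    obtain ⟨r, hr⟩ := (Commute.one_right a).exists_add_pow_prime_eq hp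
    have h3 := hb p v
    rw [← hα, pow_orderOf_eq_one, hα, hr, one_pow] at h3
    have h4 : ∀ s : AddMonoid.End (Additive V), ((p : AddMonoid.End (Additive V)) * s) (Additive.ofMul v) = 0 := fun s => by
      rw [(Nat.cast_commute p s).eq]
      change s (p • Additive.ofMul v) = 0
      rw [show p • Additive.ofMul v = 0 from hv, map_zero]
    change d p v = 1
    rw [ha]
    rw [mul_assoc, mul_assoc] at h3
    change v = Additive.toMul ((a ^ p) (Additive.ofMul v) + Additive.ofMul v
      + ((p : AddMonoid.End (Additive V)) * (a * (1 * r))) (Additive.ofMul v)) at h3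
    rw [h4, add_zero] at h3
    exact mul_right_cancel (h3.symm.trans (one_mul v).symm)
  obtain ⟨m, hm⟩ := hV.index (frattini V)
  obtain ⟨S, -, hS, hS'⟩ := CL.Grp.exists_finset_subset_closure_eq_top hV hm Set.univ closure_univ
  refine ⟨S, ?_, hS'⟩
  have h3 : π.range ≤ frattini V := by
    rintro _ ⟨x, rfl⟩
    exact CL.Grp.pow_mem_frattini hV x
  have h4 := index_antitone h3
  rw [index_range, hm] at h4
  rw [hS, mul_comm]
  exact (Nat.pow_le_pow_iff_right hp.one_lt).1 (h4.trans ((card_le_of_le h2).trans (h1 p)))

end Cfsg.Agent.S3780
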