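import Cfsg.Statements.S3781
import Cfsg.Agent.Grp.PGroupSCN
import Cfsg.Agent.Grp.PGroupMaxClass

set_option autoImplicit false
open Cfsg

namespace Cfsg.Agent.S3781

open Subgroup
open scoped commutatorElement

/-- Let G be a finite p-group and n ≥ 1, and write γ_1(G) = G, γ_{k+1}(G) = [γ_k(G), G], and likewise γ_k(N) for a subgroup N. Let N be a normal subgroup of G contained in γ_n(G). If i > 1 and γ_{i+1}(N) ≠ 1, then |γ_i(N) : γ_{i+1}(N)| ≥ p^n. -/
theorem result {G : Type*} [Group G] [Finite G] {p : ℕ} [Fact p.Prime] (hG : IsPGroup p G) (n : ℕ) (hn : 1 ≤ n) (N : Subgroup G) [N.Normal] (hN : N ≤ (⊤ : Subgroup G).lowerCentralSeries (n - 1)) (i : ℕ) (hi : 1 < i) (hne : N.lowerCentralSeries i ≠ ⊥) : p ^ n ≤ (N.lowerCentralSeries i).relIndex (N.lowerCentralSeries (i - 1)) := by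
  have hp : p.Prime := Fact.out
  obtain ⟨i, rfl⟩ : ∃ j, i = j + 1 := ⟨i - 1, by omega⟩
  obtain ⟨n, rfl⟩ : ∃ j, n = j + 1 := ⟨n - 1, by omega⟩
  rw [Nat.add_sub_cancel] at hN ⊢
  have hnorm : ∀ j, (N.lowerCentralSeries j).Normal := fun j => by
    induction j with
    | zero => exact ‹N.Normal›
    | succ j ih => rw [Subgroup.lowerCentralSeries_succ]; infer_instance
  have := hnorm i
  have := hnorm (i + 1)
  have := hG.isNilpotent
  set M := N.lowerCentralSeries i with hM
  set L := N.lowerCentralSeries (i + 1) with hL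
  have hLM : L ≤ M := Subgroup.lowerCentralSeries_antitone _ (Nat.le_succ i)
  obtain ⟨k, hk⟩ := IsPGroup.iff_card.1 (hG.to_subgroup L)
  obtain ⟨k, rfl⟩ : ∃ j, k = j + 1 := ⟨k - 1, by
    rcases k with _ | k
    exacts [absurd (card_eq_one.1 hk) hne, rfl]⟩
  obtain ⟨K, hK, hKL, hKc⟩ := CL.Grp.exists_normal_card_eq_pow_le hG L (b := k) (by rw [hk]; exact Nat.pow_le_pow_right hp.pos k.le_succ)
  obtain ⟨r, hr⟩ := (hG.to_subgroup M).index (L.subgroupOf M)
  by_contra hlt
  have hr' : r ≤ n := by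
    change ¬ _ ≤ (L.subgroupOf M).index at hlt
    rw [hr, Nat.pow_le_pow_iff_right hp.one_lt] at hlt
    omega
  let f := QuotientGroup.mk' K
  have hcard : Nat.card (M.map f) = p ^ (r + 1) := by
    rw [← relIndex_ker, QuotientGroup.ker_mk', ← relIndex_mul_relIndex K L M hKL hLM, pow_succ']
    congr 1
    have := CL.Grp.card_eq_relIndex_mul_card hKL
    rw [hk, hKc, pow_succ'] at this
    exact (Nat.eq_of_mul_eq_mul_right (pow_pos hp.pos k) this).symm
  have hup : ∀ (j : ℕ) (A : Subgroup (G ⧸ K)) [A.Normal], Nat.card A = p ^ j → A ≤ Subgroup.upperCentralSeries (G ⧸ K) j := by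
    intro j
    induction j with
    | zero => intro A _ h; rw [card_eq_one.1 h]; exact bot_le
    | succ j ih =>
      intro A _ h
      obtain ⟨B, x, hB, hc, rfl, -, -, hxc⟩ := CL.Grp.exists_normal_sup_zpowers_eq (hG.to_quotient K) A h
      exact sup_le ((ih B hc).trans (Subgroup.upperCentralSeries_mono _ j.le_succ))
        (zpowers_le.2 (Subgroup.mem_upperCentralSeries_succ_iff.2 fun y => ih B hc (hxc y)))
  have : (M.map f).Normal := Normal.map inferInstance f (QuotientGroup.mk'_surjective K)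
  have h1 := (hup _ _ hcard).trans (Subgroup.upperCentralSeries_mono _ (show r + 1 ≤ 0 + n + 1 by omega))
  have h2 : N.map f ≤ (⊤ : Subgroup (G ⧸ K)).lowerCentralSeries n := by
    rw [← map_top_of_surjective f (QuotientGroup.mk'_surjective K), ← Subgroup.map_lowerCentralSeries]
    exact map_mono hN
  have h3 := (commutator_mono h1 h2).trans (CL.Grp.commutator_upper_lower_le 0 n)
  rw [Subgroup.upperCentralSeries_zero, le_bot_iff, ← CL.Grp.commutator_le_iff_map_eq_bot] at h3
  have h4 := card_le_of_le (show L ≤ K from h3)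
  rw [hk, hKc, Nat.pow_le_pow_iff_right hp.one_lt] at h4
  omega

end Cfsg.Agent.S3781
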