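import Cfsg.Statements.S3785
import Cfsg.Agent.Fgs.MinAct

set_option autoImplicit false
open Cfsg

namespace Cfsg.Agent.S3785

open CL.Odd CL.Grp CL.Fgs Cfsg
open scoped Pointwise


/-- Let G be a finite solvable group whose Fitting subgroup F(G) has odd order. If an element g of G commutes with every element of prime order of F(G), then g ∈ F(G). -/
theorem result {G : Type*} [Group G] [Finite G] (hG : Group.IsSolvable G) (hodd : Odd (Nat.card (Cfsg.fittingSubgroup G))) (g : G) (hg : ∀ x ∈ Cfsg.fittingSubgroup G, (orderOf x).Prime → g * x = x * g) : g ∈ Cfsg.fittingSubgroup G := by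
  rw [← fittingOf_top] at hodd hg ⊢
  set F := fittingOf (⊤ : Subgroup G) with hF
  have hs : Group.IsSolvable (⊤ : Subgroup G) := inferInstance
  have hFn : F ⊴ ⊤ := fittingOf_normalIn ⊤
  have hFnil : Group.IsNilpotent F := fittingOf_isNilpotent ⊤
  set K := Subgroup.centralizer {x | x ∈ F ∧ (orderOf x).Prime} with hK
  have hKn : ⊤ ≤ N[K] := le_norm_iff.2 fun a _ y hy => Subgroup.mem_centralizer_iff.2 fun x hx => by
    have := Subgroup.mem_centralizer_iff.1 hy (a⁻¹ * x * a)
      ⟨conj_mem_of_norm' (hFn.norm trivial) hx.1, by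
        have e := CL.Odd.orderOf_conj a⁻¹ x
        rw [inv_inv] at e
        rw [e]; exact hx.2⟩
    calc x * (a * y * a⁻¹) = a * (a⁻¹ * x * a * y) * a⁻¹ := by group
      _ = a * y * a⁻¹ * x := by rw [this]; group
  have key : ∀ (π : Set ℕ) (A : Subgroup G), A ≤ K → IsPiSubgroup πᶜ A → A ≤ C[piCoreOf π F] := fun π A hA hπ => by
    have hle := piCoreOf_le π F
    refine coprime_nil_odd_faithful (le_top.trans (hFn.piCore π).norm)
      (coprime_card_of_pi_compl (piCoreOf_isPiSubgroup π F) hπ).symm (nil_of_le hFnil hle) (odd_of_le hodd hle)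
      fun x hx hxp => mem_cent.2 fun y hy => (Subgroup.mem_centralizer_iff.1 (hA hy) x ⟨hle hx, hxp⟩).symm
  have hKF : K ≤ F := le_of_forall_isPGroup fun p hp S hS hSp => by
    have := Fact.mk hp
    set L := K ⊓ C[piCoreOf {p}ᶜ F] with hL
    have hLn : L ⊴ ⊤ := NormalIn.inf_cent' ⟨le_top, hKn⟩ (hFn.piCore _).norm
    have hSL : S ≤ L := le_inf hS (key _ S hS (by rw [compl_compl]; exact isPiSubgroup_singleton_iff.2 hSp))
    refine hSL.trans ((nil_iff_le_fittingOf hLn).1 ?_)
    have hLs : Group.IsSolvable L := inferInstance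
    obtain ⟨P, hP⟩ := Hall.exists_hall (π := {p}) hLs
    obtain ⟨Q, hQ⟩ := Hall.exists_hall (π := {p}ᶜ) hLs
    have hQF : Q ≤ F := by
      refine le_trans (le_inf le_top ?_) (cent_sub_Fitting hs)
      rw [← hF, ← (nil_dp_piCoreOf {p} hFnil).sup_eq]
      exact le_cent_sup (key _ Q (hQ.1.trans inf_le_left) (Hall.pi hQ)) (hQ.1.trans inf_le_right)
    rw [← Hall.sup_eq hP hQ]
    refine nil_sup_of_cent (nil_of_isPGroup hp (isPiSubgroup_singleton_iff.1 (Hall.pi hP))) (nil_of_le hFnil hQF) ?_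
    exact cent_symm ((hP.1.trans inf_le_right).trans (cent_anti (nil_le_piCoreOf hFnil (Hall.pi hQ) hQF)))
  exact hKF (Subgroup.mem_centralizer_iff.2 fun x hx => (hg x hx.1 hx.2).symm)

end Cfsg.Agent.S3785
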