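import Cfsg.Statements.S3788
import Cfsg.Agent.Fgs.HHA

set_option autoImplicit false
open Cfsg

namespace Cfsg.Agent.S3788

/-- Let G be a finite p-soluble group, P a Sylow p-subgroup of G and A a cyclic normal subgroup of P. If p is odd, or if no section of G is isomorphic to the symmetric group of degree 4, then A ≤ O_{p',p}(G). -/
theorem result {G : Type*} [Group G] [Finite G] {p : ℕ} [Fact p.Prime] (hG : Cfsg.IsPSolvable p G) (P : Sylow p G) (A : Subgroup G) (hAP : A ≤ (P : Subgroup G)) (hAn : (P : Subgroup G) ≤ Subgroup.normalizer (A : Set G)) (hA : IsCyclic A) (h : p ≠ 2 ∨ ¬ Cfsg.Involves (Equiv.Perm (Fin 4)) G) : A ≤ Cfsg.pPrimePCore p G := by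
  obtain ⟨Γ, _, _, f, V, _, hf, hV, hr⟩ := CL.Fgs.HH.exists_red hG
  obtain ⟨a, rfl⟩ := (Subgroup.isCyclic_iff_exists_zpowers_eq_top A).1 hA
  obtain ⟨n, hn⟩ := P.isPGroup' ⟨a, hAP (Subgroup.mem_zpowers a)⟩
  rw [Subgroup.zpowers_le, ← hV]
  refine hr.cyclic_le (n := n) (by rw [← map_pow, show a ^ p ^ n = 1 from congrArg Subtype.val hn, map_one]) ?_
    (h.imp_right (mt fun e => CL.Loc.involves_trans e (CL.Loc.involves_of_surjective f hf)))
  rw [← MonoidHom.map_zpowers]
  exact (hr.le_sylow (P.mapSurjective hf)).trans ((Subgroup.map_mono hAn).trans (Subgroup.le_normalizer_map f))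

end Cfsg.Agent.S3788
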