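import Cfsg.Statements.S3791
import Cfsg.Agent.Loc.PLength
import Cfsg.Agent.Grp.MinNormal

set_option autoImplicit false
open Cfsg

namespace Cfsg.Agent.S3791

section Helpers
open Subgroup CL.Grp CL.Loc

universe u

theorem ds_add {G : Type*} [Group G] {N : Subgroup G} {a b : ℕ} (h1 : derivedSeries G a ≤ N)
    (h2 : derivedSeries N b = ⊥) : derivedSeries G (a + b) = ⊥ := by
  have : ∀ k, derivedSeries G (a + k) ≤ (derivedSeries N k).map N.subtype := by
    intro k
    induction k with
    | zero => rwa [derivedSeries_zero, ← MonoidHom.range_eq_map, range_subtype]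
    | succ k ih =>
      rw [← add_assoc, derivedSeries_succ, derivedSeries_succ, map_commutator]
      exact commutator_mono ih ih
  exact le_bot_iff.1 ((this b).trans (by rw [h2, Subgroup.map_bot]))

theorem ds_le {G : Type*} [Group G] {N : Subgroup G} [N.Normal] {k : ℕ}
    (h : derivedSeries (G ⧸ N) k = ⊥) : derivedSeries G k ≤ N := by
  rwa [← map_derivedSeries_eq (QuotientGroup.mk'_surjective N), Subgroup.map_eq_bot_iff,
    QuotientGroup.ker_mk'] at h

/-- the case distinction used in the induction -/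
theorem cases (G : Type*) [Group G] [Finite G] [Nontrivial G] [Group.IsSolvable G] :
    (∃ M N : Subgroup G, M.Normal ∧ N.Normal ∧ M ≠ ⊥ ∧ N ≠ ⊥ ∧ M ⊓ N = ⊥) ∨
      ∃ s : ℕ, s.Prime ∧ s ∣ Nat.card G ∧ pCore s G ≠ ⊥ ∧ pPrimePCore s G = pCore s G := by
  obtain ⟨N, s, hs, hN, hea⟩ := exists_isMinNormal_isElementaryAbelian G
  haveI := Fact.mk hs
  have := hN.normal
  have h1 := isPGroup_of_isElementaryAbelian hea
  by_cases h : pPrimeCore s G = ⊥
  · exact Or.inr ⟨s, hs, (h1.card_eq_or_dvd.resolve_left fun h => hN.ne_bot (card_eq_one.1 h)).trans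
      (card_subgroup_dvd_card N), fun e => hN.ne_bot (eq_bot_iff.2 (e ▸ le_pCore h1)),
      pPrimePCore_eq_pCore h⟩
  · exact Or.inl ⟨N, _, this, inferInstance, hN.ne_bot, h, inf_pPrimeCore_eq_bot h1⟩

theorem main {r : ℕ} (q : Fin r → ℕ) (hq : ∀ i, (q i).Prime) (d : Fin r → ℕ)
    (G : Type u) [Group G] [Finite G] : Group.IsSolvable G →
      (∀ s : ℕ, s.Prime → s ∣ Nat.card G → ∃ i, q i = s) →
      (∀ i, ∀ P : Sylow (q i) G, derivedSeries (P : Subgroup G) (d i) = ⊥) →
      ∀ l : Fin r → ℕ, (∀ i, PLengthLE (q i) (l i) G) → derivedSeries G (∑ i, d i * l i) = ⊥ := by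
  refine induction_on_card (P := fun G _ _ => Group.IsSolvable G →
      (∀ s : ℕ, s.Prime → s ∣ Nat.card G → ∃ i, q i = s) →
      (∀ i, ∀ P : Sylow (q i) G, derivedSeries (P : Subgroup G) (d i) = ⊥) →
      ∀ l : Fin r → ℕ, (∀ i, PLengthLE (q i) (l i) G) → derivedSeries G (∑ i, d i * l i) = ⊥) ?_ G
  intro G _ _ ih _ hc hd l hl
  have key : ∀ (N : Subgroup G) [N.Normal], N ≠ ⊥ → ∀ l : Fin r → ℕ,
      (∀ i, PLengthLE (q i) (l i) (G ⧸ N)) → derivedSeries G (∑ i, d i * l i) ≤ N := by
    intro N _ hN l hl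
    refine ds_le (ih _ (card_quotient_lt hN) inferInstance
      (fun s hs h => hc s hs (h.trans (card_quotient_dvd_card N))) (fun i P => ?_) l hl)
    haveI := Fact.mk (hq i)
    obtain ⟨Q, rfl⟩ := Sylow.mapSurjective_surjective (QuotientGroup.mk'_surjective N) (q i) P
    have := map_derivedSeries_eq ((QuotientGroup.mk' N).subgroupMap_surjective (Q : Subgroup G)) (d i)
    rw [hd, Subgroup.map_bot] at this
    exact this.symm
  rcases subsingleton_or_nontrivial G with h | h
  · exact Subsingleton.elim _ _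
  rcases cases G with ⟨M, N, _, _, hM, hN, h⟩ | ⟨s, hs, hsd, h1, h2⟩
  · exact eq_bot_iff.2 (h ▸ le_inf (key M hM l fun i => pLengthLE_quotient (hl i) M)
      (key N hN l fun i => pLengthLE_quotient (hl i) N))
  obtain ⟨i, rfl⟩ := hc s hs hsd
  haveI := Fact.mk hs
  obtain ⟨k, hk⟩ : ∃ k, l i = k + 1 := Nat.exists_eq_succ_of_ne_zero fun e =>
    hs.one_lt.ne' (Nat.eq_one_of_dvd_coprimes (pLengthLE_zero_iff.1 (e ▸ hl i)) hsd dvd_rfl)
  have h3 := key (pPrimePCore (q i) G) (h2 ▸ h1) (Function.update l i k) fun j => by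
    by_cases hj : j = i
    · subst hj
      rw [Function.update_self]
      exact pLengthLE_succ_iff.1 (hk ▸ hl j)
    · rw [Function.update_of_ne hj]
      exact pLengthLE_quotient (hl j) _
  obtain ⟨P⟩ : Nonempty (Sylow (q i) G) := inferInstance
  have h4 := ds_add (h3.trans (h2.le.trans (pCore_le_sylow P))) (hd i P)
  convert h4 using 2
  have e : ∑ j ∈ Finset.univ.erase i, d j * Function.update l i k j =
      ∑ j ∈ Finset.univ.erase i, d j * l j :=
    Finset.sum_congr rfl fun j hj => by rw [Function.update_of_ne (Finset.ne_of_mem_erase hj)]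
  rw [← Finset.add_sum_erase _ _ (Finset.mem_univ i), ← Finset.add_sum_erase _ _ (Finset.mem_univ i),
    Function.update_self, hk, e]
  ring

end Helpers

/-- The Hall–Higman bound on derived length: let G be a finite solvable group, let p₁, …, p_r be distinct primes that include every prime dividing the order of G, and suppose that for each i the Sylow p_i-subgroups of G have derived length at most d_i and G has p_i-length at most l_i. Then G has derived length at most Σ d_i l_i. -/
theorem result {G : Type*} [Group G] [Finite G] (hG : Group.IsSolvable G) (r : ℕ) (q : Fin r → ℕ) (hq : ∀ i, (q i).Prime) (hinj : Function.Injective q) (hcover : ∀ s : ℕ, s.Prime → s ∣ Nat.card G → ∃ i, q i = s) (d l : Fin r → ℕ) (hd : ∀ i, ∀ P : Subgroup G, (haveI := Fact.mk (hq i); ∃ S : Sylow (q i) G, (S : Subgroup G) = P) → derivedSeries ↥P (d i) = ⊥) (hl : ∀ i, Cfsg.PLengthLE (q i) (l i) G) : derivedSeries G (Finset.univ.sum fun i => d i * l i) = ⊥ := by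
  exact main q hq d G hG hcover (fun i P => hd i _ ⟨P, rfl⟩) l hl

end Cfsg.Agent.S3791
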