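import Cfsg.Statements.S3790
import Cfsg.Agent.S3791

set_option autoImplicit false
open Cfsg

namespace Cfsg.Agent.S3790

section Helpers
open Subgroup CL.Grp CL.Loc

universe u

variable {G : Type*} [Group G] {G' : Type*} [Group G'] {p : ℕ}

/-- generated by the `p`-elements of `H` -/
def gp (p : ℕ) (H : Subgroup G) : Subgroup G := Subgroup.closure {g | g ∈ H ∧ ∃ k, g ^ p ^ k = 1}

/-- generated by the `p'`-elements of `H` -/
def gq (p : ℕ) (H : Subgroup G) : Subgroup G := Subgroup.closure {g | g ∈ H ∧ (orderOf g).Coprime p}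

/-- the lower series -/
def low (p : ℕ) (G : Type*) [Group G] : ℕ → Subgroup G
  | 0 => gq p ⊤
  | k + 1 => gq p (gp p (low p G k))

theorem gp_le (H : Subgroup G) : gp p H ≤ H := (closure_le _).2 fun _ h => h.1

theorem gq_le (H : Subgroup G) : gq p H ≤ H := (closure_le _).2 fun _ h => h.1

theorem gp_map (f : G →* G') {H : Subgroup G} {K : Subgroup G'} (h : H ≤ K.comap f) :
    gp p H ≤ (gp p K).comap f := (closure_le _).2 fun g ⟨h1, k, h2⟩ =>
  subset_closure (k := {g | g ∈ K ∧ ∃ k, g ^ p ^ k = 1}) ⟨h h1, k, by rw [← map_pow, h2, map_one]⟩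

theorem gq_map (f : G →* G') {H : Subgroup G} {K : Subgroup G'} (h : H ≤ K.comap f) :
    gq p H ≤ (gq p K).comap f := (closure_le _).2 fun g ⟨h1, h2⟩ =>
  subset_closure (k := {g | g ∈ K ∧ (orderOf g).Coprime p})
    ⟨h h1, h2.coprime_dvd_left (orderOf_map_dvd f g)⟩

theorem low_map (f : G →* G') (k : ℕ) : low p G k ≤ (low p G' k).comap f := by
  induction k with
  | zero => exact gq_map f le_top
  | succ k ih => exact gq_map f (gp_map f ih)

theorem normal_of_conj {H : Subgroup G} (h : ∀ g, H ≤ H.comap (MulAut.conj g).toMonoidHom) :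
    H.Normal := ⟨fun _ hx g => h g hx⟩

theorem low_normal (k : ℕ) : (low p G k).Normal := normal_of_conj fun _ => low_map _ k

theorem low_anti : Antitone (low p G) :=
  antitone_nat_of_succ_le fun _ => (gq_le _).trans (gp_le _)

theorem low_eq_bot_of_isPGroup {k : ℕ} {N : Subgroup G} (hN : IsPGroup p N) (h : low p G k ≤ N) :
    low p G k = ⊥ := by
  obtain ⟨H, hH⟩ : ∃ H, low p G k = gq p H := by cases k <;> exact ⟨_, rfl⟩
  rw [hH] at h ⊢
  refine eq_bot_iff.2 ((closure_le _).2 fun g hg => ?_)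
  obtain ⟨a, ha⟩ := hN ⟨g, h (subset_closure hg)⟩
  exact orderOf_eq_one_iff.1 (Nat.eq_one_of_dvd_coprimes (hg.2.pow_right a) dvd_rfl
    (orderOf_dvd_of_pow_eq_one (congrArg Subtype.val ha)))

theorem low_succ_eq_bot {k : ℕ} {N : Subgroup G} (hN : (Nat.card N).Coprime p) (h : low p G k ≤ N) :
    low p G (k + 1) = ⊥ := by
  refine eq_bot_iff.2 ((gq_le _).trans ((closure_le _).2 fun g ⟨h1, a, ha⟩ => ?_))
  exact orderOf_eq_one_iff.1 (Nat.eq_one_of_dvd_coprimes (hN.pow_right a)
    (N.orderOf_dvd_natCard (h h1)) (orderOf_dvd_of_pow_eq_one ha))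

theorem isPGroup_map [Finite G] [hp : Fact p.Prime] (f : G →* G') {H : Subgroup G}
    (h : gq p H ≤ f.ker) : IsPGroup p (H.map f) := by
  rintro ⟨_, x, hx, rfl⟩
  obtain ⟨a, m, hm, e⟩ := Nat.exists_eq_pow_mul_and_not_dvd (orderOf_pos x).ne' p hp.out.ne_one
  refine ⟨a, Subtype.ext ?_⟩
  have : x ^ p ^ a ∈ f.ker := h (subset_closure ⟨pow_mem hx _,
    ((Nat.Prime.coprime_iff_not_dvd hp.out).2 hm).symm.coprime_dvd_left
      (orderOf_dvd_of_pow_eq_one (by rw [← pow_mul, ← e, pow_orderOf_eq_one]))⟩)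
  simpa using this

theorem coprime_map [Finite G] [hp : Fact p.Prime] (f : G →* G') {H : Subgroup G}
    (h : gp p H ≤ f.ker) : (Nat.card (H.map f)).Coprime p := by
  refine ((Nat.Prime.coprime_iff_not_dvd hp.out).2 fun hd => ?_).symm
  have : Finite (H.map f) := Finite.of_surjective _ (f.subgroupMap_surjective H)
  obtain ⟨⟨_, x, hx, rfl⟩, hy⟩ := exists_prime_orderOf_dvd_card' p hd
  obtain ⟨a, m, hm, e⟩ := Nat.exists_eq_pow_mul_and_not_dvd (orderOf_pos x).ne' p hp.out.ne_one
  have : x ^ m ∈ f.ker := h (subset_closure ⟨pow_mem hx _, a, by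
    rw [← pow_mul, mul_comm, ← e, pow_orderOf_eq_one]⟩)
  exact hm (hy ▸ orderOf_dvd_of_pow_eq_one (Subtype.ext (by simpa using this)))

theorem pLength_of_low [Finite G] [hp : Fact p.Prime] (k : ℕ) : ∀ (N : Subgroup G) [N.Normal],
    low p G k ≤ N → PLengthLE p (k + 1) (G ⧸ N) := by
  induction k with
  | zero =>
    intro N _ h
    have h1 := isPGroup_map (QuotientGroup.mk' N) (H := ⊤) (by rwa [QuotientGroup.ker_mk'])
    rw [map_top_of_surjective _ (QuotientGroup.mk'_surjective N)] at h1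
    rw [pLengthLE_one_iff, top_le_iff.1 ((le_pCore h1).trans pCore_le_pPrimePCore), index_top]
    exact Nat.coprime_one_left p
  | succ k ih =>
    intro N _ h
    have := low_normal (G := G) (p := p) k
    have : (gp p (low p G k)).Normal := normal_of_conj fun g => gp_map _ (low_map _ k)
    have h1 := isPGroup_map (QuotientGroup.mk' N) (H := gp p (low p G k))
      (by rwa [QuotientGroup.ker_mk'])
    rw [pLengthLE_succ_iff]
    let f := (QuotientGroup.mk' (pPrimePCore p (G ⧸ N))).comp (QuotientGroup.mk' N)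
    have hf : Function.Surjective f :=
      (QuotientGroup.mk'_surjective _).comp (QuotientGroup.mk'_surjective _)
    have h2 := coprime_map f (H := low p G k) (p := p) fun x hx =>
      (QuotientGroup.eq_one_iff _).2 (pCore_le_pPrimePCore (le_pCore h1 ⟨x, hx, rfl⟩))
    have : ((low p G k).map f).Normal := Normal.map inferInstance _ hf
    rw [pLengthLE_iff_of_coprime_ker (QuotientGroup.mk'_surjective ((low p G k).map f))
      (by rwa [QuotientGroup.ker_mk'])]
    refine pLengthLE_of_surjective (f := QuotientGroup.map _ _ f (le_comap_map _ _))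
      (fun y => ?_) (ih (low p G k) le_rfl)
    obtain ⟨y, rfl⟩ := QuotientGroup.mk_surjective y
    obtain ⟨y, rfl⟩ := hf y
    exact ⟨y, rfl⟩

theorem main [hp : Fact p.Prime] {r : ℕ} (q : Fin r → ℕ) (hq : ∀ i, (q i).Prime ∧ q i ≠ p)
    (G : Type u) [Group G] [Finite G] : Group.IsSolvable G →
      (∀ s : ℕ, s.Prime → s ∣ Nat.card G → s ≠ p → ∃ i, q i = s) →
      ∀ l : Fin r → ℕ, (∀ i, PLengthLE (q i) (l i) G) → low p G (∏ i, (1 + l i) - 1) = ⊥ := by
  refine induction_on_card (P := fun G _ _ => Group.IsSolvable G →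
      (∀ s : ℕ, s.Prime → s ∣ Nat.card G → s ≠ p → ∃ i, q i = s) →
      ∀ l : Fin r → ℕ, (∀ i, PLengthLE (q i) (l i) G) → low p G (∏ i, (1 + l i) - 1) = ⊥) ?_ G
  intro G _ _ ih _ hc l hl
  have key : ∀ (N : Subgroup G) [N.Normal], N ≠ ⊥ → ∀ l : Fin r → ℕ,
      (∀ i, PLengthLE (q i) (l i) (G ⧸ N)) → low p G (∏ i, (1 + l i) - 1) ≤ N := by
    intro N _ hN l hl
    have := low_map (p := p) (QuotientGroup.mk' N) (∏ i, (1 + l i) - 1)
    rwa [ih _ (card_quotient_lt hN) inferInstance
      (fun s hs h => hc s hs (h.trans (card_quotient_dvd_card N))) l hl, MonoidHom.comap_bot,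
      QuotientGroup.ker_mk'] at this
  rcases subsingleton_or_nontrivial G with h | h
  · exact Subsingleton.elim _ _
  rcases S3791.cases G with ⟨M, N, _, _, hM, hN, h⟩ | ⟨s, hs, hsd, h1, h2⟩
  · exact eq_bot_iff.2 (h ▸ le_inf (key M hM l fun i => pLengthLE_quotient (hl i) M)
      (key N hN l fun i => pLengthLE_quotient (hl i) N))
  by_cases hsp : s = p
  · subst hsp
    exact low_eq_bot_of_isPGroup (pCore_isPGroup s G) (key _ h1 l fun i => pLengthLE_quotient (hl i) _)
  obtain ⟨i, rfl⟩ := hc s hs hsd hsp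
  haveI := Fact.mk hs
  obtain ⟨k, hk⟩ : ∃ k, l i = k + 1 := Nat.exists_eq_succ_of_ne_zero fun e =>
    hs.one_lt.ne' (Nat.eq_one_of_dvd_coprimes (pLengthLE_zero_iff.1 (e ▸ hl i)) hsd dvd_rfl)
  have h3 := key (pPrimePCore (q i) G) (h2 ▸ h1) (Function.update l i k) fun j => by
    by_cases hj : j = i
    · subst hj
      rw [Function.update_self]
      exact pLengthLE_succ_iff.1 (hk ▸ hl j)
    · rw [Function.update_of_ne hj]
      exact pLengthLE_quotient (hl j) _
  have h4 := low_succ_eq_bot (coprime_card_of_isPGroup (pCore_isPGroup (q i) G)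
    ((Nat.coprime_primes hp.out hs).2 (Ne.symm hsp))) (h3.trans h2.le)
  refine eq_bot_iff.2 ((low_anti ?_).trans h4.le)
  have e : ∏ j ∈ Finset.univ.erase i, (1 + Function.update l i k j) =
      ∏ j ∈ Finset.univ.erase i, (1 + l j) :=
    Finset.prod_congr rfl fun j hj => by rw [Function.update_of_ne (Finset.ne_of_mem_erase hj)]
  rw [← Finset.mul_prod_erase _ _ (Finset.mem_univ i), ← Finset.mul_prod_erase _ _ (Finset.mem_univ i),
    Function.update_self, hk, e]
  have : 0 < ∏ j ∈ Finset.univ.erase i, (1 + l j) := Finset.prod_pos fun j _ => by omega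
  generalize ∏ j ∈ Finset.univ.erase i, (1 + l j) = m at this ⊢
  have : (1 + (k + 1)) * m = (1 + k) * m + m := by ring
  have : 0 < (1 + k) * m := by positivity
  omega

end Helpers

/-- Let G be a finite solvable group and p a prime. Suppose p₁, …, p_r are distinct primes, all different from p, that include every prime dividing the order of G other than p, and that G has p_i-length at most l_i for each i. Then G has p-length at most the product of the numbers 1 + l_i. -/
theorem result {G : Type*} [Group G] [Finite G] (hG : Group.IsSolvable G) (p : ℕ) [Fact p.Prime] (r : ℕ) (q : Fin r → ℕ) (hq : ∀ i, (q i).Prime ∧ q i ≠ p) (hinj : Function.Injective q) (hcover : ∀ s : ℕ, s.Prime → s ∣ Nat.card G → s ≠ p → ∃ i, q i = s) (l : Fin r → ℕ) (hl : ∀ i, Cfsg.PLengthLE (q i) (l i) G) : Cfsg.PLengthLE p (Finset.univ.prod fun i => 1 + l i) G := by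
  have h1 := pLength_of_low _ ⊥ (main q hq G hG hcover l hl).le
  rw [Nat.sub_add_cancel (Finset.prod_pos fun j _ => Nat.add_pos_left one_pos _)] at h1
  exact CL.Loc.pLengthLE_of_equiv QuotientGroup.quotientBot h1

end Cfsg.Agent.S3790
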