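import Cfsg.Statements.S3794
import Cfsg.Agent.Fgs.FitFpf

set_option autoImplicit false
open Cfsg

namespace Cfsg.Agent.S3794

/-- Let G be a finite solvable group with an automorphism σ satisfying σ⁴ = 1 and fixing only the identity. Then the derived subgroup G' is nilpotent. -/
theorem result {G : Type*} [Group G] [Finite G] (hG : Group.IsSolvable G) (σ : MulAut G) (hσ : σ ^ 4 = 1) (hfpf : ∀ g : G, σ g = g → g = 1) : Group.IsNilpotent (commutator G) := by
  have hx : CL.Grp.sdInr (MulAut G) G σ ^ 4 = 1 := by rw [← map_pow, hσ, map_one]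
  have := CL.Fgs.sdInl_range_normal (A := MulAut G) (K := G)
  have h := CL.Fgs.der_nil_of_fpf_four (CL.Fgs.sdInl_range_sol hG) hx (CL.Fgs.sd_inf_c1_eq_bot hfpf)
  rw [MonoidHom.range_eq_map, ← Subgroup.map_commutator] at h
  exact Group.nilpotent_of_mulEquiv (_h := h)
    (Subgroup.equivMapOfInjective _ _ (CL.Grp.sdInl_injective (A := MulAut G))).symm

end Cfsg.Agent.S3794
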