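import Cfsg.Statements.S3795
import Cfsg.Agent.Fgs.TowerD

set_option autoImplicit false
open Cfsg

namespace Cfsg.Agent.S3795

/-- Gross's Theorem: let G be a finite solvable group with an automorphism σ of order 2^n, n > 1, fixing only the identity. Then G has Fitting height at most 2n − 2: G has Fitting height at most m when there is a chain of normal subgroups 1 = F₀ ≤ F₁ ≤ ⋯ ≤ F_m = G with each F_{i+1}/F_i nilpotent. -/
theorem result {G : Type*} [Group G] [Finite G] (hG : Group.IsSolvable G) (σ : MulAut G) (n : ℕ) (hn : 1 < n) (hσ : orderOf σ = 2 ^ n) (hfpf : ∀ g : G, σ g = g → g = 1) : ∃ F : Fin ((2 * n - 2) + 1) → Subgroup G, F 0 = ⊥ ∧ F (Fin.last (2 * n - 2)) = ⊤ ∧ Monotone F ∧ (∀ i, (F i).Normal) ∧ ∀ i : Fin (2 * n - 2), ∃ k : ℕ, (F i.succ).lowerCentralSeries k ≤ F i.castSucc := by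
  obtain ⟨k, rfl⟩ : ∃ k, n = k + 2 := ⟨n - 2, by omega⟩
  have hx : CL.Grp.sdInr (MulAut G) G σ ^ 2 ^ (k + 2) = 1 := by rw [← map_pow, ← hσ, pow_orderOf_eq_one, map_one]
  have := CL.Fgs.sdInl_range_normal (A := MulAut G) (K := G)
  exact (CL.Fgs.fitLE_iff_range CL.Grp.sdInl_injective).2 (CL.Fgs.HH.gross_two k _ _ _
    (CL.Fgs.sdInl_range_sol hG) hx (hx ▸ one_mem _) (CL.Fgs.sd_inf_c1_eq_bot hfpf))

end Cfsg.Agent.S3795
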