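import Cfsg.Statements.S3796
import Cfsg.Agent.Fgs.TowerB

set_option autoImplicit false
open Cfsg

namespace Cfsg.Agent.S3796

/-- Ward's Theorem: let G be a finite solvable group and A an elementary abelian group of automorphisms of G of order p² (p a prime) with no non-identity common fixed point. Then G has Fitting height at most 2: G has Fitting height at most m when there is a chain of normal subgroups 1 = F₀ ≤ F₁ ≤ ⋯ ≤ F_m = G with each F_{i+1}/F_i nilpotent. -/
theorem result {G : Type*} [Group G] [Finite G] (hG : Group.IsSolvable G) {p : ℕ} (hp : p.Prime) (A : Subgroup (MulAut G)) (hA : Cfsg.IsElementaryAbelian p A) (hcard : Nat.card A = p ^ 2) (hfpf : ∀ g : G, (∀ a ∈ A, a g = g) → g = 1) : ∃ F : Fin (2 + 1) → Subgroup G, F 0 = ⊥ ∧ F (Fin.last 2) = ⊤ ∧ Monotone F ∧ (∀ i, (F i).Normal) ∧ ∀ i : Fin 2, ∃ k : ℕ, (F i.succ).lowerCentralSeries k ≤ F i.castSucc := by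
  have := CL.Fgs.sdInl_range_normal (A := A) (K := G)
  have hf := CL.Fgs.sd_inf_cent_eq_bot (A := A) (K := G) fun k hk => hfpf k fun a ha => hk ⟨a, ha⟩
  have hX : Nat.card (CL.Grp.sdInr A G).range = p ^ 2 := CL.Grp.card_range_sdInr.trans hcard
  have := Fact.mk hp
  exact (CL.Fgs.fitLE_iff_range CL.Grp.sdInl_injective).2 (CL.Fgs.HH.fit_two_of_fpf (CL.Fgs.sdInl_range_sol hG) hp hp
    (by rw [hX, sq]) (hX ▸ (CL.Fgs.coprime_of_inf_cent_eq_bot hp (IsPGroup.of_card hX)
      Subgroup.le_normalizer_of_normal hf).pow_left 2) hf)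

end Cfsg.Agent.S3796
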