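import Cfsg.Statements.S3797
import Cfsg.Agent.Fgs.TransInv3

set_option autoImplicit false
open Cfsg

namespace Cfsg.Agent.S3797

/-- Let G be a finite solvable group of even order whose Sylow 2-subgroups contain more than one involution, and suppose all involutions of G are conjugate. Then G has 2-length at most 1, and a Sylow 2-subgroup S of G is either homocyclic (a direct product of cyclic groups of one common order) or a non-abelian 2-group with more than one involution admitting a solvable group of automorphisms transitive on its involutions. -/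
theorem result {G : Type*} [Group G] [Finite G] (hG : Group.IsSolvable G) (heven : Even (Nat.card G)) (S : Sylow 2 G) (htwo : ∃ x y : G, x ∈ (S : Subgroup G) ∧ y ∈ (S : Subgroup G) ∧ x ≠ y ∧ x ≠ 1 ∧ x ^ 2 = 1 ∧ y ≠ 1 ∧ y ^ 2 = 1) (hconj : ∀ x y : G, x ≠ 1 → x ^ 2 = 1 → y ≠ 1 → y ^ 2 = 1 → IsConj x y) : Cfsg.PLengthLE 2 1 G ∧ ((∃ m r : ℕ, Nonempty (↥(S : Subgroup G) ≃* (Fin r → Multiplicative (ZMod (2 ^ m))))) ∨ (¬ IsMulCommutative (S : Subgroup G) ∧ ∃ Y : Subgroup (MulAut ↥(S : Subgroup G)), Group.IsSolvable Y ∧ ∀ x y : ↥(S : Subgroup G), x ≠ 1 → x ^ 2 = 1 → y ≠ 1 → y ^ 2 = 1 → ∃ a ∈ Y, a x = y)) := by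
  have h := CL.Fgs.index_pCore_quotient_coprime hG S htwo hconj
  have htr : ∀ x y : (S : Subgroup G), x ≠ 1 → x ^ 2 = 1 → y ≠ 1 → y ^ 2 = 1 →
      ∃ a ∈ (S : Subgroup G).normalizerMonoidHom.range, a x = y := fun x y h1 h2 h3 h4 => by
    obtain ⟨n, hn, e⟩ := CL.Fgs.exists_mem_norm_conj_of_index S h x.2 y.2 (hconj x y
      (fun e => h1 (Subtype.ext e)) (congrArg Subtype.val h2) (fun e => h3 (Subtype.ext e)) (congrArg Subtype.val h4))
    exact ⟨_, ⟨⟨n, hn⟩, rfl⟩, Subtype.ext e⟩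
  refine ⟨?_, ?_⟩
  · rw [CL.Loc.pLengthLE_iff_of_coprime_ker (QuotientGroup.mk'_surjective (pPrimeCore 2 G)) CL.Loc.coprime_ker_mk',
      CL.Loc.pLengthLE_one_iff, CL.Grp.pPrimePCore_eq_pCore (CL.Grp.pPrimeCore_quotient_pPrimeCore 2 G),
      Nat.coprime_comm, Nat.prime_two.coprime_iff_not_dvd]
    exact h
  by_cases hc : IsMulCommutative (S : Subgroup G)
  · left
    letI : CommGroup (S : Subgroup G) := { (inferInstance : Group (S : Subgroup G)) with mul_comm := hc.1.1 }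
    refine CL.Fgs.homocyclic_of_pow S.isPGroup' fun x y h1 h2 h4 n ⟨w, hw⟩ => ?_
    by_cases h3 : y = 1
    · exact ⟨1, by rw [one_pow, h3]⟩
    obtain ⟨a, -, e⟩ := htr x y h1 h2 h3 h4
    exact ⟨a w, by rw [← map_pow, hw, e]⟩
  · exact Or.inr ⟨hc, _, Group.isSolvable_of_surjective
      (MonoidHom.rangeRestrict_surjective (S : Subgroup G).normalizerMonoidHom), htr⟩

end Cfsg.Agent.S3797
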