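import Cfsg.Statements.S3799
import Cfsg.Agent.Even.XPar
import Cfsg.Agent.Grp.ExtraTwo

set_option autoImplicit false
open Cfsg

namespace Cfsg.Agent.S3799

open CL.Even CL.Grp Matrix in

/-- For every odd prime p and every n ≥ 1 there is an extraspecial p-group of order p^(1+2n) and exponent p; concretely, the general linear group of degree n + 2 over the field with p elements contains such a subgroup. -/
theorem result (p : ℕ) [Fact p.Prime] (hp : p ≠ 2) (n : ℕ) (hn : 1 ≤ n) : ∃ E : Subgroup (Matrix.GeneralLinearGroup (Fin (n + 2)) (ZMod p)), Cfsg.IsExtraspecial p ↥E ∧ Nat.card E = p ^ (1 + 2 * n) ∧ ∀ x ∈ E, x ^ p = 1 := by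
  let β : LinearMap.BilinForm (ZMod p) ((Fin n → ZMod p) × (Fin n → ZMod p)) :=
    LinearMap.mk₂ (ZMod p) (fun a b => a.1 ⬝ᵥ b.2) (by simp) (by simp) (by simp) (by simp)
  let ψ : HeisGrp β →* Matrix (Fin (n + 2)) (Fin (n + 2)) (ZMod p) :=
    { toFun := fun a => parMat a.s a.v.1 a.v.2 1
      map_one' := parMat_one
      map_mul' := fun a b => by
        rw [parMat_mul, vecMul_one, one_mulVec, one_mul, add_comm b.v.1]; rfl }
  have hψ : Function.Injective ψ.toHomUnits := fun a b h => by
    obtain ⟨h1, h2, h3, -⟩ := parMat_inj (congrArg Units.val h)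
    exact HeisGrp.equivProd.injective (Prod.ext (Prod.ext h2 h3) h1)
  have : Nonempty (Fin n) := ⟨⟨0, hn⟩⟩
  have hE : IsExtraspecial p (HeisGrp β) := (HeisGrp.heis β).isExtraspecial fun x hx => by
    simp only [HeisGrp.heis_B] at hx
    refine Prod.ext (funext fun i => ?_) (funext fun i => ?_)
    · simpa [β] using hx (0, Pi.single i 1)
    · simpa [β] using hx (Pi.single i 1, 0)
  refine ⟨ψ.toHomUnits.range, extra_of_mulEquiv hE (MonoidHom.ofInjective hψ), ?_, ?_⟩
  · rw [← Nat.card_congr (MonoidHom.ofInjective hψ).toEquiv, (HeisGrp.heis β).card_eq_pow]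
    simp [two_mul, add_comm]
  · rintro _ ⟨a, rfl⟩
    rw [← map_pow, show a ^ p = 1 from HeisGrp.equivProd.injective (Prod.ext ?_ ?_), map_one]
    · change (a ^ p).v = 0
      rw [HeisGrp.pow_v, ← Nat.cast_smul_eq_nsmul (ZMod p)]; simp
    · change (a ^ p).s = 0
      rw [HeisGrp.pow_s, (ZMod.natCast_eq_zero_iff _ _).mpr (prime_dvd_choose_two Fact.out hp)]; simp

end Cfsg.Agent.S3799
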