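import Cfsg.Statements.S3950
import Cfsg.Agent.Fgs.SchurCocycle
import Cfsg.Agent.S3979

set_option autoImplicit false
open Cfsg

namespace Cfsg.Agent.S3950

open scoped commutatorElement

/-- A finite abelian group has trivial Schur multiplier if and only if it is cyclic. -/
theorem result {G : Type*} [CommGroup G] [Finite G] : Cfsg.HasCyclicSchurMultiplier G 1 ↔ IsCyclic G := by
  refine ⟨fun h => ?_, fun _ => Cfsg.Agent.S3979.result⟩
  classical
  obtain ⟨ι, _, n, hn, ⟨e⟩⟩ := CommGroup.equiv_prod_multiplicative_zmod_of_finite G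
  by_cases hc : Pairwise (Function.onFun Nat.Coprime n)
  · let e' := ZMod.prodEquivPi n hc
    have : IsAddCyclic (∀ i, ZMod (n i)) := isAddCyclic_of_surjective e' e'.surjective
    exact isCyclic_of_surjective
      ((e.trans (MulEquiv.piMultiplicative _).symm).symm) (MulEquiv.surjective _)
  · exfalso
    simp only [Pairwise, Function.onFun, not_forall] at hc
    obtain ⟨i, j, hij, hc⟩ := hc
    obtain ⟨p, hp, hi, hj⟩ := Nat.Prime.not_coprime_iff_dvd.1 hc
    have : Fact p.Prime := ⟨hp⟩
    let f : ∀ k, p ∣ n k → G →* Multiplicative (ZMod p) := fun k hk =>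
      (AddMonoidHom.toMultiplicative (ZMod.castHom hk (ZMod p)).toAddMonoidHom).comp
        ((Pi.evalMonoidHom _ k).comp e.toMonoidHom)
    have hf : ∀ k hk g, f k hk g = Multiplicative.ofAdd (ZMod.castHom hk (ZMod p) (e g k).toAdd) :=
      fun k hk g => rfl
    let β : G →* G →* Multiplicative (ZMod p) :=
      { toFun := fun g =>
          { toFun := fun h => Multiplicative.ofAdd ((f i hi g).toAdd * (f j hj h).toAdd)
            map_one' := by simp
            map_mul' := fun a b => by simp [mul_add] }
        map_one' := by ext; simp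
        map_mul' := fun a b => by ext; simp [add_mul] }
    have hβ : ∀ g h, β g h = Multiplicative.ofAdd ((f i hi g).toAdd * (f j hj h).toAdd) :=
      fun g h => rfl
    let c := CL.Schur.biCocycle β
    have h1 := CL.Schur.ker_inf_eq_bot_of_trivial h c.proj c.proj_surjective c.ker_proj_le_center
    let x : G := e.symm (Pi.mulSingle i (Multiplicative.ofAdd 1))
    let y : G := e.symm (Pi.mulSingle j (Multiplicative.ofAdd 1))
    have h2 := c.commElt_of_commute (a := ⟨x, 1⟩) (b := ⟨y, 1⟩) (mul_comm _ _)
    have h3 : c.c x y * (c.c y x)⁻¹ = Multiplicative.ofAdd 1 := by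
      simp [c, hβ, hf, x, y, Pi.mulSingle_eq_of_ne hij, Pi.mulSingle_eq_of_ne hij.symm,
        ZMod.cast_one hi, ZMod.cast_one hj]
    have h4 : c.inl (Multiplicative.ofAdd 1) ∈ c.proj.ker ⊓ commutator c.Ext := by
      refine ⟨rfl, ?_⟩
      rw [← h3]
      exact h2 ▸ Subgroup.commutator_mem_commutator (Subgroup.mem_top _) (Subgroup.mem_top _)
    rw [h1, Subgroup.mem_bot, map_eq_one_iff _ c.inl_injective] at h4
    exact one_ne_zero (Multiplicative.ofAdd.injective h4)

end Cfsg.Agent.S3950
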