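import Cfsg.Statements.S3951
import Cfsg.Agent.Fgs.SchurMetacyclic

set_option autoImplicit false
open Cfsg

namespace Cfsg.Agent.S3951

/-- For positive integers `m` and `n` with `n` dividing `m`, the Schur multiplier of the abelian group `ZMod m × ZMod n` (written multiplicatively) is cyclic of order `n`. In particular the elementary abelian group of order `p ^ 2` has multiplier of order `p`. -/
theorem result (m n : ℕ) [NeZero m] [NeZero n] (hnm : n ∣ m) : Cfsg.HasCyclicSchurMultiplier (Multiplicative (ZMod m × ZMod n)) n := by
  have hm : 0 < m := Nat.pos_of_ne_zero (NeZero.ne m)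
  have hn : 0 < n := Nat.pos_of_ne_zero (NeZero.ne n)
  have h : CL.Schur.IsMC (Multiplicative.ofAdd ((1, 0) : ZMod m × ZMod n)) (Multiplicative.ofAdd (0, 1))
      m n (0 + 1) (m * 0 / Nat.gcd m 0) :=
    { pow_a := by rw [← ofAdd_nsmul]; simp
      pow_b := by rw [← ofAdd_nsmul]; simp
      conj := by simp
      gen := by
        rw [eq_top_iff]
        intro x _
        have : x = Multiplicative.ofAdd ((1, 0) : ZMod m × ZMod n) ^ x.toAdd.1.val *
            Multiplicative.ofAdd ((0, 1) : ZMod m × ZMod n) ^ x.toAdd.2.val := by
          rw [← ofAdd_nsmul, ← ofAdd_nsmul, ← ofAdd_add]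
          simp
        rw [this]
        exact mul_mem (pow_mem (Subgroup.subset_closure (by simp)) _)
          (pow_mem (Subgroup.subset_closure (by simp)) _) }
  have h2 := h.hasSM hm hn (by simp [mul_comm])
  simpa [Nat.gcd_eq_right hnm, Nat.mul_div_cancel_left _ hm] using h2

end Cfsg.Agent.S3951
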