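import Cfsg.Statements.S3952
import Cfsg.Agent.Fgs.SchurTransfer
import Cfsg.Agent.Fgs.SchurProj

set_option autoImplicit false
open Cfsg

namespace Cfsg.Agent.S3952

open scoped IsMulCommutative

/-- If `A` is the Schur multiplier of the finite group `Q`, then the square of the exponent of `A` divides the order of `Q`. -/
theorem result {Q : Type*} [Group Q] [Finite Q] {A : Type*} [CommGroup A] (hA : Cfsg.HasSchurMultiplier Q A) : Monoid.exponent A ^ 2 ∣ Nat.card Q := by
  have := CL.Schur.HasSM.finite_mult hA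
  have he : Monoid.exponent A ≠ 0 := Monoid.exponent_ne_zero_of_finite
  rw [← Nat.factorization_prime_le_iff_dvd (pow_ne_zero 2 he) Nat.card_pos.ne']
  intro p hp
  have : Fact p.Prime := ⟨hp⟩
  rw [Nat.factorization_pow, Finsupp.smul_apply, smul_eq_mul]
  obtain ⟨a, ha⟩ := hp.exists_orderOf_eq_pow_factorization_exponent A
  set k := (Monoid.exponent A).factorization p with hk
  rcases Nat.eq_zero_or_pos k with h0 | hpos
  · simp [h0]
  obtain ⟨P⟩ : Nonempty (Sylow p Q) := inferInstance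
  obtain ⟨B, _, _, hB⟩ := CL.Schur.exists_hasSchurMultiplier P
  obtain ⟨i, t, h⟩ := CL.Schur.exists_transfer (P : Subgroup Q) hA hB
  obtain ⟨Γ, _, _, σ, hσ, ⟨e⟩⟩ := hB.1
  have hcomm : IsMulCommutative σ.ker :=
    ⟨⟨fun a b => Subtype.ext ((Subgroup.mem_center_iff.1 (hσ.2.1 b.2) a))⟩⟩
  let x : σ.ker := e.symm (t a)
  obtain ⟨k', hk'⟩ : ∃ k', k = k' + 1 := ⟨k - 1, by omega⟩
  have hx : x ^ p ^ k' ≠ 1 := by
    intro hx
    have h1 : t (a ^ p ^ k') = 1 := by
      have := congrArg e hx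
      simpa [x] using this
    have h2 := h (a ^ p ^ k')
    rw [h1, map_one, ← pow_mul, eq_comm, ← orderOf_dvd_iff_pow_eq_one, ha, hk', pow_succ] at h2
    exact P.not_dvd_index (Nat.dvd_of_mul_dvd_mul_left (pow_pos hp.pos _) h2)
  obtain ⟨lam, hlam⟩ := CommGroup.exists_apply_ne_one_of_hasEnoughRootsOfUnity σ.ker ℂ hx
  have h3 : orderOf (lam x) = p ^ (k' + 1) := by
    apply orderOf_eq_prime_pow
    · rwa [← map_pow]
    · rw [← map_pow, ← map_pow, ← map_pow, ← hk', ← ha, pow_orderOf_eq_one, map_one, map_one, map_one]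
  have h4 := CL.Schur.orderOf_sq_le hσ lam x
  rw [h3, ← hk', P.card_eq_multiplicity, ← pow_mul, Nat.pow_le_pow_iff_right hp.one_lt] at h4
  omega

end Cfsg.Agent.S3952
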