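import Cfsg.Statements.S3953
import Cfsg.Agent.Fgs.SchurTransfer

set_option autoImplicit false
open Cfsg

namespace Cfsg.Agent.S3953

/-- Let `P` be a Sylow `p`-subgroup of the finite group `G`, let `A` be the Schur multiplier of `G` and `B` that of `P`. Then the `p`-primary component of `A` is isomorphic to a direct factor of `B`: there are subgroups `C` and `D` of `B` meeting trivially and generating `B`, with `C` isomorphic to the `p`-primary component of `A`. -/
theorem result {G : Type*} [Group G] [Finite G] (p : ℕ) [Fact p.Prime] (P : Sylow p G) {A B : Type*} [CommGroup A] [CommGroup B] (hA : Cfsg.HasSchurMultiplier G A) (hB : Cfsg.HasSchurMultiplier P B) : ∃ C D : Subgroup B, C ⊓ D = ⊥ ∧ C ⊔ D = ⊤ ∧ Nonempty (CommGroup.primaryComponent A p ≃* C) := by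
  have := CL.Schur.HasSM.finite_mult hB
  have := CL.Schur.HasSM.finite_mult hA
  obtain ⟨i, t, h⟩ := CL.Schur.exists_transfer (P : Subgroup G) hA hB
  have hB' : IsPGroup p B := CL.Schur.HasSM.isPGroup hB P.isPGroup'
  let Ap := CommGroup.primaryComponent A p
  have hAp : IsPGroup p Ap := CommGroup.primaryComponent.isPGroup
  have hcop : Nat.Coprime (Nat.card Ap) (P : Subgroup G).index := by
    obtain ⟨n, hn⟩ := IsPGroup.iff_card.1 hAp
    rw [hn]
    exact Nat.Coprime.pow_left n (((Fact.out : p.Prime).coprime_iff_not_dvd).2 P.not_dvd_index)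
  let t' : Ap →* B := t.comp Ap.subtype
  have hpow : ∀ a : Ap, i (t' a) = ((powCoprime hcop a : Ap) : A) := fun a => h a
  have ht' : Function.Injective t' := by
    intro a b hab
    apply (powCoprime hcop).injective
    apply Subtype.ext
    rw [← hpow, ← hpow, hab]
  refine ⟨t'.range, i.ker, ?_, ?_, ⟨MonoidHom.ofInjective ht'⟩⟩
  · rw [eq_bot_iff]
    rintro _ ⟨⟨a, rfl⟩, ha⟩
    have h1 : i (t' a) = 1 := ha
    rw [hpow] at h1
    have h2 : powCoprime hcop a = powCoprime hcop 1 := by
      rw [powCoprime_one]; exact Subtype.ext h1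
    rw [(powCoprime hcop).injective h2, map_one]
    exact Subgroup.one_mem _
  · rw [eq_top_iff]
    intro b _
    have h1 : i b ∈ Ap := by
      obtain ⟨k, hk⟩ := hB' b
      exact ⟨k, by rw [← map_pow, hk, map_one]⟩
    obtain ⟨a, ha⟩ := (powCoprime hcop).surjective ⟨i b, h1⟩
    have h2 : b = t' a * ((t' a)⁻¹ * b) := by simp
    rw [h2]
    refine Subgroup.mul_mem_sup ⟨a, rfl⟩ ?_
    rw [MonoidHom.mem_ker, map_mul, map_inv, hpow, ha, inv_mul_cancel]

end Cfsg.Agent.S3953
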