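import Cfsg.Statements.S3961
import Cfsg.Agent.Fgs.SchurCover2

set_option autoImplicit false
universe u v
open Cfsg

namespace Cfsg.Agent.S3961

/-- Let `π : G →* Q` be a surjective homomorphism with central kernel from a finite perfect group `G` (a perfect cover of `Q`). Then `π` is universal, in the sense that every surjective homomorphism `ξ : X →* Q` with central kernel from a group `X` in the universe of `G` admits a homomorphism `η : G →* X` with `ξ ∘ η = π`, if and only if `G` has trivial Schur multiplier. -/
theorem result {G : Type u} {Q : Type v} [Group G] [Group Q] [Finite G] (hG : Group.IsPerfect G) (π : G →* Q) (hπ : Function.Surjective π) (hker : π.ker ≤ Subgroup.center G) : (∀ (X : Type u) [Group X] (ξ : X →* Q), Function.Surjective ξ → ξ.ker ≤ Subgroup.center X → ∃ η : G →* X, ξ.comp η = π) ↔ Cfsg.HasCyclicSchurMultiplier G 1 := by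
  constructor
  · intro h
    apply CL.Schur.trivial_of_forall_stem
    intro Γ _ _ τ hτ
    have hΓ := CL.Schur.perfect_of_stem hτ hG
    obtain ⟨η, hη⟩ := h Γ (π.comp τ) (hπ.comp hτ.1)
      (CL.Schur.comp_ker_le_center hΓ hτ.2.1 hker)
    apply CL.Schur.ker_eq_bot_of_section hτ η
    exact CL.Schur.lift_unique_of_perfect hker hG _ _ hη
  · intro h X _ ξ hξ hc
    exact CL.Schur.exists_lift_of_perfect_trivial h hG π ξ hξ hc

end Cfsg.Agent.S3961
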