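import Cfsg.Statements.S3963
import Cfsg.Agent.Fgs.SchurMetacyclic

set_option autoImplicit false
open Cfsg

namespace Cfsg.Agent.S3963

/-- For every `n ≥ 1` the dicyclic (generalized quaternion) group of order `4 n` has trivial Schur multiplier. -/
theorem result (n : ℕ) [NeZero n] : Cfsg.HasCyclicSchurMultiplier (QuaternionGroup n) 1 := by
  have hn : 0 < n := Nat.pos_of_ne_zero (NeZero.ne n)
  obtain ⟨k, rfl⟩ : ∃ k, n = k + 1 := ⟨n - 1, by omega⟩
  have hg : Nat.gcd (2 * (k + 1)) (2 * k) = 2 := by
    rw [Nat.gcd_mul_left]; simp
  have h : CL.Schur.IsMC (QuaternionGroup.a 1 : QuaternionGroup (k + 1)) (QuaternionGroup.xa 0)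
      (2 * (k + 1)) 2 (2 * k + 1) (2 * (k + 1) * 1 / Nat.gcd (2 * (k + 1)) (2 * k)) :=
    { pow_a := by rw [QuaternionGroup.a_one_pow, ZMod.natCast_self, QuaternionGroup.one_def]
      pow_b := by
        rw [hg, QuaternionGroup.xa_sq, QuaternionGroup.a_one_pow]
        congr 2
        omega
      conj := by
        rw [mul_inv_eq_iff_eq_mul, QuaternionGroup.a_one_pow, QuaternionGroup.xa_mul_a,
          QuaternionGroup.a_mul_xa]
        congr 1
        have : ((2 * (k + 1) : ℕ) : ZMod (2 * (k + 1))) = 0 := ZMod.natCast_self _
        push_cast at this ⊢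
        linear_combination this
      gen := by
        rw [eq_top_iff]
        have ha : ∀ i, QuaternionGroup.a i ∈ Subgroup.closure
            ({QuaternionGroup.a 1, QuaternionGroup.xa 0} : Set (QuaternionGroup (k + 1))) := by
          intro i
          have : (QuaternionGroup.a i : QuaternionGroup (k + 1)) = QuaternionGroup.a 1 ^ i.val := by
            rw [QuaternionGroup.a_one_pow, ZMod.natCast_zmod_val]
          rw [this]
          exact pow_mem (Subgroup.subset_closure (by simp)) _
        rintro (i | i) _
        · exact ha i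
        · have : (QuaternionGroup.xa i : QuaternionGroup (k + 1)) =
              QuaternionGroup.xa 0 * QuaternionGroup.a i := by simp
          rw [this]
          exact mul_mem (Subgroup.subset_closure (by simp)) (ha i) }
  have h2 := h.hasSM (by omega) (by omega) (by
    rw [Nat.card_eq_fintype_card, QuaternionGroup.card]; ring)
  simpa using h2

end Cfsg.Agent.S3963
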