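import Cfsg.Statements.S3964
import Cfsg.Agent.Fgs.SchurDihedral

set_option autoImplicit false
open Cfsg

namespace Cfsg.Agent.S3964

/-- For odd `n` the dihedral group of order `2 n` has trivial Schur multiplier. -/
theorem result (n : ℕ) (hn : Odd n) : Cfsg.HasCyclicSchurMultiplier (DihedralGroup n) 1 := by
  have h := CL.Schur.hasSM_dihedral n hn.pos
  rwa [(Nat.coprime_two_right.2 hn).gcd_eq_one] at h

end Cfsg.Agent.S3964
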