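import Cfsg.Statements.S3966
import Cfsg.Agent.Fgs.SchurDihedral

set_option autoImplicit false
open Cfsg

namespace Cfsg.Agent.S3966

open scoped commutatorElement

/-- The natural map from the dicyclic group onto the dihedral group. -/
def qd (n : ℕ) : QuaternionGroup n →* DihedralGroup n :=
  MonoidHom.mk' (fun x => match x with
    | QuaternionGroup.a i => DihedralGroup.r (ZMod.castHom (dvd_mul_left n 2) (ZMod n) i)
    | QuaternionGroup.xa i => DihedralGroup.sr (ZMod.castHom (dvd_mul_left n 2) (ZMod n) i)) (by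
    rintro (i | i) (j | j) <;>
      simp only [QuaternionGroup.a_mul_a, QuaternionGroup.a_mul_xa, QuaternionGroup.xa_mul_a,
        QuaternionGroup.xa_mul_xa, DihedralGroup.r_mul_r, DihedralGroup.r_mul_sr,
        DihedralGroup.sr_mul_r, DihedralGroup.sr_mul_sr, map_add, map_sub, map_natCast,
        ZMod.natCast_self, zero_add])

theorem qd_a (n : ℕ) (i : ZMod (2 * n)) : qd n (QuaternionGroup.a i) =
  DihedralGroup.r (ZMod.castHom (dvd_mul_left n 2) (ZMod n) i) := rfl

theorem qd_xa (n : ℕ) (i : ZMod (2 * n)) : qd n (QuaternionGroup.xa i) =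
  DihedralGroup.sr (ZMod.castHom (dvd_mul_left n 2) (ZMod n) i) := rfl


/-- For even `n ≥ 2` the dicyclic group of order `4 n` is a stem extension of the dihedral group of order `2 n` with kernel of order `2`: there is a surjective homomorphism `QuaternionGroup n →* DihedralGroup n` whose kernel is central, lies in the commutator subgroup and has two elements. Together with the order of the multiplier this exhibits the dicyclic group as a Schur covering group of the dihedral group. -/
theorem result (n : ℕ) [NeZero n] (hn : Even n) : ∃ σ : QuaternionGroup n →* DihedralGroup n, Cfsg.IsStemExtension σ ∧ Nat.card σ.ker = 2 := by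
  have hn0 : 0 < n := Nat.pos_of_ne_zero (NeZero.ne n)
  have hs : Function.Surjective (qd n) := by
    rintro (i | i)
    · exact ⟨QuaternionGroup.a (i.val : ZMod (2 * n)), by
        rw [qd_a, map_natCast, ZMod.natCast_zmod_val]⟩
    · exact ⟨QuaternionGroup.xa (i.val : ZMod (2 * n)), by
        rw [qd_xa, map_natCast, ZMod.natCast_zmod_val]⟩
  have hk : ∀ x ∈ (qd n).ker, ∃ k : ℕ, x = QuaternionGroup.a ((n : ZMod (2 * n)) * (k : ZMod (2 * n))) := by
    rintro (i | i) hx
    · rw [MonoidHom.mem_ker, qd_a, DihedralGroup.one_def, DihedralGroup.r.injEq,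
        ← ZMod.natCast_zmod_val i, map_natCast, ZMod.natCast_eq_zero_iff] at hx
      obtain ⟨k, hk⟩ := hx
      exact ⟨k, by rw [← ZMod.natCast_zmod_val i, hk, Nat.cast_mul]⟩
    · rw [MonoidHom.mem_ker, qd_xa, DihedralGroup.one_def] at hx
      cases hx
  have h2n : ((2 * n : ℕ) : ZMod (2 * n)) = 0 := ZMod.natCast_self _
  have hc : Nat.card (qd n).ker = 2 := by
    have h1 := CL.Schur.card_eq_card_ker_mul hs
    rw [Nat.card_eq_fintype_card, QuaternionGroup.card, Nat.card_eq_fintype_card (α := DihedralGroup n),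
      DihedralGroup.card] at h1
    have : Nat.card (qd n).ker * (2 * n) = 2 * (2 * n) := by omega
    exact Nat.eq_of_mul_eq_mul_right (by omega) this
  refine ⟨qd n, ⟨hs, fun x hx => ?_, fun x hx => ?_⟩, hc⟩
  · obtain ⟨k, rfl⟩ := hk x hx
    rw [Subgroup.mem_center_iff]
    rintro (j | j)
    · simp [add_comm]
    · rw [QuaternionGroup.xa_mul_a, QuaternionGroup.a_mul_xa]
      congr 1
      push_cast at h2n
      linear_combination (k : ZMod (2 * n)) * h2n
  · obtain ⟨k, rfl⟩ := hk x hx
    obtain ⟨l, rfl⟩ := hn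
    have : (QuaternionGroup.a (((l + l : ℕ) : ZMod (2 * (l + l))) * (k : ZMod (2 * (l + l))))) =
        ⁅(QuaternionGroup.a ((l : ZMod (2 * (l + l))) * (k : ZMod (2 * (l + l))))), QuaternionGroup.xa 0⁆ := by
      rw [commutatorElement_def, eq_mul_inv_iff_mul_eq, eq_mul_inv_iff_mul_eq,
        QuaternionGroup.a_mul_xa, QuaternionGroup.a_mul_xa, QuaternionGroup.xa_mul_a]
      congr 1
      push_cast
      ring
    rw [this]
    exact Subgroup.commutator_mem_commutator (Subgroup.mem_top _) (Subgroup.mem_top _)

end Cfsg.Agent.S3966
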