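import Cfsg.Statements.S3967
import Cfsg.Agent.Fgs.SchurMetacyclic

set_option autoImplicit false
open Cfsg

namespace Cfsg.Agent.S3967

/-- Let `m, n ≥ 1`, `r ≥ 1` with `r ^ n ≡ 1 (mod m)`, and `l` a natural number; put `d = gcd(m, r - 1)`, `t = m l / d` and `h = d · gcd(m, 1 + r + ⋯ + r^(n-1)) / m`. The group presented by generators `a, b` and relations `a ^ m = 1`, `b ^ n = a ^ t`, `b a b⁻¹ = a ^ r` (a metacyclic group of order `m n`) has Schur multiplier cyclic of order `gcd(l, h)`. -/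
theorem result (m n r l : ℕ) (hm : 0 < m) (hn : 0 < n) (hr : 0 < r) (hrn : r ^ n ≡ 1 [MOD m]) : Cfsg.HasCyclicSchurMultiplier (PresentedGroup ({FreeGroup.of true ^ m, (FreeGroup.of false) ^ n * (FreeGroup.of true ^ (m * l / Nat.gcd m (r - 1)))⁻¹, FreeGroup.of false * FreeGroup.of true * (FreeGroup.of false)⁻¹ * (FreeGroup.of true ^ r)⁻¹} : Set (FreeGroup Bool))) (Nat.gcd l (Nat.gcd m (r - 1) * Nat.gcd m (∑ i ∈ Finset.range n, r ^ i) / m)) := by
  obtain ⟨r, rfl⟩ : ∃ r', r = r' + 1 := ⟨r - 1, by omega⟩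
  rw [Nat.add_sub_cancel]
  refine (CL.Schur.isMC_presented m n (r + 1) (m * l / Nat.gcd m r)).hasSM hm hn
    (CL.Schur.card_presented_mc hm hn hrn ?_)
  rw [mul_add, mul_one]
  apply (Nat.modEq_iff_dvd' (by omega)).2 _ |>.symm
  rw [Nat.add_sub_cancel]
  have hd : 0 < Nat.gcd m r := Nat.gcd_pos_of_pos_left _ hm
  obtain ⟨m₁, hm₁⟩ := Nat.gcd_dvd_left m r
  obtain ⟨r₁, hr₁⟩ := Nat.gcd_dvd_right m r
  set d := Nat.gcd m r
  have e3 : m * l / d = m₁ * l := Nat.div_eq_of_eq_mul_right hd (by rw [← mul_assoc, ← hm₁])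
  rw [e3, hm₁, hr₁]
  exact ⟨l * r₁, by ring⟩

end Cfsg.Agent.S3967
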