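import Cfsg.Statements.S3968
import Cfsg.Agent.Char.LinGrp1
import Cfsg.Agent.Char.Constituent

set_option autoImplicit false
open Cfsg

namespace Cfsg.Agent.S3968

/-- Let `p` be a prime and `G` a finite group with a faithful irreducible complex character of degree `p` (so `G` is an irreducible linear group in `p` variables). If `p ^ 2` divides the order of `G`, then the centre of `G` is nontrivial. -/
theorem result {G : Type*} [Group G] [Finite G] (p : ℕ) (hp : p.Prime) (χ : Cfsg.IrrCharacter G) (hdeg : χ.1 1 = p) (hfaith : ∀ g : G, χ.1 g = χ.1 1 → g = 1) (hdiv : p ^ 2 ∣ Nat.card G) : Subgroup.center G ≠ ⊥ := by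
  classical
  intro hZ
  haveI := Fact.mk hp
  haveI := Fintype.ofFinite G
  obtain ⟨P⟩ : Nonempty (Sylow p G) := inferInstance
  have hker : CL.Char.charKer χ.1 = ⊥ :=
    eq_bot_iff.mpr fun g hg => hfaith g (χ.2.mem_charKer.mp hg)
  have hcen : CL.Char.charCenter χ.1 = ⊥ := by rw [χ.2.charCenter_eq_center hker, hZ]
  have hP2 : p ^ 2 ∣ Nat.card (P : Subgroup G) := by
    rw [P.card_eq_multiplicity]
    exact pow_dvd_pow p ((hp.pow_dvd_iff_le_factorization Nat.card_pos.ne').mp hdiv)
  by_cases hab : ∀ a ∈ (P : Subgroup G), ∀ b ∈ (P : Subgroup G), a * b = b * a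
  · have hvan : ∀ x ∈ (P : Subgroup G), x ≠ 1 → χ.1 x = 0 := by
      intro x hx hx1
      obtain ⟨n, ρ, hρ, hχ⟩ := χ.2
      have hn : Module.finrank ℂ (Fin n → ℂ) = p := by
        rw [← hχ, ρ.char_one] at hdeg; exact_mod_cast hdeg
      have hle : (P : Subgroup G) ≤ Subgroup.centralizer ({x} : Set G) := fun y hy =>
        Subgroup.mem_centralizer_singleton_iff.mpr (hab y hy x hx)
      have h1 := CL.Char.char_eq_zero_or_norm_eq_of_coprime ρ x (by
        rw [hn, Nat.Prime.coprime_iff_not_dvd hp]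
        exact fun h => P.not_dvd_index (h.trans (Subgroup.index_dvd_of_le hle)))
      rw [hχ] at h1
      refine h1.resolve_right fun h2 => hx1 ?_
      have h3 : x ∈ CL.Char.charCenter χ.1 := by
        rw [χ.2.isCharacter.mem_charCenter, h2, hdeg, hn, Complex.norm_natCast]
      rwa [hcen, Subgroup.mem_bot] at h3
    have h1 := hP2.trans (CL.Char.card_dvd_degree_of_vanishing χ.2.isGeneralizedCharacter P hvan hdeg)
    have h2 := Nat.le_of_dvd hp.pos h1
    have := hp.one_lt
    nlinarith
  · -- the restriction to P is irreducible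
    have hres := χ.2.isCharacter.restrict (P : Subgroup G)
    have hnl : ∃ θ, IsIrrCharacter (P : Subgroup G) θ ∧
        classInner (fun x : (P : Subgroup G) => χ.1 x) θ ≠ 0 ∧ θ 1 ≠ 1 := by
      by_contra hcon
      push Not at hcon
      apply hab
      intro a ha b hb
      have h1 : (⟨a, ha⟩ * ⟨b, hb⟩ * (⟨a, ha⟩ : (P : Subgroup G))⁻¹ * (⟨b, hb⟩ : (P : Subgroup G))⁻¹) ∈
          CL.Char.charKer (fun x : (P : Subgroup G) => χ.1 x) := by
        rw [hres.mem_charKer_iff_forall]
        intro θ hθ hne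
        exact hθ.one_eq_one_iff.mp (hcon θ hθ hne)
          (Subgroup.commutator_mem_commutator (Subgroup.mem_top _) (Subgroup.mem_top _))
      have h2 := hfaith _ (hres.mem_charKer.mp h1)
      have h3 : a * b * a⁻¹ * b⁻¹ = 1 := h2
      rw [mul_inv_eq_one, mul_inv_eq_iff_eq_mul] at h3
      exact h3
    obtain ⟨θ, hθ, hne, hθ1⟩ := hnl
    obtain ⟨k, hk⟩ := P.isPGroup'.exists_card_eq
    have h1 := CL.Char.isIrr_degree_dvd_card hθ hθ.cast_charDegree.symm
    rw [hk] at h1
    obtain ⟨j, -, hj⟩ := (Nat.dvd_prime_pow hp).mp h1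
    have hj0 : j ≠ 0 := by
      rintro rfl
      exact hθ1 (hθ.isCharacter.charDegree_eq_one_iff.mp (by simpa using hj))
    have h2 : charDegree θ ≤ p := CL.Char.degree_le_of_classInner_ne_zero hres hθ hne hdeg
      hθ.cast_charDegree.symm
    have h3 : charDegree θ = p := le_antisymm h2 (by rw [hj]; exact Nat.le_self_pow hj0 p)
    have h4 : (fun x : (P : Subgroup G) => χ.1 x) = θ :=
      CL.Char.eq_of_classInner_ne_zero_of_one_eq hres hθ hne (by
        rw [← hθ.cast_charDegree, h3]; exact hdeg)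
    haveI : Nontrivial (P : Subgroup G) := by
      rw [← Finite.one_lt_card_iff_nontrivial]
      exact lt_of_lt_of_le (Nat.one_lt_pow two_ne_zero hp.one_lt) (Nat.le_of_dvd Nat.card_pos hP2)
    haveI := P.isPGroup'.center_nontrivial
    obtain ⟨⟨z, hz⟩, hz1⟩ := exists_ne (1 : Subgroup.center (P : Subgroup G))
    have h5 := hθ.isCharacter.mem_charCenter.mp (hθ.center_le_charCenter hz)
    rw [← h4] at h5
    have h6 : (z : G) ∈ CL.Char.charCenter χ.1 := χ.2.isCharacter.mem_charCenter.mpr h5
    rw [hcen, Subgroup.mem_bot] at h6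
    exact hz1 (Subtype.ext (Subtype.ext h6))

end Cfsg.Agent.S3968
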