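import Cfsg.Statements.S3970
import Cfsg.Agent.Fgs.NCompl

set_option autoImplicit false
open Cfsg

namespace Cfsg.Agent.S3970

open CL.Grp CL.Odd CL.Fgs in
theorem aux {G : Type*} [Group G] [Finite G] (n : ℕ) : ∀ H : Subgroup G, Nat.card H = n →
    (∀ p : ℕ, p.Prime → p ∣ Nat.card H → (∃ q : ℕ, q.Prime ∧ q ∣ Nat.card H ∧ p < q) →
      ∀ S : Subgroup G, IsSylowIn p S H → IsMulCommutative S ∧ (frattini S).index ∣ p ^ 2) →
    ¬ 12 ∣ Nat.card H → Group.IsSolvable H := by
  induction n using Nat.strong_induction_on with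
  | _ n ih =>
  intro H hn h h12
  by_cases h1 : Nat.card H = 1
  · rw [Subgroup.card_eq_one.1 h1]
    exact sol_of_abelian abelian_bot
  have hp := Nat.minFac_prime h1
  have hpd := Nat.minFac_dvd (Nat.card H)
  have hmin : ∀ q, q.Prime → q ∣ Nat.card H → (Nat.card H).minFac ≤ q := fun q hq hd =>
    Nat.minFac_le_of_dvd hq.two_le hd
  generalize (Nat.card H).minFac = p at hp hpd hmin
  have := Fact.mk hp
  obtain ⟨S, hS⟩ := exists_isSylowIn p H
  have h2 : PNilp p H := by
    by_cases e : ∃ q : ℕ, q.Prime ∧ q ∣ Nat.card H ∧ p < q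
    · obtain ⟨ha, hd⟩ := h p hp hpd e S hS
      obtain ⟨d, hd2, hd'⟩ := (Nat.dvd_prime_pow hp).1 hd
      refine nc_pnilp_of_abelian (d := d) hp hS ha hd'.dvd fun q hq hne hqd j h3 h4 h5 => ?_
      have hlt : p < q := lt_of_le_of_ne (hmin q hq hqd) hne.symm
      have h6 : ¬ q ∣ p - 1 := fun h6 => by
        have := Nat.le_of_dvd (Nat.sub_pos_of_lt hp.one_lt) h6
        omega
      obtain rfl | rfl : j = 1 ∨ j = 2 := by omega
      · exact h6 (by rwa [pow_one] at h5)
      · rw [show p ^ 2 - 1 = (p + 1) * (p - 1) by rw [← Nat.sq_sub_sq, one_pow]] at h5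
        have h7 := Nat.le_of_dvd (Nat.succ_pos p) ((hq.dvd_mul.1 h5).resolve_right h6)
        have h8 : q = p + 1 := by omega
        have h9 : p = 2 := by
          rcases hp.eq_two_or_odd' with e | e
          · exact e
          · have := (hq.even_iff).1 (h8 ▸ e.add_one)
            have := hp.two_le
            omega
        subst h9
        subst h8
        refine h12 (Nat.Coprime.mul_dvd_of_dvd_of_dvd (m := 4) (n := 3) (by norm_num) ?_ hqd)
        have h10 : d = 2 := by omega
        rw [h10] at hd'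
        exact (show 4 ∣ (frattini S).index from hd'.symm.dvd).trans
          ((Subgroup.index_dvd_card _).trans (Subgroup.card_dvd_of_le hS.le))
    · refine pnilp_of_isPGroup hp (isPiSubgroup_singleton_iff.1 fun q hq hd => ?_)
      by_contra hne
      exact e ⟨q, hq, hd, lt_of_le_of_ne (hmin q hq hd) (Ne.symm hne)⟩
  have hs := h2.sdp hp hS
  have hd := Subgroup.card_dvd_of_le hs.left_le
  refine hs.sol (ih _ ?_ _ rfl (fun r hr hrd ⟨q, hq, hqd, hlt⟩ T hT => ?_) fun e => h12 (e.trans hd))
    (sol_of_isPGroup hp hS.isPGroup)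
  · rw [← hn, ← hs.card]
    exact lt_mul_of_one_lt_right Nat.card_pos
      ((Subgroup.one_lt_card_iff_ne_bot _).2 (sylow_ne_bot hS hpd))
  · have := Fact.mk hr
    exact h r hr (hrd.trans hd) ⟨q, hq, hqd.trans hd, hlt⟩ T (sylow_of_hall hT h2 (Hall.pi h2 r hr hrd))

/-- Let `G` be a finite group such that for every prime `p` dividing its order, other than the largest such prime, the Sylow `p`-subgroups are abelian and generated by at most two elements, and suppose `12` does not divide the order of `G`. Then `G` is solvable. In particular a group of cube-free order not divisible by `12` is solvable. -/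
theorem result {G : Type*} [Group G] [Finite G] (h : ∀ p : ℕ, p.Prime → p ∣ Nat.card G → (∃ q : ℕ, q.Prime ∧ q ∣ Nat.card G ∧ p < q) → ∀ P : Sylow p G, IsMulCommutative (P : Subgroup G) ∧ Group.rank (P : Subgroup G) ≤ 2) (h12 : ¬ 12 ∣ Nat.card G) : Group.IsSolvable G := by
  have := aux _ (⊤ : Subgroup G) rfl (fun p hp hd hq S hS => by
    have := Fact.mk hp
    rw [Subgroup.card_top] at hd hq
    obtain ⟨P, rfl⟩ := CL.Grp.isSylowIn_top_iff.1 hS
    exact ⟨(h p hp hd hq P).1, CL.Fgs.nc_index_frattini_dvd hp P.isPGroup' (h p hp hd hq P).2⟩)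
    (by rwa [Subgroup.card_top])
  exact Group.isSolvable_of_surjective (f := (⊤ : Subgroup G).subtype) fun x => ⟨⟨x, trivial⟩, rfl⟩

end Cfsg.Agent.S3970
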