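import Cfsg.Statements.S3971
import Cfsg.Agent.Fgs.NCompl
import Cfsg.Agent.Fgs.Metacyclic

set_option autoImplicit false
open Cfsg

namespace Cfsg.Agent.S3971

/-- Let `G` be a finite group of order `2 ^ a * n` with `n` odd and not divisible by `3`, and suppose `G` has an element of order `2 ^ (a - 1)` (so a Sylow `2`-subgroup has a cyclic subgroup of index at most `2`). Then `G` has a normal subgroup of order `n`. -/
theorem result {G : Type*} [Group G] [Finite G] (a n : ℕ) (hG : Nat.card G = 2 ^ a * n) (hn : Odd n) (h3 : ¬ 3 ∣ n) (hx : ∃ x : G, orderOf x = 2 ^ (a - 1)) : ∃ N : Subgroup G, N.Normal ∧ Nat.card N = n := by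
  obtain ⟨x, hx⟩ := hx
  have hxp : IsPGroup 2 (Subgroup.zpowers x) := IsPGroup.of_card ((Nat.card_zpowers x).trans hx)
  obtain ⟨S, hS⟩ := hxp.exists_le_sylow
  have hcard : ∀ T : Sylow 2 G, Nat.card T = 2 ^ a := fun T => by
    rw [T.card_eq_multiplicity, hG, Nat.factorization_mul (by positivity) hn.pos.ne',
      Nat.Prime.factorization_pow Nat.prime_two, Finsupp.add_apply, Finsupp.single_eq_same,
      Nat.factorization_eq_zero_of_not_dvd hn.not_two_dvd_nat, add_zero]
  have hm : IsMetacyclic S := by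
    let N : Subgroup S := (Subgroup.zpowers x).subgroupOf S
    have h1 : N.index ∣ 2 := by
      have h2 := N.card_mul_index
      rw [CL.Grp.card_subgroupOf_of_le hS, Nat.card_zpowers, hx, hcard] at h2
      rcases a with _ | a
      · rw [Nat.eq_one_of_mul_eq_one_left h2]
        exact one_dvd _
      · rw [Nat.add_sub_cancel, pow_succ] at h2
        exact (Nat.eq_of_mul_eq_mul_left (by positivity) h2).dvd
    have h2 : N.Normal := by
      rcases (Nat.dvd_prime Nat.prime_two).1 h1 with e | e
      · rw [Subgroup.index_eq_one.1 e]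
        infer_instance
      · exact Subgroup.normal_of_index_eq_two e
    exact ⟨N, h2, isCyclic_of_injective (Subgroup.subgroupOfEquivOfLe hS).toMonoidHom
      (Subgroup.subgroupOfEquivOfLe hS).injective, isCyclic_of_card_dvd_prime h1⟩
  have h : HasNormalPComplement 2 G := by
    by_contra hn'
    obtain ⟨Q, hQ, q, k, g, hq, hne, ho, hg, hc⟩ := CL.Grp.exists_primePow_not_mem_centralizer S hn'
    have hQp : IsPGroup 2 Q := S.isPGroup'.to_le hQ
    have hm : IsMetacyclic Q := CL.Fgs.mc_of_injective hm _ (Subgroup.inclusion_injective hQ)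
    obtain ⟨j, h1, h2, h4⟩ := CL.Fgs.nc_dvd_of_not_cent (d := 2) Nat.prime_two hq hne hQp
      (CL.Fgs.mc_index_dvd hm _ (CL.Grp.pow_mem_frattini hQp)) ho hg hc
    obtain rfl | rfl : j = 1 ∨ j = 2 := by omega
    · exact hq.one_lt.ne' (Nat.dvd_one.1 h4)
    · obtain rfl : q = 3 := (Nat.prime_dvd_prime_iff_eq hq Nat.prime_three).1 h4
      have hk : k ≠ 0 := by
        rintro rfl
        rw [pow_zero, orderOf_eq_one_iff] at ho
        exact hc (ho ▸ one_mem _)
      have h5 : 3 ∣ 2 ^ a * n := by
        rw [← hG]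
        exact (dvd_pow_self 3 hk).trans (ho ▸ orderOf_dvd_natCard g)
      exact h3 ((Nat.Coprime.pow_right a (by norm_num)).dvd_of_dvd_mul_left h5)
  obtain ⟨T, N, hN, hc⟩ := h
  refine ⟨N, hN, ?_⟩
  have := hc.card_mul
  rw [hG, hcard, mul_comm] at this
  exact Nat.eq_of_mul_eq_mul_left (by positivity) this

end Cfsg.Agent.S3971
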