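import Cfsg.Statements.S3972
import Cfsg.Agent.Perm.SRingCyc

set_option autoImplicit false
open Cfsg

namespace Cfsg.Agent.S3972

open scoped Pointwise

theorem mem_zpowers_of_mem {G : Type*} [Group G] [Finite G] {p m : ℕ} (hp : p.Prime) (hm : 1 ≤ m)
    {g : G} (hg : orderOf g = p ^ m) {c : G} (hc : c ∈ Subgroup.zpowers g) (hc1 : c ≠ 1) :
    g ^ p ^ (m - 1) ∈ Subgroup.zpowers c := by
  classical
  have : Fact p.Prime := ⟨hp⟩
  let : CommGroup (Subgroup.zpowers g) := IsCyclic.commGroup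
  have := Fintype.ofFinite (Subgroup.zpowers g)
  obtain ⟨j, hj, h1⟩ := (Nat.dvd_prime_pow hp).1 (hg ▸ orderOf_dvd_of_mem_zpowers hc)
  have hj0 : j ≠ 0 := by
    rintro rfl
    exact hc1 (orderOf_eq_one_iff.1 h1)
  have key : ∀ (x : G) (i : ℕ), i ≠ 0 → orderOf x = p ^ i → orderOf (x ^ p ^ (i - 1)) = p := by
    intro x i hi hx
    obtain ⟨i, rfl⟩ := Nat.exists_eq_succ_of_ne_zero hi
    rw [orderOf_pow, hx, Nat.succ_sub_one, pow_succ, Nat.gcd_mul_right_left,
      Nat.mul_div_cancel_left _ (pow_pos hp.pos _)]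
  obtain ⟨q, -, -, h2⟩ := CL.Perm.exists_prime_pow_eq_of_orderOf_eq (C := Subgroup.zpowers g)
    (c := ⟨c ^ p ^ (j - 1), Subgroup.pow_mem _ hc _⟩)
    (d := ⟨g ^ p ^ (m - 1), Subgroup.npow_mem_zpowers _ _⟩)
    (by rw [Subgroup.orderOf_mk, Subgroup.orderOf_mk, key c j hj0 h1, key g m (by omega) hg]) 0
  have h3 : (c ^ p ^ (j - 1)) ^ q = g ^ p ^ (m - 1) := congrArg Subtype.val h2
  rw [← h3, ← pow_mul]
  exact Subgroup.npow_mem_zpowers _ _

/-- Let `p` be a prime, `m ≥ 2`, and `G` a transitive but not doubly transitive permutation group on `p ^ m` points containing a permutation of order `p ^ m` (necessarily a full cycle). Then `G` is imprimitive, and the normal closure in `G` of the `p ^ (m - 1)`-th power of that permutation is an intransitive normal subgroup. -/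
theorem result {Ω : Type*} [Fintype Ω] [DecidableEq Ω] (p m : ℕ) (hp : p.Prime) (hm : 2 ≤ m) (hΩ : Fintype.card Ω = p ^ m) (G : Subgroup (Equiv.Perm Ω)) (htr : MulAction.IsPretransitive G Ω) (h2 : ¬ MulAction.IsMultiplyPretransitive G Ω 2) (g : G) (hg : orderOf g = p ^ m) : ¬ MulAction.IsPreprimitive G Ω ∧ ¬ MulAction.IsPretransitive (Subgroup.normalClosure ({g ^ (p ^ (m - 1))} : Set G)) Ω := by
  set z := g ^ p ^ (m - 1) with hz
  have hz1 : z ≠ 1 := by
    intro h
    have := orderOf_dvd_of_pow_eq_one h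
    rw [hg, Nat.pow_dvd_pow_iff_le_right hp.one_lt] at this
    omega
  obtain ⟨a, ha⟩ : ∃ a : Ω, z • a ≠ a := by
    by_contra h
    push Not at h
    exact hz1 (eq_of_smul_eq_smul (α := Ω) fun x => by rw [h, one_smul])
  let C := Subgroup.zpowers g
  have hcomm : ∀ c ∈ C, ∀ d ∈ C, c * d = d * c := by
    rintro _ ⟨i, rfl⟩ _ ⟨j, rfl⟩
    exact zpow_mul_comm _ _ _
  have hfix : ∀ {X : Type _} [MulAction G X] (c : G) (x : X), c ∈ C → c ≠ 1 → c • x = x → z • x = x := by
    intro X _ c x hc hc1 hcx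
    have h1 := mem_zpowers_of_mem hp (by omega) hg hc hc1
    have h3 : Subgroup.zpowers c ≤ MulAction.stabilizer G x := by
      rw [Subgroup.zpowers_le]; exact hcx
    exact h3 h1
  have hsa : MulAction.stabilizer C a = ⊥ := by
    rw [eq_bot_iff]
    intro c hc
    by_contra hn
    exact ha (hfix (c : G) a c.2 (fun h => hn (Subtype.ext h)) hc)
  have hCt : MulAction.IsPretransitive C Ω := by
    rw [MulAction.isPretransitive_iff_orbit_eq_univ a]
    apply Set.eq_of_subset_of_ncard_le (Set.subset_univ _)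
    rw [← MulAction.index_stabilizer, hsa, Subgroup.index_bot, Nat.card_zpowers, hg, Set.ncard_univ,
      Nat.card_eq_fintype_card, hΩ]
  have hCs : ∀ b : Ω, MulAction.stabilizer C b = ⊥ := by
    intro b
    obtain ⟨d, rfl⟩ := MulAction.exists_smul_eq C a b
    rw [eq_bot_iff, ← hsa]
    intro c hc
    rw [MulAction.mem_stabilizer_iff] at hc ⊢
    apply smul_left_cancel d
    rw [smul_smul, show d * c = c * d from Subtype.ext (hcomm _ d.2 _ c.2), mul_smul, hc]
  have hprim : ¬ MulAction.IsPreprimitive G Ω := by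
    intro h
    refine h2 (CL.Perm.two_transitive_of_regular_cyclic ?_ C inferInstance ⟨hCt, hCs⟩)
    rw [Nat.card_eq_fintype_card, hΩ]
    exact Nat.Prime.not_prime_pow hm
  refine ⟨hprim, fun htN => hprim ⟨fun {B} hB => ?_⟩⟩
  by_contra hn
  rw [MulAction.IsTrivialBlock, not_or, Set.not_subsingleton_iff] at hn
  obtain ⟨⟨x, hx, y, hy, hxy⟩, hn⟩ := hn
  obtain ⟨w, hw⟩ := (Set.ne_univ_iff_exists_notMem B).1 hn
  obtain ⟨c, hc⟩ := MulAction.exists_smul_eq C x y
  have hc' : (c : G) • x = y := hc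
  have hzB : z • B = B := hfix (c : G) B c.2 (fun h => hxy (by rw [← hc', h, one_smul]))
    (MulAction.isBlock_iff_smul_eq_of_mem.1 hB hx (by rw [hc']; exact hy))
  let N : Subgroup G :=
    { carrier := {n | ∀ h : G, n • h • B = h • B}
      one_mem' := fun h => one_smul _ _
      mul_mem' := fun {a b} ha hb h => by rw [mul_smul, hb, ha]
      inv_mem' := fun {a} ha h => by rw [inv_smul_eq_iff, ha] }
  have hN : N.Normal := ⟨fun n hn k h => by
    rw [mul_smul, mul_smul, smul_smul k⁻¹, hn, smul_smul, mul_inv_cancel_left]⟩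
  have hzN : z ∈ N := by
    intro h
    obtain ⟨d, hd⟩ := MulAction.exists_smul_eq C x (h • x)
    have hd' : (d : G) • x = h • x := hd
    have h1 : ((d : G)⁻¹ * h) • B = B := MulAction.isBlock_iff_smul_eq_of_mem.1 hB hx (by
      rw [mul_smul, ← hd', inv_smul_smul]; exact hx)
    rw [mul_smul, inv_smul_eq_iff] at h1
    rw [h1, smul_smul, hcomm z (Subgroup.npow_mem_zpowers _ _) _ d.2, mul_smul, hzB]
  have hle : Subgroup.normalClosure ({z} : Set G) ≤ N :=
    Subgroup.normalClosure_le_normal (Set.singleton_subset_iff.2 hzN)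
  obtain ⟨n, hn⟩ := htN.exists_smul_eq x w
  have h1 := hle n.2 1
  rw [one_smul] at h1
  apply hw
  rw [← h1, ← hn]
  exact Set.smul_mem_smul_set hx

end Cfsg.Agent.S3972
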