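import Cfsg.Statements.S3973
import Cfsg.Agent.Fgs.SchurCover

set_option autoImplicit false
open Cfsg

namespace Cfsg.Agent.S3973

open CL.Schur Subgroup
open scoped IsMulCommutative

theorem exists_gen_ker {K V ι : Type*} [AddCommGroup K] [AddCommGroup V] [Module.Free ℤ V]
    [Module.Finite ℤ V] [Fintype ι] (x : ι → K) (hx : Submodule.span ℤ (Set.range x) = ⊤)
    (g : K →ₗ[ℤ] V) (N : ℤ) (hN : N ≠ 0) (hg : ∀ v : V, ∃ k, g k = N • v) :
    ∃ (k : ℕ) (y : Fin k → K), k ≤ Fintype.card ι - Module.finrank ℤ V ∧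
      Submodule.span ℤ (Set.range y) = LinearMap.ker g := by
  let φ : (ι → ℤ) →ₗ[ℤ] K := Fintype.linearCombination ℤ x
  have hφ : Function.Surjective φ := by
    rw [← LinearMap.range_eq_top, Fintype.range_linearCombination, hx]
  let ψ := g.comp φ
  have h1 : Module.finrank ℤ (LinearMap.range ψ) + Module.finrank ℤ (LinearMap.ker ψ) =
      Fintype.card ι := by
    rw [← ψ.quotKerEquivRange.finrank_eq, Submodule.finrank_quotient_add_finrank]; simp
  have h2 : Module.finrank ℤ V ≤ Module.finrank ℤ (LinearMap.range ψ) := by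
    refine LinearMap.finrank_le_finrank_of_injective
      (f := LinearMap.codRestrict (LinearMap.range ψ) (N • LinearMap.id) (fun v => ?_)) ?_
    · obtain ⟨k, hk⟩ := hg v
      obtain ⟨z, rfl⟩ := hφ k
      exact ⟨z, hk⟩
    · intro v w h
      have : N • v = N • w := congrArg Subtype.val h
      exact smul_right_injective V hN this
  let b := Module.finBasis ℤ (LinearMap.ker ψ)
  refine ⟨_, fun i => φ (b i), by omega, ?_⟩
  have : (Set.range fun i => φ (b i)) = (φ.comp (LinearMap.ker ψ).subtype) '' Set.range b := by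
    rw [← Set.range_comp]; rfl
  rw [this, ← Submodule.map_span, b.span_eq, Submodule.map_top, LinearMap.range_comp,
    Submodule.range_subtype, LinearMap.ker_comp, Submodule.map_comap_eq_of_surjective hφ]


/-- If a finite group is presented by `n` generators and a finite set of `r` relators, then its Schur multiplier can be generated by `r - n` elements. In particular a finite group with a presentation having as many relators as generators has trivial Schur multiplier. -/
theorem result (n : ℕ) (rels : Finset (FreeGroup (Fin n))) [Finite (PresentedGroup (rels : Set (FreeGroup (Fin n))))] {A : Type*} [CommGroup A] [Finite A] (hA : Cfsg.HasSchurMultiplier (PresentedGroup (rels : Set (FreeGroup (Fin n)))) A) : Group.rank A ≤ rels.card - n := by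
  classical
  let π : FreeGroup (Fin n) →* PresentedGroup (rels : Set (FreeGroup (Fin n))) := PresentedGroup.mk _
  have hπ : Function.Surjective π := PresentedGroup.mk_surjective _
  have := fg_freeGroup (Fin n)
  obtain ⟨e⟩ := HasSM.unique (hasSchurMultiplier_hM π hπ) hA
  have hmem : ∀ r : rels, ((r : FreeGroup (Fin n)) : HE π) ∈ (hProj π).ker := fun r =>
    PresentedGroup.one_of_mem r.2
  let x : rels → Additive (hProj π).ker := fun r => Additive.ofMul ⟨_, hmem r⟩
  have hx : Submodule.span ℤ (Set.range x) = ⊤ := by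
    let T : Subgroup (HE π) :=
      (AddSubgroup.toSubgroup' (Submodule.span ℤ (Set.range x)).toAddSubgroup).map (Subgroup.subtype _)
    have hT : T.Normal := normal_of_le_center ((map_subtype_le _).trans (hProj_ker_le_center π))
    have hR : normalClosure (rels : Set (FreeGroup (Fin n))) ≤ T.comap (QuotientGroup.mk' _) := by
      apply normalClosure_le_normal
      intro r hr
      have h0 : x ⟨r, hr⟩ ∈ Submodule.span ℤ (Set.range x) := Submodule.subset_span ⟨⟨r, hr⟩, rfl⟩
      exact ⟨⟨_, hmem ⟨r, hr⟩⟩, h0, rfl⟩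
    rw [eq_top_iff]
    intro y' _
    obtain ⟨⟨y, hy⟩, rfl⟩ := Additive.ofMul.surjective y'
    obtain ⟨f, rfl⟩ := QuotientGroup.mk_surjective y
    have hf : f ∈ normalClosure (rels : Set (FreeGroup (Fin n))) := by
      have : π f = 1 := hy
      exact (QuotientGroup.eq_one_iff _).1 this
    obtain ⟨z, hz, hz'⟩ := hR hf
    have : z = ⟨_, hy⟩ := Subtype.ext hz'
    subst this
    exact hz
  let g : Additive (hProj π).ker →ₗ[ℤ] FreeAbelianGroup (Fin n) :=
    (MonoidHom.toAdditive ((hAb π).comp (Subgroup.subtype _))).toIntLinearMap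
  have hV : Module.finrank ℤ (FreeAbelianGroup (Fin n)) = n := by
    rw [Module.finrank_eq_card_basis (FreeAbelianGroup.basis (Fin n)), Fintype.card_fin]
  obtain ⟨k, y, hk, hy⟩ := exists_gen_ker x hx g
    (Nat.card (PresentedGroup (rels : Set (FreeGroup (Fin n)))) : ℤ)
    (Int.natCast_ne_zero.2 Nat.card_pos.ne') (by
      intro v
      obtain ⟨f, hf⟩ := QuotientGroup.mk_surjective (Additive.toMul v : Abelianization (FreeGroup (Fin n)))
      refine ⟨Additive.ofMul ⟨((f ^ Nat.card (PresentedGroup (rels : Set (FreeGroup (Fin n)))) : FreeGroup (Fin n)) : HE π), ?_⟩, ?_⟩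
      · show π _ = 1
        rw [map_pow, pow_card_eq_one']
      · rw [natCast_zsmul]
        show Additive.ofMul (Abelianization.of (f ^ _)) = _
        rw [map_pow, ofMul_pow]
        exact congrArg (fun t => _ • Additive.ofMul t) hf)
  rw [hV, Fintype.card_coe] at hk
  have hker : ∀ z : Additive (hProj π).ker, z ∈ LinearMap.ker g ↔
      ((Additive.toMul z : (hProj π).ker) : HE π) ∈ hM π := by
    intro z
    rw [mem_inf, ← hAb_ker]
    exact ⟨fun h => ⟨(Additive.toMul z).2, h⟩, fun h => h.2⟩
  have hy' : ∀ i, ((Additive.toMul (y i) : (hProj π).ker) : HE π) ∈ hM π := fun i =>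
    (hker _).1 (hy ▸ Submodule.subset_span ⟨i, rfl⟩)
  let S : Finset A := Finset.univ.image fun i => e ⟨_, hy' i⟩
  have hS : closure (S : Set A) = ⊤ := by
    rw [eq_top_iff]
    rintro a -
    obtain ⟨⟨m, hm⟩, rfl⟩ := e.surjective a
    have : ∀ z ∈ Submodule.span ℤ (Set.range y),
        ∃ h : ((Additive.toMul z : (hProj π).ker) : HE π) ∈ hM π, e ⟨_, h⟩ ∈ closure (S : Set A) := by
      intro z hz
      induction hz using Submodule.span_induction with
      | mem z hz =>
        obtain ⟨i, rfl⟩ := hz
        exact ⟨hy' i, subset_closure (by simp [S])⟩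
      | zero => exact ⟨one_mem _, (map_one e).symm ▸ one_mem _⟩
      | add z w _ _ hz hw =>
        obtain ⟨h1, h2⟩ := hz
        obtain ⟨h3, h4⟩ := hw
        exact ⟨mul_mem h1 h3, (map_mul e ⟨_, h1⟩ ⟨_, h3⟩).symm ▸ mul_mem h2 h4⟩
      | smul c z _ hz =>
        obtain ⟨h1, h2⟩ := hz
        exact ⟨zpow_mem h1 c, (map_zpow e ⟨_, h1⟩ c).symm ▸ zpow_mem h2 c⟩
    obtain ⟨_, h⟩ := this (Additive.ofMul ⟨m, hm.1⟩) (hy ▸ (hker _).2 hm)
    exact h
  refine (Group.rank_le hS).trans (Finset.card_image_le.trans ?_)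
  simpa using hk

end Cfsg.Agent.S3973
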