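import Cfsg.Statements.S3974
import Cfsg.Agent.Fgs.SchurCover2

set_option autoImplicit false
universe u v
open Cfsg

namespace Cfsg.Agent.S3974

open CL.Schur Subgroup
open scoped IsMulCommutative commutatorElement

theorem exists_functional {V : Type*} [AddCommGroup V] [Module.Free ℤ V] [Module.Finite ℤ V]
    (W : Submodule ℤ V) {p : ℤ} (hp : p ≠ 0) {v : V} (hv : v ∉ W) (hpv : p • v ∈ W) :
    ∃ φ : W →ₗ[ℤ] ℤ, ¬ p ∣ φ ⟨_, hpv⟩ := by
  by_contra h
  push Not at h
  let b := Module.finBasis ℤ W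
  choose c hc using fun i => h (b.coord i)
  apply hv
  have h1 : (⟨_, hpv⟩ : W) = p • ∑ i, c i • b i := by
    rw [← b.sum_repr ⟨_, hpv⟩, Finset.smul_sum]
    refine Finset.sum_congr rfl fun i _ => ?_
    rw [smul_smul, ← hc i]
    rfl
  have h2 : p • v = p • ((∑ i, c i • b i : W) : V) := congrArg Subtype.val h1
  rw [smul_right_injective V hp h2]
  exact Subtype.property _

theorem exists_hom_of_coprime {Q : Type u} [Group Q] [Finite Q] {A : Type v} [CommGroup A]
    (hA : HasSchurMultiplier Q A) (hc : Nat.Coprime (Nat.card (Abelianization Q)) (Nat.card A))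
    {Γ₁ Γ₂ : Type u} [Group Γ₁] [Group Γ₂] {σ₁ : Γ₁ →* Q} {σ₂ : Γ₂ →* Q}
    (h₁ : IsStemExtension σ₁) (h₂ : IsStemExtension σ₂) (hk : Nat.card A ≤ Nat.card σ₁.ker) :
    ∃ η : Γ₁ →* Γ₂, σ₂.comp η = σ₁ := by
  obtain ⟨θ, -, -, hθ⟩ := exists_commHom hA h₁ hk (MonoidHom.id Q) σ₂ h₂.1 h₂.2.1
  let P := pb σ₁ σ₂
  let a : P →* Γ₁ := pbFst σ₁ σ₂
  let b : P →* Γ₂ := pbSnd σ₁ σ₂
  have hab : ∀ x : P, σ₁ (a x) = σ₂ (b x) := fun x => x.2
  have hgraph : ∀ x ∈ _root_.commutator P, ∃ h : a x ∈ _root_.commutator Γ₁, θ ⟨a x, h⟩ = b x := by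
    let T : Subgroup P :=
      { carrier := {x | ∃ h : a x ∈ _root_.commutator Γ₁, θ ⟨a x, h⟩ = b x}
        one_mem' := ⟨by simp, by simp only [map_one]; exact map_one θ⟩
        mul_mem' := by
          rintro x y ⟨h1, h2⟩ ⟨h3, h4⟩
          refine ⟨by rw [map_mul]; exact mul_mem h1 h3, ?_⟩
          simp only [map_mul, ← h2, ← h4]
          exact map_mul θ ⟨_, h1⟩ ⟨_, h3⟩
        inv_mem' := by
          rintro x ⟨h1, h2⟩
          refine ⟨by rw [map_inv]; exact inv_mem h1, ?_⟩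
          simp only [map_inv, ← h2]
          exact map_inv θ ⟨_, h1⟩ }
    have : _root_.commutator P ≤ T := by
      rw [_root_.commutator_def, commutator_le]
      intro x _ y _
      refine ⟨by rw [map_commutatorElement]; exact commutator_mem_commutator (mem_top _) (mem_top _), ?_⟩
      simp only [map_commutatorElement]
      exact hθ _ _ _ _ (hab x) (hab y)
    exact fun x hx => this hx
  let n := Nat.card (Abelianization Q)
  let H : Subgroup P := ((powMonoidHom n).comp (Abelianization.of (G := P))).ker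
  have hH : ∀ x : P, x ∈ H ↔ x ^ n ∈ _root_.commutator P := by
    intro x
    rw [← Abelianization.ker_of, MonoidHom.mem_ker, MonoidHom.mem_ker, map_pow]
    rfl
  have hz : ∀ {Γ : Type u} [Group Γ] {σ : Γ →* Q}, IsStemExtension σ → ∀ z : Γ, σ z = 1 →
      z ^ Nat.card A = 1 := by
    intro Γ _ σ hσ z hz
    obtain ⟨k, hk⟩ := HasSM.card_ker_dvd hA σ hσ
    have : (⟨z, hz⟩ : σ.ker) ^ Nat.card σ.ker = 1 := pow_card_eq_one'
    have h2 : z ^ Nat.card σ.ker = 1 := congrArg Subtype.val this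
    rw [hk, pow_mul, h2, one_pow]
  have hinj : Function.Injective (a.comp H.subtype) := by
    rw [injective_iff_map_eq_one]
    rintro ⟨x, hx⟩ hx1
    have hx1' : a x = 1 := hx1
    obtain ⟨h1, h2⟩ := hgraph _ ((hH x).1 hx)
    have h3 : (⟨a (x ^ n), h1⟩ : _root_.commutator Γ₁) = 1 := Subtype.ext (by simp [hx1'])
    rw [h3, map_one, map_pow] at h2
    have h4 := hz h₂ (b x) (by rw [← hab, hx1', map_one])
    have h5 : b x = 1 := by
      have := pow_gcd_eq_one.2 ⟨h2.symm, h4⟩
      rwa [hc.gcd_eq_one, pow_one] at this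
    exact Subtype.ext (Subtype.ext (Prod.ext hx1' h5))
  have hρ : Function.Surjective (σ₁.comp a) := h₁.1.comp (pbFst_surjective σ₁ h₂.1)
  have hcomm : _root_.commutator P ≤ H := fun x hx => (hH x).2 (pow_mem hx n)
  have hsurj : Function.Surjective (a.comp H.subtype) := by
    apply surjective_of_stem h₁
    have hle : _root_.commutator Q ≤ H.map (σ₁.comp a) := by
      rw [← map_commutator_of_surjective _ hρ]
      exact map_mono hcomm
    intro q
    suffices q ∈ H.map (σ₁.comp a) by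
      obtain ⟨x, hx, rfl⟩ := this
      exact ⟨⟨x, hx⟩, rfl⟩
    obtain ⟨x, rfl⟩ := hρ q
    have hn : (σ₁.comp a) (x ^ n) ∈ _root_.commutator Q := by
      rw [← Abelianization.ker_of, MonoidHom.mem_ker, map_pow, map_pow]
      exact pow_card_eq_one'
    have h1 : x ^ Nat.card A ∈ H := by
      rw [← map_commutator_of_surjective _ hρ] at hn
      obtain ⟨c, hc, hc'⟩ := hn
      have h2 : σ₁ (a (c⁻¹ * x ^ n)) = 1 := by
        have : (σ₁.comp a) (c⁻¹ * x ^ n) = 1 := by rw [map_mul, map_inv, hc', inv_mul_cancel]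
        exact this
      have h3 : (c⁻¹ * x ^ n) ^ Nat.card A = 1 :=
        Subtype.ext (Prod.ext (hz h₁ _ h2) (hz h₂ _ ((hab _).symm.trans h2)))
      have h4 := congrArg (Abelianization.of (G := P)) h3
      have h5 : Abelianization.of c = 1 := by
        rw [← MonoidHom.mem_ker, Abelianization.ker_of]; exact hc
      rw [map_pow, map_mul, map_inv, h5, inv_one, one_mul, map_one, map_pow] at h4
      rw [hH, ← Abelianization.ker_of, MonoidHom.mem_ker, map_pow, map_pow, ← pow_mul, mul_comm,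
        pow_mul, h4]
    have h2 : ((σ₁.comp a) x) ^ n ∈ H.map (σ₁.comp a) := by
      rw [← map_pow]; exact hle hn
    have h3 : ((σ₁.comp a) x) ^ Nat.card A ∈ H.map (σ₁.comp a) := by
      rw [← map_pow]; exact mem_map_of_mem _ h1
    have h4 := (H.map (σ₁.comp a)).mul_mem (zpow_mem h2 (Nat.gcdA n (Nat.card A)))
      (zpow_mem h3 (Nat.gcdB n (Nat.card A)))
    rwa [← zpow_natCast, ← zpow_natCast, ← zpow_mul, ← zpow_mul, ← zpow_add,
      ← Nat.gcd_eq_gcd_ab, hc.gcd_eq_one, Nat.cast_one, zpow_one] at h4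
  let e := MulEquiv.ofBijective _ ⟨hinj, hsurj⟩
  refine ⟨(b.comp H.subtype).comp e.symm.toMonoidHom, ?_⟩
  ext g
  obtain ⟨x, rfl⟩ := e.surjective g
  have : σ₂ (b (e.symm (e x))) = σ₁ (a x) := by rw [e.symm_apply_apply, hab]
  exact this


/-- Let `Q` be a finite group with Schur multiplier `A`. Any two Schur covering groups of `Q` (finite stem extensions `σ₁ : Γ₁ →* Q`, `σ₂ : Γ₂ →* Q` with kernels isomorphic to `A`, `Γ₁, Γ₂` in the universe of `Q`) are isomorphic over `Q` — there is a group isomorphism `e : Γ₁ ≃* Γ₂` with `σ₂ ∘ e = σ₁` — if and only if the order of the commutator quotient of `Q` is coprime to the order of `A`. In particular a finite perfect group has a unique Schur covering group up to isomorphism over it. -/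
theorem result {Q : Type u} [Group Q] [Finite Q] {A : Type v} [CommGroup A] (hA : Cfsg.HasSchurMultiplier Q A) : (∀ (Γ₁ Γ₂ : Type u) [Group Γ₁] [Finite Γ₁] [Group Γ₂] [Finite Γ₂] (σ₁ : Γ₁ →* Q) (σ₂ : Γ₂ →* Q), Cfsg.IsStemExtension σ₁ → Cfsg.IsStemExtension σ₂ → Nonempty (σ₁.ker ≃* A) → Nonempty (σ₂.ker ≃* A) → ∃ e : Γ₁ ≃* Γ₂, σ₂.comp e.toMonoidHom = σ₁) ↔ Nat.Coprime (Nat.card (Abelianization Q)) (Nat.card A) := by
  have hfin := HasSM.finite_mult hA
  constructor
  · intro h
    by_contra hc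
    obtain ⟨p, hp, hp1, hp2⟩ := Nat.Prime.not_coprime_iff_dvd.1 hc
    have := Fact.mk hp
    have := fg_freeGroup Q
    let π := stdPres Q
    have hπ : Function.Surjective π := stdPres_surjective Q
    obtain ⟨eM⟩ := HasSM.unique (hasSchurMultiplier_hM π hπ) hA
    obtain ⟨S, hn, hS, -, hinf, hsup, hf, hst, ⟨eS⟩⟩ :=
      exists_cover_quot π hπ (hProj π).ker le_rfl le_sup_left
    -- an element of the multiplier that is not a `p`-th power
    obtain ⟨y, hy⟩ : ∃ y : hM π, ∀ m : hM π, m ^ p ≠ y := by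
      by_contra hcon
      push Not at hcon
      have hs : Function.Surjective (powMonoidHom p : hM π →* hM π) := hcon
      have hi := Finite.injective_iff_surjective.2 hs
      obtain ⟨z, hz⟩ := exists_prime_orderOf_dvd_card' (G := hM π) p
        (by rw [Nat.card_congr eM.toEquiv]; exact hp2)
      have h1 : z = 1 := hi (by simp [← hz])
      rw [h1, orderOf_one] at hz
      exact hp.one_lt.ne hz
    -- an element of order `p` modulo `R F'`
    let α : HE π →* Abelianization Q := Abelianization.of.comp (hProj π)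
    have hα : α.ker = S ⊔ _root_.commutator (HE π) := by
      have : α.ker = _root_.commutator (HE π) ⊔ (hProj π).ker := by
        rw [← MonoidHom.comap_ker, Abelianization.ker_of,
          ← map_commutator_of_surjective _ (hProj_surjective π hπ), comap_map_eq]
      rw [this]
      exact le_antisymm (sup_le le_sup_right hsup) (sup_le (hS.trans le_sup_right) le_sup_left)
    obtain ⟨q, hq⟩ := exists_prime_orderOf_dvd_card' (G := Abelianization Q) p hp1
    obtain ⟨v, rfl⟩ : ∃ v, α v = q := by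
      obtain ⟨q, rfl⟩ := QuotientGroup.mk_surjective q
      obtain ⟨v, rfl⟩ := hProj_surjective π hπ q
      exact ⟨v, rfl⟩
    have hv1 : v ∉ S ⊔ _root_.commutator (HE π) := by
      rw [← hα, MonoidHom.mem_ker]
      intro h1
      rw [h1, orderOf_one] at hq
      exact hp.one_lt.ne hq
    have hv2 : v ^ p ∈ S ⊔ _root_.commutator (HE π) := by
      rw [← hα, MonoidHom.mem_ker, map_pow, ← hq, pow_orderOf_eq_one]
    obtain ⟨s, hs, c, hc, hsc⟩ := (mem_sup_of_normal_right).1 hv2
    have := free_abelianization (F := FreeGroup Q)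
    have := finite_abelianization (F := FreeGroup Q)
    let W : Submodule ℤ (Additive (Abelianization (FreeGroup Q))) :=
      AddSubgroup.toIntSubmodule (Subgroup.toAddSubgroup (S.map (hAb π)))
    have hc1 : hAb π c = 1 := by rw [← MonoidHom.mem_ker, hAb_ker]; exact hc
    have hps : (p : ℤ) • Additive.ofMul (hAb π v) = Additive.ofMul (hAb π s) := by
      rw [natCast_zsmul, ← ofMul_pow, ← map_pow, ← hsc, map_mul, hc1, mul_one]
    obtain ⟨φ, hφ⟩ := exists_functional W (p := p) (Int.natCast_ne_zero.2 hp.ne_zero)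
      (v := Additive.ofMul (hAb π v)) (by
        rintro ⟨t, ht, ht'⟩
        apply hv1
        have h1 : t⁻¹ * v ∈ _root_.commutator (HE π) := by
          rw [← hAb_ker, MonoidHom.mem_ker, map_mul, map_inv, ht']
          exact inv_mul_cancel _
        have : v = t * (t⁻¹ * v) := by simp
        rw [this]
        exact mul_mem_sup ht h1) (hps ▸ mem_map_of_mem (hAb π) hs)
    let ψ : S → ℤ := fun t => φ ⟨Additive.ofMul (hAb π t), mem_map_of_mem (hAb π) t.2⟩
    have hψ : ∀ t u : S, ψ (t * u) = ψ t + ψ u := by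
      intro t u
      rw [← map_add]
      exact congrArg φ (Subtype.ext (congrArg Additive.ofMul (map_mul (hAb π) _ _)))
    have hψs : ¬ (p : ℤ) ∣ ψ ⟨s, hs⟩ := by
      have : ψ ⟨s, hs⟩ = φ ⟨_, hps ▸ mem_map_of_mem (hAb π) hs⟩ := congrArg φ (Subtype.ext hps.symm)
      rwa [this]
    have hyK : (y : HE π) ∈ (hProj π).ker := y.2.1
    have hyC : (y : HE π) ∈ _root_.commutator (HE π) := y.2.2
    have hyc : ∀ (k : ℤ) (x : HE π), x * (y : HE π) ^ k = (y : HE π) ^ k * x := fun k x =>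
      mem_center_iff.1 (zpow_mem (hM_le_center π y.2) k) x
    let θ : S →* HE π := MonoidHom.mk' (fun t => (t : HE π) * (y : HE π) ^ ψ t) (by
      intro t u
      rw [hψ, zpow_add, Subgroup.coe_mul, mul_assoc, mul_assoc, ← mul_assoc (u : HE π),
        hyc (ψ t), mul_assoc])
    have hT : θ.range ≤ (hProj π).ker := by
      rintro _ ⟨t, rfl⟩
      exact mul_mem (hS t.2) (zpow_mem hyK _)
    have hTn : θ.range.Normal := normal_of_le_center (hT.trans (hProj_ker_le_center π))
    have hTinf : θ.range ⊓ _root_.commutator (HE π) = ⊥ := by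
      rw [eq_bot_iff]
      rintro _ ⟨⟨t, rfl⟩, ht⟩
      have h1 : (t : HE π) ∈ S ⊓ _root_.commutator (HE π) :=
        ⟨t.2, (Subgroup.mul_mem_cancel_right _ (zpow_mem hyC (ψ t))).1 ht⟩
      rw [hinf, mem_bot] at h1
      have h2 : t = 1 := Subtype.ext h1
      rw [h2, map_one]
      exact one_mem _
    have hTsup : (hProj π).ker ≤ θ.range ⊔ _root_.commutator (HE π) := by
      refine hsup.trans (sup_le ?_ le_sup_right)
      intro t ht
      have : t = θ ⟨t, ht⟩ * ((y : HE π) ^ ψ ⟨t, ht⟩)⁻¹ := (mul_inv_cancel_right _ _).symm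
      rw [this]
      exact mul_mem_sup ⟨_, rfl⟩ (inv_mem (zpow_mem hyC _))
    obtain ⟨eT, heT⟩ := quot_ker_equiv θ.range hT hTsup hTinf
    have hst2 := quot_isStem (hProj_surjective π hπ) (hProj_ker_le_center π) θ.range hT hTsup
    have := finite_of_stem hst2
    obtain ⟨e, he⟩ := h _ _ _ _ hst hst2 ⟨eS.symm.trans eM⟩ ⟨eT.symm.trans eM⟩
    let a : HE π →* HE π ⧸ θ.range := e.toMonoidHom.comp (QuotientGroup.mk' S)
    let b : HE π →* HE π ⧸ θ.range := QuotientGroup.mk' _
    have hab : (QuotientGroup.lift θ.range (hProj π) hT).comp a =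
        (QuotientGroup.lift θ.range (hProj π) hT).comp b := by
      refine MonoidHom.ext fun x => ?_
      exact DFunLike.congr_fun he (x : HE π ⧸ S)
    have hac : a c = b c := eq_on_commutator_of_lift hst2.2.1 a b hab hc
    have has : a s = 1 := by
      have : ((s : HE π) : HE π ⧸ S) = 1 := (QuotientGroup.eq_one_iff _).2 hs
      show e (s : HE π ⧸ S) = 1
      rw [this, map_one]
    have hw : (b v)⁻¹ * a v ∈ (QuotientGroup.lift θ.range (hProj π) hT).ker := by
      have := DFunLike.congr_fun hab v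
      simp only [MonoidHom.comp_apply] at this
      rw [MonoidHom.mem_ker, map_mul, map_inv, this, inv_mul_cancel]
    obtain ⟨m, hm⟩ := eT.surjective ⟨_, hw⟩
    have hm1 : b m = (b v)⁻¹ * a v := (heT m).symm.trans (congrArg Subtype.val hm)
    have hm2 : a v = b (v * m) := by rw [map_mul, hm1, mul_inv_cancel_left]
    have hmc : Commute v (m : HE π) := mem_center_iff.1 (hM_le_center π m.2) v
    have hm3 : b c = b (s * c * (m : HE π) ^ p) := by
      rw [hsc, ← hmc.mul_pow, map_pow, ← hm2, ← map_pow, ← hsc, map_mul, has, one_mul, hac]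
    have hsc' : s * c = c * s := (mem_center_iff.1 (hProj_ker_le_center π (hS hs)) c).symm
    have hm4 : s * (m : HE π) ^ p ∈ θ.range := by
      rw [hsc', mul_assoc, map_mul, left_eq_mul] at hm3
      exact (QuotientGroup.eq_one_iff _).1 hm3
    have hm5 : ((y : HE π) ^ ψ ⟨s, hs⟩)⁻¹ * (m : HE π) ^ p ∈
        θ.range ⊓ _root_.commutator (HE π) := by
      refine mem_inf.2 ⟨?_, mul_mem (inv_mem (zpow_mem hyC _)) (pow_mem (mem_inf.1 m.2).2 _)⟩
      have h1 := mul_mem (inv_mem (⟨⟨s, hs⟩, rfl⟩ : θ ⟨s, hs⟩ ∈ θ.range)) hm4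
      have h2 : (θ ⟨s, hs⟩)⁻¹ * (s * (m : HE π) ^ p) =
          ((y : HE π) ^ ψ ⟨s, hs⟩)⁻¹ * (m : HE π) ^ p := by
        show (s * (y : HE π) ^ ψ ⟨s, hs⟩)⁻¹ * _ = _
        group
      exact h2 ▸ h1
    rw [hTinf, mem_bot, inv_mul_eq_one] at hm5
    have hm6 : y ^ ψ ⟨s, hs⟩ = m ^ p := Subtype.ext hm5
    obtain ⟨i, j, hij⟩ : IsCoprime (p : ℤ) (ψ ⟨s, hs⟩) :=
      (Prime.coprime_iff_not_dvd (Nat.prime_iff_prime_int.1 hp)).2 hψs
    apply hy (y ^ i * m ^ j)
    rw [mul_pow, ← zpow_natCast, ← zpow_natCast, ← zpow_mul, ← zpow_mul, mul_comm j, zpow_mul,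
      zpow_mul m, zpow_natCast m, ← hm6, ← zpow_mul, ← zpow_mul, ← zpow_add, mul_comm _ j, hij,
      zpow_one]
  · rintro hc Γ₁ Γ₂ _ _ _ _ σ₁ σ₂ h₁ h₂ ⟨e₁⟩ ⟨e₂⟩
    obtain ⟨η, hη⟩ := exists_hom_of_coprime hA hc h₁ h₂ (Nat.card_congr e₁.toEquiv).ge
    have hs := surjective_of_stem h₂ η (hη ▸ h₁.1)
    refine ⟨MulEquiv.ofBijective η (bijective_of_surjective_of_card_le η hs ?_), hη⟩
    rw [card_eq_card_ker_mul h₁.1, card_eq_card_ker_mul h₂.1, Nat.card_congr e₁.toEquiv,
      Nat.card_congr e₂.toEquiv]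

end Cfsg.Agent.S3974
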