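import Cfsg.Statements.S3976
import Cfsg.Agent.Fgs.PCount

set_option autoImplicit false
open scoped Pointwise
open Cfsg

namespace Cfsg.Agent.S3976

/-- Let `p` be a prime and `G` a group of order `p ^ m`. For every `s ≤ m` the number of normal subgroups of `G` of order `p ^ s` is congruent to `1` modulo `p`. -/
theorem result {G : Type*} [Group G] [Finite G] (p m s : ℕ) (hp : p.Prime) (hG : Nat.card G = p ^ m) (hs : s ≤ m) : Nat.card {H : Subgroup G // H.Normal ∧ Nat.card H = p ^ s} ≡ 1 [MOD p] := by
  have := Fact.mk hp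
  have h1 : Nat.card {H : Subgroup G // Nat.card H = p ^ s} ≡ 1 [MOD p] :=
    CL.Fgs.numSub_modEq_one (hG ▸ pow_dvd_pow p hs)
  have hP : IsPGroup p (MulAut.conj : G →* MulAut G).range :=
    (IsPGroup.of_card hG).of_surjective _ (MonoidHom.rangeRestrict_surjective _)
  let X : SubMulAction (MulAut.conj : G →* MulAut G).range (Subgroup G) :=
    { carrier := {H | Nat.card H = p ^ s}
      smul_mem' := fun c H hH => by
        change Nat.card (H.map (c : MulAut G).toMonoidHom) = p ^ s
        rw [Subgroup.card_map_of_injective (c : MulAut G).injective]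
        exact hH }
  have h2 := hP.card_modEq_card_fixedPoints X
  refine Nat.ModEq.trans ?_ (h2.symm.trans h1)
  rw [Nat.card_congr (β := MulAction.fixedPoints (MulAut.conj : G →* MulAut G).range X)]
  refine ⟨fun H => ⟨⟨H.1, H.2.2⟩, ?_⟩, fun H => ⟨H.1.1, ?_, H.1.2⟩, fun _ => rfl, fun _ => rfl⟩
  · rintro ⟨_, g, rfl⟩
    apply Subtype.ext
    have := H.2.1
    exact Subgroup.Normal.conj_smul_eq_self g H.1
  · refine ⟨fun n hn g => ?_⟩
    have : MulAut.conj g • H.1.1 = H.1.1 := congrArg Subtype.val (H.2 ⟨_, g, rfl⟩)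
    rw [← this]
    exact Subgroup.smul_mem_pointwise_smul _ _ _ hn

end Cfsg.Agent.S3976
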