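import Cfsg.Statements.S3978
import Cfsg.Agent.Fgs.SchurProj

set_option autoImplicit false
open Cfsg

namespace Cfsg.Agent.S3978

/-- A finite group `Q` has trivial Schur multiplier if and only if, for every `n`, every homomorphism from `Q` to the projective general linear group (the quotient of `GL n ℂ` by its centre) lifts to a homomorphism into `GL n ℂ`. -/
theorem result {Q : Type*} [Group Q] [Finite Q] : Cfsg.HasCyclicSchurMultiplier Q 1 ↔ ∀ (n : ℕ) (γ : Q →* (GL (Fin n) ℂ ⧸ Subgroup.center (GL (Fin n) ℂ))), ∃ ρ : Q →* GL (Fin n) ℂ, (QuotientGroup.mk' (Subgroup.center (GL (Fin n) ℂ))).comp ρ = γ := by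
  constructor
  · intro h n γ
    exact CL.Schur.proj_lift h CL.Schur.isStem_id (by simp) n γ
  · intro h
    obtain ⟨A, _, _, hA⟩ := CL.Schur.exists_hasSchurMultiplier Q
    have h1 := CL.Schur.card_le_of_proj_lift hA CL.Schur.isStem_id h
    rw [CL.Schur.HasSM.trivial_iff hA]
    rw [MonoidHom.ker_id, Subgroup.card_bot] at h1
    exact Finite.card_le_one_iff_subsingleton.1 h1

end Cfsg.Agent.S3978
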