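import Cfsg.Statements.S3992
import Cfsg.Agent.Fgs.TIBase
import Cfsg.Agent.Perm.SpecThree
import Cfsg.Agent.Char.Burnside
import Cfsg.Agent.S1475

set_option autoImplicit false
open Cfsg

namespace Cfsg.Agent.S3992

open scoped Pointwise
open CL.Grp CL.Odd CL.Fgs CL.Perm

theorem not_mem_spec {G : Type*} [Group G] (hpp : ∀ g : G, g ≠ 1 → IsPrimePow (orderOf g)) {p q : ℕ}
    (hp : p.Prime) (hq : q.Prime) (hne : p ≠ q) : p * q ∉ Spec G := by
  rintro ⟨g, hg⟩
  have hg' : orderOf g = p * q := hg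
  have h1 : g ≠ 1 := by
    rintro rfl
    rw [orderOf_one] at hg'
    exact hp.one_lt.ne' (Nat.eq_one_of_mul_eq_one_right hg'.symm)
  obtain ⟨r, -, h⟩ := isPrimePow_iff_unique_prime_dvd.1 (hpp g h1)
  exact hne ((h p ⟨hp, hg' ▸ dvd_mul_right p q⟩).trans (h q ⟨hq, hg' ▸ dvd_mul_left q p⟩).symm)

theorem isPGroup_of_cent {X : Type*} [Group X] [Finite X]
    (h : ∀ p q : ℕ, p.Prime → q.Prime → p ≠ q → p * q ∉ Spec X) {A B : Subgroup X} (hA : A ≠ ⊥) (hc : A ≤ C[B]) :
    ∃ p : ℕ, p.Prime ∧ IsPGroup p B := by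
  obtain ⟨p, x, hp, hx, ho⟩ := exists_mem_orderOf_prime hA
  have := Fact.mk hp
  refine ⟨p, hp, isPiSubgroup_singleton_iff.1 fun q hq hd => ?_⟩
  by_contra hne
  have := Fact.mk hq
  obtain ⟨y, hy⟩ := exists_prime_orderOf_dvd_card' q hd
  rw [← Subgroup.orderOf_coe] at hy
  refine h p q hp hq (Ne.symm hne) ((exists_orderOf_mul_iff ((Nat.coprime_primes hp hq).2 (Ne.symm hne))).2
    ⟨x, y, ho, hy, (mem_cent.1 (hc hx) y y.2).symm⟩)

theorem exists_socle {X : Type*} [Group X] [Finite X] [Nontrivial X]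
    (h : ∀ p q : ℕ, p.Prime → q.Prime → p ≠ q → p * q ∉ Spec X)
    (hs : ∀ N : Subgroup X, N.Normal → Group.IsSolvable N → N = ⊥) :
    ∃ M : Subgroup X, M.Normal ∧ IsSimpleGroup M ∧ ¬ IsMulCommutative M ∧
      ∀ N : Subgroup X, N.Normal → N ≠ ⊥ → M ≤ N := by
  obtain ⟨M, hM, -⟩ := exists_minNormal_le (H := (⊤ : Subgroup X)) (W := ⊤) (le_norm_self _) top_ne_bot
  have hMn := normal_of_top_le hM.norm
  have hp : ∀ (p : ℕ) (S : Subgroup X), p.Prime → S ⊴ M → IsPGroup p S → S = ⊥ := fun p S hp hS h1 =>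
    eq_bot_iff.2 ((le_pCoreOf hS.le hS.norm h1).trans
      (hs _ inferInstance (sol_of_isPGroup hp (pCoreOf_isPGroup p M))).le)
  refine ⟨M, hMn, ?_, fun hc => hM.ne_bot (hs M hMn (sol_of_abelian hc)), fun N hN hne => ?_⟩
  · have := (Subgroup.nontrivial_iff_ne_bot M).2 hM.ne_bot
    refine ⟨fun N hN => or_iff_not_imp_left.2 fun hne => ?_⟩
    have h1 := NormalIn.map_subtype N
    obtain ⟨S, hS, hle⟩ := exists_minNormal_le h1.norm
      (fun e => hne ((Subgroup.map_eq_bot_iff_of_injective _ M.subtype_injective).1 e))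
    have hSM : S ⊴ M := ⟨hle.trans h1.le, hS.norm⟩
    have h2 : ⊤ ≤ N[S] := fun g _ => by
      have h3 : cj g • S ⊴ M := by
        have := hSM.conj g
        rwa [cj_eq_self (hM.norm trivial)] at this
      rcases hS.le_or_inf_eq_bot h3.norm with h4 | h4
      · exact mem_norm_of_le_cj h4
      · obtain ⟨p, hp', h5⟩ := isPGroup_of_cent h (fun e => hS.ne_bot (cj_eq_bot.1 e))
          (cent_symm (le_cent_of_inf_eq_bot (h3.le.trans hSM.norm) (hSM.le.trans h3.norm) h4))
        exact absurd (hp p S hp' hSM h5) hS.ne_bot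
    have h3 := hM.eq_of_le hSM.le h2 hS.ne_bot
    rw [h3] at hle
    exact top_le_iff.1 fun x _ => by
      obtain ⟨y, hy, e⟩ := hle x.2
      rwa [← Subtype.ext e]
  · refine hM.le_of_inf_ne_bot (le_norm_of_normal _ _) fun e => ?_
    obtain ⟨p, hp', h5⟩ := isPGroup_of_cent h hne
      (cent_symm (le_cent_of_inf_eq_bot (le_norm_of_normal _ _) (le_norm_of_normal _ _) e))
    exact hM.ne_bot (hp p M hp' (NormalIn.refl M) h5)

/-- Let G be a finite non-solvable group in which every element has prime-power order, and let R be its largest solvable normal subgroup. Then R is a p-group for some prime p; G/R has a non-abelian simple normal subgroup contained in every nontrivial normal subgroup of G/R (its unique minimal normal subgroup); and the order of every solvable subgroup of G has at most two prime divisors. -/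
theorem result {G : Type*} [Group G] [Finite G] (hns : ¬ Group.IsSolvable G) (hpp : ∀ g : G, g ≠ 1 → IsPrimePow (orderOf g))
    (R : Subgroup G) [R.Normal] (hRs : Group.IsSolvable ↥R) (hRmax : ∀ N : Subgroup G, N.Normal → Group.IsSolvable ↥N → N ≤ R) :
    (∃ p : ℕ, p.Prime ∧ IsPGroup p ↥R) ∧
      (∃ M : Subgroup (G ⧸ R), M.Normal ∧ IsSimpleGroup ↥M ∧ ¬ IsMulCommutative ↥M ∧
        ∀ N : Subgroup (G ⧸ R), N.Normal → N ≠ ⊥ → M ≤ N) ∧
      ∀ H : Subgroup G, Group.IsSolvable ↥H → (Nat.card ↥H).primeFactors.card ≤ 2 := by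
  have h0 : ∀ p q : ℕ, p.Prime → q.Prime → p ≠ q → p * q ∉ Spec G := fun p q => not_mem_spec hpp
  refine ⟨?_, ?_, fun H hH => Cfsg.Agent.S1475.result fun g => ?_⟩
  · by_cases hb : R = ⊥
    · exact ⟨2, Nat.prime_two, hb ▸ IsPGroup.of_bot⟩
    obtain ⟨p, hp, hpR⟩ := exists_prime_dvd_card_of_ne_bot hb
    have := Fact.mk hp
    refine ⟨p, hp, isPiSubgroup_singleton_iff.1 fun q hq hd => ?_⟩
    by_contra hne
    refine hns (CL.Char.isSolvable_of_two_primes hp hq fun r hr hrG => ?_)
    by_contra hcon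
    push Not at hcon
    rcases three_primes_solvable R hRs hp hq hr (Ne.symm hne) hcon.1.symm hcon.2.symm hpR hd hrG with h | h | h
    · exact h0 _ _ hp hq (Ne.symm hne) h
    · exact h0 _ _ hp hr hcon.1.symm h
    · exact h0 _ _ hq hr hcon.2.symm h
  · have : Nontrivial (G ⧸ R) := by
      by_contra hcon
      have := not_nontrivial_iff_subsingleton.1 hcon
      exact hns (Group.isSolvable_of_ker_le_range R.subtype (QuotientGroup.mk' R) (by simp))
    refine exists_socle (fun p q hp hq hne h => h0 p q hp hq hne (spec_quotient_subset R h)) fun N hN hs => ?_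
    have h1 : Group.IsSolvable (N.comap (QuotientGroup.mk' R)) := by
      refine Group.isSolvable_of_ker_le_range (Subgroup.inclusion (QuotientGroup.le_comap_mk' R N))
        ((QuotientGroup.mk' R).subgroupComap N) fun x hx => ?_
      exact ⟨⟨x, (QuotientGroup.eq_one_iff _).1 (congrArg Subtype.val hx)⟩, rfl⟩
    rw [← Subgroup.map_comap_eq_self_of_surjective (QuotientGroup.mk'_surjective R) N, Subgroup.map_eq_bot_iff,
      QuotientGroup.ker_mk']
    exact hRmax _ inferInstance h1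
  · refine or_iff_not_imp_right.2 fun h1 => ?_
    rw [← Subgroup.orderOf_coe]
    exact hpp g fun e => h1 (Subtype.ext e)

end Cfsg.Agent.S3992
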