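import Cfsg.Statements.S3994
import Cfsg.Agent.Fgs.FrobSol

set_option autoImplicit false
open Cfsg

namespace Cfsg.Agent.S3994

/-- Let G be a finite group and n a positive integer. The number of elements of G whose order is divisible by n is either 0 or divisible by the largest divisor of the order of G that is coprime to n. -/
theorem result {G : Type*} [Group G] [Finite G] (n : ℕ) (hn : 0 < n) :
    Nat.card {g : G // n ∣ orderOf g} = 0 ∨
      (Nat.card G / Nat.gcd (Nat.card G) (n ^ Nat.card G)) ∣ Nat.card {g : G // n ∣ orderOf g} := by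
  right
  have hpos : 0 < Nat.card G := Nat.card_pos
  rw [Nat.dvd_iff_prime_pow_dvd_dvd]
  intro p k hp hk
  have := Fact.mk hp
  rcases Nat.eq_zero_or_pos k with rfl | hk0
  · simp
  have hdiv : Nat.card G / Nat.gcd (Nat.card G) (n ^ Nat.card G) ∣ Nat.card G :=
    Nat.div_dvd_of_dvd (Nat.gcd_dvd_left _ _)
  have hpn : ¬ p ∣ n := by
    intro hpn
    have h1 : p ∣ Nat.card G / Nat.gcd (Nat.card G) (n ^ Nat.card G) :=
      (dvd_pow_self p hk0.ne').trans hk
    set a := (Nat.card G).factorization p with ha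
    have h2 : p ^ a ∣ Nat.gcd (Nat.card G) (n ^ Nat.card G) := by
      refine Nat.dvd_gcd (Nat.ordProj_dvd _ _) ?_
      refine (pow_dvd_pow p ?_).trans (pow_dvd_pow_of_dvd hpn _)
      exact (Nat.factorization_lt p hpos.ne').le
    have h3 : p ^ (a + 1) ∣ Nat.card G := by
      rw [pow_succ, ← Nat.mul_div_cancel' (Nat.gcd_dvd_left (Nat.card G) (n ^ Nat.card G))]
      exact Nat.mul_dvd_mul h2 h1
    exact Nat.pow_succ_factorization_not_dvd hpos.ne' hp h3
  obtain ⟨H, hH⟩ := Sylow.exists_subgroup_card_pow_prime p (hk.trans hdiv)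
  rw [← hH]
  have e : Nat.card {g : G // n ∣ orderOf g} = {g : G | n ∣ orderOf g}.ncard :=
    Nat.card_coe_set_eq {g : G | n ∣ orderOf g}
  rw [e]
  have hconj : ∀ h x : G, orderOf (h * x * h⁻¹) = orderOf x := fun h x =>
    (MulAut.conj h).orderOf_eq x
  have key : ∀ (m : ℕ) (y : G), m.Coprime n → 0 < m → (n ∣ orderOf (y ^ m) ↔ n ∣ orderOf y) := by
    intro m y hm hm0
    rw [orderOf_pow' y hm0.ne']
    constructor
    · exact fun h => h.trans (Nat.div_dvd_of_dvd (Nat.gcd_dvd_left _ _))
    · intro h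
      have h1 : (Nat.gcd (orderOf y) m).Coprime n := Nat.Coprime.coprime_dvd_left (Nat.gcd_dvd_right _ _) hm
      apply (Nat.Coprime.dvd_mul_left h1.symm).mp
      rwa [Nat.mul_div_cancel' (Nat.gcd_dvd_left _ _)]
  apply CL.Fgs.card_dvd_ncard_of_closed
  · intro h _ x hx
    change n ∣ orderOf _
    rw [hconj]; exact hx
  · intro U hU x hx hxn u hu
    obtain ⟨w, -, hw⟩ := CL.Fgs.brauer_pow_conj U hxn hu
    have hcop : (Nat.card U).Coprime n := by
      refine Nat.Coprime.coprime_dvd_left (Subgroup.card_dvd_of_le hU) ?_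
      rw [hH]
      exact Nat.Coprime.pow_left _ ((Nat.Prime.coprime_iff_not_dvd hp).mpr hpn)
    change n ∣ orderOf _
    rw [← key _ _ hcop Nat.card_pos, hw]
    have := hconj w⁻¹ (x ^ Nat.card U)
    rw [inv_inv] at this
    rw [this, key _ _ hcop Nat.card_pos]
    exact hx

end Cfsg.Agent.S3994
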