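import Cfsg.Statements.S3997
import Cfsg.Agent.Base

set_option autoImplicit false
open Cfsg

namespace Cfsg.Agent.S3997

/-- Let G and H be finite groups with the same order type: for every m they have the same number of elements of order m. If G is nilpotent then so is H. -/
theorem result {G H : Type*} [Group G] [Finite G] [Group H] [Finite H] (hT : (∀ m : ℕ, Nat.card {g : G // orderOf g = m} = Nat.card {h : H // orderOf h = m})) (hG : Group.IsNilpotent G) :
    Group.IsNilpotent H := by
  let e : G ≃ H := Equiv.ofFiberEquiv (f := fun g : G => orderOf g) (g := fun h : H => orderOf h)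
    fun m => (Finite.card_eq.1 (hT m)).some
  have he : ∀ g, orderOf (e g) = orderOf g := fun g => Equiv.ofFiberEquiv_map _ g
  refine (Group.isNilpotent_of_finite_tfae.out 3 0 rfl rfl).1 fun p hp P => ?_
  obtain ⟨Q⟩ : Nonempty (Sylow p G) := inferInstance
  have hQ : (Q : Subgroup G).Normal := inferInstance
  have h1 : ∀ x : H, (∃ k, orderOf x = p ^ k) → x ∈ e '' (Q : Subgroup G) := fun x ⟨k, hk⟩ => by
    refine ⟨e.symm x, ?_, by simp⟩
    have h2 : IsPGroup p (Subgroup.zpowers (e.symm x)) :=
      IsPGroup.of_card (n := k) (by rw [Nat.card_zpowers, ← he, e.apply_symm_apply, hk])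
    obtain ⟨R, hR⟩ := h2.exists_le_sylow
    have := Sylow.unique_of_normal Q hQ
    rw [Subsingleton.elim R Q] at hR
    exact hR (Subgroup.mem_zpowers _)
  have h2 : ∀ x ∈ (P : Subgroup H), ∃ k, orderOf x = p ^ k := fun x hx => by
    obtain ⟨k, hk⟩ := IsPGroup.iff_orderOf.1 P.isPGroup' ⟨x, hx⟩
    exact ⟨k, by rw [← hk, ← Subgroup.orderOf_coe]⟩
  have h3 : ((P : Subgroup H) : Set H) = e '' (Q : Subgroup G) := by
    refine Set.eq_of_subset_of_ncard_le (fun x hx => h1 x (h2 x hx)) ?_
    rw [Set.ncard_image_of_injective _ e.injective, ← Nat.card_coe_set_eq, ← Nat.card_coe_set_eq]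
    simp only [SetLike.coe_sort_coe]
    rw [P.card_eq_multiplicity, Q.card_eq_multiplicity, Nat.card_congr e]
  refine ⟨fun x hx g => ?_⟩
  change _ ∈ ((P : Subgroup H) : Set H)
  obtain ⟨k, hk⟩ := h2 x hx
  exact h3 ▸ h1 _ ⟨k, (orderOf_injective (MulAut.conj g).toMonoidHom (MulAut.conj g).injective x).trans hk⟩

end Cfsg.Agent.S3997
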