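import Cfsg.Statements.S3998
import Cfsg.Agent.Grp.Supersolv3
import Cfsg.Agent.Grp.Hall2
import Cfsg.Agent.Fgs.PiPart

set_option autoImplicit false
open Cfsg

namespace Cfsg.Agent.S3998


open CL.Grp in
theorem step {X : Type*} [Group X] [Finite X] (k : ℕ) (N : Subgroup X) [hn : N.Normal]
    (hN : IsPiHall {q | k + 1 ≤ q} N) (hs : Group.IsSolvable N) :
    ∃ K : Subgroup X, IsPiHall {q | k ≤ q} K ∧ Group.IsSolvable K ∧ (IsSupersolvable X → K.Normal) := by
  by_cases hk : k.Prime
  · haveI := Fact.mk hk
    obtain ⟨P⟩ : Nonempty (Sylow k (X ⧸ N)) := inferInstance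
    refine ⟨(P : Subgroup (X ⧸ N)).comap (QuotientGroup.mk' N), ⟨?_, ?_⟩, ?_, ?_⟩
    · intro p hp hd
      rw [hall_card_comap_mk'] at hd
      rcases (Nat.Prime.dvd_mul hp).1 hd with h | h
      · have := hN.1 p hp h
        simp only [Set.mem_setOf_eq] at this ⊢
        omega
      · obtain ⟨n, hn⟩ := P.isPGroup'.exists_card_eq
        rw [hn] at h
        have := (Nat.prime_dvd_prime_iff_eq hp hk).1 (hp.dvd_of_dvd_pow h)
        simp only [Set.mem_setOf_eq]
        omega
    · intro p hp hkp hd
      rw [Subgroup.index_comap_of_surjective _ (QuotientGroup.mk'_surjective N)] at hd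
      simp only [Set.mem_setOf_eq] at hkp
      rcases hkp.eq_or_lt with h | h
      · subst h
        exact P.not_dvd_index hd
      · exact hN.2 p hp h (hd.trans (Subgroup.index_dvd_card _))
    · haveI : Group.IsSolvable (P : Subgroup (X ⧸ N)) := by
        haveI := P.isPGroup'.isNilpotent
        infer_instance
      let K := (P : Subgroup (X ⧸ N)).comap (QuotientGroup.mk' N)
      have hNK : N ≤ K := fun x hx => by
        simp only [K, Subgroup.mem_comap, QuotientGroup.mk'_apply]
        rw [(QuotientGroup.eq_one_iff x).2 hx]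
        exact one_mem _
      let f : K →* (P : Subgroup (X ⧸ N)) :=
        ((QuotientGroup.mk' N).comp K.subtype).codRestrict _ (fun x => x.2)
      refine solvable_of_ker_le_range (Subgroup.inclusion hNK) f ?_
      intro x hx
      have : (x : X) ∈ N := by
        have h1 := congrArg Subtype.val (MonoidHom.mem_ker.1 hx)
        exact (QuotientGroup.eq_one_iff _).1 h1
      exact ⟨⟨x, this⟩, rfl⟩
    · intro hX
      haveI : (P : Subgroup (X ⧸ N)).Normal := by
        refine IsSupersolvable.sylow_normal (IsSupersolvable.quotient hX N) (fun q hq hd => ?_) P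
        by_contra h
        exact hN.2 q hq (by simp only [Set.mem_setOf_eq]; omega) hd
      infer_instance
  · refine ⟨N, ⟨fun p hp hd => ?_, fun p hp hkp => ?_⟩, hs, fun _ => hn⟩
    · have := hN.1 p hp hd
      simp only [Set.mem_setOf_eq] at this ⊢
      omega
    · refine hN.2 p hp ?_
      simp only [Set.mem_setOf_eq] at hkp ⊢
      rcases hkp.eq_or_lt with h | h
      · exact absurd (h ▸ hp) hk
      · omega

theorem tower {X : Type*} [Group X] [Finite X]
    (h : ∀ (k : ℕ) (K : Subgroup X), IsPiHall {q | k ≤ q} K → (IsSupersolvable X → K.Normal) → K.Normal)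
    (k : ℕ) : ∃ K : Subgroup X, IsPiHall {q | k ≤ q} K ∧ Group.IsSolvable K ∧ K.Normal := by
  have key : ∀ j k : ℕ, Nat.card X < k + j →
      ∃ K : Subgroup X, IsPiHall {q | k ≤ q} K ∧ Group.IsSolvable K ∧ K.Normal := by
    intro j
    induction j with
    | zero =>
      intro k hk
      refine ⟨⊥, ⟨fun p hp hd => ?_, fun p hp hkp hd => ?_⟩, inferInstance, inferInstance⟩
      · rw [Subgroup.card_bot] at hd
        exact absurd (Nat.dvd_one.1 hd) hp.ne_one
      · rw [Subgroup.index_bot] at hd
        have := Nat.le_of_dvd Nat.card_pos hd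
        simp only [Set.mem_setOf_eq] at hkp
        omega
    | succ j ih =>
      intro k hk
      obtain ⟨N, hN, hs, hn⟩ := ih (k + 1) (by omega)
      obtain ⟨K, hK, hKs, hKn⟩ := step k N hN hs
      exact ⟨K, hK, hKs, h k K hK hKn⟩
  exact key (Nat.card X + 1) k (by omega)

open CL.Fgs in
/-- Let G and H be finite groups with the same order type (for every m the same number of elements of order m). If G is supersolvable then H is solvable. -/
theorem result {G H : Type*} [Group G] [Finite G] [Group H] [Finite H] (hT : (∀ m : ℕ, Nat.card {g : G // orderOf g = m} = Nat.card {h : H // orderOf h = m})) (hG : Cfsg.IsSupersolvable G) :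
    Group.IsSolvable H := by
  have hne : ∀ m, Nonempty ({g : G // orderOf g = m} ≃ {h : H // orderOf h = m}) :=
    fun m => Finite.card_eq.1 (hT m)
  let e : G ≃ H := Equiv.ofFiberEquiv (f := orderOf) (g := orderOf) (fun m => (hne m).some)
  have he : ∀ g, orderOf (e g) = orderOf g := fun g => Equiv.ofFiberEquiv_map _ g
  have hc : Nat.card G = Nat.card H := Nat.card_congr e
  have hH := tower (X := H) (fun k K hK _ => by
    obtain ⟨N, hN, -, hn⟩ := tower (X := G) (fun _ _ _ h => h hG) k
    have hNi : IsPiNum ({q | k ≤ q} : Set ℕ)ᶜ N.index := fun q hq hd hm => hN.2 q hq hm hd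
    have hKi : IsPiNum ({q | k ≤ q} : Set ℕ)ᶜ K.index := fun q hq hd hm => hK.2 q hq hm hd
    have h1 : Nat.card N ∣ Nat.card K :=
      IsPiNum.dvd_of_dvd_mul (π := {q | k ≤ q}) hN.1 hKi
        (by rw [K.card_mul_index, ← hc]; exact N.card_subgroup_dvd_card)
    have hset : (K : Set H) = {x | IsPiElt {q | k ≤ q} x} := by
      refine Set.eq_of_subset_of_ncard_le (fun x hx => isPiElt_of_mem hK.1 hx) ?_ (Set.toFinite _)
      have h2 : {x : H | IsPiElt {q | k ≤ q} x} ⊆ e '' (N : Set G) := by
        intro x hx
        refine ⟨e.symm x, IsPiElt.mem_of_index hNi ?_, e.apply_symm_apply x⟩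
        have := he (e.symm x)
        rw [e.apply_symm_apply] at this
        intro q hq hd
        exact hx q hq (this ▸ hd)
      refine (Set.ncard_le_ncard h2 (Set.toFinite _)).trans ?_
      rw [Set.ncard_image_of_injective _ e.injective]
      exact Nat.le_of_dvd Nat.card_pos h1
    refine ⟨fun x hx g => ?_⟩
    have hx' : x ∈ (K : Set H) := hx
    rw [hset] at hx'
    have : g * x * g⁻¹ ∈ (K : Set H) := by
      rw [hset]
      exact IsPiElt.conj hx' g
    exact this) 0
  obtain ⟨K, hK, hs, -⟩ := hH
  have : K = ⊤ := by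
    rw [← Subgroup.index_eq_one]
    by_contra h
    obtain ⟨p, hp, hd⟩ := Nat.exists_prime_and_dvd h
    exact hK.2 p hp (Nat.zero_le p) hd
  subst this
  exact solvable_of_surjective (f := (⊤ : Subgroup H).subtype) (fun x => ⟨⟨x, trivial⟩, rfl⟩)

end Cfsg.Agent.S3998
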