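import Cfsg.Statements.S4002
import Cfsg.Agent.Perm.SpecThree
import Cfsg.Agent.Perm.TwoPrimes

set_option autoImplicit false
open Cfsg

namespace Cfsg.Agent.S4002

/-- If the set of element orders of a finite group G is {1, 2, …, n} with n ≥ 7, then G is not solvable. -/
theorem result {G : Type*} [Group G] [Finite G] (n : ℕ) (hn : 7 ≤ n) (h : Set.range (orderOf : G → ℕ) = {k : ℕ | 1 ≤ k ∧ k ≤ n}) : ¬ Group.IsSolvable G := by
  have hs : CL.Perm.Spec G = {k : ℕ | 1 ≤ k ∧ k ≤ n} := h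
  have key : ∀ p q r : ℕ, p.Prime → q.Prime → r.Prime → p < q → q < r → r ≤ n → n < p * q →
      ¬ Group.IsSolvable G := by
    intro p q r hp hq hr h1 h2 h3 h4 hG
    have h5 : ∀ s : ℕ, s.Prime → s ≤ n → s ∣ Nat.card G := fun s hs' h => by
      rw [← CL.Perm.prime_mem_spec_iff hs', hs]; exact ⟨hs'.one_le, h⟩
    have := CL.Perm.three_primes_of_isSolvable hG hp hq hr h1.ne (by omega) h2.ne
      (h5 p hp (by omega)) (h5 q hq (by omega)) (h5 r hr h3)
    rw [hs] at this
    rcases this with ⟨-, h⟩ | ⟨-, h⟩ | ⟨-, h⟩ <;> nlinarith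
  by_cases h11 : 11 ≤ n
  · obtain ⟨p, q, hp, hq, h1, h2, h3⟩ := CL.Perm.exists_two_primes n h11
    exact key 2 p q Nat.prime_two hp hq (by omega) h1 h3 h2
  · exact key 3 5 7 (by norm_num) (by norm_num) (by norm_num) (by norm_num) (by norm_num) hn (by omega)

end Cfsg.Agent.S4002
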