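import Cfsg.Statements.S4003
import Cfsg.Agent.Fgs.PCount2

set_option autoImplicit false
open Cfsg

namespace Cfsg.Agent.S4003

open scoped Pointwise

/-- Let G be a finite group, p an odd prime dividing the order of G whose Sylow p-subgroups are not cyclic, and n = p^s·m with s > 1 and m coprime to p. Then the number of elements of G of order n is a multiple of p^s. -/
theorem result {G : Type*} [Group G] [Finite G] (p : ℕ) [Fact p.Prime] (hodd : p ≠ 2) (hpG : p ∣ Nat.card G)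
    (P : Sylow p G) (hP : ¬ IsCyclic ↥(P : Subgroup G)) (s m : ℕ) (hs : 1 < s) (hm : Nat.Coprime p m) :
    p ^ s ∣ Nat.card {g : G // orderOf g = p ^ s * m} := by
  have hp : p.Prime := Fact.out
  rcases Nat.eq_zero_or_pos m with rfl | hm0
  · exact absurd (Nat.coprime_zero_right p |>.1 hm) hp.ne_one
  obtain ⟨k, rfl⟩ : ∃ k, s = k + 1 := ⟨s - 1, by omega⟩
  let Ω : Set (Subgroup G × G) :=
    {w | w.1 ∈ CL.Fgs.cycSub G (p ^ (k + 1)) ∧ orderOf w.2 = m ∧ w.1 ≤ Subgroup.centralizer {w.2}}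
  have hcop : (p ^ (k + 1)).Coprime m := hm.pow_left _
  have hq : 0 < p ^ (k + 1) := pow_pos hp.pos _
  have ho1 : ∀ g : G, orderOf g = p ^ (k + 1) * m → orderOf (g ^ m) = p ^ (k + 1) := fun g hg => by
    rw [orderOf_pow' _ hm0.ne', hg, Nat.gcd_eq_right (Dvd.intro_left _ rfl), Nat.mul_div_cancel _ hm0]
  have ho2 : ∀ g : G, orderOf g = p ^ (k + 1) * m → orderOf (g ^ p ^ (k + 1)) = m := fun g hg => by
    rw [orderOf_pow' _ hq.ne', hg, Nat.gcd_eq_right (Dvd.intro _ rfl), Nat.mul_div_cancel_left _ hq]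
  obtain ⟨a, b, hab⟩ := Nat.isCoprime_iff_coprime.2 hcop
  have h1 : {g : G | orderOf g = p ^ (k + 1) * m}.ncard = (p ^ (k + 1)).totient * Ω.ncard := by
    refine CL.Fgs.ncard_eq_mul_of_fibers (fun g => (Subgroup.zpowers (g ^ m), g ^ p ^ (k + 1))) _ _ _ ?_ ?_
    · intro g hg
      refine ⟨CL.Fgs.zpowers_mem_cycSub (ho1 g hg), ho2 g hg, Subgroup.zpowers_le.2 ?_⟩
      exact Subgroup.mem_centralizer_singleton_iff.2 ((Commute.refl g).pow_pow _ _)
    · rintro ⟨Y, z⟩ ⟨hY, hz, hYz⟩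
      simp only at hY hz hYz
      rw [← CL.Fgs.ncard_mem_orderOf_eq hY]
      refine Set.ncard_congr (fun g _ => g ^ m) ?_ ?_ ?_
      · rintro g ⟨hg, h⟩
        exact ⟨ho1 g hg, (Prod.mk.inj h).1 ▸ Subgroup.mem_zpowers _⟩
      · rintro g g' ⟨hg, h⟩ ⟨hg', h'⟩ e
        have e2 : g ^ p ^ (k + 1) = g' ^ p ^ (k + 1) := (Prod.mk.inj h).2.trans (Prod.mk.inj h').2.symm
        have key : ∀ x : G, x = (x ^ p ^ (k + 1)) ^ a * (x ^ m) ^ b := fun x => by
          rw [← zpow_natCast, ← zpow_natCast, ← zpow_mul, ← zpow_mul, ← zpow_add, mul_comm _ a, mul_comm _ b, hab,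
            zpow_one]
        rw [key g, key g', e2, show g ^ m = g' ^ m from e]
      · rintro y ⟨hy, hyY⟩
        have hc : Commute y z := Subgroup.mem_centralizer_singleton_iff.1 (hYz hyY)
        have hy1 : y ^ ((p ^ (k + 1) : ℕ) : ℤ) = 1 := by rw [zpow_natCast, ← hy, pow_orderOf_eq_one]
        have hz1 : z ^ (m : ℤ) = 1 := by rw [zpow_natCast, ← hz, pow_orderOf_eq_one]
        have e1 : (y ^ b * z ^ a) ^ m = y := by
          rw [← zpow_natCast, (hc.zpow_zpow b a).mul_zpow, ← zpow_mul, ← zpow_mul, mul_comm a, zpow_mul z, hz1,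
            one_zpow, mul_one, show b * m = 1 - ((p ^ (k + 1) : ℕ) : ℤ) * a by rw [← hab]; ring, zpow_sub,
            zpow_mul, hy1]
          simp
        have e2 : (y ^ b * z ^ a) ^ p ^ (k + 1) = z := by
          rw [← zpow_natCast, (hc.zpow_zpow b a).mul_zpow, ← zpow_mul, ← zpow_mul, mul_comm b, zpow_mul y, hy1,
            one_zpow, one_mul, show a * ((p ^ (k + 1) : ℕ) : ℤ) = 1 - m * b by rw [← hab]; ring, zpow_sub,
            zpow_mul, hz1]
          simp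
        refine ⟨y ^ b * z ^ a, ⟨?_, ?_⟩, e1⟩
        · refine Nat.dvd_antisymm (orderOf_dvd_of_pow_eq_one ?_) (hcop.mul_dvd_of_dvd_of_dvd ?_ ?_)
          · rw [pow_mul, e2, ← hz, pow_orderOf_eq_one]
          · rw [← hy]; nth_rw 1 [← e1]; exact orderOf_pow_dvd _
          · rw [← hz]; nth_rw 1 [← e2]; exact orderOf_pow_dvd _
        · simp only [e1, e2, CL.Fgs.zpowers_eq_of_mem_cycSub hY hy hyY]
  have h2 : p ∣ Ω.ncard := by
    have h := CL.Fgs.ncard_modEq_fixed_conj P.isPGroup' Ω (by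
      rintro g - ⟨Y, z⟩ ⟨hY, hz, hYz⟩
      refine ⟨CL.Fgs.smul_mem_cycSub _ hY, ?_, ?_⟩
      · exact (CL.Fgs.orderOf_conj' g z).trans hz
      · change MulAut.conj g • Y ≤ Subgroup.centralizer {g * z * g⁻¹}
        rw [CL.Fgs.cent_conj]
        exact Subgroup.pointwise_smul_le_pointwise_smul_iff.2 hYz)
    have h3 : {w | w ∈ Ω ∧ ∀ g ∈ (P : Subgroup G), MulAut.conj g • w = w}
        = {K | K ∈ CL.Fgs.cycSub G (p ^ (k + 1)) ∧ ∀ g ∈ (P : Subgroup G), MulAut.conj g • K = K} ×ˢ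
          {z | orderOf z = m ∧ ∀ g ∈ (P : Subgroup G), g * z * g⁻¹ = z} := by
      ext ⟨Y, z⟩
      simp only [Set.mem_ofPred_eq, Set.mem_prod, Prod.smul_mk, Prod.mk.injEq, Ω]
      constructor
      · rintro ⟨⟨hY, hz, -⟩, h⟩
        exact ⟨⟨hY, fun g hg => (h g hg).1⟩, hz, fun g hg => (h g hg).2⟩
      · rintro ⟨⟨hY, h⟩, hz, h'⟩
        refine ⟨⟨hY, hz, fun y hy => ?_⟩, fun g hg => ⟨h g hg, h' g hg⟩⟩
        exact CL.Fgs.mem_cent_iff_conj.2 (h' y (CL.Fgs.le_sylow_of_normalized P (IsPGroup.of_card hY.1) h hy))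
    rw [h3, Set.ncard_prod] at h
    refine (h.dvd_iff dvd_rfl).2 (Dvd.dvd.mul_right ?_ _)
    exact ((CL.Fgs.ncard_cycSub_fixed_modEq P (k + 1)).dvd_iff dvd_rfl).2
      (CL.Fgs.dvd_ncard_cycSub_of_odd hodd P hP (by omega))
  change _ ∣ Nat.card {g : G | orderOf g = p ^ (k + 1) * m}
  rw [Nat.card_coe_set_eq, h1, Nat.totient_prime_pow_succ hp, pow_succ, mul_assoc]
  exact Nat.mul_dvd_mul_left _ (h2.mul_left _)

end Cfsg.Agent.S4003
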