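import Cfsg.Statements.S4005
import Cfsg.Agent.Grp.FrobCompl
import Cfsg.Agent.Grp.MinNormal
import Cfsg.Agent.Char.Burnside

set_option autoImplicit false
open Cfsg

namespace Cfsg.Agent.S4005

section Helpers
open Subgroup CL.Grp

variable {G : Type*} [Group G] {p q : ℕ}

theorem eq_one_of (h : p.Coprime q) {g : G} (h1 : g ^ p = 1) (h2 : g ^ q = 1) : g = 1 :=
  orderOf_eq_one_iff.1 (Nat.eq_one_of_dvd_coprimes h (orderOf_dvd_of_pow_eq_one h1)
    (orderOf_dvd_of_pow_eq_one h2))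

theorem pow_of_pel (h : p.Coprime q) (hG : ∀ g : G, g ^ p = 1 ∨ g ^ q = 1) {P : Subgroup G}
    (hP : IsPGroup p P) {g : G} (hg : g ∈ P) : g ^ p = 1 := by
  obtain ⟨k, hk⟩ := hP ⟨g, hg⟩
  refine (hG g).elim id fun h1 => ?_
  rw [eq_one_of (g := g) (h.pow_left k) (congrArg Subtype.val hk) h1, one_pow]

theorem fpf (h : p.Coprime q) (hG : ∀ g : G, g ^ p = 1 ∨ g ^ q = 1) {a k : G} (ha : a ^ q = 1)
    (ha1 : a ≠ 1) (hk : k ^ p = 1) (hc : a * k = k * a) : k = 1 := by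
  have hc' : Commute a k := hc
  rcases hG (a * k) with h1 | h1
  · rw [hc'.mul_pow, hk, mul_one] at h1
    exact absurd (eq_one_of h h1 ha) ha1
  · rw [hc'.mul_pow, ha, one_mul] at h1
    exact eq_one_of h hk h1

theorem prime_eq [Finite G] (hp : p.Prime) (hq : q.Prime) (hG : ∀ g : G, g ^ p = 1 ∨ g ^ q = 1)
    (r : ℕ) (hr : r.Prime) (h : r ∣ Nat.card G) : r = p ∨ r = q := by
  haveI := Fact.mk hr
  obtain ⟨x, hx⟩ := exists_prime_orderOf_dvd_card' r h
  exact (hG x).imp (fun h => (Nat.prime_dvd_prime_iff_eq hr hp).1 (hx ▸ orderOf_dvd_of_pow_eq_one h))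
    fun h => (Nat.prime_dvd_prime_iff_eq hr hq).1 (hx ▸ orderOf_dvd_of_pow_eq_one h)

theorem index_eq [Finite G] [hp : Fact p.Prime] [hq : Fact q.Prime] (h : p.Coprime q)
    (hG : ∀ g : G, g ^ p = 1 ∨ g ^ q = 1) {N : Subgroup G} [N.Normal] (hN : N ≠ ⊥)
    (hNp : ∀ g ∈ N, g ^ p = 1) {y : G} (hy : orderOf y = q) (P : Sylow p G) :
    (P : Subgroup G).index = q := by
  obtain ⟨Q⟩ : Nonempty (Sylow q G) := inferInstance
  have hG' : ∀ g : G, g ^ q = 1 ∨ g ^ p = 1 := fun g => (hG g).symm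
  have hQ : ∀ g : (Q : Subgroup G), g ^ q = 1 := fun g => Subtype.ext (pow_of_pel h.symm hG' Q.isPGroup' g.2)
  have h1 : PQCyclic (Q : Subgroup G) := pqCyclic_of_fpf hN (by rw [normalizer_eq_top]; exact le_top)
    fun a ha ha1 => eq_bot_iff.2 fun k hk => mem_bot.2 (fpf h hG
      (pow_of_pel h.symm hG' Q.isPGroup' ha) ha1 (hNp k hk.1) (hk.2 a rfl))
  have h2 : Nat.card (Q : Subgroup G) ∣ q := by
    by_cases h0 : ∀ g : (Q : Subgroup G), g = 1
    · rw [Nat.card_eq_one_iff_unique.2 ⟨⟨fun a b => by rw [h0 a, h0 b]⟩, inferInstance⟩]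
      exact one_dvd _
    · push Not at h0
      obtain ⟨z, hz⟩ := h0
      have ho : ∀ g : (Q : Subgroup G), g ≠ 1 → Nat.card (zpowers g) = q := fun g hg => by
        rw [Nat.card_zpowers, orderOf_eq_prime (hQ g) hg]
      have : zpowers z = ⊤ := top_le_iff.1 fun g _ => by
        by_cases hg : g = 1
        · rw [hg]; exact one_mem _
        · rw [h1.eq_of_card_eq_prime Q.isPGroup' _ _ (ho z hz) (ho g hg)]
          exact mem_zpowers g
      rw [← card_top, ← this, ho z hz]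
  have h3 := Nat.eq_prime_pow_of_unique_prime_dvd (p := q) (index_ne_zero_of_finite (H := P))
    fun {d} hd hdn => (prime_eq hp.out hq.out hG d hd (hdn.trans (index_dvd_card _))).resolve_left
      fun e => P.not_dvd_index (e ▸ hdn)
  have h4 : (P : Subgroup G).index ∣ Nat.card (Q : Subgroup G) := by
    refine Nat.Coprime.dvd_of_dvd_mul_left (m := (Q : Subgroup G).index) ?_
      (by rw [index_mul_card]; exact index_dvd_card _)
    rw [h3]
    exact ((Nat.Prime.coprime_iff_not_dvd hq.out).2 Q.not_dvd_index).pow_left _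
  refine ((Nat.dvd_prime hq.out).1 (h4.trans h2)).resolve_left fun h5 => ?_
  have h6 : y ∈ (P : Subgroup G) := by rw [index_eq_one.1 h5]; trivial
  have := eq_one_of h (pow_of_pel h hG P.isPGroup' h6) (hy ▸ pow_orderOf_eq_one y)
  exact hq.out.one_lt.ne' (by rw [← hy, this, orderOf_one])

end Helpers

/-- A finite group whose set of element orders is exactly {1, 2, 3} has either a normal elementary abelian 3-subgroup of index 2 or a normal elementary abelian 2-subgroup of index 3. -/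
theorem result {G : Type*} [Group G] [Finite G] (h : Set.range (orderOf : G → ℕ) = {k : ℕ | 1 ≤ k ∧ k ≤ 3}) :
    (∃ N : Subgroup G, N.Normal ∧ Cfsg.IsElementaryAbelian 3 N ∧ N.index = 2) ∨
      (∃ N : Subgroup G, N.Normal ∧ Cfsg.IsElementaryAbelian 2 N ∧ N.index = 3) := by
  have hG : ∀ g : G, g ^ 2 = 1 ∨ g ^ 3 = 1 := fun g => by
    obtain ⟨h1, h2⟩ : orderOf g ∈ {k : ℕ | 1 ≤ k ∧ k ≤ 3} := h ▸ ⟨g, rfl⟩
    rw [← orderOf_dvd_iff_pow_eq_one, ← orderOf_dvd_iff_pow_eq_one]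
    interval_cases orderOf g <;> simp
  have hG' : ∀ g : G, g ^ 3 = 1 ∨ g ^ 2 = 1 := fun g => (hG g).symm
  obtain ⟨s, hs⟩ : 2 ∈ Set.range (orderOf : G → ℕ) := by rw [h]; simp
  obtain ⟨y, hy⟩ : 3 ∈ Set.range (orderOf : G → ℕ) := by rw [h]; simp
  have hs1 : s ≠ 1 := fun e => by simp [e] at hs
  have : Nontrivial G := ⟨⟨s, 1, hs1⟩⟩
  have c23 : Nat.Coprime 2 3 := by norm_num
  have := CL.Char.isSolvable_of_two_primes Nat.prime_two Nat.prime_three
    (prime_eq Nat.prime_two Nat.prime_three hG)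
  obtain ⟨N, r, hr, hN, hea⟩ := CL.Grp.exists_isMinNormal_isElementaryAbelian G
  have := hN.normal
  obtain ⟨⟨t, ht⟩, ht1⟩ := Subgroup.ne_bot_iff_exists_ne_one.1 hN.ne_bot
  have ht1' : t ≠ 1 := fun e => ht1 (Subtype.ext e)
  haveI := Fact.mk hr
  have hto := orderOf_eq_prime (hea.2 t ht) ht1'
  rcases prime_eq Nat.prime_two Nat.prime_three hG r hr (hto ▸ orderOf_dvd_natCard t) with rfl | rfl
  · right
    obtain ⟨P⟩ : Nonempty (Sylow 2 G) := inferInstance
    have hP : ∀ g ∈ (P : Subgroup G), g ^ 2 = 1 := fun g hg => pow_of_pel c23 hG P.isPGroup' hg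
    have hc : ∀ a ∈ (P : Subgroup G), ∀ b ∈ (P : Subgroup G), a * b = b * a := fun a ha b hb =>
      Commute.of_orderOf_dvd_two (G := P) (fun g => orderOf_dvd_of_pow_eq_one
        (Subtype.ext (hP g g.2))) ⟨a, ha⟩ ⟨b, hb⟩ |> congrArg Subtype.val
    have hNP : N ≤ P := (CL.Grp.isPGroup_of_isElementaryAbelian hea).le_sylow_of_normal P
    have e : Subgroup.centralizer (N : Set G) = P := P.is_maximal'
      (fun g => ⟨1, Subtype.ext (by
        rw [pow_one]
        refine (hG g).elim id fun h3 => ?_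
        have := fpf c23.symm hG' (hea.2 t ht) ht1' h3 (g.2 t ht)
        simp [this])⟩) fun g hg n hn => hc n (hNP hn) g hg
    exact ⟨P, e ▸ inferInstance, ⟨⟨⟨fun a b => Subtype.ext (hc a a.2 b b.2)⟩⟩, hP⟩,
      index_eq c23 hG hN.ne_bot hea.2 hy P⟩
  · left
    obtain ⟨P⟩ : Nonempty (Sylow 3 G) := inferInstance
    have hP : ∀ g ∈ (P : Subgroup G), g ^ 3 = 1 := fun g hg => pow_of_pel c23.symm hG' P.isPGroup' hg
    have hi := index_eq c23.symm hG' hN.ne_bot hea.2 hs P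
    have hn := Subgroup.normal_of_index_eq_two hi
    have hs2 : s ^ 2 = 1 := hs ▸ pow_orderOf_eq_one s
    exact ⟨P, hn, ⟨(CL.Grp.conj_eq_inv_of_fpf_involution (s := s)
      (by rw [Subgroup.normalizer_eq_top]; trivial) (by rw [← pow_two, hs2])
      (eq_bot_iff.2 fun k hk => Subgroup.mem_bot.2
        (fpf c23.symm hG' hs2 hs1 (hP k hk.1) (hk.2 s rfl)))).2, hP⟩, hi⟩

end Cfsg.Agent.S4005
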