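import Cfsg.Statements.S4203
import Cfsg.Agent.Odd.RelProd
import Cfsg.Agent.Grp.Supersolv3
import Cfsg.Agent.Char.Burnside
import Cfsg.Agent.Grp.MinNormal

set_option autoImplicit false
open Cfsg

namespace Cfsg.Agent.S4203

theorem arith {p q : ℕ} (hp : p.Prime) (hq : q.Prime) (hle : q ≤ p) (h : q ≡ 1 [MOD p] ∨ q ^ 2 ≡ 1 [MOD p]) :
    p = 3 := by
  have h2 : q ^ 2 ≡ 1 [MOD p] := by
    rcases h with h | h
    · simpa using h.pow 2
    · exact h
  have h3 : p ∣ (q + 1) * (q - 1) := by
    rw [← Nat.sq_sub_sq q 1]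
    exact (Nat.modEq_iff_dvd' (Nat.one_le_pow _ _ hq.pos)).1 h2.symm
  have := hq.two_le
  rcases (Nat.Prime.dvd_mul hp).1 h3 with h4 | h4
  · have h5 := Nat.le_of_dvd (by omega) h4
    rcases Nat.lt_or_ge q p with h6 | h6
    · obtain rfl : p = q + 1 := by omega
      rcases hq.eq_two_or_odd' with rfl | h7
      · rfl
      · rcases hp.eq_two_or_odd' with h8 | h8
        · omega
        · exact absurd h8 (Nat.not_odd_iff_even.2 h7.add_one)
    · obtain rfl : p = q := by omega
      exact absurd (Nat.dvd_one.1 ((Nat.dvd_add_right dvd_rfl).1 h4)) hp.one_lt.ne'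
  · have := Nat.le_of_dvd (by omega) h4
    omega

theorem eq_23 {n : ℕ} (hn : n ≠ 0) (h : ∀ q, q.Prime → q ∣ n → q ≤ 3) : ∃ a b, n = 2 ^ a * 3 ^ b := by
  obtain ⟨a, m, hm, rfl⟩ := Nat.exists_eq_pow_mul_and_not_dvd hn 2 (by norm_num)
  have hm0 : m ≠ 0 := by rintro rfl; simp at hn
  obtain ⟨b, k, hk, rfl⟩ := Nat.exists_eq_pow_mul_and_not_dvd hm0 3 (by norm_num)
  refine ⟨a, b, ?_⟩
  by_cases h1 : k = 1
  · simp [h1]
  obtain ⟨q, hq, hqk⟩ := Nat.exists_prime_and_dvd h1
  have := h q hq (hqk.trans ((dvd_mul_left _ _).trans (dvd_mul_left _ _)))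
  have := hq.two_le
  obtain rfl | rfl : q = 2 ∨ q = 3 := by omega
  · exact absurd (hqk.trans (dvd_mul_left _ _)) hm
  · exact absurd hqk hk

/-- A finite group in which every maximal subgroup has index a prime or the square of a prime is solvable. -/
theorem result {G : Type*} [Group G] [Finite G] (h : ∀ M : Subgroup G, IsCoatom M → ∃ p : ℕ, p.Prime ∧ (M.index = p ∨ M.index = p ^ 2)) : Group.IsSolvable G := by
  open CL.Grp CL.Odd in
  revert h
  refine induction_on_card (P := fun X _ _ => (∀ M : Subgroup X, IsCoatom M →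
    ∃ p : ℕ, p.Prime ∧ (M.index = p ∨ M.index = p ^ 2)) → Group.IsSolvable X) (fun X _ _ ih h => ?_) G
  rcases subsingleton_or_nontrivial X with _ | _
  · infer_instance
  obtain ⟨N, hN⟩ := exists_isMinNormal X
  have := hN.normal
  have hq : Group.IsSolvable (X ⧸ N) := ih _ (card_quotient_lt hN.ne_bot) fun M hM => by
    rw [← Subgroup.index_comap_of_surjective M (QuotientGroup.mk'_surjective N)]
    exact h _ (Subgroup.isCoatom_comap_of_surjective (QuotientGroup.mk'_surjective N) hM)
  suffices Group.IsSolvable N from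
    Group.isSolvable_of_ker_le_range N.subtype (QuotientGroup.mk' N) (by simp)
  have h1 : (Nat.card N).primeFactors.Nonempty :=
    Nat.nonempty_primeFactors.2 (Finite.one_lt_card_iff_nontrivial.2 hN.nontrivial)
  obtain ⟨p, hp, hmax⟩ := Finset.exists_max_image _ id h1
  have hpp := Nat.prime_of_mem_primeFactors hp
  have := Fact.mk hpp
  have hle : ∀ q, q.Prime → q ∣ Nat.card N → q ≤ p := fun q hq hd =>
    hmax q (Nat.mem_primeFactors.2 ⟨hq, hd, Nat.card_pos.ne'⟩)
  obtain ⟨P⟩ : Nonempty (Sylow p N) := inferInstance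
  have hf := Sylow.normalizer_sup_eq_top P
  by_cases ht : Subgroup.normalizer (((P : Subgroup N).map N.subtype : Subgroup X) : Set X) = ⊤
  · have := Subgroup.normalizer_eq_top_iff.1 ht
    have h2 : (P : Subgroup N).map N.subtype = N := hN.eq_of_le (by
      rw [Ne, Subgroup.map_eq_bot_iff_of_injective _ N.subtype_injective]
      exact P.ne_bot_of_dvd_card (Nat.dvd_of_mem_primeFactors hp)) (Subgroup.map_subtype_le _)
    have h3 : IsPGroup p N := h2 ▸ P.isPGroup'.map _
    have := h3.isNilpotent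
    infer_instance
  obtain ⟨M, hM, hle'⟩ := (eq_top_or_exists_le_coatom _).resolve_left ht
  have hs : M ⊔ N = ⊤ := eq_top_iff.2 (hf ▸ sup_le_sup_right hle' N)
  have hi : M.index = (M.subgroupOf N).index := by
    rw [← Subgroup.relIndex_top_right, ← hs, relIndex_sup_norm' (Subgroup.le_normalizer_of_normal)]
    rfl
  have hm := index_modEq_one_of_normalizer_le P (M := M.subgroupOf N) fun g hg =>
    hle' (Subgroup.le_normalizer_map N.subtype ⟨g, hg, rfl⟩)
  have hd := (M.subgroupOf N).index_dvd_card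
  rw [← hi] at hm hd
  obtain ⟨q, hq, hi'⟩ := h M hM
  have hqd : q ∣ Nat.card N := by
    rcases hi' with e | e <;> rw [e] at hd
    · exact hd
    · exact (dvd_pow_self q two_ne_zero).trans hd
  obtain rfl := arith hpp hq (hle q hq hqd) (hi'.imp (fun e => by rwa [e] at hm) fun e => by rwa [e] at hm)
  obtain ⟨a, b, hab⟩ := eq_23 Nat.card_pos.ne' hle
  exact CL.Char.isSolvable_of_card_eq_pow_mul_pow Nat.prime_two Nat.prime_three hab

end Cfsg.Agent.S4203
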