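import Cfsg.Statements.S4204
import Cfsg.Agent.Grp.Comm1

set_option autoImplicit false
open Cfsg

namespace Cfsg.Agent.S4204

/-- the lower central series preceded by the whole group -/
def ser {G : Type*} [Group G] (H : Subgroup G) : ℕ → Subgroup G
  | 0 => ⊤
  | n + 1 => H.lowerCentralSeries n

theorem ser_normal {G : Type*} [Group G] (H : Subgroup G) [H.Normal] : ∀ n, (ser H n).Normal
  | 0 => inferInstanceAs (⊤ : Subgroup G).Normal
  | 1 => ‹_›
  | n + 2 => by
    have := ser_normal H (n + 1)
    exact inferInstanceAs ⁅ser H (n + 1), H⁆.Normal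

theorem ser_comm {G : Type*} [Group G] (H : Subgroup G) [H.Normal] : ∀ n, ⁅ser H n, H⁆ ≤ ser H (n + 1)
  | 0 => Subgroup.commutator_le_right _ _
  | _ + 1 => le_rfl

/-- If `H` and `K` are normal subgroups of a finite group with `H` nilpotent of class at most `c` and `K` nilpotent of class at most `d` (the terms with index `c`, respectively `d`, of their lower central series are trivial, indices starting at `0`), then `HK` is nilpotent of class at most `c + d`. -/
theorem result {G : Type*} [Group G] [Finite G] (H K : Subgroup G) [H.Normal] [K.Normal] (c d : ℕ) (hH : H.lowerCentralSeries c = ⊥) (hK : K.lowerCentralSeries d = ⊥) : (H ⊔ K).lowerCentralSeries (c + d) = ⊥ := by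
  have hH' := ser_normal H
  have hK' := ser_normal K
  let M : ℕ → Subgroup G := fun n => ⨆ x : {x : ℕ × ℕ // x.1 + x.2 = n}, ser H x.1.1 ⊓ ser K x.1.2
  have hM : ∀ n, (M n).Normal := fun n => Subgroup.iSup_normal _
  have key : ∀ n, (H ⊔ K).lowerCentralSeries n ≤ M (n + 1) := by
    intro n
    induction n with
    | zero =>
      exact sup_le (le_iSup_of_le ⟨(1, 0), rfl⟩ (le_inf le_rfl le_top))
        (le_iSup_of_le ⟨(0, 1), rfl⟩ (le_inf le_top le_rfl))
    | succ n ih =>
      refine (Subgroup.commutator_mono ih le_rfl).trans ?_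
      rw [CL.Grp.commutator_le_iff_map_eq_bot, Subgroup.commutator_eq_bot_iff_le_centralizer,
        Subgroup.map_le_iff_le_comap]
      refine iSup_le ?_
      rintro ⟨⟨i, j⟩, hij⟩
      rw [← Subgroup.map_le_iff_le_comap, ← Subgroup.commutator_eq_bot_iff_le_centralizer,
        ← CL.Grp.commutator_le_iff_map_eq_bot]
      refine CL.Grp.commutator_sup_right_le (le_iSup_of_le ⟨(i + 1, j), by simp only at hij ⊢; omega⟩ (le_inf ?_ ?_))
        (le_iSup_of_le ⟨(i, j + 1), by simp only at hij ⊢; omega⟩ (le_inf ?_ ?_))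
      · exact (Subgroup.commutator_mono inf_le_left le_rfl).trans (ser_comm H i)
      · exact (Subgroup.commutator_mono inf_le_right le_rfl).trans (Subgroup.commutator_le_left _ _)
      · exact (Subgroup.commutator_mono inf_le_left le_rfl).trans (Subgroup.commutator_le_left _ _)
      · exact (Subgroup.commutator_mono inf_le_right le_rfl).trans (ser_comm K j)
  refine eq_bot_iff.2 ((key _).trans (iSup_le ?_))
  rintro ⟨⟨i, j⟩, hij⟩
  simp only at hij ⊢
  by_cases h : c < i
  · obtain ⟨i, rfl⟩ : ∃ k, i = k + 1 := ⟨i - 1, by omega⟩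
    exact inf_le_left.trans (hH ▸ H.lowerCentralSeries_antitone (by omega))
  · obtain ⟨j, rfl⟩ : ∃ k, j = k + 1 := ⟨j - 1, by omega⟩
    exact inf_le_right.trans (hK ▸ K.lowerCentralSeries_antitone (by omega))

end Cfsg.Agent.S4204
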