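import Cfsg.Statements.S4212
import Cfsg.Agent.Fgs.FrobSol

set_option autoImplicit false
open Cfsg

namespace Cfsg.Agent.S4212

/-- Let `G` be a finite group of order `g`, `c` an element whose conjugacy class has `h` elements, and `n` a natural number. Then the number of elements `x` of `G` with `x^n` conjugate to `c` is a multiple of `gcd(hn, g)`. -/
theorem result {G : Type*} [Group G] [Finite G] (c : G) (n : ℕ) : Nat.gcd (Nat.card {y : G // IsConj c y} * n) (Nat.card G) ∣ Nat.card {x : G // IsConj c (x ^ n)} := by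
  classical
  set C : Subgroup G := Subgroup.centralizer {c} with hC
  have hcC : c ∈ C := Subgroup.mem_centralizer_singleton_iff.mpr rfl
  have hcz : (⟨c, hcC⟩ : C) ∈ Subgroup.center C := by
    rw [Subgroup.mem_center_iff]
    intro g
    exact Subtype.ext (Subgroup.mem_centralizer_singleton_iff.mp g.2)
  have h1 := CL.Fgs.gcd_dvd_ncard_pow_eq hcz n
  have h2 : {x : C | x ^ n = ⟨c, hcC⟩}.ncard = {x : G | x ^ n = c}.ncard := by
    rw [← Set.ncard_image_of_injective _ Subtype.val_injective]
    congr 1
    ext x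
    simp only [Set.mem_image, Set.mem_ofPred_eq]
    constructor
    · rintro ⟨y, hy, rfl⟩
      exact congrArg Subtype.val hy
    · intro hx
      refine ⟨⟨x, ?_⟩, Subtype.ext hx, rfl⟩
      rw [Subgroup.mem_centralizer_singleton_iff, ← hx]
      exact (Commute.self_pow x n).eq
  rw [h2] at h1
  have h3 : Nat.card {y : G // IsConj c y} * Nat.card C = Nat.card G := by
    have e1 : Nat.card {y : G // IsConj c y} = (MulAction.orbit (ConjAct G) c).ncard := by
      rw [← Nat.card_coe_set_eq]
      apply Nat.card_congr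
      refine Equiv.subtypeEquivRight fun y => ?_
      rw [ConjAct.mem_orbit_conjAct]
      exact ⟨IsConj.symm, IsConj.symm⟩
    rw [e1, hC, Subgroup.nat_card_centralizer_nat_card_stabilizer, ← MulAction.index_stabilizer,
      Subgroup.index_mul_card]
    rfl
  have h4 : Nat.card {x : G // IsConj c (x ^ n)}
      = Nat.card {y : G // IsConj c y} * {x : G | x ^ n = c}.ncard := by
    have := Fintype.ofFinite G
    let f : {x : G // IsConj c (x ^ n)} → {y : G // IsConj c y} := fun x => ⟨x.1 ^ n, x.2⟩
    rw [← Nat.card_congr (Equiv.sigmaFiberEquiv f), Nat.card_sigma]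
    rw [Finset.sum_congr rfl (g := fun _ => {x : G | x ^ n = c}.ncard)]
    · simp
    · rintro ⟨y, hy⟩ -
      obtain ⟨g, rfl⟩ := isConj_iff.mp hy
      rw [← Nat.card_coe_set_eq]
      symm
      apply Nat.card_congr
      refine ⟨fun x => ⟨⟨g * x.1 * g⁻¹, ?_⟩, ?_⟩, fun x => ⟨g⁻¹ * x.1.1 * g, ?_⟩, ?_, ?_⟩
      · have hx : x.1 ^ n = c := x.2
        rw [conj_pow, hx]; exact hy
      · have hx : x.1 ^ n = c := x.2
        apply Subtype.ext
        change (g * x.1 * g⁻¹) ^ n = _
        rw [conj_pow, hx]
      · have hx : x.1.1 ^ n = g * c * g⁻¹ := congrArg Subtype.val x.2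
        change (g⁻¹ * x.1.1 * g) ^ n = c
        have := conj_pow (i := n) (a := g⁻¹) (b := x.1.1)
        rw [inv_inv] at this
        rw [this, hx]; group
      · intro x; ext; simp [mul_assoc]
      · intro x; ext; simp [mul_assoc]
  rw [h4, ← h3, Nat.gcd_mul_left]
  exact Nat.mul_dvd_mul_left _ h1

end Cfsg.Agent.S4212
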