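import Cfsg.Statements.S4213
import Cfsg.Agent.Fgs.FrobSol
import Cfsg.Agent.Grp.Hall
import Cfsg.Agent.Grp.Cores
import Cfsg.Agent.Grp.MinNormal
import Cfsg.Agent.Loc.ElemAb
import Cfsg.Agent.Fgs.PSmall

set_option autoImplicit false
open Cfsg

namespace Cfsg.Agent.S4213

universe u

theorem aux (G : Type u) [Group G] [Finite G] : Group.IsSolvable G → ∀ n : ℕ, n ∣ Nat.card G →
    {x : G | x ^ n = 1}.ncard = n → ∃ H : Subgroup G, (H : Set G) = {x : G | x ^ n = 1} := by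
  refine CL.Grp.induction_on_card (P := fun G _ _ => Group.IsSolvable G → ∀ n : ℕ, n ∣ Nat.card G →
    {x : G | x ^ n = 1}.ncard = n → ∃ H : Subgroup G, (H : Set G) = {x : G | x ^ n = 1}) ?_ G
  intro G _ _ ih hs n hn hc
  have hn0 : 0 < n := Nat.pos_of_dvd_of_pos hn Nat.card_pos
  have fin : ∀ L : Subgroup G, Nat.card L = n → ∃ H : Subgroup G, (H : Set G) = {x : G | x ^ n = 1} :=
    fun L hL => ⟨L, Set.eq_of_subset_of_ncard_le (fun x hx => by
      rw [Set.mem_ofPred_eq, ← hL]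
      exact orderOf_dvd_iff_pow_eq_one.1 (Subgroup.orderOf_dvd_natCard L hx)) (by
      rw [hc, ← Nat.card_coe_set_eq, ← hL]; rfl)⟩
  rcases subsingleton_or_nontrivial G with hG | hG
  · exact fin ⊥ (by rw [Subgroup.card_bot]; exact (Nat.dvd_one.1 (Nat.card_unique (α := G) ▸ hn)).symm)
  obtain ⟨K, p, hp, hK, hE⟩ := CL.Grp.exists_isMinNormal_isElementaryAbelian G
  have := Fact.mk hp
  have hKn := hK.normal
  have hKp := CL.Loc.ea_isPGroup hE
  have hKc : 0 < Nat.card K := Nat.card_pos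
  have hGc : Nat.card G = Nat.card (G ⧸ K) * Nat.card K := Subgroup.card_eq_card_quotient_mul_card_subgroup K
  have hpos : ∀ u, 0 < {z : G ⧸ K | z ^ u = 1}.ncard := fun u =>
    (Set.ncard_pos (Set.toFinite _)).2 ⟨1, by simp⟩
  have hfrob : ∀ u, u ∣ Nat.card (G ⧸ K) → u ≤ {z : G ⧸ K | z ^ u = 1}.ncard := fun u hu =>
    Nat.le_of_dvd (hpos u) (by rw [← Nat.card_coe_set_eq]; exact CL.Fgs.dvd_card_pow_eq_one hu)
  have hcomap : ∀ u, u ∣ Nat.card (G ⧸ K) → {z : G ⧸ K | z ^ u = 1}.ncard = u →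
      ∃ H : Subgroup G, K ≤ H ∧ Nat.card H = u * Nat.card K := fun u hu h => by
    obtain ⟨H, hH⟩ := ih (G ⧸ K) (CL.Grp.card_quotient_lt hK.ne_bot) inferInstance u hu h
    refine ⟨H.comap (QuotientGroup.mk' K), QuotientGroup.le_comap_mk' K H, ?_⟩
    rw [CL.Grp.card_comap_mk', ← h, ← hH, ← Nat.card_coe_set_eq]
    first | rfl | exact mul_comm _ _
  by_cases hpn : p ∣ n
  · obtain ⟨u, hu⟩ := Nat.gcd_dvd_left n (Nat.card K)
    obtain ⟨v, hv⟩ := Nat.gcd_dvd_right n (Nat.card K)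
    set d := Nat.gcd n (Nat.card K) with hd
    have hd0 : 0 < d := Nat.gcd_pos_of_pos_left _ hn0
    have huv : u.Coprime v := by
      have := Nat.coprime_div_gcd_div_gcd hd0
      rwa [← hd, hu, hv, Nat.mul_div_cancel_left _ hd0, Nat.mul_div_cancel_left _ hd0] at this
    have hpd : p ∣ d := Nat.dvd_gcd hpn (CL.Fgs.prime_dvd_card_of_ne_bot hKp hK.ne_bot)
    have hu1 : u ∣ Nat.card (G ⧸ K) := by
      rw [hGc, hu, hv, mul_left_comm] at hn
      exact huv.dvd_of_dvd_mul_right (Nat.dvd_of_mul_dvd_mul_left hd0 hn)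
    have h1 : {z : G ⧸ K | z ^ u = 1}.ncard * Nat.card K ≤ n := by
      have h2 := QuotientGroup.card_preimage_mk K {z : G ⧸ K | z ^ u = 1}
      rw [Nat.card_coe_set_eq, Nat.card_coe_set_eq] at h2
      rw [mul_comm, ← h2, ← hc]
      refine Set.ncard_le_ncard (fun x hx => ?_)
      obtain ⟨w, hw⟩ := hpd
      have h3 : x ^ u ∈ K := (QuotientGroup.eq_one_iff _).1 hx
      rw [Set.mem_ofPred_eq, hu, hw, mul_comm, ← mul_assoc, pow_mul, pow_mul, hE.2 _ h3, one_pow]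
    have h2 := hfrob u hu1
    have hu0 : 0 < u := Nat.pos_of_dvd_of_pos hu1 Nat.card_pos
    have h3 : d ≤ Nat.card K := Nat.le_of_dvd hKc ⟨v, hv⟩
    have h4 : {z : G ⧸ K | z ^ u = 1}.ncard = u := le_antisymm (by
      refine Nat.le_of_mul_le_mul_right (h1.trans ?_) hKc
      rw [hu, mul_comm]; exact Nat.mul_le_mul_left _ h3) h2
    obtain ⟨H, -, hH⟩ := hcomap u hu1 h4
    refine fin H (le_antisymm (hH ▸ h4 ▸ h1) ?_)
    rw [hH, hu, mul_comm]; exact Nat.mul_le_mul_left _ h3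
  · have hcop : n.Coprime (Nat.card K) := by
      obtain ⟨k, hk⟩ := IsPGroup.iff_card.1 hKp
      rw [hk]
      exact ((hp.coprime_iff_not_dvd.2 hpn).symm).pow_right _
    have hn1 : n ∣ Nat.card (G ⧸ K) := hcop.dvd_of_dvd_mul_right (hGc ▸ hn)
    have h4 : {z : G ⧸ K | z ^ n = 1}.ncard = n := by
      refine le_antisymm ?_ (hfrob n hn1)
      nth_rw 2 [← hc]
      refine le_trans (Set.ncard_le_ncard (t := QuotientGroup.mk '' {x : G | x ^ n = 1}) fun z hz => ?_)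
        (Set.ncard_image_le (Set.toFinite _))
      obtain ⟨y, rfl⟩ := QuotientGroup.mk_surjective z
      have h3 : y ^ n ∈ K := (QuotientGroup.eq_one_iff _).1 hz
      obtain ⟨a, -, ha⟩ := Nat.exists_mul_mod_eq_of_coprime 1 (hp.coprime_iff_not_dvd.2 hpn) hn0.ne'
      refine ⟨y ^ (p * a), ?_, ?_⟩
      · rw [Set.mem_ofPred_eq, ← pow_mul, mul_comm, ← mul_assoc, pow_mul, pow_mul, hE.2 _ h3, one_pow]
      · rw [QuotientGroup.mk_pow, pow_eq_pow_mod _ hz, ha, ← pow_eq_pow_mod _ hz, pow_one]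
    obtain ⟨H, hKH, hH⟩ := hcomap n hn1 h4
    have h5 : K.relIndex H = n := by
      have := CL.Grp.card_mul_relIndex hKH
      rw [hH, mul_comm] at this
      exact Nat.eq_of_mul_eq_mul_right hKc this
    obtain ⟨L, -, hL, -⟩ := CL.Grp.hall_exists_compl_in hKH (h5 ▸ hcop.symm)
    exact fin L (hL.trans h5)

/-- If `G` is a finite solvable group and `n` divides the order of `G` and exactly `n` elements `x` of `G` satisfy `x^n = 1`, then these elements form a normal subgroup. -/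
theorem result {G : Type*} [Group G] [Finite G] [Group.IsSolvable G] (n : ℕ) (hn : n ∣ Nat.card G) (hcount : Nat.card {x : G // x ^ n = 1} = n) : ∃ H : Subgroup G, H.Normal ∧ (H : Set G) = {x : G | x ^ n = 1} := by
  obtain ⟨H, hH⟩ := aux G inferInstance n hn hcount
  refine ⟨H, ⟨fun x hx g => ?_⟩, hH⟩
  change _ ∈ (H : Set G) at hx ⊢
  rw [hH] at hx ⊢
  rw [Set.mem_ofPred_eq, conj_pow, show x ^ n = 1 from hx]
  simp

end Cfsg.Agent.S4213
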