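import Cfsg.Statements.S4214
import Cfsg.Agent.Fgs.SylHall
import Cfsg.Agent.Grp.Hall2
import Cfsg.Agent.Grp.MinNormal
import Cfsg.Agent.Grp.PGroupBasic
import Cfsg.Agent.Char.LinGrp1

set_option autoImplicit false
open Cfsg

namespace Cfsg.Agent.S4214

section Helpers
open Subgroup CL.Grp
open scoped Pointwise

universe u

theorem chain {G : Type*} [Group G] [Finite G] [Group.IsSolvable G] {r : ℕ} [hr : Fact r.Prime]
    (N : Subgroup G) [N.Normal] (hN : IsPGroup r N) (m : ℕ) (hm : (Nat.card N).Coprime m) (k : ℕ) :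
    ∀ J : Subgroup G, Nat.card J = k → Nat.card J ∣ m → (centralizer (J : Set G)).relIndex N ∈
      Submonoid.closure {x : ℕ | (∃ e, x = r ^ e) ∧ x ∣ Nat.card N ∧
        ∃ q : ℕ, q.Prime ∧ q ∣ m ∧ x ≡ 1 [MOD q]} := by
  induction k using Nat.strong_induction_on with
  | _ k ih =>
  intro J hk hJ
  by_cases h0 : J = ⊥
  · rw [h0, relIndex_eq_one.2 (fun x _ y hy => by rw [mem_bot.1 hy, one_mul, mul_one])]
    exact one_mem _
  have := (nontrivial_iff_ne_bot J).2 h0
  obtain ⟨q, M', hq, hM', -, hi⟩ := CL.Char.exists_normal_index_prime_of_commutator_ne_top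
    (G := J) (Group.IsSolvable.commutator_lt_top_of_nontrivial J).ne
  haveI := Fact.mk hq
  have hMJ : M'.map J.subtype ≤ J := map_subtype_le _
  have hi' : (M'.map J.subtype).relIndex J = q := by
    rw [relIndex, subgroupOf, comap_map_eq_self_of_injective J.subtype_injective, hi]
  have hJM : J ≤ normalizer (M'.map J.subtype : Set G) := by
    have := le_normalizer_map (H := M') J.subtype
    rwa [normalizer_eq_top, ← MonoidHom.range_eq_map, range_subtype] at this
  generalize M'.map J.subtype = M at hMJ hi' hJM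
  obtain ⟨Q, hQ⟩ := exists_isSylowIn q J
  have hs : M ⊔ Q = J := (eq_or_eq_of_relIndex_prime le_sup_left (sup_le hMJ hQ.le)
    (hi' ▸ hq)).resolve_left fun e => hQ.not_dvd_relIndex_of_le (e ▸ le_sup_right) hMJ hi'.symm.dvd
  have hqm : q ∣ m := (hi' ▸ relIndex_dvd_card M J).trans hJ
  have hlt : M < J := lt_of_le_of_ne hMJ fun e => hq.one_lt.ne' (by rw [← hi', e, relIndex_self])
  have e : (centralizer (J : Set G)).relIndex N = (centralizer (Q : Set G)).relIndex
      (centralizer (M : Set G) ⊓ N) * (centralizer (M : Set G)).relIndex N := by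
    rw [relIndex_inf_mul_relIndex]
    congr 1
    refine le_antisymm (le_inf (centralizer_le hQ.le) (centralizer_le hMJ)) ?_
    rw [le_centralizer_iff, ← hs]
    exact sup_le (le_centralizer_iff.1 inf_le_right) (le_centralizer_iff.1 inf_le_left)
  rw [e]
  have hd := (relIndex_dvd_card (centralizer (Q : Set G)) (centralizer (M : Set G) ⊓ N)).trans
    (card_dvd_of_le inf_le_right)
  refine mul_mem (Submonoid.subset_closure ⟨?_, hd, q, hq, hqm, ?_⟩)
    (ih _ (hk ▸ card_lt_card_of_lt hlt) M rfl ((card_dvd_of_le hMJ).trans hJ))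
  · obtain ⟨a, ha⟩ := IsPGroup.iff_card.1 hN
    obtain ⟨e, -, he⟩ := (Nat.dvd_prime_pow hr.out).1 (ha ▸ hd)
    exact ⟨e, he⟩
  · refine CL.Fgs.relIndex_centralizer_modEq_one hQ.isPGroup (fun h => hq.one_lt.ne' ?_)
      (le_normalizer_inf (fun g hg => ?_) (by rw [normalizer_eq_top]; exact le_top))
    · exact Nat.eq_one_of_dvd_coprimes hm (h.trans (card_dvd_of_le inf_le_right)) hqm
    · rw [← conj_smul_eq_self_iff, ← centralizer_conj_smul,
        (conj_smul_eq_self_iff _ _).2 (hJM (hQ.le hg))]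

/-- the admissible factors -/
def Good (G : Type*) [Group G] (m : ℕ) : Set ℕ :=
  {x | (∃ q e : ℕ, q.Prime ∧ x = q ^ e) ∧ (∃ K L : Subgroup G, K.Normal ∧ L.Normal ∧ K < L ∧
    (∀ M : Subgroup G, M.Normal → K ≤ M → M ≤ L → M = K ∨ M = L) ∧ x ∣ K.relIndex L) ∧
    (∃ q : ℕ, q.Prime ∧ q ∣ m ∧ x ≡ 1 [MOD q])}

theorem good_quot {G : Type*} [Group G] (N : Subgroup G) [N.Normal] {m m' : ℕ} (h : m' ∣ m) :
    Good (G ⧸ N) m' ⊆ Good G m := by
  rintro x ⟨h1, ⟨K, L, hK, hL, hKL, h2, h3⟩, q, hq, h4, h5⟩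
  have hs := QuotientGroup.mk'_surjective N
  refine ⟨h1, ⟨K.comap (QuotientGroup.mk' N), L.comap (QuotientGroup.mk' N), inferInstance,
    inferInstance, (comap_lt_comap_of_surjective hs).2 hKL, fun M hM h6 h7 => ?_, ?_⟩,
    q, hq, h4.trans h, h5⟩
  · have e : (M.map (QuotientGroup.mk' N)).comap (QuotientGroup.mk' N) = M :=
      comap_map_eq_self ((ker_le_comap _ _).trans h6)
    rw [← e]
    exact (h2 (M.map (QuotientGroup.mk' N)) (hM.map _ hs)
      ((comap_le_comap_of_surjective hs).1 (e.symm ▸ h6)) (map_le_iff_le_comap.2 h7)).imp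
      (congrArg _) (congrArg _)
  · rwa [relIndex_comap, map_comap_eq_self_of_surjective hs]

theorem main (G : Type u) [Group G] [Finite G] : Group.IsSolvable G → ∀ H : Subgroup G,
    (Nat.card H).Coprime H.index →
      (normalizer (H : Set G)).index ∈ Submonoid.closure (Good G (Nat.card H)) := by
  refine induction_on_card (P := fun G _ _ => Group.IsSolvable G → ∀ H : Subgroup G,
    (Nat.card H).Coprime H.index →
      (normalizer (H : Set G)).index ∈ Submonoid.closure (Good G (Nat.card H))) ?_ G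
  intro G _ _ ih _ H hH
  rcases subsingleton_or_nontrivial G with h | h
  · rw [Subsingleton.elim (normalizer (H : Set G)) ⊤, index_top]; exact one_mem _
  obtain ⟨N, r, hr, hN, hea⟩ := exists_isMinNormal_isElementaryAbelian G
  haveI := Fact.mk hr
  have := hN.normal
  have hNr := isPGroup_of_isElementaryAbelian hea
  have hs := QuotientGroup.mk'_surjective N
  have hπ := isPiHall_of_coprime hH
  have h1 := ih (G ⧸ N) (card_quotient_lt hN.ne_bot) inferInstance (H.map (QuotientGroup.mk' N))
    (isPiHall_coprime (isPiHall_map hπ hs))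
  rw [← index_comap_of_surjective _ hs, comap_normalizer_eq_of_surjective _ hs, comap_map_eq,
    QuotientGroup.ker_mk'] at h1
  have h2 : normalizer (H : Set G) ⊔ N = normalizer ((H ⊔ N : Subgroup G) : Set G) := by
    refine le_antisymm (sup_le (fun g hg => ?_) (le_sup_right.trans le_normalizer)) fun g hg => ?_
    · rw [← conj_smul_eq_self_iff, smul_sup, (conj_smul_eq_self_iff _ _).2 hg,
        (conj_smul_eq_self_iff _ _).2 (by rw [normalizer_eq_top]; trivial)]
    · obtain ⟨x, hx, e⟩ := piHallOf_conj_of_solvable (M := H ⊔ N) (H := MulAut.conj g • H) (K := H)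
        (isPiHallOf_iff.2 ⟨by
          rw [← (conj_smul_eq_self_iff _ _).2 hg]; exact smul_mono_right _ le_sup_left,
          isPiHall_subgroupOf_of_le (isPiHall_conj hπ g) (by
            rw [← (conj_smul_eq_self_iff _ _).2 hg]; exact smul_mono_right _ le_sup_left)⟩)
        (isPiHallOf_iff.2 ⟨le_sup_left, isPiHall_subgroupOf_of_le hπ le_sup_left⟩)
      rw [conj_smul_conj_smul, conj_smul_eq_self_iff] at e
      simpa using mul_mem (inv_mem (sup_le_sup_right le_normalizer N hx)) (mem_sup_left e)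
  rw [← relIndex_mul_index (le_sup_left : normalizer (H : Set G) ≤ _ ⊔ N), relIndex_sup_normal_left,
    h2]
  refine mul_mem ?_ (Submonoid.closure_mono (good_quot N (card_map_dvd _ _)) h1)
  by_cases hd : r ∣ Nat.card H
  · rw [relIndex_eq_one.2 ((isPiHall_normal_le hπ fun q hq hqd => ?_).trans le_normalizer)]
    · exact one_mem _
    · obtain ⟨a, ha⟩ := IsPGroup.iff_card.1 hNr
      rwa [(Nat.prime_dvd_prime_iff_eq hq hr).1 (hq.dvd_of_dvd_pow (ha ▸ hqd))]
  have hc : (Nat.card N).Coprime (Nat.card H) := by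
    obtain ⟨a, ha⟩ := IsPGroup.iff_card.1 hNr
    rw [ha]
    exact ((Nat.Prime.coprime_iff_not_dvd hr).2 hd).pow_left a
  have h3 : normalizer (H : Set G) ⊓ N = centralizer (H : Set G) ⊓ N := by
    refine le_antisymm (le_inf ?_ inf_le_right) (inf_le_inf_right _ (centralizer_le_normalizer _))
    rw [← commutator_eq_bot_iff_le_centralizer, eq_bot_iff, ← (disjoint_of_coprime_natCard hc).eq_bot]
    exact le_inf ((commutator_mono inf_le_right le_rfl).trans (commutator_le_left _ _))
      (le_normalizer_iff_commutator_le_right.1 inf_le_left)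
  rw [← inf_relIndex_right, h3, inf_relIndex_right]
  refine Submonoid.closure_mono ?_ (chain N hNr _ hc _ H rfl dvd_rfl)
  rintro x ⟨⟨e, he⟩, h4, h5⟩
  exact ⟨⟨r, e, hr, he⟩, ⟨⊥, N, inferInstance, inferInstance, bot_lt_iff_ne_bot.2 hN.ne_bot,
    fun M hM _ h => hN.min M hM h, by rwa [relIndex_bot_left]⟩, h5⟩

end Helpers

open Pointwise in
/-- Let `G` be a finite solvable group of order `mn` with `gcd(m, n) = 1`. Then the number of subgroups of order `m` is a product of natural numbers each of which is a power of a prime, divides the order of some chief factor of `G` (a quotient `L/K` of normal subgroups `K < L` of `G` with no normal subgroup of `G` strictly between them), and is congruent to `1` modulo some prime divisor of `m`. -/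
theorem result {G : Type*} [Group G] [Finite G] [Group.IsSolvable G] (m n : ℕ) (hG : Nat.card G = m * n) (hmn : Nat.Coprime m n) : ∃ (k : ℕ) (f : Fin k → ℕ), Nat.card {H : Subgroup G // Nat.card H = m} = ∏ i, f i ∧ ∀ i, (∃ q e : ℕ, q.Prime ∧ f i = q ^ e) ∧ (∃ K L : Subgroup G, K.Normal ∧ L.Normal ∧ K < L ∧ (∀ M : Subgroup G, M.Normal → K ≤ M → M ≤ L → M = K ∨ M = L) ∧ f i ∣ K.relIndex L) ∧ (∃ q : ℕ, q.Prime ∧ q ∣ m ∧ f i ≡ 1 [MOD q]) := by
  obtain ⟨H, hH⟩ := CL.Grp.exists_piHall_of_solvable {p | ¬ p ∣ n} G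
  have hm := (CL.Grp.isPiHall_iff_card_eq hG hmn).1 hH
  have h1 := main G inferInstance H (CL.Grp.isPiHall_coprime hH)
  have h2 : Nat.card {H : Subgroup G // Nat.card H = m} =
      (Subgroup.normalizer (H : Set G)).index := by
    letI := MulAction.compHom (Subgroup G) (MulAut.conj : G →* MulAut G)
    have h3 : MulAction.stabilizer G H = Subgroup.normalizer (H : Set G) :=
      Subgroup.ext fun g => CL.Grp.conj_smul_eq_self_iff g H
    rw [← h3, MulAction.index_stabilizer, ← Nat.card_coe_set_eq]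
    refine Nat.card_congr (Equiv.subtypeEquivRight fun K => ⟨fun h => ?_, ?_⟩)
    · exact CL.Grp.piHall_conj_of_solvable hH ((CL.Grp.isPiHall_iff_card_eq hG hmn).2 h)
    · rintro ⟨g, rfl⟩
      exact (CL.Grp.card_conj_smul g H).trans hm
  obtain ⟨l, hl, e⟩ := Submonoid.exists_list_of_mem_closure h1
  rw [hm] at hl
  exact ⟨l.length, l.get, by rw [h2, ← e, ← List.prod_ofFn, List.ofFn_get],
    fun i => hl _ (l.get_mem i)⟩

end Cfsg.Agent.S4214
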