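import Cfsg.Statements.S4217
import Cfsg.Agent.Grp.Gaschutz

set_option autoImplicit false
open Cfsg

namespace Cfsg.Agent.S4217

section Helpers
open Subgroup CL.Grp
open scoped Pointwise IsMulCommutative

variable {G : Type*} [Group G]

theorem exists_pow_index [Finite G] (K U : Subgroup G) [K.Normal] [IsMulCommutative K]
    (A : Subgroup G) (hAK : A ⊓ K = ⊥) (hKA : K ⊔ A = U) :
    ∃ Φ : G → K, (∀ g h, Φ (g * h) = Φ g * MulAut.conjNormal g (Φ h)) ∧
      ∀ k : K, Φ k = k ^ (U.index : ℤ) := by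
  obtain ⟨φ, -, h2, h3⟩ := exists_crossedHom_of_compl K A hAK
  rw [hKA] at h2
  have := Fintype.ofFinite (G ⧸ U)
  obtain ⟨Φ, hΦ, hΦK⟩ := exists_crossedHom_cores (MulAut.conjNormal (H := K)) U φ h2
  have hKU : K ≤ U := hKA ▸ le_sup_left
  have hconj : ∀ k ∈ K, ∀ t : G, t⁻¹ * k * t ∈ K := fun k hk t => by
    simpa using ‹K.Normal›.conj_mem k hk t⁻¹
  refine ⟨Φ, hΦ, fun k => ?_⟩
  rw [hΦK k fun t => hKU (hconj k k.2 t), zpow_natCast, Subgroup.index_eq_card,
    Nat.card_eq_fintype_card, ← Finset.card_univ, ← Finset.prod_const]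
  refine Finset.prod_congr rfl fun q _ => ?_
  rw [h3 _ ⟨_, hconj k k.2 q.out⟩ (by rw [inv_mul_cancel]; exact A.one_mem)]
  ext
  simp only [MulAut.conjNormal_apply]
  group

/-- the exponents realised by crossed homomorphisms -/
def expos (K : Subgroup G) [K.Normal] [IsMulCommutative K] : AddSubgroup ℤ where
  carrier := {n | ∃ Φ : G → K, (∀ g h, Φ (g * h) = Φ g * MulAut.conjNormal g (Φ h)) ∧
      ∀ k : K, Φ k = k ^ n}
  zero_mem' := ⟨fun _ => 1, by simp, by simp⟩
  add_mem' := by
    rintro a b ⟨Φ, h1, h2⟩ ⟨Ψ, h3, h4⟩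
    refine ⟨fun g => Φ g * Ψ g, fun g h => ?_, fun k => by simp only [h2, h4, zpow_add]⟩
    simp only [h1, h3, map_mul]
    exact mul_mul_mul_comm _ _ _ _
  neg_mem' := by
    rintro a ⟨Φ, h1, h2⟩
    refine ⟨fun g => (Φ g)⁻¹, fun g h => ?_, fun k => by simp only [h2, zpow_neg]⟩
    simp only [h1, map_inv, mul_inv]

theorem compl_of_one_mem (K : Subgroup G) [K.Normal] [IsMulCommutative K] (h : (1 : ℤ) ∈ expos K) :
    ∃ H : Subgroup G, IsComplement' H K := by
  obtain ⟨Φ, hΦ, hK⟩ := h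
  simp only [zpow_one] at hK
  have h1 : Φ 1 = 1 := by simpa using hK 1
  let H : Subgroup G :=
    { carrier := {g | Φ g = 1}
      mul_mem' := fun {a b} ha hb => by
        simp only [Set.mem_ofPred_eq] at ha hb ⊢
        rw [hΦ, ha, hb, map_one, mul_one]
      one_mem' := h1
      inv_mem' := fun {a} ha => by
        simp only [Set.mem_ofPred_eq] at ha ⊢
        have := hΦ a⁻¹ a
        rw [inv_mul_cancel, h1, ha, map_one, mul_one] at this
        exact this.symm }
  refine ⟨H, (Subgroup.isComplement'_of_disjoint_and_mul_eq_univ ?_ ?_).symm⟩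
  · rw [Subgroup.disjoint_def]
    intro x hx hxH
    exact congrArg Subtype.val ((hK ⟨x, hx⟩).symm.trans hxH)
  · rw [Set.eq_univ_iff_forall]
    intro g
    refine ⟨Φ g, (Φ g).2, ((Φ g)⁻¹ : K) * g, ?_, by simp⟩
    change Φ _ = 1
    rw [hΦ, hK, inv_mul_eq_one]
    ext
    simp only [MulAut.conjNormal_apply, Subgroup.coe_inv]
    group

end Helpers

/-- Let `A` be an abelian normal subgroup of the finite group `G`. Then `A` has a complement in `G` if and only if, for every prime `p` dividing the index of `A`, there are a Sylow `p`-subgroup `S` of `G/A` and a subgroup `K` of `G` with `K ∩ A = 1` and `KA` equal to the preimage of `S` (that is, `A` has a complement in the preimage of a Sylow `p`-subgroup of `G/A`). -/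
theorem result {G : Type*} [Group G] [Finite G] (A : Subgroup G) [A.Normal] (hA : IsMulCommutative A) : (∃ K : Subgroup G, K.IsComplement' A) ↔ ∀ p : ℕ, p.Prime → p ∣ A.index → ∃ (S : Sylow p (G ⧸ A)) (K : Subgroup G), K ⊓ A = ⊥ ∧ K ⊔ A = (S : Subgroup (G ⧸ A)).comap (QuotientGroup.mk' A) := by
  constructor
  · rintro ⟨K, hK⟩ p hp -
    refine ⟨default, K ⊓ ((default : Sylow p (G ⧸ A)) : Subgroup (G ⧸ A)).comap (QuotientGroup.mk' A),
      ?_, ?_⟩
    · rw [eq_bot_iff, ← hK.disjoint.eq_bot]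
      exact inf_le_inf_right _ inf_le_left
    · have hle : A ≤ ((default : Sylow p (G ⧸ A)) : Subgroup (G ⧸ A)).comap (QuotientGroup.mk' A) :=
        QuotientGroup.le_comap_mk' _ _
      refine le_antisymm (sup_le inf_le_right hle) fun g hg => ?_
      obtain ⟨⟨k, a⟩, rfl⟩ := hK.surjective g
      refine Subgroup.mul_mem_sup ⟨k.2, ?_⟩ a.2
      exact (Subgroup.mul_mem_cancel_right _ (hle a.2)).1 hg
  · intro h
    obtain ⟨d, hd⟩ := Int.subgroup_cyclic (expos A)
    have key : ∀ (U K : Subgroup G), K ⊓ A = ⊥ → A ⊔ K = U → d.natAbs ∣ U.index := by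
      intro U K h1 h2
      have : (U.index : ℤ) ∈ expos A := exists_pow_index A U K h1 h2
      rw [hd, AddSubgroup.mem_closure_singleton] at this
      obtain ⟨n, hn⟩ := this
      rw [← Int.natCast_dvd_natCast, Int.natAbs_dvd, ← hn]
      exact Dvd.intro_left _ rfl
    have h1 : d.natAbs = 1 := by
      by_contra h1
      obtain ⟨p, hp, hpd⟩ := Nat.exists_prime_and_dvd h1
      haveI := Fact.mk hp
      obtain ⟨S, K, h2, h3⟩ := h p hp (hpd.trans (key A ⊥ (by simp) (by simp)))
      have h4 := hpd.trans (key _ K h2 (by rw [sup_comm, h3]))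
      rw [Subgroup.index_comap_of_surjective _ (QuotientGroup.mk'_surjective A)] at h4
      exact S.not_dvd_index h4
    refine compl_of_one_mem A ?_
    rw [hd, AddSubgroup.mem_closure_singleton]
    exact ⟨d, by rw [smul_eq_mul, ← Int.natAbs_mul_self, h1]; rfl⟩

end Cfsg.Agent.S4217
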