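import Cfsg.Statements.S4218
import Cfsg.Agent.Fgs.HHA

set_option autoImplicit false
open Cfsg

namespace Cfsg.Agent.S4218

/-- Let `G` be a finite `p`-solvable group, `N₀ = O_{p'}(G)`, `P₁ = O_{p',p}(G)`, and let `F ≤ P₁` be the preimage of the Frattini subgroup of `P₁/N₀`. Then an element `g` of `G` induces the identity on `P₁/F` by conjugation (that is, `g x g⁻¹ x⁻¹ ∈ F` for all `x ∈ P₁`) if and only if `g ∈ P₁`: the group `G/P₁` acts faithfully on `P₁/F`. -/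
theorem result {G : Type*} [Group G] [Finite G] {p : ℕ} [Fact p.Prime] (hG : Cfsg.IsPSolvable p G) (g : G) : (∀ x ∈ Cfsg.pPrimePCore p G, g * x * g⁻¹ * x⁻¹ ∈ ((frattini (↥(Cfsg.pPrimePCore p G) ⧸ (Cfsg.pPrimeCore p G).subgroupOf (Cfsg.pPrimePCore p G))).comap (QuotientGroup.mk' ((Cfsg.pPrimeCore p G).subgroupOf (Cfsg.pPrimePCore p G)))).map (Cfsg.pPrimePCore p G).subtype) ↔ g ∈ Cfsg.pPrimePCore p G := by
  have hP := CL.Grp.pCore_isPGroup p (G ⧸ pPrimeCore p G)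
  let ψ : pPrimePCore p G →* pCore p (G ⧸ pPrimeCore p G) := (QuotientGroup.mk' _).subgroupComap _
  have hψ : Function.Surjective ψ := MonoidHom.subgroupComap_surjective_of_surjective _ _ (QuotientGroup.mk'_surjective _)
  obtain ⟨e, he⟩ := CL.Loc.exists_equiv_of_ker_eq
    (QuotientGroup.mk'_surjective ((pPrimeCore p G).subgroupOf (pPrimePCore p G))) hψ (by
      ext x
      rw [QuotientGroup.ker_mk', MonoidHom.mem_ker, Subtype.ext_iff]
      exact (QuotientGroup.eq_one_iff (N := pPrimeCore p G) (x : G)).symm)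
  refine ⟨fun h => CL.Fgs.HH.commStab_Phi_le (CL.Loc.isPSolvable_quotient hG _)
    (CL.Grp.pPrimeCore_quotient_pPrimeCore p G) (CL.Loc.mem_commStab_of_normal.2 fun a ha => ?_), fun hg x hx => ?_⟩
  · obtain ⟨a, rfl⟩ := QuotientGroup.mk'_surjective _ a
    obtain ⟨y, hy, h1⟩ := h a ha
    refine ⟨ψ y, he y ▸ CL.Grp.map_frattini_le_pGroup hP e.toMonoidHom ⟨_, hy, rfl⟩, ?_⟩
    rw [← map_commutatorElement]
    exact congrArg (QuotientGroup.mk' (pPrimeCore p G)) h1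
  · refine ⟨⟨g, hg⟩ * ⟨x, hx⟩ * ⟨g, hg⟩⁻¹ * ⟨x, hx⟩⁻¹, ?_, rfl⟩
    simp only [SetLike.mem_coe, Subgroup.mem_comap, map_mul, map_inv]
    exact CL.Grp.commutatorElement_mem_frattini (hP.of_equiv e.symm) _ _

end Cfsg.Agent.S4218
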