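import Cfsg.Statements.S4219
import Cfsg.Agent.Grp.SylowIn

set_option autoImplicit false
open Cfsg
open scoped Pointwise

namespace Cfsg.Agent.S4219

/-- Let a finite group `G` act `t`-fold transitively on a finite set, let `H` be the stabilizer of `t` distinct points and `P` a Sylow `p`-subgroup of `H`. Then the normalizer of `P` in `G` is `t`-fold transitive on the fixed points of `P`: any `t` distinct fixed points of `P` can be carried to any other `t` distinct fixed points of `P` by an element normalizing `P`. -/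
theorem result {G : Type*} [Group G] [Finite G] {α : Type*} [Fintype α] [MulAction G α] {t : ℕ} (hG : MulAction.IsMultiplyPretransitive G α t) (x : Fin t ↪ α) {p : ℕ} [Fact p.Prime] (P : Sylow p (MulAction.stabilizer G x)) (a b : Fin t ↪ α) (ha : ∀ i, a i ∈ MulAction.fixedPoints ((P : Subgroup (MulAction.stabilizer G x)).map (MulAction.stabilizer G x).subtype) α) (hb : ∀ i, b i ∈ MulAction.fixedPoints ((P : Subgroup (MulAction.stabilizer G x)).map (MulAction.stabilizer G x).subtype) α) : ∃ g ∈ Subgroup.normalizer ((((P : Subgroup (MulAction.stabilizer G x)).map (MulAction.stabilizer G x).subtype) : Subgroup G) : Set G), g • a = b := by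
  set K := (P : Subgroup (MulAction.stabilizer G x)).map (MulAction.stabilizer G x).subtype with hKdef
  have hK : CL.Grp.IsSylowIn p K (MulAction.stabilizer G x) := CL.Grp.isSylowIn_map_subtype P
  have key : ∀ a : Fin t ↪ α, (∀ i, a i ∈ MulAction.fixedPoints K α) →
      ∃ g ∈ Subgroup.normalizer (K : Set G), g • a = x := by
    intro a ha
    obtain ⟨g, hg⟩ := hG.exists_smul_eq a x
    have hle : MulAut.conj g • K ≤ MulAction.stabilizer G x := by
      rw [CL.Grp.conj_smul_le_iff]
      intro k hk
      have hka : k • a = a := by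
        ext i
        exact ha i ⟨k, hk⟩
      rw [MulAction.mem_stabilizer_iff, ← hg, mul_smul, mul_smul, inv_smul_smul, hka]
    have h1 : CL.Grp.IsSylowIn p (MulAut.conj g • K) (MulAction.stabilizer G x) :=
      hK.of_card_le (CL.Grp.IsPGroup.conj_smul hK.isPGroup g) hle (CL.Grp.card_conj_smul g K).ge
    obtain ⟨s, hs, hgs⟩ := h1.exists_conj_eq hK
    refine ⟨s * g, ?_, ?_⟩
    · rw [← CL.Grp.conj_smul_eq_self_iff, ← CL.Grp.conj_smul_conj_smul, hgs]
    · rw [mul_smul, hg]
      exact hs
  obtain ⟨g, hg, hga⟩ := key a ha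
  obtain ⟨g', hg', hgb⟩ := key b hb
  exact ⟨g'⁻¹ * g, Subgroup.mul_mem _ (Subgroup.inv_mem _ hg') hg, by
    rw [mul_smul, hga, inv_smul_eq_iff, hgb]⟩

end Cfsg.Agent.S4219
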