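import Cfsg.Statements.S4223
import Cfsg.Agent.Base

set_option autoImplicit false
open Cfsg

namespace Cfsg.Agent.S4223

section Helpers
open Subgroup

universe u v

/-- directly indecomposable -/
def Indec (A : Type*) [Group A] : Prop :=
  Nontrivial A ∧ ∀ H K : Subgroup A, H.Normal → K.Normal → H ⊓ K = ⊥ → H ⊔ K = ⊤ → H = ⊥ ∨ K = ⊥

theorem sup_eq_top_of_card {A : Type*} [Group A] [Finite A] {H K : Subgroup A} (h : H ⊓ K = ⊥)
    (hc : Nat.card H * Nat.card K = Nat.card A) : H ⊔ K = ⊤ :=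
  (isComplement'_of_card_mul_and_disjoint hc (disjoint_iff.2 h)).sup_eq_top

/-- iterates of an endomorphism -/
def it {A : Type*} [Group A] (φ : A →* A) : ℕ → A →* A
  | 0 => MonoidHom.id A
  | n + 1 => φ.comp (it φ n)

theorem it_add {A : Type*} [Group A] (φ : A →* A) (m n : ℕ) (x : A) :
    it φ (n + m) x = it φ m (it φ n x) := by
  induction m with
  | zero => rfl
  | succ m ih => exact congrArg φ ih

/-- Fitting's lemma -/
theorem fitting {A : Type*} [Group A] [Finite A] (hA : Indec A) (φ : A →* A)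
    (hφ : ∀ g x, φ (g * x * g⁻¹) = g * φ x * g⁻¹) (hinj : ¬ Function.Injective φ) :
    ∃ n, ∀ x, it φ n x = 1 := by
  have hmono : Monotone fun n : ℕ => (it φ n).ker := by
    refine monotone_nat_of_le_succ fun n x hx => ?_
    rw [MonoidHom.mem_ker] at hx ⊢
    change φ (it φ n x) = 1
    rw [hx, map_one]
  obtain ⟨N, hN⟩ := WellFoundedGT.monotone_chain_condition ⟨_, hmono⟩
  have hpow : ∀ n g x, it φ n (g * x * g⁻¹) = g * it φ n x * g⁻¹ := by
    intro n
    induction n with
    | zero => intro g x; rfl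
    | succ n ih => intro g x; exact (congrArg φ (ih g x)).trans (hφ _ _)
  have hr : (it φ (1 + N)).range.Normal := by
    refine ⟨?_⟩
    rintro _ ⟨x, rfl⟩ g
    exact ⟨_, hpow _ g x⟩
  have hdis : (it φ (1 + N)).ker ⊓ (it φ (1 + N)).range = ⊥ := by
    rw [eq_bot_iff]
    rintro _ ⟨hx, x, rfl⟩
    have h1 : x ∈ (it φ (1 + N + (1 + N))).ker := by
      rw [MonoidHom.mem_ker, it_add]; exact hx
    have h2 := hN (1 + N + (1 + N)) (by omega)
    have h3 := hN (1 + N) (by omega)
    simp only [OrderHom.coe_mk] at h2 h3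
    rw [← h2, h3] at h1
    exact h1
  rcases hA.2 _ _ inferInstance hr hdis (sup_eq_top_of_card hdis
    (by rw [← index_ker, card_mul_index])) with h | h
  · refine absurd (fun a b hab => (MonoidHom.ker_eq_bot_iff _).1 h ?_) hinj
    rw [it_add, it_add]
    exact congrArg (it φ N) hab
  · exact ⟨1 + N, fun x => by
      have : it φ (1 + N) x ∈ (it φ (1 + N)).range := ⟨x, rfl⟩
      rwa [h, mem_bot] at this⟩

section Exchange

variable {ι κ : Type} [Fintype ι] [DecidableEq ι] [Fintype κ] [DecidableEq κ]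
  {A : ι → Type u} {B : κ → Type v} [∀ i, Group (A i)] [∀ j, Group (B j)]

/-- projection on a set of coordinates -/
def pr (S : Finset κ) : ((j : κ) → B j) →* ((j : κ) → B j) :=
  MonoidHom.mk' (fun b j => if j ∈ S then b j else 1) fun a b => by
    ext j
    by_cases h : j ∈ S <;> simp [h]

/-- the normal endomorphisms of a factor -/
def gg (e : ((i : ι) → A i) ≃* ((j : κ) → B j)) (i0 : ι) (S : Finset κ) : A i0 →* A i0 :=
  (Pi.evalMonoidHom A i0).comp (e.symm.toMonoidHom.comp ((pr S).comp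
    (e.toMonoidHom.comp (MonoidHom.mulSingle A i0))))

omit [Fintype ι] [Fintype κ] in
theorem gg_apply (e : ((i : ι) → A i) ≃* ((j : κ) → B j)) (i0 : ι) (S : Finset κ) (a : A i0) :
    gg e i0 S a = e.symm (pr S (e (Pi.mulSingle i0 a))) i0 := rfl

omit [Fintype ι] [Fintype κ] in
theorem gg_conj (e : ((i : ι) → A i) ≃* ((j : κ) → B j)) (i0 : ι) (S : Finset κ) (x a : A i0) :
    gg e i0 S (x * a * x⁻¹) = x * gg e i0 S a * x⁻¹ := by
  have h : ∀ y b : (j : κ) → B j, pr S (y * b * y⁻¹) = y * pr S b * y⁻¹ := by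
    intro y b
    ext j
    by_cases h : j ∈ S <;> simp [pr, h]
  rw [gg_apply, gg_apply, Pi.mulSingle_mul, Pi.mulSingle_mul, Pi.mulSingle_inv, map_mul e, map_mul e,
    map_inv, h]
  simp

omit [Fintype ι] in
theorem exists_inj [∀ i, Finite (A i)] (e : ((i : ι) → A i) ≃* ((j : κ) → B j)) (i0 : ι)
    (hA : Indec (A i0)) : ∃ j, Function.Injective (gg e i0 {j}) := by
  have key : ∀ S : Finset κ, Function.Injective (gg e i0 S) → ∃ j, Function.Injective (gg e i0 {j}) := by
    intro S
    induction S using Finset.induction_on with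
    | empty =>
      intro h
      have := hA.1
      obtain ⟨a, ha⟩ := exists_ne (1 : A i0)
      refine absurd (h (a₁ := a) (a₂ := 1) ?_) ha
      have : ∀ b : (j : κ) → B j, pr ∅ b = 1 := fun b => by ext j; simp [pr]
      simp [gg_apply, this]
    | insert j S hj ih =>
      intro h
      by_cases hS : Function.Injective (gg e i0 S)
      · exact ih hS
      let θ : A i0 ≃* A i0 := MulEquiv.ofBijective (gg e i0 (insert j S)) (Finite.injective_iff_bijective.1 h)
      have hθ : ∀ a, θ a = gg e i0 (insert j S) a := fun _ => rfl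
      obtain ⟨n, hn⟩ := fitting hA (θ.symm.toMonoidHom.comp (gg e i0 S)) (fun g x => by
        apply θ.injective
        change θ (θ.symm _) = θ (g * θ.symm _ * g⁻¹)
        rw [hθ (g * _ * _), gg_conj e i0 (insert j S), ← hθ, θ.apply_symm_apply, θ.apply_symm_apply]
        exact gg_conj _ _ _ _ _) fun h1 => hS (Function.Injective.of_comp (f := θ.symm) h1)
      refine ⟨j, (injective_iff_map_eq_one _).2 fun a ha => ?_⟩
      have h2 : ∀ b : (j : κ) → B j, pr (insert j S) b = pr {j} b * pr S b := by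
        intro b
        ext k
        by_cases hk : k = j
        · subst hk; simp [pr, hj]
        · simp [pr, hk]
      have h3 : θ a = gg e i0 S a := by
        rw [hθ, gg_apply, h2, map_mul, Pi.mul_apply, ← gg_apply, ha, one_mul, gg_apply]
      have h4 : ∀ k : ℕ, it (θ.symm.toMonoidHom.comp (gg e i0 S)) k a = a := by
        intro k
        induction k with
        | zero => rfl
        | succ k ihk =>
          exact (congrArg (θ.symm.toMonoidHom.comp (gg e i0 S)) ihk).trans (θ.symm_apply_eq.2 h3.symm)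
      exact (h4 n).symm.trans (hn a)
  refine key Finset.univ fun a b h => ?_
  have : ∀ b : (j : κ) → B j, pr Finset.univ b = b := fun b => by ext j; simp [pr]
  simpa [gg_apply, this] using h

omit [Fintype ι] in
theorem exists_bij [∀ i, Finite (A i)] (e : ((i : ι) → A i) ≃* ((j : κ) → B j)) (i0 : ι)
    (hA : Indec (A i0)) (hB : ∀ j, Indec (B j)) :
    ∃ j, Function.Bijective fun a : A i0 => e (Pi.mulSingle i0 a) j := by
  obtain ⟨j, hj⟩ := exists_inj e i0 hA
  let α : A i0 →* B j := (Pi.evalMonoidHom B j).comp (e.toMonoidHom.comp (MonoidHom.mulSingle A i0))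
  let β : B j →* A i0 :=
    (Pi.evalMonoidHom A i0).comp (e.symm.toMonoidHom.comp (MonoidHom.mulSingle B j))
  have hβα : ∀ a, β (α a) = gg e i0 {j} a := by
    intro a
    have : ∀ b : (j : κ) → B j, pr {j} b = Pi.mulSingle j (b j) := by
      intro b
      ext k
      by_cases hk : k = j
      · subst hk; simp [pr]
      · simp [pr, hk]
    rw [gg_apply, this]; rfl
  have hα : Function.Injective α := fun a b h => hj (by rw [← hβα, ← hβα, h])
  have hsurj := Finite.injective_iff_surjective.1 hj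
  have hn : α.range.Normal := by
    refine ⟨?_⟩
    rintro _ ⟨a, rfl⟩ b
    refine ⟨e.symm (Pi.mulSingle j b) i0 * a * (e.symm (Pi.mulSingle j b) i0)⁻¹, ?_⟩
    have : ∀ y : (i : ι) → A i, Pi.mulSingle i0 (y i0 * a * (y i0)⁻¹) = y * Pi.mulSingle i0 a * y⁻¹ := by
      intro y
      ext k
      by_cases hk : k = i0
      · subst hk; simp
      · simp [hk]
    change e (Pi.mulSingle i0 _) j = b * e (Pi.mulSingle i0 a) j * b⁻¹
    rw [this]
    simp
  have h1 : α.range ⊓ β.ker = ⊥ := by
    rw [eq_bot_iff]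
    rintro _ ⟨⟨a, rfl⟩, h⟩
    have : a = 1 := hj (by rw [← hβα, map_one]; exact h)
    rw [this, map_one]; exact one_mem _
  have h2 : ∀ b, ∃ a, (α a)⁻¹ * b ∈ β.ker := by
    intro b
    obtain ⟨a, ha⟩ := hsurj (β b)
    exact ⟨a, by rw [MonoidHom.mem_ker, map_mul, map_inv, hβα, ha, inv_mul_cancel]⟩
  refine ⟨j, hα, fun b => ?_⟩
  rcases (hB j).2 _ _ hn inferInstance h1 (eq_top_iff.2 fun b _ => by
    obtain ⟨a, ha⟩ := h2 b
    simpa using mul_mem_sup (show α a ∈ α.range from ⟨a, rfl⟩) ha) with h | h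
  · have := hA.1
    obtain ⟨a, ha⟩ := exists_ne (1 : A i0)
    have h3 : α a ∈ α.range := ⟨a, rfl⟩
    rw [h, mem_bot] at h3
    exact absurd (hα (h3.trans (map_one α).symm)) ha
  · obtain ⟨a, ha⟩ := h2 b
    rw [h, mem_bot, inv_mul_eq_one] at ha
    exact ⟨a, ha⟩

omit [Fintype κ] in
theorem cancel [∀ i, Finite (A i)] [∀ j, Finite (B j)] (e : ((i : ι) → A i) ≃* ((j : κ) → B j))
    (i0 : ι) (j0 : κ) (h : Function.Bijective fun a : A i0 => e (Pi.mulSingle i0 a) j0) :
    Nonempty (((i : {i // i ≠ i0}) → A i) ≃* ((j : {j // j ≠ j0}) → B j)) := by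
  let ext : ((j : {j // j ≠ j0}) → B j) →* ((j : κ) → B j) :=
    MonoidHom.mk' (fun b j => if h : j = j0 then 1 else b ⟨j, h⟩) fun a b => by
      ext j
      by_cases h : j = j0 <;> simp [h]
  let ψ : ((j : {j // j ≠ j0}) → B j) →* ((i : {i // i ≠ i0}) → A i) :=
    MonoidHom.mk' (fun b i => e.symm (ext b) i) fun a b => by ext i; simp
  have hψ : Function.Injective ψ := by
    refine (injective_iff_map_eq_one _).2 fun b hb => ?_
    have h1 : e.symm (ext b) = Pi.mulSingle i0 (e.symm (ext b) i0) := by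
      ext k
      by_cases hk : k = i0
      · subst hk; simp
      · rw [Pi.mulSingle_eq_of_ne hk]; exact congrFun hb ⟨k, hk⟩
    have h2 : e.symm (ext b) i0 = 1 := by
      apply h.1
      simp only [← h1, MulEquiv.apply_symm_apply, Pi.mulSingle_one, map_one, Pi.one_apply]
      simp [ext]
    rw [h2, Pi.mulSingle_one, map_eq_one_iff _ e.symm.injective] at h1
    ext j
    simpa [ext, j.2] using congrFun h1 j
  have hc : Nat.card ((j : {j // j ≠ j0}) → B j) = Nat.card ((i : {i // i ≠ i0}) → A i) := by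
    have h1 := Nat.card_congr (Equiv.piSplitAt i0 A)
    have h2 := Nat.card_congr (Equiv.piSplitAt j0 B)
    rw [Nat.card_prod] at h1 h2
    rw [Nat.card_congr e.toEquiv, h2, Nat.card_eq_of_bijective _ h] at h1
    exact Nat.eq_of_mul_eq_mul_left Nat.card_pos h1
  exact ⟨(MulEquiv.ofBijective ψ ((Nat.bijective_iff_injective_and_card ψ).2 ⟨hψ, hc⟩)).symm⟩

end Exchange

theorem krs (m : ℕ) : ∀ (ι κ : Type) [Fintype ι] [DecidableEq ι] [Fintype κ] [DecidableEq κ]
    (A : ι → Type u) (B : κ → Type v) [∀ i, Group (A i)] [∀ j, Group (B j)] [∀ i, Finite (A i)]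
    [∀ j, Finite (B j)], Fintype.card ι = m → (∀ i, Indec (A i)) → (∀ j, Indec (B j)) →
    (((i : ι) → A i) ≃* ((j : κ) → B j)) → ∃ σ : ι ≃ κ, ∀ i, Nonempty (A i ≃* B (σ i)) := by
  induction m with
  | zero =>
    intro ι κ _ _ _ _ A B _ _ _ _ hm hA hB e
    have : IsEmpty ι := Fintype.card_eq_zero_iff.1 hm
    have : IsEmpty κ := ⟨fun j => by
      have := (hB j).1
      obtain ⟨b, hb⟩ := exists_ne (1 : B j)
      have h1 : Pi.mulSingle j b = (1 : (j : κ) → B j) := e.symm.injective (Subsingleton.elim _ _)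
      exact hb (by simpa using congrFun h1 j)⟩
    exact ⟨Equiv.equivOfIsEmpty _ _, fun i => isEmptyElim i⟩
  | succ m ih =>
    intro ι κ _ _ _ _ A B _ _ _ _ hm hA hB e
    obtain ⟨i0⟩ : Nonempty ι := Fintype.card_pos_iff.1 (by omega)
    obtain ⟨j0, hj0⟩ := exists_bij e i0 (hA i0) hB
    obtain ⟨e'⟩ := cancel e i0 j0 hj0
    obtain ⟨σ, hσ⟩ := ih {i // i ≠ i0} {j // j ≠ j0} (fun i => A i) (fun j => B j)
      (by simp [hm]) (fun i => hA i) (fun j => hB j) e'
    refine ⟨(Equiv.optionSubtypeNe i0).symm.trans (σ.optionCongr.trans (Equiv.optionSubtypeNe j0)),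
      fun i => ?_⟩
    by_cases hi : i = i0
    · subst hi
      have : ((Equiv.optionSubtypeNe i).symm.trans (σ.optionCongr.trans (Equiv.optionSubtypeNe j0))) i
          = j0 := by simp
      rw [this]
      exact ⟨MulEquiv.ofBijective ((Pi.evalMonoidHom B j0).comp (e.toMonoidHom.comp
        (MonoidHom.mulSingle A i))) hj0⟩
    · have : ((Equiv.optionSubtypeNe i0).symm.trans (σ.optionCongr.trans (Equiv.optionSubtypeNe j0))) i
          = σ ⟨i, hi⟩ := by simp [Equiv.optionSubtypeNe_symm_of_ne hi]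
      rw [this]
      exact hσ ⟨i, hi⟩

end Helpers

/-- If a finite group is isomorphic both to a direct product of `m` directly indecomposable nontrivial groups and to a direct product of `n` such groups (a group is directly indecomposable when it is not the internal direct product of two nontrivial normal subgroups), then `m = n` and the factors are isomorphic in pairs after a suitable matching. -/
theorem result {m n : ℕ} {A : Fin m → Type*} {B : Fin n → Type*} [∀ i, Group (A i)] [∀ j, Group (B j)] [∀ i, Finite (A i)] [∀ j, Finite (B j)] (hA : ∀ i, Nontrivial (A i) ∧ ∀ H K : Subgroup (A i), H.Normal → K.Normal → H ⊓ K = ⊥ → H ⊔ K = ⊤ → H = ⊥ ∨ K = ⊥) (hB : ∀ j, Nontrivial (B j) ∧ ∀ H K : Subgroup (B j), H.Normal → K.Normal → H ⊓ K = ⊥ → H ⊔ K = ⊤ → H = ⊥ ∨ K = ⊥) (e : ((i : Fin m) → A i) ≃* ((j : Fin n) → B j)) : ∃ σ : Fin m ≃ Fin n, ∀ i, Nonempty (A i ≃* B (σ i)) := by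
  exact krs m (Fin m) (Fin n) A B (Fintype.card_fin m) hA hB e

end Cfsg.Agent.S4223
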