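import Cfsg.Statements.S4226
import Cfsg.Agent.Transfer.Yoshida
import Cfsg.Agent.Transfer.Tate

set_option autoImplicit false
open Cfsg

namespace Cfsg.Agent.S4226

/-- Let `P` be a Sylow `p`-subgroup of the finite group `G` with nilpotency class less than `p` (the term of index `p - 1` of the lower central series of `P`, indexed from `0`, is trivial), and let `N` be its normalizer. Then `O^p(N) = O^p(G) ∩ N`, where `O^p` denotes the subgroup generated by the elements of order prime to `p`; so the largest `p`-factor groups of `G` and of `N` are isomorphic. -/
theorem result {G : Type*} [Group G] [Finite G] {p : ℕ} [Fact p.Prime] (P : Sylow p G) (hcl : (P : Subgroup G).lowerCentralSeries (p - 1) = ⊥) : Cfsg.pResidualOf p (Subgroup.normalizer ((P : Subgroup G) : Set G)) = Cfsg.pResidual p G ⊓ Subgroup.normalizer ((P : Subgroup G) : Set G) := by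
  refine (CL.Transfer.tate_of_commutator P _ Subgroup.le_normalizer
    (CL.Transfer.commutator_inf_le_of_weaklyClosed P (CL.Transfer.isWeaklyClosed_self _) ?_)).symm
  intro x hx z hz
  have : ∀ n, (fun y : G => y⁻¹ * z⁻¹ * y * z)^[n] x ∈ (P : Subgroup G).lowerCentralSeries n := by
    intro n
    induction n with
    | zero => exact hx
    | succ n ih =>
      rw [Function.iterate_succ_apply']
      have := Subgroup.commutator_mem_commutator (inv_mem ih) (inv_mem hz)
      simpa [commutatorElement_def] using this
  have h := this (p - 1)
  rwa [hcl, Subgroup.mem_bot] at h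

end Cfsg.Agent.S4226
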