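import Cfsg.Statements.S4227
import Cfsg.Agent.Fgs.HHA
import Cfsg.Agent.Char.Burnside

set_option autoImplicit false
open Cfsg

namespace Cfsg.Agent.S4227

/-- A finite group in which every element has order dividing `6` has `2`-length at most `1` and `3`-length at most `1`. -/
theorem result {G : Type*} [Group G] [Finite G] (h : ∀ x : G, x ^ 6 = 1) : Cfsg.PLengthLE 2 1 G ∧ Cfsg.PLengthLE 3 1 G := by
  have h2 := Fact.mk Nat.prime_two
  have h3 := Fact.mk Nat.prime_three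
  have hpr : ∀ q : ℕ, q.Prime → q ∣ Nat.card G → q = 2 ∨ q = 3 := fun q hq hd => by
    have := Fact.mk hq
    obtain ⟨x, hx⟩ := exists_prime_orderOf_dvd_card' q hd
    have e : q ∣ 2 * 3 := hx ▸ orderOf_dvd_of_pow_eq_one (h x)
    exact ((Nat.Prime.dvd_mul hq).1 e).imp (Nat.prime_dvd_prime_iff_eq hq Nat.prime_two).1
      (Nat.prime_dvd_prime_iff_eq hq Nat.prime_three).1
  have hs : Group.IsSolvable G := CL.Char.isSolvable_of_two_primes Nat.prime_two Nat.prime_three hpr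
  have hexp : ∀ (p q : ℕ) [Fact p.Prime], p.Coprime q → p * q = 6 → ∀ P : Sylow p G, ∀ x ∈ (P : Subgroup G),
      x ^ p = 1 := fun p q _ hc e P x hx => by
    obtain ⟨k, hk⟩ := P.isPGroup' ⟨x, hx⟩
    have h1 : orderOf x ∣ p ^ k := orderOf_dvd_of_pow_eq_one (congrArg Subtype.val hk)
    exact orderOf_dvd_iff_pow_eq_one.1 (((hc.pow_left k).coprime_dvd_left h1).dvd_of_dvd_mul_right
      (e ▸ orderOf_dvd_of_pow_eq_one (h x)))
  have hab : ∀ P : Sylow 2 G, IsMulCommutative (P : Subgroup G) := fun P => ⟨⟨fun a b => Subtype.ext (by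
    have := hexp 2 3 (by norm_num) rfl P
    have e : ∀ x ∈ (P : Subgroup G), x⁻¹ = x := fun x hx => inv_eq_of_mul_eq_one_right (sq x ▸ this x hx)
    rw [Subgroup.coe_mul, Subgroup.coe_mul, ← e _ (mul_mem a.2 b.2), mul_inv_rev, e _ a.2, e _ b.2])⟩⟩
  refine ⟨CL.Fgs.HH.pLengthLE_of_lcs_one (CL.Loc.isPSolvable_of_isSolvable hs) default (hab default),
    CL.Fgs.HH.pLengthLE_of_exp 1 G (CL.Loc.isPSolvable_of_isSolvable hs) (CL.Fgs.HH.noExc_of_sylow
      fun q n a hq _ hn _ e => ?_) default (by simpa using hexp 3 2 (by norm_num) rfl default)⟩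
  obtain rfl := (CL.Fgs.HH.eq_two_of_exc (by norm_num) hq.out hn e).1
  exact hab

end Cfsg.Agent.S4227
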