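import Cfsg.Statements.S4275
import Cfsg.Agent.Base

set_option autoImplicit false
open Cfsg
open scoped Pointwise

namespace Cfsg.Agent.S4275

/-- Let G be a transitive group of permutations of a finite set Ω, let o ∈ Ω, and let α be an automorphism of G. Then α is induced by conjugation by a permutation of Ω normalizing G if and only if the image under α of the stabilizer of o fixes some point of Ω. -/
theorem result {Ω : Type*} [Fintype Ω] (G : Subgroup (Equiv.Perm Ω)) (htr : MulAction.IsPretransitive G Ω) (o : Ω) (α : G ≃* G) : (∃ σ : Equiv.Perm Ω, σ ∈ Subgroup.normalizer (G : Set (Equiv.Perm Ω)) ∧ ∀ g : G, ((α g : G) : Equiv.Perm Ω) = σ * (g : Equiv.Perm Ω) * σ⁻¹) ↔ ∃ ω : Ω, ∀ g ∈ (MulAction.stabilizer G o).map α.toMonoidHom, g • ω = ω := by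
  constructor
  · rintro ⟨σ, -, hσ⟩
    refine ⟨σ o, ?_⟩
    rintro _ ⟨g, hg, rfl⟩
    have h1 : (g : Equiv.Perm Ω) o = o := hg
    change ((α g : G) : Equiv.Perm Ω) (σ o) = σ o
    rw [hσ g]
    simp [h1]
  · rintro ⟨ω, hω⟩
    choose t ht using fun x : Ω => htr.exists_smul_eq o x
    let f : Ω → Ω := fun x => α (t x) • ω
    have hf : ∀ g : G, f (g • o) = α g • ω := by
      intro g
      have h1 : (t (g • o))⁻¹ * g ∈ MulAction.stabilizer G o := by
        rw [MulAction.mem_stabilizer_iff, mul_smul, inv_smul_eq_iff, ht]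
      have h2 := hω _ ⟨_, h1, rfl⟩
      simp only [MulEquiv.toMonoidHom_eq_coe, MonoidHom.coe_coe, map_mul, map_inv] at h2
      rw [mul_smul, inv_smul_eq_iff] at h2
      exact h2.symm
    have hsurj : Function.Surjective f := by
      intro y
      obtain ⟨g, hg⟩ := htr.exists_smul_eq ω y
      exact ⟨α.symm g • o, by rw [hf, MulEquiv.apply_symm_apply, hg]⟩
    let σ : Equiv.Perm Ω := Equiv.ofBijective f (Finite.surjective_iff_bijective.1 hsurj)
    have hσ : ∀ g : G, ((α g : G) : Equiv.Perm Ω) = σ * (g : Equiv.Perm Ω) * σ⁻¹ := by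
      intro g
      rw [eq_mul_inv_iff_mul_eq]
      ext x
      obtain ⟨h, rfl⟩ := htr.exists_smul_eq o x
      change α g • f (h • o) = f (g • h • o)
      rw [hf, ← mul_smul g h o, hf, map_mul, mul_smul]
    refine ⟨σ, ?_, hσ⟩
    rw [Subgroup.mem_normalizer_iff]
    intro h
    constructor
    · intro hh
      rw [← hσ ⟨h, hh⟩]
      exact (α ⟨h, hh⟩).2
    · intro hh
      have h1 := hσ (α.symm ⟨_, hh⟩)
      rw [MulEquiv.apply_symm_apply] at h1
      have h2 : h = (α.symm ⟨_, hh⟩ : G) := by simpa using h1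
      rw [h2]
      exact (α.symm ⟨_, hh⟩).2

end Cfsg.Agent.S4275
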