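import Cfsg.Statements.S4276
import Cfsg.Agent.Perm.HksPrime1

set_option autoImplicit false
open Cfsg

namespace Cfsg.Agent.S4276

/-- Let G be a doubly transitive group of permutations of a finite set Ω of size n, let o ∈ Ω, and let α be an automorphism of G of odd order. Suppose that the image under α of the stabilizer of o has an orbit on Ω whose length k is coprime to n. Then α is induced by conjugation by a permutation of Ω normalizing G, and k = 1 or k = n − 1. -/
theorem result {Ω : Type*} [Fintype Ω] (G : Subgroup (Equiv.Perm Ω)) (h2 : MulAction.IsMultiplyPretransitive G Ω 2) (o : Ω) (α : MulAut G) (hα : Odd (orderOf α)) (ω : Ω) (hk : (Nat.card (MulAction.orbit ((MulAction.stabilizer G o).map α.toMonoidHom) ω)).Coprime (Fintype.card Ω)) : (∃ σ : Equiv.Perm Ω, σ ∈ Subgroup.normalizer (G : Set (Equiv.Perm Ω)) ∧ ∀ g : G, ((α g : G) : Equiv.Perm Ω) = σ * (g : Equiv.Perm Ω) * σ⁻¹) ∧ (Nat.card (MulAction.orbit ((MulAction.stabilizer G o).map α.toMonoidHom)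 ω) = 1 ∨ Nat.card (MulAction.orbit ((MulAction.stabilizer G o).map α.toMonoidHom) ω) = Fintype.card Ω - 1) := by
  classical
  obtain ⟨σ, hσ⟩ := CL.Perm.exists_perm_of_odd_aut h2 o hα ω (by rwa [Nat.card_eq_fintype_card (α := Ω)])
  have e : ∀ g : G, ((α g : G) : Equiv.Perm Ω) = σ * (g : Equiv.Perm Ω) * σ⁻¹ := fun g => by
    rw [eq_mul_inv_iff_mul_eq]
    exact Equiv.ext fun x => (hσ g x).symm
  refine ⟨⟨σ, Subgroup.mem_normalizer_fintype fun g hg => e ⟨g, hg⟩ ▸ (α ⟨g, hg⟩).2, e⟩, ?_⟩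
  obtain ⟨w, rfl⟩ := σ.surjective ω
  rw [Nat.card_coe_set_eq]
  by_cases hw : w = o
  · left
    rw [Set.ncard_eq_one]
    refine ⟨σ w, Set.eq_singleton_iff_unique_mem.2 ⟨MulAction.mem_orbit_self _, ?_⟩⟩
    rintro _ ⟨⟨_, g, hg, rfl⟩, rfl⟩
    exact (hσ g w).symm.trans (by rw [hw]; exact congrArg σ hg)
  · right
    rw [← Nat.card_eq_fintype_card, ← Set.ncard_singleton (σ o), ← Set.ncard_compl]
    congr 1
    ext y
    obtain ⟨y, rfl⟩ := σ.surjective y
    constructor
    · rintro ⟨⟨_, g, hg, rfl⟩, h1⟩ h3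
      exact hw (MulAction.injective g ((σ.injective ((hσ g w).trans (h1.trans h3))).trans
        (show g • o = o from hg).symm))
    · intro hy
      obtain ⟨g, h1, h3⟩ := MulAction.is_two_pretransitive_iff.1 h2 (Ne.symm hw)
        (show o ≠ y from fun e => hy (by rw [e]; rfl))
      exact ⟨⟨α g, g, h1, rfl⟩, (hσ g w).symm.trans (congrArg σ h3)⟩

end Cfsg.Agent.S4276
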