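import Cfsg.Statements.S4277
import Cfsg.Agent.Grp.SylowIn

set_option autoImplicit false
open Cfsg

namespace Cfsg.Agent.S4277

open MulAction

theorem sum_pow_eq {R ι : Type*} [Ring R] (p : ℕ) [Fact p.Prime] [CharP R p] (s : Finset ι) (f : ι → R)
    (h : ∀ i j, Commute (f i) (f j)) : (∑ i ∈ s, f i) ^ p = ∑ i ∈ s, f i ^ p := by
  classical
  induction s using Finset.induction_on with
  | empty => simp [(Fact.out : p.Prime).ne_zero]
  | insert a s ha ih =>
    rw [Finset.sum_insert ha, Finset.sum_insert ha, add_pow_char_of_commute p (Commute.sum_right _ _ _ fun j _ => h a j),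
      ih]

theorem exists_unit {G Ω : Type*} [Group G] [MulAction G Ω] [IsPretransitive G Ω] {p : ℕ} [hp : Fact p.Prime]
    {P : Subgroup G} [Fintype P] (hP : Nat.card P = p) (ω₀ : Ω)
    (hreg : ∀ ω : Ω, Function.Bijective fun d : P => d • ω) (hH : ¬ p ∣ Nat.card (stabilizer G ω₀))
    (α : MulAut G) (hα : ∀ d ∈ P, α d = d) :
    ∃ D : Finset P, IsUnit (∑ d ∈ D, Representation.ofMulAction (ZMod p) G Ω d) ∧ ∀ g : G,
      (∑ d ∈ D, Representation.ofMulAction (ZMod p) G Ω d) * Representation.ofMulAction (ZMod p) G Ω g =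
        Representation.ofMulAction (ZMod p) G Ω (α g) * ∑ d ∈ D, Representation.ofMulAction (ZMod p) G Ω d := by
  classical
  have := isCyclic_of_prime_card hP
  have hc : ∀ a b : P, a * b = b * a := IsCyclic.isMulCommutative.is_comm.comm
  have : Finite Ω := Finite.of_surjective _ (hreg ω₀).2
  have := Fintype.ofFinite Ω
  let Γ : Ω → Ω → Prop := fun a b => ∃ g : G, g • ω₀ = a ∧ α g • ω₀ = b
  have hΓ : ∀ (g : G) a b, Γ (g • a) (α g • b) ↔ Γ a b := fun g a b =>
    ⟨fun ⟨k, h1, h2⟩ => ⟨g⁻¹ * k, by rw [mul_smul, h1, inv_smul_smul], by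
      rw [map_mul, map_inv, mul_smul, h2, inv_smul_smul]⟩,
      fun ⟨k, h1, h2⟩ => ⟨g * k, by rw [mul_smul, h1], by rw [map_mul, mul_smul, h2]⟩⟩
  let D : Finset P := {d | Γ ω₀ (d • ω₀)}
  have hD : ∀ ω, (∑ d ∈ D, Representation.ofMulAction (ZMod p) G Ω d) (.single ω 1) =
      ∑ b ∈ ({b | Γ ω b} : Finset Ω), .single b 1 := fun ω => by
    obtain ⟨e, rfl⟩ := (hreg ω₀).2 ω
    rw [LinearMap.sum_apply]
    refine Finset.sum_bijective _ (hreg (e • ω₀)) (fun d => ?_) fun d _ => Representation.ofMulAction_single _ _ _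
    simp only [D, Finset.mem_filter, Finset.mem_univ, true_and]
    rw [← hΓ e, hα e e.2, smul_smul d, hc, mul_smul]
    rfl
  refine ⟨D, ?_, fun g => ?_⟩
  · have : Nontrivial (Module.End (ZMod p) (MonoidAlgebra (ZMod p) Ω)) := by
      have : Nonempty Ω := ⟨ω₀⟩
      infer_instance
    have := charP_of_injective_algebraMap' (ZMod p) (A := Module.End (ZMod p) (MonoidAlgebra (ZMod p) Ω)) p
    refine (isUnit_pow_iff hp.out.ne_zero).1 ?_
    rw [sum_pow_eq p _ _ fun (i j : P) => (show Commute (i : G) j from congrArg Subtype.val (hc i j)).map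
      (Representation.ofMulAction (ZMod p) G Ω),
      Finset.sum_congr rfl fun (d : P) _ => show Representation.ofMulAction (ZMod p) G Ω d ^ p = 1 by
        rw [← map_pow, ← Subgroup.coe_pow, show d ^ p = 1 from hP ▸ pow_card_eq_one', Subgroup.coe_one, map_one],
      Finset.sum_const, nsmul_one, ← map_natCast (algebraMap (ZMod p) _)]
    refine IsUnit.map _ (Ne.isUnit fun e => hH ?_)
    have h1 : D = Finset.univ := Finset.eq_univ_of_card _ (le_antisymm (Finset.card_le_univ _) (by
      rw [← Nat.card_eq_fintype_card, hP]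
      exact Nat.le_of_dvd (Finset.card_pos.2 ⟨1, by simpa [D] using ⟨1, by simp, by simp⟩⟩)
        ((ZMod.natCast_eq_zero_iff _ _).1 e)))
    have h2 : orbit ((stabilizer G ω₀).map α.toMonoidHom) ω₀ = Set.univ := Set.eq_univ_of_forall fun b => by
      obtain ⟨d, rfl⟩ := (hreg ω₀).2 b
      obtain ⟨k, h3, h4⟩ := (Finset.mem_filter.1 (h1.ge (Finset.mem_univ d))).2
      exact ⟨⟨_, k, h3, rfl⟩, h4⟩
    have h3 := Subgroup.index_dvd_card (stabilizer ((stabilizer G ω₀).map α.toMonoidHom) ω₀)
    rwa [index_stabilizer, h2, Set.ncard_univ, ← Nat.card_eq_of_bijective _ (hreg ω₀), hP,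
      Subgroup.card_map_of_injective α.injective] at h3
  · ext1 ω
    ext1
    simp only [LinearMap.comp_apply, MonoidAlgebra.lsingle_apply, Module.End.mul_apply,
      Representation.ofMulAction_single, hD, map_sum]
    refine (Finset.sum_bijective _ (MulAction.bijective (α g)) (fun b => ?_) fun _ _ => rfl).symm
    simp [hΓ]

/-- A case of the Schreier conjecture: if a finite simple group G has a subgroup of prime index, then the outer automorphism group of G is solvable. -/
theorem result {G : Type*} [Group G] [Finite G] [IsSimpleGroup G] (H : Subgroup G) (hH : H.index.Prime) : Group.IsSolvable (Cfsg.Out G) := by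
  classical
  have := Fact.mk hH
  have := Fintype.ofFinite G
  have h1 : H.normalCore = ⊥ := (H.normalCore_normal.eq_bot_or_eq_top).resolve_right fun e =>
    hH.one_lt.ne' (Subgroup.index_eq_one.2 (top_unique (e ▸ H.normalCore_le)))
  rw [Subgroup.normalCore_eq_ker, MonoidHom.ker_eq_bot_iff] at h1
  have h2 : Nat.card G ∣ H.index.factorial := by
    have := Subgroup.card_dvd_of_injective _ h1
    rwa [Nat.card_perm] at this
  have h3 : ¬ H.index ∣ Nat.card H := fun e => by
    obtain ⟨k, hk⟩ := Nat.exists_eq_succ_of_ne_zero hH.ne_zero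
    rw [← H.index_mul_card] at h2
    conv_rhs at h2 => rw [hk, Nat.factorial_succ, ← Nat.succ_eq_add_one, ← hk]
    have := hH.dvd_factorial.1 (e.trans (Nat.dvd_of_mul_dvd_mul_left hH.pos h2))
    omega
  obtain ⟨P⟩ : Nonempty (Sylow H.index G) := inferInstance
  have hP : Nat.card P = H.index := by
    rw [P.card_eq_multiplicity, ← H.index_mul_card, Nat.factorization_mul hH.ne_zero Nat.card_pos.ne',
      Finsupp.add_apply, hH.factorization_self, Nat.factorization_eq_zero_of_not_dvd h3, pow_one]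
  have h4 : ∀ ω : G ⧸ H, ¬ H.index ∣ Nat.card (stabilizer G ω) := fun ω => by
    have e1 := (stabilizer G ω).index_mul_card
    rw [index_stabilizer_of_transitive, ← H.index_mul_card, ← H.index_eq_card] at e1
    rwa [Nat.eq_of_mul_eq_mul_left hH.pos e1]
  have hreg : ∀ ω : G ⧸ H, Function.Bijective fun d : P => d • ω := fun ω => by
    refine (Nat.bijective_iff_injective_and_card _).2 ⟨fun a b e => by_contra fun hab => h4 ω ?_, hP⟩
    have e1 : orderOf (b⁻¹ * a) = H.index := ((Nat.dvd_prime hH).1 ((orderOf_dvd_natCard _).trans hP.dvd)).resolve_left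
      fun e => hab (inv_mul_eq_one.1 (orderOf_eq_one_iff.1 e)).symm
    rw [← e1, ← Subgroup.orderOf_coe]
    exact Subgroup.orderOf_dvd_natCard _ (show (b⁻¹ * a) • ω = ω by rw [mul_smul, inv_smul_eq_iff]; exact e)
  have hc := isCyclic_of_prime_card hP
  have hA : ∀ α β : MulAut G, (∀ d ∈ P, α d = d) → (∀ d ∈ P, β d = d) → α * β = β * α := fun α β ha hb => by
    obtain ⟨D, e1, e2⟩ := exists_unit hP ((1 : G) : G ⧸ H) hreg (h4 _) α ha
    obtain ⟨E, e3, e4⟩ := exists_unit hP ((1 : G) : G ⧸ H) hreg (h4 _) β hb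
    have e5 := Commute.sum_left D _ _ fun (i : P) _ => Commute.sum_right E _ _ fun (j : P) _ =>
      (show Commute (i : G) j from congrArg Subtype.val (hc.isMulCommutative.is_comm.comm i j)).map
        (Representation.ofMulAction (ZMod H.index) G (G ⧸ H))
    ext g
    have e6 : Representation.ofMulAction (ZMod H.index) G (G ⧸ H) (α (β g)) =
        Representation.ofMulAction (ZMod H.index) G (G ⧸ H) (β (α g)) := (e1.mul e3).mul_right_cancel (by
      rw [← mul_assoc, ← e2, mul_assoc, ← e4, ← mul_assoc, e5.eq, mul_assoc, e2, ← mul_assoc, e4, mul_assoc])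
    refine h1 (Equiv.ext fun ω => ?_)
    have e7 := LinearMap.congr_fun e6 (.single ω 1)
    rw [Representation.ofMulAction_single, Representation.ofMulAction_single] at e7
    exact MonoidAlgebra.single_left_injective one_ne_zero e7
  have hN : ∀ α : stabilizer (MulAut G) P, ∀ d ∈ P, (α : MulAut G) d ∈ P := fun α d hd => by
    exact (SetLike.ext_iff.1 (show (α : MulAut G) • P = P from α.2) _).1
      (Subgroup.smul_mem_pointwise_smul d (α : MulAut G) _ hd)
  have hB : ∀ α : stabilizer (MulAut G) P, ∃ m : ℤ, ∀ d ∈ P, (α : MulAut G) d = d ^ m := fun α => by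
    obtain ⟨m, hm⟩ := MonoidHom.map_cyclic (((α : MulAut G).toMonoidHom.comp (P : Subgroup G).subtype).codRestrict
      (P : Subgroup G) fun d => hN α d d.2)
    exact ⟨m, fun d hd => congrArg Subtype.val (hm ⟨d, hd⟩)⟩
  let C : Subgroup (stabilizer (MulAut G) P) := (fixingSubgroup (MulAut G) (P : Set G)).subgroupOf _
  have h5 : ⁅(⊤ : Subgroup (stabilizer (MulAut G) P)), ⊤⁆ ≤ C := Subgroup.commutator_le.2 fun α _ β _ => by
    refine (mem_fixingSubgroup_iff _).2 fun d hd => ?_
    obtain ⟨a, ha⟩ := hB α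
    obtain ⟨b, hb⟩ := hB β
    have e1 := hN α⁻¹ _ (hN β⁻¹ d hd)
    show (α : MulAut G) ((β : MulAut G) ((α⁻¹ : stabilizer (MulAut G) P).1 ((β⁻¹ : stabilizer (MulAut G) P).1 d))) = d
    rw [hb _ e1, map_zpow, ← hb _ (hN α _ e1)]
    simp
  have : Group.IsSolvable (stabilizer (MulAut G) P) := ⟨2, le_bot_iff.1 ((Subgroup.commutator_mono h5 h5).trans
    (Subgroup.commutator_le.2 fun α ha β hb => commutatorElement_eq_one_iff_mul_comm.2 (Subtype.ext
      (hA _ _ ((mem_fixingSubgroup_iff _).1 ha) ((mem_fixingSubgroup_iff _).1 hb)))))⟩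
  refine Group.isSolvable_of_surjective (f := (QuotientGroup.mk' (Inn G)).comp (stabilizer (MulAut G) P).subtype)
    fun x => ?_
  obtain ⟨α, rfl⟩ := QuotientGroup.mk_surjective x
  obtain ⟨g, hg⟩ := exists_smul_eq G (α • P) P
  refine ⟨⟨MulAut.conj g * α, by rw [mem_stabilizer_iff, mul_smul]; exact hg⟩, ?_⟩
  show ((MulAut.conj g * α : MulAut G) : Out G) = α
  rw [QuotientGroup.mk_mul, (QuotientGroup.eq_one_iff (MulAut.conj g)).2 (show _ ∈ Inn G from ⟨g, rfl⟩), one_mul]

end Cfsg.Agent.S4277
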