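import Cfsg.Statements.S4282
import Cfsg.Agent.Fgs.TowerE

set_option autoImplicit false
open Cfsg

namespace Cfsg.Agent.S4282

/-- A critical case behind the Hall–Higman theorem. Let p ≠ q be primes and G a finite group generated by a normal q-subgroup Q and a cyclic p-subgroup generated by x, such that the centralizer of every non-identity element of that cyclic subgroup is its product with the centre of G. Let K be an algebraically closed field of characteristic p and ρ a faithful representation of G on a nonzero finite-dimensional K-space whose restriction to Q is irreducible. If s is the least exponent with (ρ(x) − 1)^s = 0, then |⟨x⟩| − 1 ≤ s ≤ |⟨x⟩|; and if s = |⟨x⟩| − 1 then |⟨x⟩| − 1 is a power of q and Q is non-abelian. -/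
theorem result {G : Type*} [Group G] [Finite G] (p q : ℕ) [Fact p.Prime] [Fact q.Prime] (hpq : p ≠ q) (Q : Subgroup G) [Q.Normal] (hQ : IsPGroup q Q) (x : G) (hx : IsPGroup p (Subgroup.zpowers x)) (hgen : Q ⊔ Subgroup.zpowers x = ⊤) (hC : ∀ y ∈ Subgroup.zpowers x, y ≠ 1 → Subgroup.centralizer ({y} : Set G) = Subgroup.zpowers x ⊔ Subgroup.center G) {K : Type*} [Field K] [IsAlgClosed K] [CharP K p] {V : Type*} [AddCommGroup V] [Module K V] [FiniteDimensional K V] [Nontrivial V] (ρ : Representation K G V) (hfaith : Function.Injective ρ) (hirr : ∀ W : Submodule K V, (∀ g ∈ Q, Submodule.map (ρ g) W ≤ W) → W = ⊥ ∨ W = ⊤) (s : ℕ) (hs : (ρ x - 1) ^ s = 0) (hmin : ∀ k < s, (ρ x - 1) ^ k ≠ 0) : Nat.card (Subgroup.zpowers x) - 1 ≤ s ∧ s ≤ Nat.card (Subgroup.zpowers x) ∧ (s = Nat.card (Subgroup.zpowers x) - 1 → (∃ b : ℕ, Nat.card (Subgroup.zpowers x) - 1 = q ^ b) ∧ ¬ IsMulCommutative Q) := by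
  open CL.Fgs.HH CL.Odd CL.Grp Subgroup Polynomial in
  have hp : p.Prime := Fact.out
  have hq : q.Prime := Fact.out
  obtain ⟨n, hn⟩ := IsPGroup.iff_card.1 hx
  have hxn : x ^ p ^ n = 1 := by rw [← hn, Nat.card_zpowers, pow_orderOf_eq_one]
  have hρ : ∀ g, ρ g = 1 → g = 1 := fun g hg => hfaith (hg.trans (map_one ρ).symm)
  have hs0 : s ≠ 0 := by rintro rfl; exact one_ne_zero hs
  have hle : s ≤ p ^ n := not_lt.1 fun h => hmin _ h (by
    have h0 : aeval (ρ x) ((X - 1 : K[X]) ^ p ^ n) = 0 := by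
      rw [sub_pow_char_pow, one_pow, map_sub, map_pow, aeval_X, map_one, ← map_pow, hxn, map_one, sub_self]
    simpa using h0)
  rw [hn]
  rcases n with _ | m
  · exact ⟨by simp, hle, fun e => absurd e (by simpa using hs0)⟩
  have hy1 : x ^ p ^ m ≠ 1 := fun e => absurd (Nat.le_of_dvd (pow_pos hp.pos m)
    (hn ▸ Nat.card_zpowers x ▸ orderOf_dvd_of_pow_eq_one e)) (not_le.2 (Nat.pow_lt_pow_right hp.one_lt m.lt_succ_self))
  have hC' := hC _ (pow_mem (mem_zpowers x) _) hy1
  have hCx : C1[x ^ p ^ m] ≤ C1[x] := hC' ▸ sup_le (zpowers_le.2 (mem_centralizer_singleton_iff.2 rfl))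
    fun z hz => mem_centralizer_singleton_iff.2 (mem_center_iff.1 hz x).symm
  have hchar : (q : K) ≠ 0 := fun h0 => hpq ((Nat.prime_dvd_prime_iff_eq hp hq).1 ((CharP.cast_eq_zero_iff K p q).1 h0))
  have hy : x ^ p ^ m ∉ C[Q] := fun h => by
    have h1 : (ρ x - 1) ^ (s - 1) * (ρ x - 1) = 0 := by rwa [← pow_succ, Nat.sub_add_cancel (by omega)]
    rcases hirr (LinearMap.range (ρ x - 1)) (fun g hg => by
      rintro _ ⟨_, ⟨v, rfl⟩, rfl⟩
      refine ⟨ρ g v, ?_⟩
      have e : g * x = x * g := mem_centralizer_singleton_iff.1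
        (hCx (mem_centralizer_singleton_iff.2 (mem_centralizer_iff.1 h g hg)))
      simp only [LinearMap.sub_apply, Module.End.one_apply, map_sub, ← rho_mul_apply, e]) with h2 | h2
    · exact hy1 (by rw [hρ x (sub_eq_zero.1 (LinearMap.range_eq_bot.1 h2)), one_pow])
    · refine hmin (s - 1) (by omega) (LinearMap.ext fun v => ?_)
      obtain ⟨w, rfl⟩ := LinearMap.range_eq_top.1 h2 v
      exact LinearMap.congr_fun h1 w
  have hcy : ∀ P ≤ Q, (Nat.card (zpowers (x ^ p ^ m))).Coprime (Nat.card P) := fun P hP =>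
    CL.Fgs.coprime_zpowers (j := 1) (by rw [← pow_mul, ← pow_add, hxn]) (coprime_card_of_ne hp hq hpq (hQ.to_le hP))
  obtain ⟨P, hPQ, h1, h2, -, h3, h4, -, h5⟩ := exists_min_sub hq hQ (B := zpowers x) (T := zpowers (x ^ p ^ m))
    le_normalizer_of_normal (zpowers_le.2 (pow_mem (mem_zpowers x) _)) (zpowers_le.2 (mem_norm_zpowers_pow x _))
    (hcy Q le_rfl) (mt zpowers_le.1 hy)
  have hxP : x ∈ N[P] := zpowers_le.1 h1
  have hchar' := natCast_card_ne_zero hq (hQ.to_le hPQ) hchar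
  obtain ⟨z, hz, hz1⟩ : ∃ z ∈ P, z ≠ 1 := by
    by_contra hc
    push Not at hc
    exact h2 fun g _ => mem_centralizer_iff.2 fun z hz => by rw [hc z hz, one_mul, mul_one]
  obtain ⟨A, μ, h, z, hz, hz'⟩ := exists_cw_nontrivial ρ hchar' h5 le_rfl le_normalizer hz (mt (hρ z) hz1)
  obtain ⟨k, hk, hst, H⟩ := h.hh hchar' hp hxP hxn (coprime_card_of_ne hp hq hpq (hQ.to_le hPQ)) fun hy =>
    ⟨fun t ht hc => mem_of_comm_mem (zpowers_le.2 (pow_mem hxP _)) (hcy P hPQ) (Or.inl inferInstance) h.le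
      (CL.Fgs.HH.le_norm_of_der_le h.der_le h.le) (zpowers_le.2 hy.1) (h4 ▸ h.der_le) ht
      fun a ha => ((zpowers_le.2 ⟨hy.1, hc⟩ : _ ≤ cstab A t) ha).2, by
      rintro rfl
      exact hz' (commutator_le_wker h.ne_bot le_rfl (zpowers_le.2 hy) (h3.symm ▸ hz))⟩
  have hd : ((X - C 1 : K[X]) ^ s).natDegree = s := by rw [natDegree_pow, natDegree_X_sub_C, mul_one]
  have hpos := pow_pos hp.pos (m + 1)
  obtain H | ⟨a1, a2, a3, a4⟩ := H _ (pow_ne_zero s (X_sub_C_ne_zero 1)) fun w _ => by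
    rw [map_pow, map_sub, aeval_X, aeval_C, map_one, hs]; rfl
  · exact ⟨by omega, hle, fun e => by omega⟩
  have hx0 : x ∈ wstab A μ := h.mem_wstab_of_cent (T := zpowers (x ^ p ^ m)) (zpowers_le.2 ((hst _).2 (pow_dvd_pow p a1)))
    (hcy P hPQ) inferInstance h4.le hxP (mem_centralizer_iff.2 fun a ha => mem_centralizer_singleton_iff.1
      (hCx (centralizer_zpowers (x ^ p ^ m) ▸ (h4.ge ha).2)))
    (by rw [centralizer_zpowers]; exact mem_centralizer_singleton_iff.2 ((Commute.refl x).pow_right _))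
  obtain rfl : k = 0 := (Nat.pow_eq_one.1 (Nat.dvd_one.1 ((hst 1).1 (by rwa [pow_one])))).resolve_left hp.ne_one
  rw [Nat.sub_zero] at a2 a3 a4
  rw [pow_zero, one_mul] at a4
  refine ⟨by omega, hle, fun _ => ⟨exists_pow_of_sq_eq hq (hQ.to_le hPQ) a3, fun hab => ?_⟩⟩
  rw [relIndex_eq_one.2 fun t ht => (h.rad t ht).2 fun a ha => by
    rw [commutatorElement_eq_one_iff_mul_comm.2 (setLike_mul_comm (hPQ ha) (hPQ ht)), wt_one h.ne_bot], eq_comm,
    Nat.pow_eq_one] at a3
  omega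

end Cfsg.Agent.S4282
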