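import Cfsg.Statements.S4283
import Cfsg.Agent.Fgs.ClassBasic
import Cfsg.Agent.Grp.Frob

set_option autoImplicit false
open Cfsg

namespace Cfsg.Agent.S4283

open CL.Fgs Subgroup


/-- Let G be a finite group with centre Z and let K, H be abelian subgroups of G containing Z such that G/Z is a Frobenius group with complement H/Z and kernel K/Z. Then the conjugacy class sizes of G are exactly 1, [G : K] and [G : H], and these two indices are coprime. (This is the converse half of the characterization of finite groups whose conjugacy class sizes are exactly 1, m and n with m and n coprime.) -/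
theorem result {G : Type*} [Group G] [Finite G] (K H : Subgroup G) (hZK : Subgroup.center G ≤ K) (hZH : Subgroup.center G ≤ H) (hK : IsMulCommutative K) (hH : IsMulCommutative H) (hFrob : Cfsg.IsFrobeniusComplement (H.map (QuotientGroup.mk' (Subgroup.center G)))) (hker : Cfsg.frobeniusKernel (H.map (QuotientGroup.mk' (Subgroup.center G))) = (K.map (QuotientGroup.mk' (Subgroup.center G)) : Set (G ⧸ Subgroup.center G))) : Set.range (fun x : G => (Subgroup.centralizer ({x} : Set G)).index) = ({1, K.index, H.index} : Set ℕ) ∧ K.index.Coprime H.index := by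
  set π := QuotientGroup.mk' (center G) with hπ
  have hs : Function.Surjective π := QuotientGroup.mk'_surjective _
  have hM := CL.Grp.isMalnormal_of_frob hFrob
  have hk : π.ker = center G := QuotientGroup.ker_mk' _
  have e1 : (K.map π).comap π = K := comap_map_eq_self (hk.le.trans hZK)
  have e2 : (H.map π).comap π = H := comap_map_eq_self (hk.le.trans hZH)
  have i1 : (K.map π).index = K.index := index_map_eq _ hs (hk.le.trans hZK)
  have i2 : (H.map π).index = H.index := index_map_eq _ hs (hk.le.trans hZH)
  have h1 : ∀ x ∈ K, x ∉ center G → cent(x) = K := fun x hx hz => le_antisymm (fun y hy => by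
    rw [← e1, mem_comap, ← SetLike.mem_coe, ← hker]
    refine hM.mem_kernel_of_commute (x := π x) (hker ▸ mem_map_of_mem π hx)
      (fun h => hz (hk ▸ h)) ?_
    rw [← map_mul, ← map_mul, (mem_cent'.1 hy).eq])
    (fun y hy => mem_cent.2 (congrArg Subtype.val (hK.is_comm.comm ⟨y, hy⟩ ⟨x, hx⟩)))
  have h2 : ∀ x ∈ H, x ∉ center G → cent(x) = H := fun x hx hz => le_antisymm (fun y hy => by
    rw [← e2, mem_comap]
    refine hM.mem_of_commute (mem_map_of_mem π hx) (fun h => hz (hk ▸ h)) ?_
    rw [← map_mul, ← map_mul, (mem_cent.1 hy).eq])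
    (fun y hy => mem_cent.2 (congrArg Subtype.val (hH.is_comm.comm ⟨y, hy⟩ ⟨x, hx⟩)))
  have h3 : Nat.card (K.map π) = (H.map π).index := by
    rw [← hM.card_kernel, hker]; rfl
  have h4 : K.index = Nat.card (H.map π) := by
    have := (card_mul_index (K.map π)).trans (card_mul_index (H.map π)).symm
    rw [h3, mul_comm, i1] at this
    exact Nat.eq_of_mul_eq_mul_right (Nat.pos_of_ne_zero index_ne_zero_of_finite) this
  refine ⟨Set.ext fun n => ⟨?_, ?_⟩, by rw [h4, ← i2]; exact hM.coprime_card_index⟩
  · rintro ⟨x, rfl⟩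
    by_cases hz : x ∈ center G
    · exact Or.inl (cs_eq_one_iff.2 hz)
    by_cases hx : x ∈ K
    · exact Or.inr (Or.inl (congrArg _ (h1 x hx hz)))
    · have : π x ∉ frobeniusKernel (H.map π) := by rwa [hker, SetLike.mem_coe, ← mem_comap, e1]
      obtain ⟨-, g, hg⟩ := (CL.Grp.notMem_frobeniusKernel_iff _ _).1 this
      obtain ⟨g, rfl⟩ := hs g
      rw [← map_inv, ← map_mul, ← map_mul, ← mem_comap, e2] at hg
      refine Or.inr (Or.inr ((cs_conj g x).symm.trans (congrArg _ (h2 _ hg fun h => hz ?_))))
      rwa [← cs_eq_one_iff, cs_conj, cs_eq_one_iff] at h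
  · rintro (rfl | rfl | rfl)
    · exact ⟨1, cs_one⟩
    · have : K.map π ≠ ⊥ := fun h => hFrob.2.1 (by rw [← index_eq_one, ← h3, h, card_bot])
      rw [Ne, Subgroup.map_eq_bot_iff, hk] at this
      obtain ⟨x, hx, hz⟩ := SetLike.not_le_iff_exists.1 this
      exact ⟨x, congrArg _ (h1 x hx hz)⟩
    · have := hFrob.1
      rw [Ne, Subgroup.map_eq_bot_iff, hk] at this
      obtain ⟨x, hx, hz⟩ := SetLike.not_le_iff_exists.1 this
      exact ⟨x, congrArg _ (h2 x hx hz)⟩

end Cfsg.Agent.S4283
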