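import Cfsg.Statements.S4290
import Cfsg.Agent.Perm.HksPrime1

set_option autoImplicit false
open Cfsg

namespace Cfsg.Agent.S4290

/-- Let G be a doubly transitive group of permutations of a finite set Ω in which a point stabilizer is a Hall subgroup of G (its order is coprime to its index). Then every automorphism of G of odd order is induced by conjugation by a permutation of Ω normalizing G. -/
theorem result {Ω : Type*} [Fintype Ω] (G : Subgroup (Equiv.Perm Ω)) (h2 : MulAction.IsMultiplyPretransitive G Ω 2) (o : Ω) (hHall : (Nat.card (MulAction.stabilizer G o)).Coprime (MulAction.stabilizer G o).index) (α : MulAut G) (hα : Odd (orderOf α)) : ∃ σ : Equiv.Perm Ω, σ ∈ Subgroup.normalizer (G : Set (Equiv.Perm Ω)) ∧ ∀ g : G, ((α g : G) : Equiv.Perm Ω) = σ * (g : Equiv.Perm Ω) * σ⁻¹ := by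
  obtain ⟨σ, hσ⟩ := CL.Perm.exists_perm_of_odd_aut_of_hall h2 o (by
    have : MulAction.IsPretransitive G Ω := MulAction.is_one_pretransitive_iff.1 (by
      rcases subsingleton_or_nontrivial Ω with _ | _
      · exact MulAction.is_one_pretransitive_iff.2 ⟨fun x y => ⟨1, Subsingleton.elim _ _⟩⟩
      · exact MulAction.isMultiplyPretransitive_of_le one_le_two Finite.one_lt_card)
    rwa [MulAction.index_stabilizer_of_transitive] at hHall) hα
  have e : ∀ g : G, ((α g : G) : Equiv.Perm Ω) = σ * (g : Equiv.Perm Ω) * σ⁻¹ := fun g => by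
    rw [eq_mul_inv_iff_mul_eq]
    exact Equiv.ext fun x => (hσ g x).symm
  exact ⟨σ, Subgroup.mem_normalizer_fintype fun g hg => e ⟨g, hg⟩ ▸ (α ⟨g, hg⟩).2, e⟩

end Cfsg.Agent.S4290
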