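import Cfsg.Statements.S4291
import Cfsg.Agent.Perm.FCSolv
import Cfsg.Agent.Perm.FCZass

set_option autoImplicit false
open Cfsg

namespace Cfsg.Agent.S4291

open Subgroup

theorem not_two_involutions {X : Type*} [Group X] [Finite X] [IsZGroup X] {v w : X} (hv : v ≠ 1) (hw : w ≠ 1)
    (hvw : w ≠ v) (h1 : v * v = 1) (h2 : w * w = 1) (h3 : w * v = v * w) : False := by
  classical
  have hc : IsMulCommutative (Subgroup.closure {v, w}) := by
    apply isMulCommutative_closure
    rintro a (rfl | rfl) b (rfl | rfl) <;> simp [h3]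
  have h4 : ∀ x ∈ Subgroup.closure {v, w}, x ^ 2 = 1 := by
    intro x hx
    induction hx using Subgroup.closure_induction with
    | mem x hx => rcases hx with rfl | rfl <;> rwa [pow_two]
    | one => simp
    | mul x y hx hy h5 h6 => rw [Commute.mul_pow (setLike_mul_comm hx hy), h5, h6, one_mul]
    | inv x _ h5 => rw [inv_pow, h5, inv_one]
  have hP : IsPGroup 2 (Subgroup.closure {v, w}) := fun x => ⟨1, Subtype.ext (h4 x x.2)⟩
  have := hP.isCyclic_of_isZGroup
  have ho : orderOf v = 2 := orderOf_eq_prime (by rwa [pow_two]) hv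
  have h5 : w ∈ zpowers v := CL.Perm.mem_zpowers_of_isCyclic_subgroup (H := Subgroup.closure {v, w})
    (Subgroup.subset_closure (by simp)) (Subgroup.subset_closure (by simp))
    (by rw [ho]; exact orderOf_dvd_of_pow_eq_one (by rwa [pow_two]))
  rw [mem_zpowers_iff_mem_range_orderOf, ho] at h5
  simp only [Finset.mem_image, Finset.mem_range] at h5
  obtain ⟨k, hk, rfl⟩ := h5
  interval_cases k <;> simp_all

/-- Every normal Z-subgroup is trivial. -/
def NoZ (X : Type*) [Group X] : Prop := ∀ N : Subgroup X, N.Normal → IsZGroup N → N = ⊥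

theorem chk4 : ∀ n : Equiv.Perm (Fin 4), n ≠ 1 → ∃ g h : Equiv.Perm (Fin 4),
    Equiv.Perm.sign g = 1 ∧ Equiv.Perm.sign h = 1 ∧
    g * n * g⁻¹ * n⁻¹ ≠ 1 ∧ (g * n * g⁻¹ * n⁻¹) * (g * n * g⁻¹ * n⁻¹) = 1 ∧
    h * (g * n * g⁻¹ * n⁻¹) * h⁻¹ ≠ g * n * g⁻¹ * n⁻¹ ∧
    h * (g * n * g⁻¹ * n⁻¹) * h⁻¹ * (g * n * g⁻¹ * n⁻¹) =
      (g * n * g⁻¹ * n⁻¹) * (h * (g * n * g⁻¹ * n⁻¹) * h⁻¹) := by
  decide +kernel

theorem noZ_aux {X : Type*} [Group X] [Finite X] (ι : X →* Equiv.Perm (Fin 4)) (hι : Function.Injective ι)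
    (hA : ∀ g, Equiv.Perm.sign g = 1 → g ∈ ι.range) : NoZ X := by
  intro N hN hZ
  by_contra hne
  obtain ⟨n, hn, hn1⟩ := N.bot_or_exists_ne_one.resolve_left hne
  obtain ⟨g, h, hg, hh, h1, h2, h3, h4⟩ := chk4 (ι n) (fun h => hn1 (hι (h.trans (map_one ι).symm)))
  obtain ⟨g, rfl⟩ := hA g hg
  obtain ⟨h, rfl⟩ := hA h hh
  simp only [← map_inv, ← map_mul, ← map_one ι, ne_eq, hι.eq_iff] at h1 h2 h3 h4
  have hv : g * n * g⁻¹ * n⁻¹ ∈ N := mul_mem (hN.conj_mem n hn g) (inv_mem hn)
  refine not_two_involutions (X := N) (v := ⟨_, hv⟩) (w := ⟨_, hN.conj_mem _ hv h⟩)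
    (fun h => h1 (congrArg Subtype.val h)) (fun h5 => h1 ?_) (fun h => h3 (congrArg Subtype.val h))
    (Subtype.ext h2) (Subtype.ext ?_) (Subtype.ext h4)
  · exact conj_eq_one_iff.mp (congrArg Subtype.val h5)
  · change h * _ * h⁻¹ * (h * _ * h⁻¹) = 1
    rw [conj_mul, h2]; simp

theorem noZ_s4 : NoZ (Equiv.Perm (Fin 4)) := noZ_aux (MonoidHom.id _) Function.injective_id fun g _ => ⟨g, rfl⟩

theorem noZ_a4 : NoZ (alternatingGroup (Fin 4)) :=
  noZ_aux (Subgroup.subtype _) (subtype_injective _) fun g hg => ⟨⟨g, hg⟩, rfl⟩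

theorem not_solvable_a5 : ¬ Group.IsSolvable (alternatingGroup (Fin 5)) := fun h =>
  Equiv.Perm.not_isSolvable_fin_5 (Group.isSolvable_of_ker_le_range (alternatingGroup (Fin 5)).subtype
    Equiv.Perm.sign (by rw [range_subtype, alternatingGroup_eq_sign_ker]))

theorem noZ_a5 : NoZ (alternatingGroup (Fin 5)) := by
  intro N hN hZ
  have := alternatingGroup.isSimpleGroup (α := Fin 5) (by simp)
  refine (hN.eq_bot_or_eq_top).resolve_right ?_
  rintro rfl
  exact not_solvable_a5 (Group.isSolvable_of_surjective (f := (⊤ : Subgroup _).subtype) topEquiv.surjective)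

theorem noZ_s5 : NoZ (Equiv.Perm (Fin 5)) := by
  intro N hN hZ
  by_contra hne
  have h := Equiv.Perm.alternatingGroup_le_of_normal (N := N) (by simp) ((nontrivial_iff_ne_bot N).mpr hne)
  exact not_solvable_a5 (Group.isSolvable_of_isSolvable_injective (inclusion_injective h))

theorem le_ker_of_noZ {G X : Type*} [Group G] [Finite G] [Group X] (hX : NoZ X) {f : G →* X}
    (hf : Function.Surjective f) {N : Subgroup G} (hN : N.Normal) (hZ : IsZGroup N) : N ≤ f.ker := by
  rw [← Subgroup.map_eq_bot_iff]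
  exact hX _ (hN.map f hf) (IsZGroup.of_surjective (f.subgroupMap_surjective N))

theorem card_le_four {G X : Type*} [Group G] [Finite G] [Group X] (h : CL.Perm.IsFpf G) (F : G →* X)
    (hF : Function.Surjective F) (hX : ∀ x : X, x ^ 2 = 1) : Nat.card X ≤ 4 := by
  have := Finite.of_surjective F hF
  have hp : IsPGroup 2 X := fun x => ⟨1, hX x⟩
  obtain ⟨T⟩ : Nonempty (Sylow 2 G) := inferInstance
  have hT : ∀ x : X, ∃ t : T, F t = x := by
    intro x
    have h1 : ((T.mapSurjective hF : Sylow 2 X) : Subgroup X) = ⊤ :=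
      ((T.mapSurjective hF).is_maximal' (hp.to_subgroup ⊤) le_top).symm
    obtain ⟨t, ht, rfl⟩ : x ∈ ((T.mapSurjective hF : Sylow 2 X) : Subgroup X) := h1 ▸ mem_top x
    exact ⟨⟨t, ht⟩, rfl⟩
  have hpow : ∀ (y : X) (k : ℕ), y ^ k = 1 ∨ y ^ k = y := by
    intro y k
    obtain ⟨m, rfl | rfl⟩ := Nat.even_or_odd' k
    · left; rw [pow_mul, hX, one_pow]
    · right; rw [pow_succ, pow_mul, hX, one_pow, one_mul]
  obtain ⟨A, B, hAB⟩ : ∃ A B : X, ∀ x : X, x ∈ ({1, A, B, B * A} : Set X) := by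
    rcases h.subgroup_isCyclic_or_quaternion T.isPGroup' with hc | ⟨-, k, ⟨e⟩⟩
    · obtain ⟨a, ha⟩ := IsCyclic.exists_monoid_generator (α := T)
      refine ⟨F a, 1, fun x => ?_⟩
      obtain ⟨t, rfl⟩ := hT x
      obtain ⟨k, rfl⟩ := ha t
      simp only [SubmonoidClass.coe_pow, map_pow]
      rcases hpow (F a) k with h | h <;> simp [h]
    · let φ := F.comp ((T : Subgroup G).subtype.comp e.symm.toMonoidHom)
      refine ⟨φ (.a 1), φ (.xa 0), fun x => ?_⟩
      obtain ⟨t, rfl⟩ := hT x
      obtain ⟨q, rfl⟩ := e.symm.surjective t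
      change φ q ∈ _
      have ha : ∀ i, φ (.a i) = 1 ∨ φ (.a i) = φ (.a 1) := fun i => by
        rw [← ZMod.natCast_zmod_val i, ← QuaternionGroup.a_one_pow, map_pow]
        exact hpow _ _
      rcases q with i | i
      · rcases ha i with h | h <;> simp [h]
      · have : φ (.xa i) = φ (.xa 0) * φ (.a i) := by rw [← map_mul, QuaternionGroup.xa_mul_a, zero_add]
        rcases ha i with h | h <;> simp [this, h]
  calc Nat.card X = (Set.univ : Set X).ncard := (Set.ncard_univ X).symm
    _ ≤ ({1, A, B, B * A} : Set X).ncard := Set.ncard_le_ncard fun x _ => hAB x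
    _ ≤ 4 := by
      have h2 := Set.ncard_insert_le 1 {A, B, B * A}
      have h3 := Set.ncard_insert_le A {B, B * A}
      have h4 := Set.ncard_insert_le B {B * A}
      rw [Set.ncard_singleton] at h4
      omega

theorem klein_le {G : Type*} [Group G] [Finite G] (h : CL.Perm.IsFpf G) {f₁ f₂ : G →* DihedralGroup 2}
    (h1 : Function.Surjective f₁) : f₁.ker ≤ f₂.ker := by
  have key : ∀ x : DihedralGroup 2, x ^ 2 = 1 := by decide
  have h3 := card_le_four h (f₁.prod f₂).rangeRestrict (f₁.prod f₂).rangeRestrict_surjective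
    fun x => Subtype.ext (Prod.ext (key _) (key _))
  rw [← index_ker, MonoidHom.ker_prod] at h3
  have h4 : f₁.ker.index = 4 := by
    rw [index_ker, MonoidHom.range_eq_top.mpr h1, card_top, DihedralGroup.nat_card]
  have h5 : f₁.ker ⊓ f₂.ker = f₁.ker := by
    refine eq_of_le_of_card_ge inf_le_left ?_
    have a1 := f₁.ker.card_mul_index
    have a2 := (f₁.ker ⊓ f₂.ker).card_mul_index
    have := Nat.mul_le_mul_left (Nat.card (f₁.ker ⊓ f₂.ker : Subgroup G)) h3
    rw [h4] at a1
    omega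
  exact inf_eq_left.mp h5

/-- The three kinds of normal subgroups in the statement. -/
def Kind {G : Type*} [Group G] (N : Subgroup G) : Prop :=
  N = ⊤ ∨ (∃ f : G →* DihedralGroup 2, Function.Surjective f ∧ f.ker = N) ∨
    (4 < N.index ∧ ∀ M : Subgroup G, M.Normal → IsZGroup M → M ≤ N)

theorem kind_of_noZ {G X : Type*} [Group G] [Finite G] [Group X] (hX : NoZ X) (h4 : 4 < Nat.card X)
    {N : Subgroup G} (h : ∃ f : G →* X, Function.Surjective f ∧ f.ker = N) : Kind N := by
  obtain ⟨f, hf, rfl⟩ := h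
  refine Or.inr (Or.inr ⟨?_, fun M h1 h2 => le_ker_of_noZ hX hf h1 h2⟩)
  rwa [index_ker, MonoidHom.range_eq_top.mpr hf, card_top]

theorem le_of_kind {G : Type*} [Group G] [Finite G] (h : CL.Perm.IsFpf G) {N M : Subgroup G} (hN : N.Normal)
    (hM : M.Normal) (zN : IsZGroup N) (zM : IsZGroup M) (kN : Kind N) (kM : Kind M) : N ≤ M := by
  rcases kM with rfl | ⟨f, hf, rfl⟩ | ⟨-, h1⟩
  · exact le_top
  · rcases kN with rfl | ⟨f', hf', rfl⟩ | ⟨h1, h2⟩
    · exfalso
      have : IsZGroup (DihedralGroup 2) :=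
        IsZGroup.of_surjective (f := f.comp (⊤ : Subgroup G).subtype) (hf.comp topEquiv.surjective)
      exact not_two_involutions (X := DihedralGroup 2) (v := .r 1) (w := .sr 0) (by decide) (by decide)
        (by decide) (by decide) (by decide) (by decide)
    · exact klein_le h hf'
    · have h3 := Nat.le_of_dvd (Nat.pos_of_ne_zero FiniteIndex.index_ne_zero) (index_dvd_of_le (h2 _ hM zM))
      rw [index_ker, MonoidHom.range_eq_top.mpr hf, card_top, DihedralGroup.nat_card] at h3
      omega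
  · exact h1 N hN zN


/-- Let G be a finite group that occurs as a Frobenius complement. Then G has exactly one normal subgroup N such that every Sylow subgroup of N is cyclic and the quotient of G by N is trivial or isomorphic to one of the following five groups: the Klein four-group, the alternating group of degree 4, the symmetric group of degree 4, the alternating group of degree 5, the symmetric group of degree 5. (The quotient is described by a surjective homomorphism with kernel N; the Klein four-group is written as the dihedral group of order 4.) -/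
theorem result {G : Type*} [Group G] [Finite G]
    (hFC : (∃ (L : Type) (_ : Group L) (_ : Finite L) (H : Subgroup L), Cfsg.IsFrobeniusComplement H ∧ Nonempty (G ≃* H))) :
    ∃! N : Subgroup G, N.Normal ∧ (∀ (p : ℕ) [Fact p.Prime] (P : Sylow p N), IsCyclic P) ∧
      (N = ⊤ ∨
        (∃ f : G →* DihedralGroup 2, Function.Surjective f ∧ f.ker = N) ∨
        (∃ f : G →* alternatingGroup (Fin 4), Function.Surjective f ∧ f.ker = N) ∨
        (∃ f : G →* Equiv.Perm (Fin 4), Function.Surjective f ∧ f.ker = N) ∨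
        (∃ f : G →* alternatingGroup (Fin 5), Function.Surjective f ∧ f.ker = N) ∨
        (∃ f : G →* Equiv.Perm (Fin 5), Function.Surjective f ∧ f.ker = N)) := by
  have h := CL.Perm.IsFC.isFpf hFC
  refine existsUnique_of_exists_of_unique ?_ ?_
  · by_cases hs : Group.IsSolvable G
    · rcases h.solvable_cases hs with h1 | ⟨f, hf, hZ⟩ | ⟨f, hZ, hf | hf⟩
      · exact ⟨⊤, inferInstance, fun p _ P => inferInstance, Or.inl rfl⟩
      · exact ⟨f.ker, inferInstance, fun p _ P => inferInstance, Or.inr (Or.inl ⟨f, hf, rfl⟩)⟩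
      · refine ⟨f.ker, inferInstance, fun p _ P => inferInstance, Or.inr (Or.inr (Or.inl
          ⟨f.codRestrict _ fun g => hf ▸ ⟨g, rfl⟩, fun a => ?_, MonoidHom.ker_codRestrict _ _ _⟩))⟩
        obtain ⟨g, hg⟩ : (a : Equiv.Perm (Fin 4)) ∈ f.range := hf.ge a.2
        exact ⟨g, Subtype.ext hg⟩
      · exact ⟨f.ker, inferInstance, fun p _ P => inferInstance, Or.inr (Or.inr (Or.inr (Or.inl
          ⟨f, MonoidHom.range_eq_top.mp hf, rfl⟩)))⟩
    · obtain ⟨L, M, f, -, -, -, h1, h2, -, -, -, -, hZ, -⟩ := h.nonsolvable_structure hs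
      rw [← h1] at hZ
      refine ⟨f.ker, inferInstance, fun p _ P => inferInstance, Or.inr (Or.inr (Or.inr (Or.inr ?_)))⟩
      have h3 : f.range.index ∣ 2 := by
        rw [← alternatingGroup.index_eq_two (α := Fin 5), ← h2]
        exact index_dvd_of_le (map_le_range f L)
      rcases (Nat.dvd_prime Nat.prime_two).mp h3 with h4 | h4
      · exact Or.inr ⟨f, MonoidHom.range_eq_top.mp (index_eq_one.mp h4), rfl⟩
      · have hf := Equiv.Perm.eq_alternatingGroup_of_index_eq_two h4
        refine Or.inl ⟨f.codRestrict _ fun g => hf ▸ ⟨g, rfl⟩, fun a => ?_, MonoidHom.ker_codRestrict _ _ _⟩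
        obtain ⟨g, hg⟩ : (a : Equiv.Perm (Fin 5)) ∈ f.range := hf.ge a.2
        exact ⟨g, Subtype.ext hg⟩
  · have key : ∀ N : Subgroup G, (N = ⊤ ∨
        (∃ f : G →* DihedralGroup 2, Function.Surjective f ∧ f.ker = N) ∨
        (∃ f : G →* alternatingGroup (Fin 4), Function.Surjective f ∧ f.ker = N) ∨
        (∃ f : G →* Equiv.Perm (Fin 4), Function.Surjective f ∧ f.ker = N) ∨
        (∃ f : G →* alternatingGroup (Fin 5), Function.Surjective f ∧ f.ker = N) ∨
        (∃ f : G →* Equiv.Perm (Fin 5), Function.Surjective f ∧ f.ker = N)) → Kind N := by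
      rintro N (h1 | h1 | h1 | h1 | h1 | h1)
      · exact Or.inl h1
      · exact Or.inr (Or.inl h1)
      · exact kind_of_noZ noZ_a4 (by rw [nat_card_alternatingGroup]; simp; decide) h1
      · exact kind_of_noZ noZ_s4 (by rw [Nat.card_perm]; simp; decide) h1
      · exact kind_of_noZ noZ_a5 (by rw [nat_card_alternatingGroup]; simp; decide) h1
      · exact kind_of_noZ noZ_s5 (by rw [Nat.card_perm]; simp; decide) h1
    rintro N M ⟨n1, n2, n3⟩ ⟨m1, m2, m3⟩
    have zN : IsZGroup N := ⟨fun p hp P => @n2 p ⟨hp⟩ P⟩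
    have zM : IsZGroup M := ⟨fun p hp P => @m2 p ⟨hp⟩ P⟩
    exact le_antisymm (le_of_kind h n1 m1 zN zM (key N n3) (key M m3))
      (le_of_kind h m1 n1 zM zN (key M m3) (key N n3))

end Cfsg.Agent.S4291
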