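import Cfsg.Statements.S4295
import Cfsg.Agent.Perm.FCSquare
import Cfsg.Agent.Perm.FCCrit
import Cfsg.Agent.Cls.SL2Dihedral
import Cfsg.Agent.Grp.FrobCompl
import Cfsg.Agent.Grp.FrobKernel

set_option autoImplicit false
open Cfsg

namespace Cfsg.Agent.S4295

section Helpers
open CL.Perm

theorem exists_hom {R : Type*} [Ring R] {i j : R} (hi : i * i = -1) (hj : j * j = -1)
    (hij : j * i = -(i * j)) : ∃ ρ : QuaternionGroup 2 →* R, ρ (.a 2) = -1 := by
  let I : Rˣ := ⟨i, -i, by simp [hi], by simp [hi]⟩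
  let J : Rˣ := ⟨j, -j, by simp [hj], by simp [hj]⟩
  refine ⟨(Units.coeHom R).comp (CL.SL2.quaternionHom (n := 2) I J (Units.ext ?_) (Units.ext ?_)
    (Units.ext ?_)), ?_⟩
  · change i ^ (2 * 2) = 1
    rw [pow_mul, pow_two i, hi, neg_one_sq]
  · change j * j = i ^ 2
    rw [pow_two, hi, hj]
  · change j * i * -j = -i
    rw [hij, neg_mul_neg, mul_assoc, hj, mul_neg_one]
  · change i ^ 2 = -1
    rw [pow_two, hi]

theorem q8 : ∀ g : QuaternionGroup 2, g ≠ 1 → g = .a 2 ∨ g * g = .a 2 := by decide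

theorem exists_rep {k : ℕ} (hk : Odd k) :
    ∃ ρ : QuaternionGroup 2 →* AddMonoid.End (ZMod k × ZMod k),
      ∀ g, g ≠ 1 → ∀ v, ρ g v = v → v = 0 := by
  obtain ⟨a, b, h⟩ := exists_sq_add_sq_add_one_dvd hk
  have h1 : (a : ZMod k) ^ 2 + (b : ZMod k) ^ 2 + 1 = 0 := by
    exact_mod_cast (ZMod.natCast_eq_zero_iff _ _).2 h
  let i : AddMonoid.End (ZMod k × ZMod k) :=
    AddMonoidHom.mk' (fun v => (-v.2, v.1)) fun v w => by ext <;> simp [add_comm]
  let j : AddMonoid.End (ZMod k × ZMod k) :=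
    AddMonoidHom.mk' (fun v => (a * v.1 + b * v.2, b * v.1 - a * v.2)) fun v w => by
      ext <;> simp <;> ring
  obtain ⟨ρ, hρ⟩ := exists_hom (i := i) (j := j) (AddMonoidHom.ext fun v => rfl)
    (AddMonoidHom.ext fun v => Prod.ext (by
      change a * (a * v.1 + b * v.2) + b * (b * v.1 - a * v.2) = -v.1
      linear_combination v.1 * h1) (by
      change b * (a * v.1 + b * v.2) - a * (b * v.1 - a * v.2) = -v.2
      linear_combination v.2 * h1))
    (AddMonoidHom.ext fun v => Prod.ext (by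
      change a * -v.2 + b * v.1 = - -(b * v.1 - a * v.2)
      ring) (by
      change b * -v.2 - a * v.1 = -(a * v.1 + b * v.2)
      ring))
  refine ⟨ρ, fun g hg v hv => ?_⟩
  have h2 : -v = v := by
    rcases q8 g hg with e | e
    · rwa [e, hρ] at hv
    · have : ρ (g * g) v = v := by rw [rep_mul_apply, hv, hv]
      rwa [e, hρ] at this
  obtain ⟨m, hm⟩ := hk
  have h3 : (2 * m + 1) • v = 0 := by rw [← hm]; ext <;> simp
  rw [add_nsmul, mul_nsmul, two_nsmul, neg_eq_iff_add_eq_zero.1 h2, nsmul_zero, zero_add,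
    one_nsmul] at h3
  exact h3

end Helpers

/-- For a natural number m the following are equivalent: (a) some finite group has a Frobenius complement isomorphic to the quaternion group of order 8 whose Frobenius kernel (the identity together with the elements lying in no conjugate of the complement) has exactly m elements; (b) m is an odd perfect square greater than 1. -/
theorem result (m : ℕ) :
    (∃ (L : Type) (_ : Group L) (_ : Finite L) (H : Subgroup L), Cfsg.IsFrobeniusComplement H ∧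
        Nonempty (H ≃* QuaternionGroup 2) ∧ Nat.card (Cfsg.frobeniusKernel H) = m) ↔
    (Odd m ∧ IsSquare m ∧ 1 < m) := by
  constructor
  · rintro ⟨L, _, _, H, hH, ⟨e⟩, rfl⟩
    obtain ⟨K, hK, hn, -, hK1, hf, -⟩ := CL.Grp.exists_frobenius_kernel hH
    obtain ⟨i, j, hq⟩ : ∃ i j : H, CL.Perm.IsQPair i j :=
      ⟨_, _, (CL.Perm.isQPair_quaternion 0).map e.symm.toMonoidHom e.symm.injective⟩
    have hc := (CL.Grp.conj_eq_inv_of_fpf_involution (s := ((i * i : H) : L))
      (by rw [Subgroup.normalizer_eq_top]; trivial) (congrArg Subtype.val hq.four)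
      (hf _ (i * i).2 fun h => hq.ne (Subtype.ext h))).2
    let _ : CommGroup K := { (inferInstance : Group K) with mul_comm := mul_comm' }
    let σ : H →* MulAut K := MulAut.conjNormal.comp H.subtype
    let ρ : H →* AddMonoid.End (Additive K) :=
      { toFun := fun g => MonoidHom.toAdditive (σ g).toMonoidHom
        map_one' := by ext v; rw [map_one]; rfl
        map_mul' := fun a b => by ext v; rw [map_mul]; rfl }
    obtain ⟨h1, W, h2, -⟩ := hq.exists_half ρ fun g hg v hv => by
      have h3 : (g : L) * v.toMul * (g : L)⁻¹ = v.toMul := congrArg (fun x => ((x.toMul : K) : L)) hv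
      have h4 : ((v.toMul : K) : L) ∈ (⊥ : Subgroup L) := hf g g.2 (fun h => hg (Subtype.ext h)) ▸
        ⟨v.toMul.2, Subgroup.mem_centralizer_singleton_iff.2 (mul_inv_eq_iff_eq_mul.1 h3).symm⟩
      exact Subtype.ext h4
    rw [← hK]
    exact ⟨h1, ⟨_, h2⟩, (Subgroup.one_lt_card_iff_ne_bot K).2 hK1⟩
  · rintro ⟨h1, ⟨k, rfl⟩, h2⟩
    have hk : Odd k := (Nat.odd_mul.1 h1).1
    have hk1 : 1 < k := by nlinarith
    haveI := Fact.mk hk1
    have : NeZero k := ⟨by omega⟩
    obtain ⟨ρ, hρ⟩ := exists_rep hk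
    have hF := CL.Perm.isFrobeniusComplement_range_inr ρ hρ
    have e := MonoidHom.ofInjective (CL.Perm.Aff.inr_injective (ρ := ρ))
    refine ⟨_, inferInstance, inferInstance, _, hF, ⟨e.symm⟩, ?_⟩
    rw [(CL.Grp.isMalnormal_of_frob hF).card_kernel]
    have h3 := (CL.Perm.Aff.inr ρ).range.index_mul_card
    rw [CL.Perm.Aff.card_eq, ← Nat.card_congr e.toEquiv, Nat.card_prod, Nat.card_zmod] at h3
    exact Nat.eq_of_mul_eq_mul_right Nat.card_pos h3

end Cfsg.Agent.S4295
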