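import Cfsg.Statements.S4296
import Cfsg.Agent.Perm.FCSquare
import Cfsg.Agent.Grp.FrobCompl

set_option autoImplicit false
open Cfsg

namespace Cfsg.Agent.S4296

/-- Let H be a Frobenius complement in a finite group, and suppose some Sylow subgroup of H is not cyclic. Then the number of elements of the Frobenius kernel (the identity together with the elements lying in no conjugate of H) is an odd perfect square. -/
theorem result {L : Type*} [Group L] [Finite L] (H : Subgroup L) (hF : Cfsg.IsFrobeniusComplement H)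
    (hZ : ∃ (p : ℕ) (_ : Fact p.Prime) (P : Sylow p H), ¬ IsCyclic P) :
    Odd (Nat.card (Cfsg.frobeniusKernel H)) ∧ IsSquare (Nat.card (Cfsg.frobeniusKernel H)) := by
  obtain ⟨p, _, P, hP⟩ := hZ
  have hf := CL.Perm.isFpf_of_isFrobeniusComplement hF
  obtain ⟨i, -, j, -, hij⟩ := hf.exists_isQPair P.isPGroup' hP
  obtain ⟨K, hK, hKn, -, -, hfix, -⟩ := CL.Grp.exists_frobenius_kernel hF
  have hz : ((i * i : H) : L) ≠ 1 := fun h => hij.ne (Subtype.ext h)
  obtain ⟨-, hcomm⟩ := CL.Grp.conj_eq_inv_of_fpf_involution (K := K) (s := ((i * i : H) : L))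
    (Subgroup.le_normalizer_of_normal (Subgroup.mem_top _)) (congrArg Subtype.val hij.four)
    (hfix _ (i * i).2 hz)
  let _ : CommGroup K := { (inferInstance : Group K) with mul_comm := mul_comm' }
  let σ : H →* MulAut K := MulAut.conjNormal.comp H.subtype
  let ρ : H →* AddMonoid.End (Additive K) :=
    { toFun := fun g => MonoidHom.toAdditive (σ g).toMonoidHom
      map_one' := by ext v; rw [map_one]; rfl
      map_mul' := fun a b => by ext v; rw [map_mul]; rfl }
  obtain ⟨h1, W, h2, -⟩ := hij.exists_half ρ (by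
    intro g hg v hv
    have h3 : (g : L) * (v.toMul : K) * (g : L)⁻¹ = (v.toMul : K) := congrArg (fun x => ((x.toMul : K) : L)) hv
    have h4 : ((v.toMul : K) : L) ∈ K ⊓ Subgroup.centralizer {(g : L)} :=
      ⟨Subtype.prop _, Subgroup.mem_centralizer_singleton_iff.mpr (mul_inv_eq_iff_eq_mul.mp h3).symm⟩
    rw [hfix g g.2 (fun h => hg (Subtype.ext h)), Subgroup.mem_bot] at h4
    exact Subtype.ext h4)
  rw [← hK]
  exact ⟨h1, _, h2⟩

end Cfsg.Agent.S4296
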