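import Cfsg.Statements.S4297
import Cfsg.Agent.Perm.FCCrit
import Cfsg.Agent.Cls.SL2Dihedral

set_option autoImplicit false
open Cfsg

namespace Cfsg.Agent.S4297

/-- For every n ≥ 2 the dicyclic group of order 4n (generated by an element a of order 2n and an element x with x² = aⁿ and x a x⁻¹ = a⁻¹) occurs as a Frobenius complement of some finite Frobenius group. -/
theorem result (n : ℕ) (hn : 2 ≤ n) :
    ∃ (L : Type) (_ : Group L) (_ : Finite L) (H : Subgroup L), Cfsg.IsFrobeniusComplement H ∧ Nonempty (H ≃* QuaternionGroup n) := by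
  have : NeZero n := ⟨by omega⟩
  have hζ := Complex.isPrimitiveRoot_exp (2 * n) (by omega)
  set ζ := Complex.exp (2 * Real.pi * Complex.I / (2 * n : ℕ)) with hζdef
  have hζ0 : ζ ≠ 0 := Complex.exp_ne_zero _
  let φ : ℂˣ →* (Quaternion ℝ)ˣ := Units.map (Quaternion.ofComplex : ℂ →ₐ[ℝ] Quaternion ℝ).toMonoidHom
  have hφ : Function.Injective φ :=
    Units.map_injective (Quaternion.ofComplex : ℂ →ₐ[ℝ] Quaternion ℝ).toRingHom.injective
  let a : (Quaternion ℝ)ˣ := φ (Units.mk0 ζ hζ0)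
  have ha : orderOf a = 2 * n := by
    rw [orderOf_injective φ hφ, ← orderOf_units, Units.val_mk0, ← hζ.eq_orderOf]
  obtain ⟨j, j0, j1, j2, j3⟩ : ∃ j : Quaternion ℝ, j.re = 0 ∧ j.imI = 0 ∧ j.imJ = 1 ∧ j.imK = 0 :=
    ⟨⟨0, 0, 1, 0⟩, rfl, rfl, rfl, rfl⟩
  have hj : j ≠ 0 := by
    intro h
    rw [h] at j2
    exact zero_ne_one (α := ℝ) j2
  let x : (Quaternion ℝ)ˣ := Units.mk0 _ hj
  have hζn : ζ ^ n = -1 := (hζ.pow (by omega) (mul_comm 2 n)).eq_neg_one_of_two_right
  have hx : x * x = a ^ n := by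
    apply Units.val_injective
    rw [← map_pow]
    change j * j = Quaternion.ofComplex (ζ ^ n)
    rw [hζn, map_neg, map_one]
    ext <;> simp [j0, j1, j2, j3] <;> rfl
  have hxa : x * a * x⁻¹ = a⁻¹ := by
    rw [mul_inv_eq_iff_eq_mul, ← map_inv]
    apply Units.val_injective
    change j * Quaternion.ofComplex ζ =
      Quaternion.ofComplex (((Units.mk0 ζ hζ0)⁻¹ : ℂˣ) : ℂ) * j
    rw [Units.val_inv_eq_inv_val, Units.val_mk0, Complex.inv_eq_conj (hζ.norm'_eq_one (by omega))]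
    ext <;> simp [j0, j1, j2, j3]
  have hx' : x ∉ Subgroup.zpowers a := by
    rintro ⟨k, hk⟩
    have h1 : x * a * x⁻¹ = a := by
      rw [← hk]; group
    rw [hxa, inv_eq_iff_mul_eq_one, ← pow_two, ← orderOf_dvd_iff_pow_eq_one, ha] at h1
    have := Nat.le_of_dvd two_pos h1
    omega
  have hinj := CL.SL2.quaternionHom_injective a x ha hx hxa hx'
  exact (CL.Perm.isFpf_of_hom_divisionRing ((Units.coeHom _).comp _)
    (Units.val_injective.comp hinj)).isFC.symm_form

end Cfsg.Agent.S4297
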