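import Cfsg.Statements.S4298
import Cfsg.Agent.Perm.FCGroup
import Cfsg.Agent.Perm.SL2Ent

set_option autoImplicit false
open Cfsg

namespace Cfsg.Agent.S4298

/-- The character of the faithful rational-valued two-dimensional representation. -/
def chi (x : ZMod 3 × ZMod 3 × ZMod 3 × ZMod 3) : ℤ :=
  if x = (1, 0, 0, 1) then 2 else if x = (-1, 0, 0, -1) then -2 else
    if x.1 + x.2.2.2 = 2 then -1 else if x.1 + x.2.2.2 = 1 then 1 else 0

open CL.Perm in
theorem chk2 : ∀ x : ZMod 3 × ZMod 3 × ZMod 3 × ZMod 3, det4 x = 1 → x ≠ (1, 0, 0, 1) →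
    mul4 x x = (1, 0, 0, 1) → ∀ y : ZMod 3 × ZMod 3 × ZMod 3 × ZMod 3, det4 y = 1 →
    chi y + chi (mul4 y x) = 0 := by decide +kernel

open CL.Perm in
theorem chk3 : ∀ x : ZMod 3 × ZMod 3 × ZMod 3 × ZMod 3, det4 x = 1 → x ≠ (1, 0, 0, 1) →
    mul4 (mul4 x x) x = (1, 0, 0, 1) →
    ∀ y : ZMod 3 × ZMod 3 × ZMod 3 × ZMod 3, det4 y = 1 →
    chi y + chi (mul4 y x) + chi (mul4 y (mul4 x x)) = 0 := by decide +kernel

open CL.Perm in
theorem chk12 : ∀ x : ZMod 3 × ZMod 3 × ZMod 3 × ZMod 3, det4 x = 1 →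
    mul4 (mul4 (mul4 (mul4 x x) x) (mul4 (mul4 x x) x))
      (mul4 (mul4 (mul4 x x) x) (mul4 (mul4 x x) x)) = (1, 0, 0, 1) := by decide +kernel

open CL.Perm in
theorem isFpf : IsFpf (Matrix.SpecialLinearGroup (Fin 2) (ZMod 3)) := by
  refine ⟨fun g => chi (ent4 g), ?_, cosetZero_of_prime fun c hc x => ?_⟩
  · show chi (ent4 1) ≠ 0
    rw [ent4_one]; decide
  have hc1 : ent4 c ≠ (1, 0, 0, 1) := by
    rw [Ne, ← eq_one_iff_ent4]
    rintro rfl
    simp [Nat.not_prime_one] at hc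
  have h12 : orderOf c ∣ 2 ^ 2 * 3 := by
    rw [orderOf_dvd_iff_pow_eq_one, eq_one_iff_ent4,
      show c ^ (2 ^ 2 * 3) = (c * c * c * (c * c * c)) * (c * c * c * (c * c * c)) by
        rw [show 2 ^ 2 * 3 = 12 from rfl]
        simp only [pow_succ, pow_zero, one_mul, mul_assoc]]
    simp only [ent4_mul]
    exact chk12 _ (det4_ent4 c)
  have hpow := pow_orderOf_eq_one c
  rcases (hc.dvd_mul).mp h12 with h | h
  · have h2 := (Nat.prime_dvd_prime_iff_eq hc Nat.prime_two).mp (hc.dvd_of_dvd_pow h)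
    rw [h2, eq_one_iff_ent4, pow_two, ent4_mul] at hpow
    simp only [h2, Finset.sum_range_succ, Finset.sum_range_zero, pow_zero, pow_one, mul_one,
      zero_add]
    simp only [ent4_mul]
    exact chk2 _ (det4_ent4 c) hc1 hpow _ (det4_ent4 x)
  · have h2 := (Nat.prime_dvd_prime_iff_eq hc Nat.prime_three).mp h
    rw [h2, eq_one_iff_ent4, pow_three', ent4_mul, ent4_mul] at hpow
    simp only [h2, Finset.sum_range_succ, Finset.sum_range_zero, pow_zero, pow_one, mul_one,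
      zero_add]
    simp only [pow_two, ent4_mul]
    exact chk3 _ (det4_ent4 c) hc1 hpow _ (det4_ent4 x)


/-- The group SL(2,3) of order 24 (the binary tetrahedral group) occurs as a Frobenius complement of some finite Frobenius group. -/
theorem result :
    ∃ (L : Type) (_ : Group L) (_ : Finite L) (H : Subgroup L), Cfsg.IsFrobeniusComplement H ∧ Nonempty (H ≃* Matrix.SpecialLinearGroup (Fin 2) (ZMod 3)) := by
  have : Nontrivial (Matrix.SpecialLinearGroup (Fin 2) (ZMod 3)) :=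
    ⟨⟨-1, 1, by rw [Ne, CL.Perm.eq_one_iff_ent4, CL.Perm.ent4_neg_one]; decide⟩⟩
  exact isFpf.isFC.symm_form

end Cfsg.Agent.S4298
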