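import Cfsg.Statements.S4299
import Cfsg.Agent.Perm.FCCrit

set_option autoImplicit false
open Cfsg

namespace Cfsg.Agent.S4299

/-- Every nontrivial finite cyclic group occurs as a Frobenius complement of some finite Frobenius group. -/
theorem result {C : Type*} [Group C] [Finite C] [IsCyclic C] [Nontrivial C] :
    ∃ (L : Type) (_ : Group L) (_ : Finite L) (H : Subgroup L), Cfsg.IsFrobeniusComplement H ∧ Nonempty (C ≃* H) := by
  have : NeZero (Nat.card C) := ⟨Nat.card_pos.ne'⟩
  exact ((CL.Perm.isFpf_of_hom_divisionRing (ZMod.stdAddChar (N := Nat.card C)).toMonoidHom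
    (fun a b h => Multiplicative.toAdd.injective (ZMod.injective_stdAddChar h))).of_equiv
      (zmodCyclicMulEquiv inferInstance)).isFC

end Cfsg.Agent.S4299
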