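import Cfsg.Statements.S4300
import Cfsg.Agent.Base

set_option autoImplicit false
open Cfsg
open scoped Pointwise

namespace Cfsg.Agent.S4300

/-- Let G act faithfully and primitively on a set X, and suppose the stabilizer of some point is a simple group. Then either G is simple, or G has a normal subgroup, neither trivial nor the whole group, that acts regularly on X (transitively with trivial point stabilizers). -/
theorem result {G : Type*} [Group G] {X : Type*} [MulAction G X] [FaithfulSMul G X]
    (hprim : MulAction.IsPreprimitive G X) (x : X) (hsimple : IsSimpleGroup (MulAction.stabilizer G x)) :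
    IsSimpleGroup G ∨ ∃ N : Subgroup G, N.Normal ∧ N ≠ ⊥ ∧ N ≠ ⊤ ∧
      MulAction.IsPretransitive N X ∧ ∀ y : X, MulAction.stabilizer N y = ⊥ := by
  by_cases hG : IsSimpleGroup G
  · exact Or.inl hG
  right
  haveI : Nontrivial G := by
    obtain ⟨a, b, hab⟩ := hsimple.toNontrivial
    exact ⟨a, b, fun h => hab (Subtype.ext h)⟩
  obtain ⟨N, hN, hb, ht⟩ : ∃ N : Subgroup G, N.Normal ∧ N ≠ ⊥ ∧ N ≠ ⊤ := by
    by_contra h
    push Not at h
    exact hG ⟨fun N hN => by
      by_cases hb : N = ⊥
      · exact Or.inl hb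
      · exact Or.inr (h N hN hb)⟩
  have hfix : ∀ (K : Subgroup G), K ≠ ⊥ → MulAction.fixedPoints K X ≠ .univ := by
    intro K hK h
    apply hK
    rw [eq_bot_iff]
    intro k hk
    rw [Subgroup.mem_bot]
    apply eq_of_smul_eq_smul (α := X)
    intro y
    rw [one_smul]
    have : y ∈ MulAction.fixedPoints K X := h ▸ Set.mem_univ y
    exact this ⟨k, hk⟩
  have htrans : MulAction.IsPretransitive N X :=
    hprim.isQuasiPreprimitive.isPretransitive_of_normal (hfix N hb)
  refine ⟨N, hN, hb, ht, htrans, ?_⟩
  have hx : ∀ n ∈ N, n • x = x → n = 1 := by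
    rcases (inferInstance : (N.subgroupOf (MulAction.stabilizer G x)).Normal).eq_bot_or_eq_top with h | h
    · intro n hn hnx
      have : (⟨n, hnx⟩ : MulAction.stabilizer G x) ∈ N.subgroupOf (MulAction.stabilizer G x) := hn
      rw [h, Subgroup.mem_bot] at this
      exact congrArg Subtype.val this
    · exfalso
      apply ht
      rw [eq_top_iff]
      intro g _
      obtain ⟨n, hn⟩ := htrans.exists_smul_eq x (g • x)
      have h1 : (n : G)⁻¹ * g ∈ MulAction.stabilizer G x := by
        rw [MulAction.mem_stabilizer_iff, mul_smul, inv_smul_eq_iff]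
        exact hn.symm
      have h2 : (n : G)⁻¹ * g ∈ N := (Subgroup.subgroupOf_eq_top.1 h) h1
      simpa using N.mul_mem n.2 h2
  intro y
  rw [eq_bot_iff]
  intro n hn
  obtain ⟨g, rfl⟩ := hprim.toIsPretransitive.exists_smul_eq x y
  have h1 : (n : G) • g • x = g • x := hn
  have h2 := hx (g⁻¹ * n * g) (by simpa using hN.conj_mem _ n.2 g⁻¹) (by
    rw [mul_smul, mul_smul, h1, inv_smul_smul])
  rw [Subgroup.mem_bot]
  apply Subtype.ext
  have : (n : G) = g * (g⁻¹ * n * g) * g⁻¹ := by group
  rw [this, h2]
  simp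

end Cfsg.Agent.S4300
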