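import Cfsg.Statements.S4301
import Cfsg.Agent.Base

set_option autoImplicit false
open Cfsg

namespace Cfsg.Agent.S4301

section Helpers
theorem exists_ext {X : Type*} {k : ℕ} (hk : 2 ≤ k) (e : Fin k ↪ X) {x y : X} (h : x ≠ y) :
    ∃ a : Fin k ↪ X, a ⟨0, by omega⟩ = x ∧ a ⟨1, by omega⟩ = y := by
  obtain ⟨σ, hσ⟩ := Equiv.Perm.exists_smul_eq_embedding ((Fin.castLEEmb hk).trans e)
    (Function.Embedding.embFinTwo h)
  exact ⟨σ • e, DFunLike.congr_fun hσ 0, DFunLike.congr_fun hσ 1⟩

end Helpers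

/-- One-point extension of a multiply transitive group. Let X be a set and G a group of permutations of Option X (the set X with one extra point ∗ = none) all of whose elements fix ∗, such that G is k-transitive on the points of X for some k ≥ 2, X having at least k points. Suppose a permutation h of Option X and an element g of G satisfy: h interchanges ∗ with a point x of X and fixes a point y of X; g interchanges x and y; (g h)³ and h² lie in G; and for every f in G fixing x, the product h f h lies in G and fixes x. Then an element of the group generated by G and h fixes ∗ exactly when it lies in G, and that group acts (k+1)-transitively on Option X. -/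
theorem result {X : Type*} (G : Subgroup (Equiv.Perm (Option X))) (hfix : ∀ f ∈ G, f none = none)
    (k : ℕ) (hk : 2 ≤ k) (hkX : Nonempty (Fin k ↪ X))
    (htrans : ∀ a b : Fin k ↪ X, ∃ f ∈ G, ∀ i, f (some (a i)) = some (b i))
    (h g : Equiv.Perm (Option X)) (hg : g ∈ G) (x y : X)
    (h1 : h none = some x) (h2 : h (some x) = none) (h3 : h (some y) = some y)
    (h4 : g (some x) = some y) (h5 : g (some y) = some x)
    (h6 : (g * h) ^ 3 ∈ G) (h7 : h ^ 2 ∈ G)
    (h8 : ∀ f ∈ G, f (some x) = some x → h * f * h ∈ G ∧ (h * f * h) (some x) = some x) :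
    (∀ f ∈ Subgroup.closure ((G : Set (Equiv.Perm (Option X))) ∪ {h}), f none = none ↔ f ∈ G) ∧
      MulAction.IsMultiplyPretransitive (Subgroup.closure ((G : Set (Equiv.Perm (Option X))) ∪ {h})) (Option X) (k + 1) := by
  obtain ⟨e⟩ := hkX
  have hxy : x ≠ y := fun e => by rw [e, h3] at h2; exact absurd h2 (by simp)
  have hsome : ∀ f ∈ G, ∀ w : X, ∃ v, f (some w) = some v := fun f hf w =>
    Option.ne_none_iff_exists'.1 fun e => by
      simpa using f.injective (e.trans (hfix f hf).symm)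
  have two : ∀ a b c d : X, a ≠ b → c ≠ d → ∃ f ∈ G, f (some a) = some c ∧ f (some b) = some d := by
    intro a b c d hab hcd
    obtain ⟨u, u0, u1⟩ := exists_ext hk e hab
    obtain ⟨v, v0, v1⟩ := exists_ext hk e hcd
    obtain ⟨f, hf, hf'⟩ := htrans u v
    exact ⟨f, hf, u0 ▸ v0 ▸ hf' _, u1 ▸ v1 ▸ hf' _⟩
  have key : ∀ f ∈ G, h * f * h ∈ G ∨ ∃ a ∈ G, ∃ b ∈ G, h * f * h = a * h * b := by
    intro f hf
    obtain ⟨w, hw⟩ := hsome f hf x
    by_cases hwx : w = x
    · exact Or.inl (h8 f hf (hwx ▸ hw)).1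
    obtain ⟨f1, hf1, e1, e2⟩ := two x y x w hxy (Ne.symm hwx)
    have hf2 : g⁻¹ * f1⁻¹ * f ∈ G := mul_mem (mul_mem (inv_mem hg) (inv_mem hf1)) hf
    have e3 : (g⁻¹ * f1⁻¹ * f) (some x) = some x := by
      rw [Equiv.Perm.mul_apply, Equiv.Perm.mul_apply, hw, ← e2, Equiv.Perm.inv_def,
        Equiv.Perm.inv_def, Equiv.symm_apply_apply, ← h4, Equiv.symm_apply_apply]
    refine Or.inr ⟨_, mul_mem (mul_mem (mul_mem (h8 _ hf1 e1).1 (inv_mem h7)) (inv_mem hg)) h6, _,
      mul_mem (mul_mem (mul_mem (inv_mem h7) (inv_mem hg)) (inv_mem h7)) (h8 _ hf2 e3).1, ?_⟩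
    simp only [pow_succ, pow_zero, one_mul]
    group
  let K : Subgroup (Equiv.Perm (Option X)) :=
    { carrier := {f | f ∈ G ∨ ∃ a ∈ G, ∃ b ∈ G, f = a * h * b}
      one_mem' := Or.inl G.one_mem
      mul_mem' := by
        rintro _ _ (hu | ⟨a, ha, b, hb, rfl⟩) (hv | ⟨c, hc, d, hd, rfl⟩)
        · exact Or.inl (mul_mem hu hv)
        · exact Or.inr ⟨_, mul_mem hu hc, _, hd, by group⟩
        · exact Or.inr ⟨_, ha, _, mul_mem hb hv, by group⟩
        · rcases key _ (mul_mem hb hc) with h0 | ⟨s, hs, t, ht, h0⟩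
          · exact Or.inl (by convert mul_mem (mul_mem ha h0) hd using 1; group)
          · refine Or.inr ⟨_, mul_mem ha hs, _, mul_mem ht hd, ?_⟩
            calc _ = a * (h * (b * c) * h) * d := by group
              _ = _ := by rw [h0]; group
      inv_mem' := by
        rintro _ (hu | ⟨a, ha, b, hb, rfl⟩)
        · exact Or.inl (inv_mem hu)
        · exact Or.inr ⟨_, inv_mem hb, _, mul_mem (inv_mem h7) (inv_mem ha), by group⟩ }
  have hK : Subgroup.closure ((G : Set (Equiv.Perm (Option X))) ∪ {h}) ≤ K := by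
    rw [Subgroup.closure_le]
    rintro f (hf | rfl)
    · exact Or.inl hf
    · exact Or.inr ⟨1, G.one_mem, 1, G.one_mem, by simp⟩
  have hGL : G ≤ Subgroup.closure ((G : Set (Equiv.Perm (Option X))) ∪ {h}) :=
    fun f hf => Subgroup.subset_closure (Or.inl hf)
  have hhL : h ∈ Subgroup.closure ((G : Set (Equiv.Perm (Option X))) ∪ {h}) :=
    Subgroup.subset_closure (Or.inr rfl)
  refine ⟨fun f hf => ⟨fun h0 => ?_, hfix f⟩, ?_⟩
  · rcases hK hf with hf | ⟨a, ha, b, hb, rfl⟩
    · exact hf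
    · rw [Equiv.Perm.mul_apply, Equiv.Perm.mul_apply, hfix b hb, h1] at h0
      simpa using a.injective (h0.trans (hfix a ha).symm)
  set L := Subgroup.closure ((G : Set (Equiv.Perm (Option X))) ∪ {h})
  have : MulAction.IsPretransitive L (Option X) := by
    refine (MulAction.isPretransitive_iff_base none).2 fun w => ?_
    rcases w with _ | w
    · exact ⟨1, rfl⟩
    · obtain ⟨f, hf, e1⟩ : ∃ f ∈ G, f (some x) = some w := by
        by_cases hw : w = x
        · exact ⟨1, G.one_mem, by simp [hw]⟩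
        · obtain ⟨f, hf, e1, -⟩ := two x y w x hxy hw
          exact ⟨f, hf, e1⟩
      exact ⟨⟨f * h, mul_mem (hGL hf) hhL⟩, by
        change f (h none) = _
        rw [h1, e1]⟩
  refine (SubMulAction.ofStabilizer.isMultiplyPretransitive (a := none)).2 ⟨fun u v => ?_⟩
  have ex : ∀ u : Fin k ↪ SubMulAction.ofStabilizer L (none : Option X),
      ∃ a : Fin k ↪ X, ∀ i, some (a i) = (u i : Option X) := fun u => by
    choose a ha using fun i => Option.ne_none_iff_exists.1 (u i).2
    exact ⟨⟨a, fun i j e => u.injective (Subtype.ext (by rw [← ha, ← ha, e]))⟩, ha⟩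
  obtain ⟨a, ha⟩ := ex u
  obtain ⟨b, hb⟩ := ex v
  obtain ⟨f, hf, hf'⟩ := htrans a b
  refine ⟨⟨⟨f, hGL hf⟩, hfix f hf⟩, DFunLike.ext _ _ fun i => Subtype.ext ?_⟩
  change f (u i : Option X) = v i
  rw [← ha, ← hb, hf']

end Cfsg.Agent.S4301
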