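import Cfsg.Statements.S4302
import Cfsg.Agent.Grp.ThompsonA
import Cfsg.Agent.Grp.ThompsonNPC
import Cfsg.Agent.Grp.PGroupSCN
import Cfsg.Agent.Cls.SmallIso
import Cfsg.Agent.Loc.FF3
import Cfsg.Agent.Grp.PNilp

set_option autoImplicit false
open Cfsg

namespace Cfsg.Agent.S4302
open scoped Pointwise commutatorElement

open Subgroup CL.Grp CL.Loc

theorem relIndex_le_two {G : Type*} [Group G] [Finite G] {A W : Subgroup G} (hA : IsPGroup 2 A)
    (hW : Nat.card W = 2 ^ 2) (hn : A ≤ normalizer (W : Set G)) : (centralizer (W : Set G)).relIndex A ≤ 2 := by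
  have : Fact (Nat.Prime 2) := ⟨Nat.prime_two⟩
  have hP : IsPGroup 2 (A ⊔ W : Subgroup G) := hA.to_sup_of_normal_right' (IsPGroup.of_card hW) hn
  have : (W.subgroupOf (A ⊔ W)).Normal := normal_subgroupOf_of_le_normalizer' (sup_le hn le_normalizer)
  have h1 := index_centralizer_le_pow_choose hP (W.subgroupOf (A ⊔ W)) (a := 2)
    (by rw [card_subgroupOf_of_le le_sup_right, hW])
  have h2 : centralizer ((W.subgroupOf (A ⊔ W) : Subgroup (A ⊔ W : Subgroup G)) : Set (A ⊔ W : Subgroup G)) =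
      (centralizer (W : Set G)).subgroupOf (A ⊔ W) := by
    ext x
    rw [mem_subgroupOf, mem_centralizer_iff, mem_centralizer_iff]
    exact ⟨fun h w hw => congrArg Subtype.val (h ⟨w, mem_sup_right hw⟩ hw), fun h w hw => Subtype.ext (h w hw)⟩
  rw [h2] at h1
  exact (relIndex_le_of_le_right le_sup_left index_ne_zero_of_finite).trans h1

theorem gen {X Γ : Type*} [Group X] [Finite X] [Group Γ] [Finite Γ] {W : Subgroup X} [W.Normal] {π : X →* Γ}
    {ι : W →* Γ} (h : IsHol W π ι) (hW : IsElementaryAbelian 2 W) {Y P : Subgroup X}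
    (hF : haveI : Fact (Nat.Prime 2) := ⟨Nat.prime_two⟩; FFHyp 2 (holU ι W) (Y.map π)) (hP : IsPGroup 2 P)
    (hWP : W ≤ P) (hJ : thompsonSubgroupOf 0 P ≤ Y) (n : ℕ) : ∀ A ∈ meaIn 0 P, Nat.card (A.map π) = n →
      A.map π ≤ sSup {D | IsTv 2 (holU ι W) (Y.map π) D} := by
  have : Fact (Nat.Prime 2) := ⟨Nat.prime_two⟩
  induction n using Nat.strong_induction_on with
  | _ n ih =>
  intro A hA hn
  by_cases hc : A ≤ centralizer (W : Set X)
  · rw [(Subgroup.map_eq_bot_iff _).2 (h.ker_eq ▸ hc)]; exact bot_le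
  have hAY : A.map π ≤ Y.map π := map_mono ((le_thompsonSubgroupOf hA).trans hJ)
  obtain ⟨B, hBA, hB, -, hBc⟩ := exists_quadratic_bestOffender_of_abelian hP hWP hW hA le_normalizer_of_normal hc
  have hBY := (map_mono (f := π) hBA).trans hAY
  obtain ⟨D, hDB, hD1, hD2⟩ : ∃ D, D ≤ B.map π ∧ IsBestOffenderOn 2 (holU ι W) D ∧ Nat.card D = 2 := by
    by_contra hne
    have := hF.le_sSup_prime hBY (h.bestOffender_map hB)
    rw [show {D | D ≤ B.map π ∧ IsBestOffenderOn 2 (holU ι W) D ∧ Nat.card D = 2} = ∅ from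
      Set.eq_empty_of_forall_notMem fun D hD => hne ⟨D, hD⟩, sSup_empty, le_bot_iff, Subgroup.map_eq_bot_iff,
      h.ker_eq] at this
    exact hBc this
  have hD : IsTv 2 (holU ι W) (Y.map π) D :=
    ⟨hDB.trans hBY, hD2, (hF.card_commutator_eq (hDB.trans hBY) hD1 hD2).1⟩
  have hDA : D ≤ A.map π := hDB.trans (map_mono hBA)
  have hpair := hF.pair_tvE hD
  set E := tvE 2 (Y.map π) D
  set W₁ := ⁅holU ι W, E⁆ with hW₁
  have hAab : A.map π ≤ centralizer ((A.map π : Subgroup Γ) : Set Γ) := ea_le_centralizer (ea_map (meaIn_ea hA) π)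
  have hAE : A.map π ≤ normalizer (E : Set Γ) := fun a ha => by
    rw [← conj_smul_eq_self_iff, conj_smul_tvE D (le_normalizer (hAY ha)),
      (conj_smul_eq_self_iff _ _).2 (CL.Grp.le_normalizer_of_le_centralizer (hAab.trans (centralizer_anti hDA)) ha)]
  have hAW : A.map π ≤ normalizer (W₁ : Set Γ) := le_normalizer_commutator' (h.map_le_normalizer A) hAE
  have hW₁U : W₁ ≤ holU ι W :=
    le_normalizer_iff_commutator_le_left.1 ((tvE_le hD.le).trans hF.norm)
  have hDW : ¬ D ≤ centralizer (W₁ : Set Γ) := fun hle =>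
    hD.ne_bot (eq_bot_iff.2 (hpair.faith ▸ le_inf hpair.left_le hle))
  have hAp : IsPGroup 2 (A.map π) := (hP.to_le (meaIn_le hA)).map π
  have hi : (centralizer (W₁ : Set Γ)).relIndex (A.map π) ≤ 2 := relIndex_le_two hAp hpair.card_comm hAW
  set W₂ := (W₁.comap ι).map W.subtype with hW₂
  have hW₂W : W₂ ≤ W := map_subtype_le _
  have hhol : holU ι W₂ = W₁ := holU_comap hW₁U
  have hcomap : (centralizer (W₁ : Set Γ)).comap π = centralizer (W₂ : Set X) := by
    ext k; rw [mem_comap, ← hhol, h.mem_centralizer_iff hW₂W]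
  set A₀ := A ⊓ centralizer (W₂ : Set X) with hA₀
  have hmap : A₀.map π = A.map π ⊓ centralizer (W₁ : Set Γ) := by
    rw [hA₀, ← hcomap]
    exact le_antisymm (le_inf (map_mono inf_le_left) (map_le_iff_le_comap.2 inf_le_right))
      (by rintro _ ⟨⟨a, ha, rfl⟩, h2⟩; exact ⟨a, ⟨ha, h2⟩, rfl⟩)
  have hi' : Nat.card A ≤ Nat.card A₀ * 2 := by
    rw [← relIndex_comap, hcomap, ← inf_relIndex_left] at hi
    rw [← card_mul_relIndex (inf_le_left : A₀ ≤ A)]
    exact Nat.mul_le_mul_left _ hi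
  have hlt : W ⊓ centralizer (A : Set X) < W ⊓ centralizer (A₀ : Set X) := by
    refine lt_of_le_of_ne (inf_le_inf_left _ (centralizer_anti inf_le_left)) fun he => hDW ?_
    have h1 : W₂ ≤ W ⊓ centralizer (A₀ : Set X) := le_inf hW₂W (le_centralizer_iff.1 inf_le_right)
    rw [← he] at h1
    refine hDA.trans (map_le_iff_le_comap.2 ?_)
    rw [hcomap]
    exact le_centralizer_iff.1 (h1.trans inf_le_right)
  have hlt' : 2 * Nat.card (W ⊓ centralizer (A : Set X) : Subgroup X) ≤
      Nat.card (W ⊓ centralizer (A₀ : Set X) : Subgroup X) := by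
    obtain ⟨c, hc⟩ := card_dvd_of_le hlt.le
    have := CL.Grp.card_lt_card_of_lt hlt
    rw [hc] at this ⊢
    have h1 : 1 < c := by
      by_contra h1
      have : c = 0 ∨ c = 1 := by omega
      rcases this with rfl | rfl <;> omega
    nlinarith
  have hA₀e : IsElementaryAbelian 0 A₀ := ea_mono (meaIn_ea hA) inf_le_left
  have hW0 : IsElementaryAbelian 0 W := ea_zero_iff.2 hW.1
  have hA' : A₀ ⊔ (W ⊓ centralizer (A₀ : Set X)) ∈ meaIn 0 P := by
    refine mem_meaIn_of_card_le hA (sup_le (inf_le_left.trans (meaIn_le hA)) (inf_le_left.trans hWP))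
      (ea_sup hA₀e (ea_mono hW0 inf_le_left) (le_centralizer_iff.1 inf_le_right)) ?_
    have h1 := card_mul_card_le_inf_sup A₀ (W ⊓ centralizer (A₀ : Set X))
    have h2 : Nat.card (A₀ ⊓ (W ⊓ centralizer (A₀ : Set X)) : Subgroup X) ≤
        Nat.card (W ⊓ centralizer (A : Set X) : Subgroup X) := card_le_of_le
      (le_inf (inf_le_right.trans inf_le_left) ((inf_le_left.trans inf_le_left).trans (ea_le_centralizer (meaIn_ea hA))))
    have h3 : 0 < Nat.card (W ⊓ centralizer (A : Set X) : Subgroup X) := Nat.card_pos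
    refine Nat.le_of_mul_le_mul_left ?_ h3
    nlinarith
  have hmap' : (A₀ ⊔ (W ⊓ centralizer (A₀ : Set X))).map π = A.map π ⊓ centralizer (W₁ : Set Γ) := by
    rw [Subgroup.map_sup, hmap, (Subgroup.map_eq_bot_iff (W ⊓ centralizer (A₀ : Set X))).2
      (by rw [h.ker_eq]; exact inf_le_left.trans (ea_le_centralizer hW)),
      sup_bot_eq]
  have hlt2 : A.map π ⊓ centralizer (W₁ : Set Γ) < A.map π := inf_lt_left.2 fun hle => hDW (hDA.trans hle)
  have h3 := ih _ (hn ▸ hmap' ▸ CL.Grp.card_lt_card_of_lt hlt2) _ hA' rfl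
  rw [hmap'] at h3
  have h4 : (A.map π ⊓ centralizer (W₁ : Set Γ)).relIndex (A.map π) = 2 := by
    rw [inf_relIndex_left]
    have h5 : (centralizer (W₁ : Set Γ)).relIndex (A.map π) ≠ 1 := fun h5 => hDW (hDA.trans (relIndex_eq_one.1 h5))
    have h6 : (centralizer (W₁ : Set Γ)).relIndex (A.map π) ≠ 0 := index_ne_zero_of_finite
    omega
  rcases eq_or_eq_of_relIndex_prime (K := (A.map π ⊓ centralizer (W₁ : Set Γ)) ⊔ D) le_sup_left
    (sup_le inf_le_left hDA) (h4 ▸ Nat.prime_two) with h5 | h5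
  · exact absurd ((le_sup_right.trans h5.le).trans inf_le_right) hDW
  · rw [← h5]; exact sup_le h3 (le_sSup hD)

theorem center_perm3 : ∀ x : Equiv.Perm (Fin 3), (∀ y, y * x = x * y) → x = 1 := by decide

theorem prod {Γ : Type*} [Group Γ] [Finite Γ] {U H : Subgroup Γ}
    (hF : haveI : Fact (Nat.Prime 2) := ⟨Nat.prime_two⟩; FFHyp 2 U H) (hgen : H ≤ sSup {D | IsTv 2 U H D})
    (h1 : H ≠ ⊥) : ∃ n : ℕ, 1 ≤ n ∧ Nonempty (H ≃* (Fin n → Equiv.Perm (Fin 3))) := by
  have : Fact (Nat.Prime 2) := ⟨Nat.prime_two⟩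
  classical
  let I := {E : Subgroup Γ // ∃ D, IsTv 2 U H D ∧ tvE 2 H D = E}
  have : Fintype I := Fintype.ofFinite I
  have hcomm' : ∀ i j : I, i ≠ j → i.1 ≤ centralizer (j.1 : Set Γ) := by
    rintro ⟨_, D, hD, rfl⟩ ⟨_, D', hD', rfl⟩ hne
    exact commutator_eq_bot_iff_le_centralizer.1
      (hF.commutator_tvE_eq_bot_of_ne hD hD' fun h => hne (Subtype.ext h))
  have hcomm : Pairwise fun i j : I => ∀ x y : Γ, x ∈ i.1 → y ∈ j.1 → Commute x y :=
    fun i j hij x y hx hy => (hcomm' i j hij hx y hy).symm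
  have he : ∀ i : I, Nonempty (i.1 ≃* Equiv.Perm (Fin 3)) := by
    rintro ⟨_, D, hD, rfl⟩
    obtain ⟨e⟩ := (hF.pair_tvE hD).equiv
    obtain ⟨e'⟩ := CL.Cls.nonempty_SL2_two (F := ZMod 2) (by simp)
    exact ⟨e.trans e'⟩
  have hind : iSupIndep fun i : I => i.1 := by
    intro i
    rw [disjoint_iff, eq_bot_iff]
    rintro x ⟨hx, hx'⟩
    have hc : x ∈ centralizer (i.1 : Set Γ) := (iSup₂_le fun j hj => hcomm' j i hj : _ ≤ centralizer (i.1 : Set Γ)) hx'
    obtain ⟨e⟩ := he i
    have := center_perm3 (e ⟨x, hx⟩) fun y => by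
      obtain ⟨y, rfl⟩ := e.surjective y
      rw [← map_mul, ← map_mul]
      exact congrArg e (Subtype.ext (hc y y.2))
    exact congrArg Subtype.val (e.injective (this.trans (map_one e).symm))
  have hr : (noncommPiCoprod hcomm).range = H := by
    rw [noncommPiCoprod_range]
    refine le_antisymm (iSup_le ?_) (hgen.trans (sSup_le fun D hD => ?_))
    · rintro ⟨_, D, hD, rfl⟩; exact tvE_le hD.le
    · exact (hF.pair_tvE hD).left_le.trans (le_iSup (fun i : I => i.1) ⟨_, D, hD, rfl⟩)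
  obtain ⟨D, hD⟩ := FFHyp.exists_isTv hgen h1
  have : Nonempty I := ⟨⟨_, D, hD, rfl⟩⟩
  refine ⟨Fintype.card I, Fintype.card_pos, ⟨?_⟩⟩
  exact ((MulEquiv.subgroupCongr hr).symm.trans (MonoidHom.ofInjective
    (injective_noncommPiCoprod_of_iSupIndep hind)).symm).trans ((MulEquiv.piCongrRight fun i => (he i).some).trans
      (MulEquiv.arrowCongr (Fintype.equivFin I) (MulEquiv.refl _)))


/-- Let `X` be a finite solvable group whose Fitting subgroup is a 2-group (equivalently `F(X) = O₂(X)`), `T` a Sylow 2-subgroup of `X`, `J(T)` the subgroup generated by the abelian subgroups of `T` of largest order, `C` the largest normal subgroup of `X` centralizing the centre `Z(T)`, and `Y` the normal closure of `J(T)` in `X`. Then `X = C · Y · N_X(J(T))`, and either `Y ≤ C`, or `CY/C` is isomorphic to a direct product of at least one copy of the symmetric group of degree 3. -/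
theorem result {X : Type*} [Group X] [Finite X]
    [Group.IsSolvable X] (hF : Cfsg.fittingSubgroup X = Cfsg.pCore 2 X) (T : Sylow 2 X) :
    ((Subgroup.centralizer (((T : Subgroup X) ⊓ Subgroup.centralizer ((T : Subgroup X) : Set X) : Subgroup X) : Set X)).normalCore
        ⊔ Subgroup.normalClosure (Cfsg.thompsonSubgroupAOf (T : Subgroup X) : Set X)
        ⊔ Subgroup.normalizer (Cfsg.thompsonSubgroupAOf (T : Subgroup X) : Set X) = ⊤) ∧
    (Subgroup.normalClosure (Cfsg.thompsonSubgroupAOf (T : Subgroup X) : Set X)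
        ≤ (Subgroup.centralizer (((T : Subgroup X) ⊓ Subgroup.centralizer ((T : Subgroup X) : Set X) : Subgroup X) : Set X)).normalCore
      ∨ ∃ n : ℕ, 1 ≤ n ∧
        Nonempty (↥(Subgroup.normalClosure (Cfsg.thompsonSubgroupAOf (T : Subgroup X) : Set X)) ⧸
            ((Subgroup.centralizer (((T : Subgroup X) ⊓ Subgroup.centralizer ((T : Subgroup X) : Set X) : Subgroup X) : Set X)).normalCore).subgroupOf
              (Subgroup.normalClosure (Cfsg.thompsonSubgroupAOf (T : Subgroup X) : Set X))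
          ≃* (Fin n → Equiv.Perm (Fin 3)))) := by
  rw [thompsonSubgroupAOf_eq]
  set Y := normalClosure (thompsonSubgroupOf 0 (T : Subgroup X) : Set X) with hY
  have hJY : thompsonSubgroupOf 0 (T : Subgroup X) ≤ Y := subset_normalClosure
  refine ⟨?_, ?_⟩
  · rw [eq_top_iff]
    intro g _
    have h1 : normalizer (((T : Subgroup X) ⊓ Y : Subgroup X) : Set X) ⊔ Y = ⊤ :=
      normalizer_sup_eq_top_of_not_dvd (p := 2) (T.2.to_inf_left) inf_le_right (isSylowIn_inf_normal T Y).not_dvd
    have h2 : normalizer (((T : Subgroup X) ⊓ Y : Subgroup X) : Set X) ≤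
        normalizer (thompsonSubgroupOf 0 (T : Subgroup X) : Set X) := by
      rw [← thompsonSubgroupOf_eq_of_le (le_inf (thompsonSubgroupOf_le _) hJY) inf_le_left]
      exact normalizer_le_normalizer_thompsonSubgroupOf _
    exact (sup_le (h2.trans le_sup_right) (le_sup_right.trans le_sup_left) : _ ≤ _) (h1 ▸ mem_top g)
  set Z := (T : Subgroup X) ⊓ centralizer ((T : Subgroup X) : Set X) with hZ
  set V := normalClosure (Z : Set X) with hV
  have hC : (centralizer (Z : Set X)).normalCore = centralizer (V : Set X) := by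
    refine le_antisymm (le_centralizer_iff.1 (normalClosure_le_normal ?_))
      (normal_le_normalCore.2 (centralizer_anti subset_normalClosure))
    exact le_centralizer_iff.1 (normalCore_le _)
  have hO : centralizer (pCore 2 X : Set X) ≤ pCore 2 X := hF ▸ centralizer_fittingSubgroup_le X
  have hVO : V ≤ pCore 2 X ⊓ centralizer (pCore 2 X : Set X) := by
    refine normalClosure_le_normal ?_
    have : Z ≤ centralizer (pCore 2 X : Set X) := inf_le_right.trans (centralizer_anti (pCore_le_sylow T))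
    exact le_inf (this.trans hO) this
  have hVab : V ≤ centralizer (V : Set X) := (hVO.trans inf_le_right).trans (centralizer_anti (hVO.trans inf_le_left))
  have hVp : IsPGroup 2 V := isPGroup_of_le_pCore (hVO.trans inf_le_left)
  have hgenV : V ≤ ⨆ S : Sylow 2 X, V ⊓ centralizer ((S : Subgroup X) : Set X) := by
    refine (closure_le _).2 fun x hx => ?_
    obtain ⟨z, hz, hc⟩ := Group.mem_conjugatesOfSet_iff.1 hx
    obtain ⟨g, rfl⟩ := isConj_iff.1 hc
    refine mem_iSup_of_mem (g • T) ⟨normalClosure_normal.conj_mem _ (subset_normalClosure hz) g, ?_⟩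
    rintro _ ⟨t, ht, rfl⟩
    have := hz.2 t ht
    change g * t * g⁻¹ * (g * z * g⁻¹) = g * z * g⁻¹ * (g * t * g⁻¹)
    rw [conj_mul, conj_mul, this]
  set W := omegaOne 2 V with hWdef
  have hWn : W.Normal := omegaOne_normal V
  have hW : IsElementaryAbelian 2 W := ea_omegaOne hVab
  have hCW : centralizer (W : Set X) = centralizer (V : Set X) := by
    refine le_antisymm ?_ (centralizer_anti (omegaOne_le V))
    have h1 : IsPGroup 2 ((centralizer (W : Set X)).map (QuotientGroup.mk' (centralizer (V : Set X)))) := by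
      rintro ⟨_, x, hx, rfl⟩
      obtain ⟨k, hk⟩ := exists_pow_orderOf_coprime Nat.prime_two x
      refine ⟨k, Subtype.ext ?_⟩
      have := mem_centralizer_of_omegaOne_of_abelian hVp hVab (le_normalizer_of_normal (mem_top _)) hk (pow_mem hx _)
      simpa [← QuotientGroup.mk_pow, QuotientGroup.eq_one_iff] using this
    obtain ⟨k, hk⟩ := IsPGroup.iff_card.1 h1
    rw [card_map_mk'] at hk
    exact le_centralizer_of_eq_iSup_sylow hgenV hk
  have hO2 : pCore 2 (X ⧸ centralizer (W : Set X)) = ⊥ :=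
    pCore_eq_bot_of_equiv (QuotientGroup.quotientMulEquivOfEq hCW.symm) (pCore_quotient_centralizer_eq_bot hgenV)
  obtain ⟨Γ, _, _, π, ι, -, h, -⟩ := exists_isHol (MonoidHom.id X) Function.injective_id W ⊥ bot_le
  have hFF := h.ffHyp hW (isPSolvable_of_isSolvable inferInstance) hO2 Y
  have hk : π.ker = (centralizer (Z : Set X)).normalCore := by rw [h.ker_eq, hCW, hC]
  by_cases hYC : Y ≤ (centralizer (Z : Set X)).normalCore
  · exact Or.inl hYC
  right
  obtain ⟨n, hn, ⟨e⟩⟩ := prod hFF (by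
    rw [map_le_iff_le_comap]
    refine (closure_le _).2 fun x hx => ?_
    obtain ⟨z, hz, hc⟩ := Group.mem_conjugatesOfSet_iff.1 hx
    obtain ⟨g, rfl⟩ := isConj_iff.1 hc
    have h1 : g * z * g⁻¹ ∈ thompsonSubgroupOf 0 (MulAut.conj g • (T : Subgroup X)) := by
      rw [← conj_smul_thompsonSubgroupOf]; exact ⟨z, hz, rfl⟩
    have h2 : thompsonSubgroupOf 0 (MulAut.conj g • (T : Subgroup X)) ≤ Y := by
      rw [← conj_smul_thompsonSubgroupOf, ← Normal.conj_smul_eq_self g Y]
      exact pointwise_smul_le_pointwise_smul_iff.2 hJY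
    refine (thompsonSubgroupOf_le_iff.2 fun A hA => map_le_iff_le_comap.1 ?_ : _ ≤ comap π _) h1
    exact gen h hW hFF (g • T).2 (((omegaOne_le V).trans (hVO.trans inf_le_left)).trans (pCore_le_sylow (g • T)))
      h2 _ A hA rfl) (fun hb => hYC (hk ▸ (Subgroup.map_eq_bot_iff _).1 hb))
  refine ⟨n, hn, ⟨((QuotientGroup.quotientMulEquivOfEq ?_).trans
    (QuotientGroup.quotientKerEquivOfSurjective (π.subgroupMap Y) (π.subgroupMap_surjective Y))).trans e⟩⟩
  rw [← hk]
  ext x
  simp [mem_subgroupOf, Subtype.ext_iff]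

end Cfsg.Agent.S4302
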