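import Cfsg.Statements.S4303
import Cfsg.Agent.Fgs.SylHall

set_option autoImplicit false
universe u
open Cfsg
open scoped Pointwise

namespace Cfsg.Agent.S4303

/-- For a finite group `G` and a prime `p`, the number of Sylow `p`-subgroups of `G` is a product of natural numbers each of which is either a prime power congruent to 1 modulo `p` or the number of Sylow `p`-subgroups of some finite simple group. -/
theorem result {G : Type u} [Group G] [Finite G]
    (p : ℕ) [Fact p.Prime] :
    ∃ l : List ℕ, l.prod = Nat.card (Sylow p G) ∧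
      ∀ m ∈ l, (IsPrimePow m ∧ m % p = 1) ∨
        ∃ (S : Type u) (_ : Group S) (_ : Finite S), IsSimpleGroup S ∧ m = Nat.card (Sylow p S) := by
  refine CL.Fgs.card_sylow_induction (p := p) (fun _ _ => True) (fun _ _ _ _ => trivial)
    (fun _ _ _ _ _ => trivial) (fun n => ∃ l : List ℕ, l.prod = n ∧
      ∀ m ∈ l, (IsPrimePow m ∧ m % p = 1) ∨
        ∃ (S : Type u) (_ : Group S) (_ : Finite S), IsSimpleGroup S ∧ m = Nat.card (Sylow p S))
    ⟨[], rfl, by simp⟩ ?_ ?_ ?_ G trivial
  · rintro _ _ ⟨l, rfl, hl⟩ ⟨l', rfl, hl'⟩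
    refine ⟨l ++ l', List.prod_append, fun m hm => ?_⟩
    rcases List.mem_append.1 hm with h | h
    · exact hl m h
    · exact hl' m h
  · intro q k hq hk
    rcases Nat.eq_zero_or_pos k with rfl | h0
    · exact ⟨[], rfl, by simp⟩
    · refine ⟨[q ^ k], by simp, fun m hm => Or.inl ?_⟩
      rw [List.mem_singleton.1 hm]
      refine ⟨(hq.isPrimePow.pow h0.ne'), ?_⟩
      rw [hk, Nat.mod_eq_of_lt (Fact.out : p.Prime).one_lt]
  · intro S _ _ hS _
    refine ⟨[Nat.card (Sylow p S)], by simp, fun m hm => Or.inr ?_⟩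
    exact ⟨S, _, inferInstance, hS, List.mem_singleton.1 hm⟩

end Cfsg.Agent.S4303
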