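import Cfsg.Statements.S4305
import Cfsg.Agent.Fgs.TowerB

set_option autoImplicit false
open Cfsg

namespace Cfsg.Agent.S4305

/-- Let the symmetric group of degree 3 act by automorphisms on a finite solvable group `G` of order prime to 6, so that only the identity of `G` is fixed by all of it. Then the derived subgroup of `G` is nilpotent. -/
theorem result {G : Type*} [Group G] [Finite G] [Group.IsSolvable G]
    [MulDistribMulAction (Equiv.Perm (Fin 3)) G] (hcop : (Nat.card G).Coprime 6)
    (hfpf : ∀ g : G, (∀ a : Equiv.Perm (Fin 3), a • g = g) → g = 1) :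
    Group.IsNilpotent ↥(commutator G) := by
  have := CL.Fgs.sdInl_range_normal (A := Equiv.Perm (Fin 3)) (K := G)
  have hA : Nat.card (Equiv.Perm (Fin 3)) = 2 * 3 := by rw [Nat.card_perm, Nat.card_eq_fintype_card, Fintype.card_fin]; rfl
  have h := CL.Fgs.HH.der_nil_of_sthree (CL.Fgs.sdInl_range_sol (A := Equiv.Perm (Fin 3)) ‹Group.IsSolvable G›)
    (CL.Grp.card_range_sdInr.trans hA) (eq_bot_iff.2 (by
      rintro _ ⟨⟨a, rfl⟩, ha⟩
      have : ∀ a : Equiv.Perm (Fin 3), (∀ b, b * a = a * b) → a = 1 := by decide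
      rw [this a fun b => CL.Grp.sdInr_injective (K := G) (by
        rw [map_mul, map_mul]; exact Subgroup.mem_centralizer_iff.1 ha _ ⟨b, rfl⟩), map_one]
      exact one_mem _))
    (by rw [CL.Grp.card_range_sdInr, CL.Grp.card_range_sdInl, hA]; exact hcop.symm) (CL.Fgs.sd_inf_cent_eq_bot hfpf)
  rw [MonoidHom.range_eq_map, ← Subgroup.map_commutator] at h
  exact Group.nilpotent_of_mulEquiv (_h := h)
    (Subgroup.equivMapOfInjective _ _ (CL.Grp.sdInl_injective (A := Equiv.Perm (Fin 3)))).symm

end Cfsg.Agent.S4305
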