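import Cfsg.Statements.S4306
import Cfsg.Agent.Fgs.TowerB

set_option autoImplicit false
open Cfsg

namespace Cfsg.Agent.S4306

/-- Let `A` be a non-abelian group of order `pq` with `p, q` distinct primes, acting by automorphisms on a finite solvable group `G` of order prime to `pq`, so that only the identity of `G` is fixed by all of `A`. Then `G` has Fitting height at most 2: there is a normal nilpotent subgroup `F` of `G` with `G/F` nilpotent. -/
theorem result {G A : Type*} [Group G] [Finite G]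
    [Group.IsSolvable G] [Group A] [Finite A] [MulDistribMulAction A G] (p q : ℕ) (hp : p.Prime) (hq : q.Prime) (hpq : p ≠ q)
    (hA : Nat.card A = p * q) (hAna : ¬ IsMulCommutative A) (hcop : (Nat.card G).Coprime (p * q))
    (hfpf : ∀ g : G, (∀ a : A, a • g = g) → g = 1) :
    ∃ F : Subgroup G, ∃ hF : F.Normal, Group.IsNilpotent ↥F ∧ Group.IsNilpotent (G ⧸ F) := by
  have := CL.Fgs.sdInl_range_normal (A := A) (K := G)
  have h := CL.Fgs.HH.fit_two_of_fpf (CL.Fgs.sdInl_range_sol (A := A) ‹Group.IsSolvable G›) hp hq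
    (CL.Grp.card_range_sdInr.trans hA).dvd
    (by rw [CL.Grp.card_range_sdInr, CL.Grp.card_range_sdInl, hA]; exact hcop.symm) (CL.Fgs.sd_inf_cent_eq_bot hfpf)
  have h2 := CL.Fgs.fitLE_iff.1 ((CL.Fgs.fitLE_iff_range CL.Grp.sdInl_injective).2 h)
  refine ⟨CL.Fgs.nres ⊤, inferInstance, CL.Fgs.nres_eq_bot_iff.1 h2, ?_⟩
  have h3 := (CL.Fgs.nres_le_iff_map (H := ⊤) (QuotientGroup.mk' (CL.Fgs.nres (⊤ : Subgroup G)))).1
    (QuotientGroup.ker_mk' _).ge
  rw [Subgroup.map_top_of_surjective _ (QuotientGroup.mk'_surjective _)] at h3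
  exact Group.nilpotent_of_mulEquiv Subgroup.topEquiv

end Cfsg.Agent.S4306
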