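import Cfsg.Statements.S4316
import Cfsg.Agent.Fgs.Dietzmann
import Cfsg.Agent.Grp.Action
import Cfsg.Agent.Grp.MinNormal

set_option autoImplicit false
universe u
open Cfsg

namespace Cfsg.Agent.S4316

open CL.Fgs Subgroup
open scoped commutatorElement

section
variable {Γ : Type*} [Group Γ] [Finite Γ] {A K : Subgroup Γ} [IsMulCommutative A] {m : ℕ}

theorem comm_of_mem {a b : Γ} (ha : a ∈ A) (hb : b ∈ A) : a * b = b * a :=
  congrArg Subtype.val (IsMulCommutative.is_comm.comm (⟨a, ha⟩ : A) ⟨b, hb⟩)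

theorem le_normalizer_cent {a : Γ} (ha : a ∈ A) : A ≤ normalizer ((cent(a) : Subgroup Γ) : Set Γ) :=
  le_trans (b := cent(a)) (fun b hb => mem_cent.2 (comm_of_mem hb ha)) le_normalizer

theorem relIndex_cent_le {C D : Subgroup Γ} (hD : D ≤ C) {x : Γ} (hx : x ∈ C) :
    (cent(x)).relIndex D ≤ Nat.card ↥⁅C, C⁆ := by
  rw [← ncard_conj_subgroup, ← Nat.card_coe_set_eq]
  refine Nat.card_le_card_of_injective (fun y => ⟨y.1 * x⁻¹, ?_⟩) ?_
  · obtain ⟨y, d, hd, rfl⟩ := y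
    exact commutator_mem_commutator (hD hd) hx
  · intro y z e
    exact Subtype.ext (mul_right_cancel (congrArg Subtype.val e))

theorem card_cocyclic_le (A : Subgroup Γ) :
    ∃ 𝓑 : Finset (Subgroup Γ), (∀ B, IsCocyclic B A ↔ B ∈ 𝓑) ∧ 𝓑.card ≤ 2 ^ Nat.card A := by
  classical
  have := Fintype.ofFinite (Subgroup Γ)
  have := Fintype.ofFinite A
  refine ⟨Finset.univ.filter fun B => IsCocyclic B A, by simp, ?_⟩
  rw [Nat.card_eq_fintype_card, ← Fintype.card_set, ← Finset.card_univ]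
  refine Finset.card_le_card_of_injOn (fun B => (B.subgroupOf A : Set A)) (by simp) ?_
  intro B hB B' hB' e
  have h1 := (Finset.mem_filter.1 hB).2.1
  have h2 := (Finset.mem_filter.1 hB').2.1
  have e' : B.subgroupOf A = B'.subgroupOf A := SetLike.coe_injective e
  rw [← map_subgroupOf_eq_of_le h1, e', map_subgroupOf_eq_of_le h2]

variable (hAK : A ≤ normalizer (K : Set Γ)) (hcop : (Nat.card A).Coprime (Nat.card K))
  (hB : ∀ B B', IsCocyclic B A → IsCocyclic B' A → B ⊓ B' ≠ ⊥)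
  (hm : ∀ a ∈ A, a ≠ 1 → Nat.card ↥⁅K ⊓ cent(a), K ⊓ cent(a)⁆ ≤ m)
include hAK hcop hB hm

theorem step1 {B₁ : Subgroup Γ} (hB₁ : IsCocyclic B₁ A) {x : Γ}
    (hx : x ∈ K ⊓ centralizer (B₁ : Set Γ)) :
    (cent(x)).relIndex K ≤ (((m + 1) ^ Nat.card A) ^ 2 ^ Nat.card A).factorial := by
  classical
  have := Fintype.ofFinite A
  refine Nat.le_of_dvd (Nat.factorial_pos _) (dvd_factorial_of_forall_prime_pow_le fun p k hp hd => ?_)
  have := Fact.mk hp
  obtain ⟨P, hP, hAP⟩ := CL.Grp.exists_isSylowIn_le_normalizer p hAK hcop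
    (Or.inl (Group.isSolvable_of_comm fun a b => IsMulCommutative.is_comm.comm a b))
  refine (Nat.le_of_dvd (Nat.pos_of_ne_zero index_ne_zero_of_finite)
    (pow_dvd_relIndex_of_isSylowIn hP hd)).trans ?_
  obtain ⟨𝓑, h𝓑, hc⟩ := card_cocyclic_le A
  set C : Subgroup Γ := ⨅ a : A, cent((a : Γ) * x * (a : Γ)⁻¹) with hC
  have hAC : A ≤ normalizer (C : Set Γ) := by
    have : ∀ b ∈ A, ∀ y ∈ C, b * y * b⁻¹ ∈ C := by
      intro b hb y hy
      rw [hC, mem_iInf] at hy ⊢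
      intro a
      have := conj_mem_cent_conj (g := b).2 (hy (⟨b, hb⟩⁻¹ * a))
      convert this using 3
      simp [mul_assoc]
    intro b hb
    refine mem_normalizer_iff.2 fun y => ⟨this b hb y, fun h => ?_⟩
    simpa [mul_assoc] using this b⁻¹ (A.inv_mem hb) _ h
  have h1 := relIndex_le_prod_cocyclic 𝓑 (fun B h => (h𝓑 B).1 h) (C ⊓ P)
    (CL.Grp.le_normalizer_inf' hAC hAP) P hP.isPGroup.isNilpotent hAP
    (hcop.coprime_dvd_right (card_dvd_of_le hP.le)) inf_le_right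
  have h2 : (cent(x)).relIndex P ≤ (C ⊓ P).relIndex P := by
    refine relIndex_le_of_le_left (inf_le_left.trans ((iInf_le _ 1).trans (by simp)))
      index_ne_zero_of_finite
  refine h2.trans (h1.trans ((Finset.prod_le_pow_card _ _ ((m + 1) ^ Nat.card A) fun B hB' => ?_).trans
    (Nat.pow_le_pow_right (by positivity) hc)))
  have hBc := (h𝓑 B).2 hB'
  obtain ⟨⟨a, ha⟩, ha1⟩ := ne_bot_iff_exists_ne_one.1 (hB B B₁ hBc hB₁)
  have ha1' : a ≠ 1 := fun e => ha1 (Subtype.ext e)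
  have e : (C ⊓ P).relIndex (P ⊓ centralizer (B : Set Γ)) =
      C.relIndex (P ⊓ centralizer (B : Set Γ)) := by
    rw [← inf_relIndex_right C, ← inf_relIndex_right (C ⊓ P), inf_assoc, ← inf_assoc P, inf_idem]
  rw [e]
  refine (relIndex_iInf_le _).trans ((Finset.prod_le_pow_card _ _ (m + 1) fun b _ => ?_).trans
    (by rw [Finset.card_univ, Nat.card_eq_fintype_card]))
  refine (relIndex_cent_le (C := K ⊓ cent(a)) (inf_le_inf hP.le fun y hy =>
    mem_cent.2 (hy a ha.1).symm) ⟨(mem_normalizer_iff.1 (hAK b.2) x).1 hx.1, ?_⟩).trans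
    ((hm a (hBc.1 ha.1) ha1').trans (Nat.le_succ m))
  exact (mem_normalizer_iff.1 (le_normalizer_cent (hBc.1 ha.1) b.2) x).1
    (mem_cent.2 (hx.2 a ha.2).symm)

theorem step2 {a : Γ} (ha : a ∈ A) (ha1 : a ≠ 1) {y : Γ} (hy : y ∈ ⁅K ⊓ cent(a), K ⊓ cent(a)⁆) :
    (cent(y)).relIndex K ≤ (((m + 1) ^ Nat.card A) ^ 2 ^ Nat.card A).factorial ^ m := by
  classical
  set D := ⁅K ⊓ cent(a), K ⊓ cent(a)⁆
  have hDK : D ≤ K := (commutator_mono inf_le_left inf_le_left).trans (commutator_le_self K)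
  have hAD : A ≤ normalizer (D : Set Γ) := CL.Grp.le_normalizer_commutator'
    (CL.Grp.le_normalizer_inf' hAK (le_normalizer_cent ha))
    (CL.Grp.le_normalizer_inf' hAK (le_normalizer_cent ha))
  let S := {x : D // ∃ B, IsCocyclic B A ∧ (x : Γ) ∈ centralizer (B : Set Γ)}
  have := Fintype.ofFinite S
  set T : Subgroup Γ := ⨅ x : S, cent(((x : D) : Γ))
  have h1 : D ≤ centralizer (T : Set Γ) := CL.Grp.le_of_forall_cocyclic_centralizer_le hAD
    (hcop.coprime_dvd_right (card_dvd_of_le hDK)) fun B h1 h2 x hx t ht =>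
      (mem_cent.1 (mem_iInf.1 ht ⟨⟨x, hx.1⟩, B, ⟨h1, h2⟩, hx.2⟩)).eq
  have h2 : (cent(y)).relIndex K ≤ T.relIndex K :=
    relIndex_le_of_le_left (fun t ht => mem_cent.2 (h1 hy t ht)) index_ne_zero_of_finite
  refine h2.trans ((relIndex_iInf_le _).trans ((Finset.prod_le_pow_card _ _ _ fun x _ => ?_).trans
    (Nat.pow_le_pow_right (Nat.factorial_pos _) ?_)))
  · obtain ⟨x, B, hB', hx⟩ := x
    exact step1 hAK hcop hB hm hB' ⟨hDK x.2, hx⟩
  · rw [Finset.card_univ, ← Nat.card_eq_fintype_card]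
    exact (Nat.card_le_card_of_injective _ Subtype.val_injective).trans (hm a ha ha1)

theorem step3 : ∃ Y : Set Γ, ⁅K, K⁆ ≤ closure Y ∧ (∀ x ∈ Y, ∀ y ∈ Y, x⁻¹ * y * x ∈ Y) ∧
    (∀ y ∈ Y, y⁻¹ ∈ Y) ∧ (∀ y ∈ Y, y ^ m.factorial = 1) ∧
    Y.ncard ≤ Nat.card A * (m * (((m + 1) ^ Nat.card A) ^ 2 ^ Nat.card A).factorial ^ m) := by
  classical
  let Y : Set Γ := {z | ∃ a ∈ A, a ≠ 1 ∧ ∃ y ∈ ⁅K ⊓ cent(a), K ⊓ cent(a)⁆, ∃ k ∈ K, k * y * k⁻¹ = z}
  have hDK : ∀ a : Γ, ⁅K ⊓ cent(a), K ⊓ cent(a)⁆ ≤ K := fun a =>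
    (commutator_mono inf_le_left inf_le_left).trans (commutator_le_self K)
  have hYK : ∀ y ∈ Y, y ∈ K := by
    rintro _ ⟨a, -, -, y, hy, k, hk, rfl⟩
    exact K.mul_mem (K.mul_mem hk (hDK a hy)) (K.inv_mem hk)
  have hKY : ∀ x ∈ K, ∀ y ∈ Y, x * y * x⁻¹ ∈ Y := by
    rintro x hx _ ⟨a, ha, ha1, y, hy, k, hk, rfl⟩
    exact ⟨a, ha, ha1, y, hy, x * k, K.mul_mem hx hk, by group⟩
  have hKN : ∀ x ∈ K, ∀ y ∈ closure Y, x * y * x⁻¹ ∈ closure Y := by
    intro x hx y hy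
    induction hy using closure_induction with
    | mem z hz => exact subset_closure (hKY x hx z hz)
    | one => simp
    | mul z w _ _ h1 h2 => simpa [mul_assoc] using (closure Y).mul_mem h1 h2
    | inv z _ h1 => simpa [mul_assoc] using (closure Y).inv_mem h1
  refine ⟨Y, ?_, fun x hx y hy => by simpa using hKY _ (K.inv_mem (hYK x hx)) y hy, ?_, ?_, ?_⟩
  · let W : Γ → Subgroup Γ := fun x =>
      { carrier := {k | k ∈ K ∧ ⁅k, x⁆ ∈ closure Y}
        one_mem' := ⟨K.one_mem, by simp⟩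
        mul_mem' := fun {k l} hk hl => ⟨K.mul_mem hk.1 hl.1, by
          rw [show ⁅k * l, x⁆ = k * ⁅l, x⁆ * k⁻¹ * ⁅k, x⁆ by simp only [commutatorElement_def]; group]
          exact mul_mem (hKN k hk.1 _ hl.2) hk.2⟩
        inv_mem' := fun {k} hk => ⟨K.inv_mem hk.1, by
          rw [show ⁅k⁻¹, x⁆ = k⁻¹ * ⁅k, x⁆⁻¹ * k⁻¹⁻¹ by simp only [commutatorElement_def]; group]
          exact hKN _ (K.inv_mem hk.1) _ (inv_mem hk.2)⟩ }
    refine commutator_le.2 fun k hk l hl => ?_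
    refine (CL.Grp.le_of_forall_cocyclic_centralizer_le (M := W l) hAK hcop
      (fun B h1 h2 x hx => ⟨hx.1, ?_⟩) hk).2
    rw [← commutatorElement_inv]
    refine inv_mem (CL.Grp.le_of_forall_cocyclic_centralizer_le (M := W x) hAK hcop
      (fun B' h3 h4 x' hx' => ⟨hx'.1, subset_closure ?_⟩) hl).2
    obtain ⟨⟨a, ha⟩, ha1⟩ := ne_bot_iff_exists_ne_one.1 (hB B B' ⟨h1, h2⟩ ⟨h3, h4⟩)
    exact ⟨a, h1 ha.1, fun e => ha1 (Subtype.ext e), _, commutator_mem_commutator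
      ⟨hx'.1, mem_cent.2 (hx'.2 a ha.2).symm⟩ ⟨hx.1, mem_cent.2 (hx.2 a ha.1).symm⟩, 1, K.one_mem,
      by simp⟩
  · rintro _ ⟨a, ha, ha1, y, hy, k, hk, rfl⟩
    exact ⟨a, ha, ha1, y⁻¹, inv_mem hy, k, hk, by group⟩
  · rintro _ ⟨a, ha, ha1, y, hy, k, hk, rfl⟩
    rw [conj_pow, orderOf_dvd_iff_pow_eq_one.1 ((orderOf_dvd_natCard _ hy).trans
      (Nat.dvd_factorial Nat.card_pos (hm a ha ha1))), mul_one, mul_inv_cancel]
  · have := Fintype.ofFinite Γ
    have e : Y = ((Finset.univ.filter fun a => a ∈ A ∧ a ≠ 1).biUnion fun a =>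
        (Finset.univ.filter (· ∈ ⁅K ⊓ cent(a), K ⊓ cent(a)⁆)).biUnion fun y =>
          Set.toFinset {z | ∃ k ∈ K, k * y * k⁻¹ = z} : Finset Γ) := by
      ext z
      simp only [Y, Set.mem_ofPred_eq, Finset.coe_biUnion, Finset.coe_filter, Finset.mem_univ,
        true_and, Set.mem_iUnion, Set.coe_toFinset, exists_prop, and_assoc]
    rw [e, Set.ncard_coe_finset]
    refine (Finset.card_biUnion_le_card_mul _ _ _ fun a ha => ?_).trans
      (Nat.mul_le_mul_right _ ?_)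
    · obtain ⟨ha, ha1⟩ := (Finset.mem_filter.1 ha).2
      refine (Finset.card_biUnion_le_card_mul _ _ _ fun y hy => ?_).trans
        (Nat.mul_le_mul_right _ ?_)
      · rw [← Set.ncard_eq_toFinset_card', ncard_conj_subgroup]
        exact step2 hAK hcop hB hm ha ha1 (Finset.mem_filter.1 hy).2
      · refine le_trans (le_of_eq ?_) (hm a ha ha1)
        rw [Nat.card_eq_fintype_card, Fintype.card_subtype]
    · rw [Nat.card_eq_fintype_card, Fintype.card_subtype]
      exact Finset.card_le_card fun a ha => by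
        simp only [Finset.mem_filter, Finset.mem_univ, true_and] at ha ⊢; exact ha.1

end

theorem inf_ne_bot_of_cocyclic {Γ : Type*} [Group Γ] [Finite Γ] {A : Subgroup Γ}
    [IsMulCommutative A] {q : ℕ} (hq : q.Prime) (hA : Nat.card A = q ^ 3) (he : ∀ a ∈ A, a ^ q = 1)
    (B B' : Subgroup Γ) (h : IsCocyclic B A) (h' : IsCocyclic B' A) : B ⊓ B' ≠ ⊥ := by
  have key : ∀ B : Subgroup Γ, IsCocyclic B A → q ^ 2 ≤ Nat.card B := by
    rintro B ⟨h1, a, ha, h2⟩
    have h3 := CL.Grp.card_sup_dvd (H := B) (K := zpowers a)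
      (h1.trans (CL.Grp.le_normalizer_of_isMulCommutative (zpowers_le.2 ha)))
    rw [h2, hA, Nat.card_zpowers] at h3
    have h4 := h3.trans (Nat.mul_dvd_mul_left _ (orderOf_dvd_of_pow_eq_one (he a ha)))
    rw [pow_succ] at h4
    exact Nat.le_of_dvd Nat.card_pos (Nat.dvd_of_mul_dvd_mul_right hq.pos h4)
  intro e
  have h1 := CL.Grp.card_sup_of_inf_eq_bot (H := B) (K := B')
    (h.1.trans (CL.Grp.le_normalizer_of_isMulCommutative h'.1)) e
  have h2 : Nat.card ↥(B ⊔ B') ≤ q ^ 3 := hA ▸ card_le_of_le (sup_le h.1 h'.1)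
  have h3 := Nat.mul_le_mul (key B h) (key B' h')
  rw [← h1, ← pow_add] at h3
  have := (Nat.pow_le_pow_iff_right hq.one_lt).1 (h3.trans h2)
  omega


/-- There is a function `f` of two natural-number arguments with the following property. Let `q` be a prime and `A` an elementary abelian group of order `q³` acting by automorphisms on a finite group `G` of order prime to `q`, and suppose that for every non-identity `a ∈ A` the derived subgroup of the fixed-point subgroup `C_G(a)` has order at most `m`. Then the derived subgroup of `G` has order at most `f(q, m)`. -/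
theorem result :
    ∃ f : ℕ → ℕ → ℕ, ∀ (q m : ℕ) (A G : Type u) [Group A] [Finite A] [Group G] [Finite G] [MulDistribMulAction A G],
      q.Prime → Nat.card A = q ^ 3 → (∀ a b : A, a * b = b * a) → (∀ a : A, a ^ q = 1) → ¬ q ∣ Nat.card G →
      (∀ a : A, a ≠ 1 → Nat.card ↥(commutator ↥(FixedPoints.subgroup (Subgroup.zpowers a) G)) ≤ m) →
      Nat.card ↥(commutator G) ≤ f q m := by
  let n : ℕ → ℕ → ℕ := fun q m => q ^ 3 * (m * (((m + 1) ^ q ^ 3) ^ 2 ^ q ^ 3).factorial ^ m)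
  refine ⟨fun q m => (n q m + 1) ^ (n q m * m.factorial), ?_⟩
  intro q m A G _ _ _ _ _ hq hA hcomm he hG hm
  have hc : IsMulCommutative (CL.Grp.sdInr A G).range := ⟨⟨by
    rintro ⟨_, a, rfl⟩ ⟨_, b, rfl⟩
    exact Subtype.ext (by simp [← map_mul, hcomm a b])⟩⟩
  have hA' : Nat.card (CL.Grp.sdInr A G).range = q ^ 3 := CL.Grp.card_range_sdInr.trans hA
  obtain ⟨Y, h1, h2, h3, h4, h5⟩ := step3 (m := m) (CL.Grp.range_sdInr_le_normalizer (A := A) (K := G))
    (by
      rw [hA', CL.Grp.card_range_sdInl]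
      exact Nat.Coprime.pow_left _ ((Nat.Prime.coprime_iff_not_dvd hq).2 hG))
    (inf_ne_bot_of_cocyclic hq hA' (by rintro _ ⟨a, rfl⟩; rw [← map_pow, he, map_one]))
    (by
      rintro _ ⟨a, rfl⟩ ha
      have e : (CL.Grp.sdInl A G).range ⊓ cent(CL.Grp.sdInr A G a) =
          (FixedPoints.subgroup (zpowers a) G).map (CL.Grp.sdInl A G) := by
        ext x
        constructor
        · rintro ⟨⟨g, rfl⟩, hg⟩
          refine ⟨g, ?_, rfl⟩
          have h1 : a • g = g := CL.Grp.sdInl_injective (A := A) (by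
            rw [CL.Grp.sdInl_smul]; exact mem_cent_iff_conj.1 (mem_cent_comm.1 hg))
          rintro ⟨b, hb⟩
          exact (zpowers_le.2 (MulAction.mem_stabilizer_iff.2 h1) :
            zpowers a ≤ MulAction.stabilizer A g) hb
        · rintro ⟨g, hg, rfl⟩
          refine ⟨⟨g, rfl⟩, mem_cent_comm.1 (mem_cent_iff_conj.2 ?_)⟩
          rw [← CL.Grp.sdInl_smul]
          exact congrArg _ (hg ⟨a, mem_zpowers a⟩)
      rw [e, ← map_commutator, CL.Grp.card_map_sdInl, ← map_subtype_commutator,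
        CL.Grp.card_map_subtype]
      exact hm a fun e => ha (by rw [e, map_one]))
  rw [hA'] at h5
  have h6 := card_closure_le_of_conj_closed (Nat.factorial_pos m) h2 h3 h4
  rw [MonoidHom.range_eq_map, ← map_commutator] at h1
  rw [← CL.Grp.card_map_sdInl (A := A)]
  refine (card_le_of_le h1).trans (h6.trans ?_)
  exact (Nat.pow_le_pow_left (Nat.succ_le_succ h5) _).trans
    (Nat.pow_le_pow_right (Nat.succ_pos _) (Nat.mul_le_mul_right _ h5))

end Cfsg.Agent.S4316
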