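import Cfsg.Statements.S4323
import Cfsg.Agent.Fgs.MartB

set_option autoImplicit false
open Cfsg

namespace Cfsg.Agent.S4323

/-- Let `q` be a prime and `A` a non-cyclic group of order `q²` acting by automorphisms on a finite group `G` of order prime to `q`, such that the fixed-point subgroup `C_G(a)` is abelian for every non-identity `a ∈ A`. Then `G` is solvable. -/
theorem result {A G : Type*} [Group A] [Finite A]
    [Group G] [Finite G] [MulDistribMulAction A G] (q : ℕ) (hq : q.Prime) (hA : Nat.card A = q ^ 2) (hnc : ¬ IsCyclic A)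
    (hcop : ¬ q ∣ Nat.card G) (h : ∀ a : A, a ≠ 1 → IsMulCommutative ↥(FixedPoints.subgroup (Subgroup.zpowers a) G)) :
    Group.IsSolvable G := by
  have hi := CL.Grp.sdInl_injective (A := A) (K := G)
  have key : CL.MartAb.Hyp (CL.Grp.sdInr A G).range (CL.Grp.sdInl A G).range q := by
    refine ⟨hq, CL.Grp.card_range_sdInr.trans hA, fun e => hnc ?_, CL.Grp.range_sdInr_le_normalizer, ?_, ?_⟩
    · exact isCyclic_of_surjective _ (MonoidHom.ofInjective (CL.Grp.sdInr_injective (A := A) (K := G))).symm.surjective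
    · rw [CL.Grp.card_range_sdInr, CL.Grp.card_range_sdInl, hA]
      exact ((Nat.Prime.coprime_iff_not_dvd hq).2 hcop).pow_left 2
    · rintro _ ⟨a, rfl⟩ ha
      have h1 := CL.Odd.abelian_iff_comm.1 (h a (by rintro rfl; exact ha (map_one _)))
      have h2 : ∀ x : G, CL.Grp.sdInl A G x ∈ Subgroup.centralizer {CL.Grp.sdInr A G a} →
          x ∈ FixedPoints.subgroup (Subgroup.zpowers a) G := fun x hx => by
        have e : a • x = x := hi (by
          rw [CL.Grp.sdInl_smul, ← Subgroup.mem_centralizer_singleton_iff.1 hx, mul_inv_cancel_right])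
        rintro ⟨b, hb⟩
        exact Subgroup.zpowers_le.2 (show a ∈ MulAction.stabilizer A x from e) hb
      refine CL.Odd.abelian_iff_comm.2 ?_
      rintro _ ⟨⟨x, rfl⟩, hx⟩ _ ⟨⟨y, rfl⟩, hy⟩
      rw [← map_mul, ← map_mul, h1 x (h2 x hx) y (h2 y hy)]
  have := key.solvable
  exact Group.isSolvable_of_surjective (f := (MonoidHom.ofInjective hi).symm.toMonoidHom) (MulEquiv.surjective _)

end Cfsg.Agent.S4323
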