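import Cfsg.Statements.S4421
import Cfsg.Agent.Grp.SylowIn

set_option autoImplicit false
open Cfsg
open scoped Pointwise

namespace Cfsg.Agent.S4421

/-- A factorization of a normalizer from two-step control of fusion. Let `G` be a finite group and `A ≤ S ≤ H` subgroups of `G` such that: (i) `S` controls the `G`-fusion of `A` in the sense that every `G`-conjugate of `A` lying in `S` is an `S`-conjugate of `A`; (ii) `H` controls the `G`-fusion of `S` in the same sense; (iii) every conjugate of `S` by an element of the normalizer of `A` lies in `H`. Then `N_G(A) = N_H(A) · (N_G(S) ∩ N_G(A))`: every element of the normalizer of `A` is a product of an element of `H` normalizing `A` and an element normalizing both `S` and `A`. -/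
theorem result {G : Type*} [Group G] [Finite G] (A S H : Subgroup G)
    (hAS : A ≤ S) (hSH : S ≤ H)
    (h1 : ∀ g : G, A.map (MulAut.conj g).toMonoidHom ≤ S → ∃ s ∈ S, A.map (MulAut.conj g).toMonoidHom = A.map (MulAut.conj s).toMonoidHom)
    (h2 : ∀ g : G, S.map (MulAut.conj g).toMonoidHom ≤ H → ∃ y ∈ H, S.map (MulAut.conj g).toMonoidHom = S.map (MulAut.conj y).toMonoidHom)
    (h3 : ∀ x ∈ Subgroup.normalizer (A : Set G), S.map (MulAut.conj x).toMonoidHom ≤ H) :
    ∀ x ∈ Subgroup.normalizer (A : Set G), ∃ y ∈ H ⊓ Subgroup.normalizer (A : Set G),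
      ∃ z ∈ Subgroup.normalizer (S : Set G) ⊓ Subgroup.normalizer (A : Set G), x = y * z := by
  intro x hx
  simp only [← CL.Grp.conj_smul_eq_map] at h1 h2 h3
  obtain ⟨y, hy, hxy⟩ := h2 x (h3 x hx)
  have hxA : MulAut.conj x • A = A := (CL.Grp.conj_smul_eq_self_iff x A).2 hx
  have hz : MulAut.conj (y⁻¹ * x) • S = S := by
    rw [← CL.Grp.conj_smul_conj_smul, hxy, CL.Grp.conj_smul_conj_smul]; simp
  have hA1 : MulAut.conj (y⁻¹ * x) • A ≤ S := by
    rw [← hz]
    exact Subgroup.pointwise_smul_le_pointwise_smul_iff.2 hAS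
  obtain ⟨s, hs, hsA⟩ := h1 _ hA1
  have hsS : MulAut.conj s⁻¹ • S = S :=
    (CL.Grp.conj_smul_eq_self_iff _ S).2 (Subgroup.le_normalizer (S.inv_mem hs))
  have hzA : MulAut.conj (s⁻¹ * (y⁻¹ * x)) • A = A := by
    rw [← CL.Grp.conj_smul_conj_smul, hsA, CL.Grp.conj_smul_conj_smul]; simp
  have hzA' := (CL.Grp.conj_smul_eq_self_iff _ A).1 hzA
  refine ⟨y * s, ⟨H.mul_mem hy (hSH hs), ?_⟩, s⁻¹ * (y⁻¹ * x), ⟨?_, hzA'⟩, by group⟩
  · have : y * s = x * (s⁻¹ * (y⁻¹ * x))⁻¹ := by group
    rw [this]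
    exact Subgroup.mul_mem _ hx (Subgroup.inv_mem _ hzA')
  · apply (CL.Grp.conj_smul_eq_self_iff _ S).1
    rw [← CL.Grp.conj_smul_conj_smul, hz, hsS]

end Cfsg.Agent.S4421
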