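import Cfsg.Statements.S4422
import Cfsg.Agent.Fgs.Zsigmondy

set_option autoImplicit false
open Cfsg

namespace Cfsg.Agent.S4422

/-- Primitive divisors of `q^e - 1` are congruent to 1 modulo `e`. Let `q ≥ 2` and `e ≥ 1` be natural numbers and let `m` be a divisor of `q^e - 1` that is coprime to `q^i - 1` for every `1 ≤ i < e` (so `m` divides the primitive part of `q^e - 1`, the largest such divisor). Then `m ≡ 1 (mod e)`. -/
theorem result (q e m : ℕ) (hq : 2 ≤ q) (he : 1 ≤ e)
    (hm : m ∣ q ^ e - 1) (hcop : ∀ i : ℕ, 1 ≤ i → i < e → Nat.Coprime m (q ^ i - 1)) :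
    m % e = 1 % e := by
  have hpos : 0 < q ^ e - 1 := by
    have : 1 < q ^ e := Nat.one_lt_pow (by omega) hq
    omega
  have key : ∀ k : ℕ, k ∣ m → k ≡ 1 [MOD e] := by
    intro k
    induction k using induction_on_primes with
    | zero =>
      intro h
      have := Nat.eq_zero_of_zero_dvd (h.trans hm)
      omega
    | one => intro _; rfl
    | prime_mul p a hp ih =>
      intro h
      have h1 := ih ((dvd_mul_left a p).trans h)
      have hpm : p ∣ m := (dvd_mul_right p a).trans h
      have h2 := (CL.Fgs.dvd_sub_one_of_primitive p q e hp (by omega) he (hpm.trans hm)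
        (fun i hi1 hie hd => hp.one_lt.ne' (Nat.eq_one_of_dvd_coprimes (hcop i hi1 hie) hpm hd))).2
      have h3 : p ≡ 1 [MOD e] := ((Nat.modEq_iff_dvd' hp.one_le).2 h2).symm
      simpa using h3.mul h1
  exact key m dvd_rfl

end Cfsg.Agent.S4422
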