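import Cfsg.Statements.S4423
import Cfsg.Agent.Fgs.Zsigmondy

set_option autoImplicit false
open Cfsg

namespace Cfsg.Agent.S4423

theorem aux (q e m N : ℕ) (hN : q ^ e - 1 = N) (A B : ℕ) (hAB : N ∣ A * B)
    (hB : Nat.Coprime m B) (hm : m ∣ q ^ e - 1) (hA : 0 < A) : m ≤ A :=
  Nat.le_of_dvd hA (hB.dvd_of_dvd_mul_right ((hN ▸ hm).trans hAB))

theorem aux2 (q e m : ℕ) (l : List ℕ) (hl : ∀ i ∈ l, 1 ≤ i ∧ i < e)
    (hcop : ∀ i : ℕ, 1 ≤ i → i < e → Nat.Coprime m (q ^ i - 1)) :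
    Nat.Coprime m (l.map (fun i => q ^ i - 1)).prod := by
  rw [Nat.coprime_list_prod_right_iff]
  intro n hn
  obtain ⟨i, hi, rfl⟩ := List.mem_map.1 hn
  exact hcop i (hl i hi).1 (hl i hi).2

/-- Size of the primitive part of `q^e - 1`. For a prime power `q` and `e ≥ 3`, call a divisor of `q^e - 1` primitive when it is coprime to `q^i - 1` for every `1 ≤ i < e`; the primitive part is the largest primitive divisor. Apart from thirteen exceptional pairs, the primitive part is at least `3e + 1`: there is a primitive divisor `m ≥ 3e + 1` unless `(q, e)` is `(2, 6)` (where every primitive divisor is 1), one of `(2,4), (2,10), (2,12), (2,18), (3,4), (3,6), (5,6)` (where the primitive part is exactly `e + 1`), or one of `(2,3), (2,8), (2,20), (4,3), (4,6)` (where it is exactly `2e + 1`). The statement asserts the existence of a primitive divisor `m ≥ 3e + 1` outside the thirteen pairs, and that every primitive divisor is at most `2e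 + 1` for the thirteen pairs. -/
theorem result (q e : ℕ) (hq : IsPrimePow q) (he : 3 ≤ e) :
    ((q, e) ∉ [(2, 6), (2, 4), (2, 10), (2, 12), (2, 18), (3, 4), (3, 6), (5, 6), (2, 3), (2, 8), (2, 20), (4, 3), (4, 6)] →
      ∃ m : ℕ, m ∣ q ^ e - 1 ∧ (∀ i : ℕ, 1 ≤ i → i < e → Nat.Coprime m (q ^ i - 1)) ∧ 3 * e + 1 ≤ m) ∧
    ((q, e) ∈ [(2, 6), (2, 4), (2, 10), (2, 12), (2, 18), (3, 4), (3, 6), (5, 6), (2, 3), (2, 8), (2, 20), (4, 3), (4, 6)] →
      ∀ m : ℕ, m ∣ q ^ e - 1 → (∀ i : ℕ, 1 ≤ i → i < e → Nat.Coprime m (q ^ i - 1)) → m ≤ 2 * e + 1) := by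
  refine ⟨fun h => CL.Fgs.exists_large_primitive_divisor q e hq.two_le he h, ?_⟩
  intro h m hm hcop
  simp only [List.mem_cons, Prod.mk.injEq, List.not_mem_nil, or_false] at h
  rcases h with ⟨rfl, rfl⟩ | ⟨rfl, rfl⟩ | ⟨rfl, rfl⟩ | ⟨rfl, rfl⟩ | ⟨rfl, rfl⟩ | ⟨rfl, rfl⟩ | ⟨rfl, rfl⟩ |
    ⟨rfl, rfl⟩ | ⟨rfl, rfl⟩ | ⟨rfl, rfl⟩ | ⟨rfl, rfl⟩ | ⟨rfl, rfl⟩ | ⟨rfl, rfl⟩
  · exact (aux _ _ m _ rfl 1 _ (by decide) (aux2 _ _ m [2, 2, 3] (by decide) hcop) hm (by decide)).trans (by decide)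
  · exact (aux _ _ m _ rfl 5 _ (by decide) (aux2 _ _ m [2] (by decide) hcop) hm (by decide)).trans (by decide)
  · exact (aux _ _ m _ rfl 11 _ (by decide) (aux2 _ _ m [2, 5] (by decide) hcop) hm (by decide)).trans (by decide)
  · exact (aux _ _ m _ rfl 13 _ (by decide) (aux2 _ _ m [4, 6] (by decide) hcop) hm (by decide)).trans (by decide)
  · exact (aux _ _ m _ rfl 19 _ (by decide) (aux2 _ _ m [2, 6, 9] (by decide) hcop) hm (by decide)).trans (by decide)
  · exact (aux _ _ m _ rfl 5 _ (by decide) (aux2 _ _ m [1, 2] (by decide) hcop) hm (by decide)).trans (by decide)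
  · exact (aux _ _ m _ rfl 7 _ (by decide) (aux2 _ _ m [2, 3] (by decide) hcop) hm (by decide)).trans (by decide)
  · exact (aux _ _ m _ rfl 7 _ (by decide) (aux2 _ _ m [2, 2, 3] (by decide) hcop) hm (by decide)).trans (by decide)
  · exact (aux _ _ m _ rfl 7 _ (by decide) (aux2 _ _ m [1] (by decide) hcop) hm (by decide)).trans (by decide)
  · exact (aux _ _ m _ rfl 17 _ (by decide) (aux2 _ _ m [4] (by decide) hcop) hm (by decide)).trans (by decide)
  · exact (aux _ _ m _ rfl 41 _ (by decide) (aux2 _ _ m [4, 4, 10] (by decide) hcop) hm (by decide)).trans (by decide)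
  · exact (aux _ _ m _ rfl 7 _ (by decide) (aux2 _ _ m [1, 1] (by decide) hcop) hm (by decide)).trans (by decide)
  · exact (aux _ _ m _ rfl 13 _ (by decide) (aux2 _ _ m [2, 3] (by decide) hcop) hm (by decide)).trans (by decide)

end Cfsg.Agent.S4423
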