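import Cfsg.Statements.S4425
import Cfsg.Agent.Blk.TildeInt

set_option autoImplicit false
open Cfsg

namespace Cfsg.Agent.S4425

/-- Let χ be an irreducible character of the finite group G, p a prime, p^a the p-part of the order of G and p^b the p-part of the degree χ(1). Let χ̃ be the class function equal to p^a · χ on p-regular elements and zero on p-singular elements. Then p^(−b) · χ̃ is a generalized character of G, while p^(−(b+1)) · χ̃ is not. -/
theorem result {G : Type*} [Group G] [Finite G] (p : ℕ) [Fact p.Prime] (χ : Cfsg.IrrCharacter G) : Cfsg.IsGeneralizedCharacter G (fun x : G => if p ∣ orderOf x then (0 : ℂ) else ((p ^ ((Nat.card G).factorization p - (Cfsg.charDegree (χ : G → ℂ)).factorization p) : ℕ) : ℂ) * (χ : G → ℂ) x) ∧ ¬ Cfsg.IsGeneralizedCharacter G (fun x : G => if p ∣ orderOf x then (0 : ℂ) else ((p ^ (Nat.card G).factorization p : ℕ) : ℂ) / ((p ^ ((Cfsg.charDegree (χ : G → ℂ)).factorization p + 1) : ℕ) : ℂ) * (χ : G → ℂ) x) := by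
  have hp : p.Prime := Fact.out
  have hle := CL.Blk.factorization_charDegree_le p χ.2
  constructor
  · have h := CL.Blk.isGeneralizedCharacter_pow_smul_pRegularPart hp χ
      (k := (Nat.card G).factorization p - (Cfsg.charDegree (χ : G → ℂ)).factorization p) (by omega)
    convert h using 1
    funext x
    rw [Pi.smul_apply, CL.Blk.pRegularPart_apply]
    split_ifs <;> simp
  · intro h
    obtain ⟨k, hk⟩ := CL.Blk.genChar_one_dvd_of_vanish hp h (fun x hx => if_pos hx)
    have h1 : ¬ p ∣ orderOf (1 : G) := by simpa using hp.ne_one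
    simp only [h1, if_false] at hk
    have h2 : ((p ^ (Nat.card G).factorization p : ℕ) : ℂ) ≠ 0 :=
      Nat.cast_ne_zero.2 (pow_ne_zero _ hp.ne_zero)
    have h3 : ((p ^ ((Cfsg.charDegree (χ : G → ℂ)).factorization p + 1) : ℕ) : ℂ) ≠ 0 :=
      Nat.cast_ne_zero.2 (pow_ne_zero _ hp.ne_zero)
    rw [← CL.Blk.charDegree_cast_irr] at hk
    have h4 : (Cfsg.charDegree (χ : G → ℂ) : ℂ)
        = ((p ^ ((Cfsg.charDegree (χ : G → ℂ)).factorization p + 1) : ℕ) : ℂ) * k := by
      apply mul_left_cancel₀ h2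
      field_simp at hk
      rw [hk]
    have h5 : (Cfsg.charDegree (χ : G → ℂ) : ℤ)
        = ((p ^ ((Cfsg.charDegree (χ : G → ℂ)).factorization p + 1) : ℕ) : ℤ) * k := by
      exact_mod_cast h4
    have h6 : p ^ ((Cfsg.charDegree (χ : G → ℂ)).factorization p + 1) ∣ Cfsg.charDegree (χ : G → ℂ) :=
      Int.natCast_dvd_natCast.1 ⟨k, h5⟩
    have := (hp.pow_dvd_iff_le_factorization (CL.Blk.charDegree_ne_zero χ.2)).1 h6
    omega

end Cfsg.Agent.S4425
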