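import Cfsg.Statements.S4426
import Cfsg.Agent.Blk.TildeInt

set_option autoImplicit false
open Cfsg

namespace Cfsg.Agent.S4426

/-- Let χ be an irreducible character in the p-block B of the finite group G (relative to a maximal ideal M of the algebraic integers containing p), let p^a be the p-part of the order of G, and let χ̃ be the class function equal to p^a · χ on p-regular elements and zero elsewhere. For ξ ∈ B the inner product [χ̃, ξ] is an integer. The following are equivalent: (a) χ has height zero in B; (b) for some ξ ∈ B the integer [χ̃, ξ] is nonzero and the exact power of p dividing it equals the exact power of p dividing ξ(1); (c) the same holds for every ξ ∈ B. -/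
theorem result {G : Type*} [Group G] [Fintype G] (p : ℕ) [Fact p.Prime] (M : Ideal Cfsg.AlgInt) (hM : Cfsg.IsPModular p M) (B : Set (Cfsg.IrrCharacter G)) (hB : Cfsg.IsPBlock M B) (χ : Cfsg.IrrCharacter G) (hχ : χ ∈ B) : (Cfsg.blockHeight p B (χ : G → ℂ) = 0 ↔ ∃ ξ ∈ B, ∃ n : ℤ, Cfsg.classInner (fun x : G => if p ∣ orderOf x then (0 : ℂ) else ((p ^ (Nat.card G).factorization p : ℕ) : ℂ) * (χ : G → ℂ) x) (ξ : G → ℂ) = (n : ℂ) ∧ n ≠ 0 ∧ padicValInt p n = (Cfsg.charDegree (ξ : G → ℂ)).factorization p) ∧ (Cfsg.blockHeight p B (χ : G → ℂ) = 0 ↔ ∀ ξ ∈ B, ∃ n : ℤ, Cfsg.classInner (fun x : G => if p ∣ orderOf x then (0 : ℂ) else ((p ^ (Nat.card G).factorization p : ℕ) : ℂ) * (χ : G → ℂ) x) (ξ : G → ℂ) = (n : ℂ) ∧ n ≠ 0 ∧ padicValInt p n = (Cfsg.charDegree (ξ : G → ℂ)).factorization p) := by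
  have key : ∀ ξ ∈ B, (Cfsg.blockHeight p B (χ : G → ℂ) = 0 ↔ ∃ n : ℤ,
      Cfsg.classInner (CL.Blk.tilde p (χ : G → ℂ)) (ξ : G → ℂ) = (n : ℂ) ∧ n ≠ 0 ∧
        padicValInt p n = (Cfsg.charDegree (ξ : G → ℂ)).factorization p) := by
    intro ξ hξ
    obtain ⟨n, hn⟩ := CL.Blk.exists_int_classInner_tilde hM.1 χ.2.isGeneralizedCharacter
      ξ.2.isGeneralizedCharacter
    have hv : ∀ n : ℤ, padicValInt p n = n.natAbs.factorization p := fun n => by
      rw [padicValInt, Nat.factorization_def _ hM.1]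
    rw [CL.Blk.height_zero_iff_val_tilde hM hB hχ hξ, hn, map_div₀,
      div_eq_one_iff_eq (CL.Blk.val_irr_one_pos ξ).ne', CL.Blk.val_intCast_eq_natAbs,
      ← CL.Blk.charDegree_cast_irr]
    constructor
    · intro h
      have hn0 : n ≠ 0 := by
        rintro rfl
        rw [Int.natAbs_zero, Nat.cast_zero, map_zero, eq_comm, Valuation.zero_iff,
          Nat.cast_eq_zero] at h
        exact CL.Blk.charDegree_ne_zero ξ.2 h
      refine ⟨n, rfl, hn0, ?_⟩
      rw [hv]
      exact (CL.Blk.val_natCast_eq_iff hM (Int.natAbs_ne_zero.2 hn0)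
        (CL.Blk.charDegree_ne_zero ξ.2)).1 h
    · rintro ⟨m, hm, hm0, h⟩
      obtain rfl : n = m := by exact_mod_cast hm
      rw [hv] at h
      exact (CL.Blk.val_natCast_eq_iff hM (Int.natAbs_ne_zero.2 hm0)
        (CL.Blk.charDegree_ne_zero ξ.2)).2 h
  exact ⟨⟨fun h => ⟨χ, hχ, (key χ hχ).1 h⟩, fun ⟨ξ, hξ, h⟩ => (key ξ hξ).2 h⟩,
    ⟨fun h ξ hξ => (key ξ hξ).1 h, fun h => (key χ hχ).2 (h χ hχ)⟩⟩

end Cfsg.Agent.S4426
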