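import Cfsg.Statements.S4430
import Cfsg.Agent.Blk.Third2

set_option autoImplicit false
open Cfsg

namespace Cfsg.Agent.S4430

/-- Let H be a subgroup of the finite group G, b a block of H whose induced block B₀ in G is defined (relative to a maximal ideal M of the algebraic integers containing p), and ξ ∈ b. For a block B of G let n_B be the value at 1 of the B-part of the induced character ξ^G (a natural number: the sum over χ ∈ B of the multiplicity of χ in ξ^G times χ(1)). Then for B = B₀ the exact power of p dividing n_B equals the exact power of p dividing ξ^G(1), while for every other block B either n_B = 0 or n_B is divisible by a strictly higher power of p than ξ^G(1). -/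
theorem result {G : Type*} [Group G] [Fintype G] (p : ℕ) [Fact p.Prime] (M : Ideal Cfsg.AlgInt) (hM : Cfsg.IsPModular p M) (H : Subgroup G) [Fintype H] (b : Set (Cfsg.IrrCharacter H)) (B₀ : Set (Cfsg.IrrCharacter G)) (hind : Cfsg.IsInducedBlock M H b B₀) (ξ : Cfsg.IrrCharacter H) (hξ : ξ ∈ b) : (∃ n : ℕ, Cfsg.blockPart B₀ (Cfsg.indFun H (ξ : H → ℂ)) 1 = (n : ℂ) ∧ n ≠ 0 ∧ n.factorization p = (Cfsg.charDegree (Cfsg.indFun H (ξ : H → ℂ))).factorization p) ∧ ∀ B : Set (Cfsg.IrrCharacter G), Cfsg.IsPBlock M B → B ≠ B₀ → ∃ n : ℕ, Cfsg.blockPart B (Cfsg.indFun H (ξ : H → ℂ)) 1 = (n : ℂ) ∧ (n = 0 ∨ (Cfsg.charDegree (Cfsg.indFun H (ξ : H → ℂ))).factorization p < n.factorization p) := by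
  classical
  have hi := CL.Char.isCharacter_indFun ξ.2.isCharacter
  have h0 := CL.Blk.indFun_irr_one_ne_zero ξ
  have hd : Cfsg.charDegree (Cfsg.indFun H (ξ : H → ℂ)) ≠ 0 := fun h => by
    rw [← CL.Blk.charDegree_cast hi, h, Nat.cast_zero] at h0
    exact h0 rfl
  constructor
  · obtain ⟨m, -, hm⟩ := CL.Blk.blockPart_one_eq_sum_nat hi B₀
    have h1 := CL.Blk.val_blockPart_indFun_eq_one hM hind hξ
    rw [hm] at h1 ⊢
    refine ⟨_, rfl, ?_⟩
    generalize (∑ χ : Cfsg.IrrCharacter G with χ ∈ B₀, m χ * Cfsg.charDegree (χ : G → ℂ)) = n at h1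
    have hn : n ≠ 0 := by
      rintro rfl
      simp at h1
    refine ⟨hn, ?_⟩
    rw [map_div₀, div_eq_one_iff_eq ((Valuation.ne_zero_iff _).2 h0), ← CL.Blk.charDegree_cast hi,
      CL.Blk.val_natCast_eq_iff hM hn hd] at h1
    exact h1
  · intro B hB hne
    obtain ⟨m, -, hm⟩ := CL.Blk.blockPart_one_eq_sum_nat hi B
    have h1 := CL.Blk.val_blockPart_indFun_lt_one hM hind hξ hB hne
    rw [hm] at h1 ⊢
    refine ⟨_, rfl, ?_⟩
    generalize (∑ χ : Cfsg.IrrCharacter G with χ ∈ B, m χ * Cfsg.charDegree (χ : G → ℂ)) = n at h1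
    rcases eq_or_ne n 0 with hn | hn
    · exact Or.inl hn
    · right
      rwa [← CL.Blk.charDegree_cast hi, CL.Blk.val_natCast_div_lt_one_iff hM hn hd] at h1

end Cfsg.Agent.S4430
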