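import Cfsg.Statements.S4442
import Cfsg.Agent.Inv.POPrinc

set_option autoImplicit false
open Cfsg
open CL.Inv.PO CL.Blk CL.Char Finset

namespace Cfsg.Agent.S4442

/-- Blocks of defect one. Let p be an odd prime and G a finite group whose Sylow p-subgroup P has order p; let C = C_G(P) and N = N_G(P), and fix a maximal ideal M of the algebraic integers containing p. Let B be a block of G with defect group P, b a block of C inducing B, and θ the member of b having P in its kernel (there is exactly one). Let T be the stabilizer of θ in N (the elements g ∈ N with θ(g c g⁻¹) = θ(c) for all c ∈ C) and e the index of C in T. Then e divides p − 1 and B contains exactly e + (p − 1)/e irreducible characters. Moreover B is the disjoint union of a set X of e characters and a set Y of (p − 1)/e characters such that, with f the index of C in N: every χ ∈ X has χ(1) ≡ ±(f/e)·θ(1) (mod p), there is one sign ε with ψ(1) ≡ ε f θ(1) (mod p) for all ψ ∈ Y, and all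 members of Y agree on the p-regular elements of G. -/
theorem result {G : Type*} [Group G] [Finite G] (p : ℕ) [Fact p.Prime] (M : Ideal Cfsg.AlgInt) (hM : Cfsg.IsPModular p M) (hodd : p ≠ 2) (P : Sylow p G) (hP : Nat.card P = p) (B : Set (Cfsg.IrrCharacter G)) (hB : Cfsg.IsPBlock M B) (hBP : Cfsg.IsDefectGroup p M B P) (b : Set (Cfsg.IrrCharacter (Subgroup.centralizer ((P : Subgroup G) : Set G)))) (hind : Cfsg.IsInducedBlock M (Subgroup.centralizer ((P : Subgroup G) : Set G)) b B) (θ : Cfsg.IrrCharacter (Subgroup.centralizer ((P : Subgroup G) : Set G))) (hθ : θ ∈ b) (hθP : ∀ x : Subgroup.centralizer ((P : Subgroup G) : Set G), (x : G) ∈ (P : Subgroup G) → (θ : Subgroup.centralizer ((P : Subgroup G) : Set G) → ℂ) x = (θ : Subgroup.centralizer ((P : Subgroup G) : Set G) → ℂ) 1) (T : Subgroup G) (hT : ∀ g : G, g ∈ T ↔ (g ∈ Subgroup.normalizer ((P : Subgroup G) : Set G) ∧ ∀ c c' : Subgroup.centralizer ((P : Subgroup G) : Set G), (c' : G) = g * c *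 g⁻¹ → (θ : Subgroup.centralizer ((P : Subgroup G) : Set G) → ℂ) c' = (θ : Subgroup.centralizer ((P : Subgroup G) : Set G) → ℂ) c)) (e f : ℕ) (he : (Subgroup.centralizer ((P : Subgroup G) : Set G)).relIndex T = e) (hf : (Subgroup.centralizer ((P : Subgroup G) : Set G)).relIndex (Subgroup.normalizer ((P : Subgroup G) : Set G)) = f) : e ∣ p - 1 ∧ Nat.card B = e + (p - 1) / e ∧ ∃ X Y : Set (Cfsg.IrrCharacter G), B = X ∪ Y ∧ Disjoint X Y ∧ Nat.card X = e ∧ Nat.card Y = (p - 1) / e ∧ (∀ χ ∈ X, (Cfsg.charDegree (χ : G → ℂ) : ℤ) ≡ ((f / e * Cfsg.charDegree (θ : Subgroup.centralizer ((P : Subgroup G) : Set G) → ℂ) : ℕ) : ℤ) [ZMOD p] ∨ (Cfsg.charDegree (χ : G → ℂ) : ℤ) ≡ -((f / e * Cfsg.charDegree (θ : Subgroup.centralizer ((P : Subgroup G) : Set G) → ℂ) : ℕ) : ℤ) [ZMOD p]) ∧ (∃ ε : ℤ, (ε = 1 ∨ ε = -1) ∧ ∀ ψ ∈ Y, (Cfsg.charDegree (ψ : G → ℂ) : ℤ) ≡ ε * ((f * Cfsg.charDegree (θ : Subgroup.centralizer ((P : Subgroup G) : Set G) → ℂ) : ℕ) : ℤ) [ZMOD p]) ∧ ∀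 ψ ∈ Y, ∀ ψ' ∈ Y, ∀ g : G, ¬ p ∣ orderOf g → (ψ : G → ℂ) g = (ψ' : G → ℂ) g := by
  classical
  haveI := Fintype.ofFinite G
  obtain ⟨x, hx, ⟨K⟩⟩ := exists_ctx_of_sylow P hP
  have hker : K.Ker θ := θ.2.mem_charKer.2 (hθP _ (hx.le (Subgroup.mem_zpowers x)))
  obtain ⟨D⟩ := K.nonempty_data hM hker (tr_eq_blockOf hM hind.1 hθ ▸ hind)
  have hef : f = K.f := by rw [← hf, ← K.relIndex_N, Nz, hx]
  have hTe : T = (K.stab θ).map (Nz x).subtype := by
    ext g
    rw [hT, ← show Nz x = Subgroup.normalizer ((P : Subgroup G) : Set G) by rw [Nz, hx]]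
    constructor
    · rintro ⟨hg, h⟩
      refine ⟨⟨g, hg⟩, ?_, rfl⟩
      ext c
      exact h c _ rfl
    · rintro ⟨n, hn, rfl⟩
      refine ⟨n.2, fun c c' h => ?_⟩
      conv_rhs => rw [← show K.cc n θ = θ from hn]
      exact congrArg _ (Subtype.ext h)
  have hee : e = Nat.card (K.E θ) := by
    have h1 := K.card_stab θ
    have h2 : Subgroup.centralizer ((P : Subgroup G) : Set G) ≤ T := by
      intro c hc
      rw [hTe]
      exact ⟨⟨c, K.C_le_N hc⟩, K.cc_of_mem hc θ, rfl⟩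
    have h3 := ((Subgroup.centralizer ((P : Subgroup G) : Set G)).subgroupOf T).index_mul_card
    rw [Nat.card_congr (Subgroup.subgroupOfEquivOfLe h2).toEquiv, ← Subgroup.relIndex, he] at h3
    rw [← Subgroup.card_map_of_injective (Subgroup.subtype_injective _), ← hTe, ← h3] at h1
    exact Nat.eq_of_mul_eq_mul_right Nat.card_pos h1
  subst hef hee
  refine ⟨(K.card_E_dvd_f θ).trans K.f_dvd, by rw [D.card_B, K.index_E], D.X, Set.range D.μ,
    D.eq_union, D.disjoint_X, ?_, ?_, fun χ hχ => ?_, ⟨D.ε, D.hε, ?_⟩, ?_⟩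
  · rw [Nat.card_coe_set_eq, Set.ncard_coe_finset, D.card_X]
  · rw [D.card_range_μ, K.index_E]
  · have := D.deg_X hχ
    rcases D.hs χ hχ with e | e <;> rw [e] at this
    · rw [one_mul] at this; exact Or.inl this
    · rw [neg_one_mul] at this; exact Or.inr this
  · rintro _ ⟨k, rfl⟩
    exact D.deg_μ_modEq k
  · rintro _ ⟨k, rfl⟩ _ ⟨l, rfl⟩ g hg
    exact D.μ_reg k l hg

end Cfsg.Agent.S4442
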