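import Cfsg.Statements.S4443
import Cfsg.Agent.Blk.Robinson

set_option autoImplicit false
open Cfsg

namespace Cfsg.Agent.S4443

open Matrix in
theorem rank_map_aux {F K n : Type*} [Field F] [Field K] [Fintype n] [DecidableEq n]
    (φ : F →+* K) (A : Matrix n n F) : (A.map φ).rank = A.rank := by
  classical
  obtain ⟨L, L', D, hM0⟩ := Matrix.Pivot.exists_list_transvec_mul_diagonal_mul_list_transvec A
  have h1 : ∀ L : List (TransvectionStruct n F),
      IsUnit (L.map TransvectionStruct.toMatrix).prod.det := by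
    intro L; rw [TransvectionStruct.det_toMatrix_prod]; exact isUnit_one
  have h2 : ∀ L : List (TransvectionStruct n F),
      IsUnit ((L.map TransvectionStruct.toMatrix).prod.map φ).det := by
    intro L
    have := RingHom.map_det φ (L.map TransvectionStruct.toMatrix).prod
    rw [RingHom.mapMatrix_apply] at this
    rw [← this]
    exact (h1 L).map φ
  rw [hM0, Matrix.map_mul, Matrix.map_mul, rank_mul_eq_left_of_isUnit_det _ _ (h2 L'),
    rank_mul_eq_right_of_isUnit_det _ _ (h2 L), rank_mul_eq_left_of_isUnit_det _ _ (h1 L'),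
    rank_mul_eq_right_of_isUnit_det _ _ (h1 L), diagonal_map (map_zero φ), rank_diagonal,
    rank_diagonal]
  simp

/-- Let D be a normal p-subgroup of the finite group G, of order p^d, let p^a be the p-part of the order of G, and fix a Sylow p-subgroup S and a maximal ideal M of the algebraic integers containing p. Index by a finite type ι (via an injective map K) exactly the conjugacy classes of p-regular elements x of G for which D is a Sylow p-subgroup of C_G(x). For classes K_i, K_j let ω(i, j) be the number of pairs (y, z) ∈ K_i × K_j with z y⁻¹ ∈ S; this number is divisible by p^(a−d). Then the number of p-blocks of G having D as a defect group equals the rank over ℤ/pℤ of the matrix with (i, j) entry ω(i, j)/p^(a−d) reduced modulo p. -/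
theorem result {G : Type*} [Group G] [Finite G] (p : ℕ) [Fact p.Prime] (M : Ideal Cfsg.AlgInt) (hM : Cfsg.IsPModular p M) (D : Subgroup G) [D.Normal] (hD : IsPGroup p D) (S : Sylow p G) {ι : Type*} [Fintype ι] [DecidableEq ι] (K : ι → ConjClasses G) (hKinj : Function.Injective K) (hK : ∀ C : ConjClasses G, (∃ i, K i = C) ↔ ∃ x ∈ C.carrier, ¬ p ∣ orderOf x ∧ ∃ Q : Sylow p (Subgroup.centralizer ({x} : Set G)), (Q : Subgroup (Subgroup.centralizer ({x} : Set G))).map (Subgroup.centralizer ({x} : Set G)).subtype = D) : Nat.card {B : Set (Cfsg.IrrCharacter G) // Cfsg.IsPBlock M B ∧ Cfsg.IsDefectGroup p M B D} = (Matrix.of fun i j : ι => ((Nat.card {yz : G × G // yz.1 ∈ (K i).carrier ∧ yz.2 ∈ (K j).carrier ∧ yz.2 * yz.1⁻¹ ∈ (S : Subgroup G)} / p ^ ((Nat.card G).factorization p - (Nat.card D).factorization p) : ℕ) : ZMod p)).rank := by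
  classical
  have hp : p.Prime := Fact.out
  haveI := CL.Blk.charP_resField hM
  have hex : ∀ i, ∃ x ∈ (K i).carrier, ¬ p ∣ orderOf x ∧
      CL.Grp.IsSylowIn p D (Subgroup.centralizer ({x} : Set G)) := fun i => by
    obtain ⟨x, h1, h2, h3⟩ := (hK (K i)).1 ⟨i, rfl⟩
    exact ⟨x, h1, h2, CL.Grp.isSylowIn_iff_exists.2 h3⟩
  choose x hx1 hx2 hx3 using hex
  have hmem : ∀ i y, y ∈ (K i).carrier ↔ IsConj (x i) y := fun i y => by
    rw [ConjClasses.mem_carrier_iff_mk_eq, ← ConjClasses.mem_carrier_iff_mk_eq.1 (hx1 i),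
      ConjClasses.mk_eq_mk_iff_isConj, isConj_comm]
  rw [← CL.Blk.rank_pairCount_eq_card hM S hD x
    (fun i j h => hKinj (by
      rw [← ConjClasses.mem_carrier_iff_mk_eq.1 (hx1 i), ← ConjClasses.mem_carrier_iff_mk_eq.1 (hx1 j),
        ConjClasses.mk_eq_mk_iff_isConj]
      exact h)) hx3
    (fun g h1 h2 => by
      obtain ⟨i, hi⟩ := (hK (ConjClasses.mk g)).2
        ⟨g, ConjClasses.mem_carrier_mk, h1, CL.Grp.isSylowIn_iff_exists.1 h2⟩
      exact ⟨i, (hmem i g).1 (hi ▸ ConjClasses.mem_carrier_mk)⟩),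
    ← rank_map_aux (ZMod.castHom (dvd_refl p) (CL.Blk.resField M))]
  congr 1
  ext i j
  simp only [hmem, Matrix.map_apply, Matrix.of_apply, map_natCast]
  obtain ⟨k, hk⟩ := IsPGroup.iff_card.1 hD
  have hle : k ≤ (Nat.card G).factorization p :=
    (hp.pow_dvd_iff_le_factorization Nat.card_pos.ne').1 (hk ▸ Subgroup.card_subgroup_dvd_card _)
  have h1 := CL.Blk.card_div_dvd_pairCount S.isPGroup' (x j) (hx3 i) (by
    rw [hk, S.card_eq_multiplicity]; exact pow_dvd_pow _ hle)
  rw [hk, S.card_eq_multiplicity, Nat.pow_div hle hp.pos] at h1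
  rw [hk, Nat.factorization_pow, Finsupp.smul_apply, hp.factorization_self, smul_eq_mul, mul_one,
    ← CL.Blk.red_natCast, ← Nat.cast_pow, ← Nat.cast_div h1 (by
      exact_mod_cast (pow_ne_zero _ hp.ne_zero))]
  rfl

end Cfsg.Agent.S4443
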