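import Cfsg.Statements.S4444
import Cfsg.Agent.Char.GlaubSolv

set_option autoImplicit false
open Cfsg

namespace Cfsg.Agent.S4444

/-- The Glauberman correspondence for a p-group of operators. Inside a finite group Γ let S normalise G with the orders of G and S coprime, S a p-group, and let C = G ⊓ C(S) be the fixed points. Call an irreducible character χ of G S-invariant when χ(s g s⁻¹) = χ(g) for s ∈ S, g ∈ G. Then: (i) for every S-invariant χ there is exactly one irreducible character β of C whose multiplicity [χ_C, β] in the restriction of χ is not divisible by p; (ii) that multiplicity is ≡ 1 or ≡ −1 (mod p); (iii) distinct S-invariant χ give distinct β; (iv) every irreducible character of C arises in this way. So χ ↦ β is a bijection from the S-invariant irreducible characters of G onto the irreducible characters of C. -/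
theorem result {Γ : Type*} [Group Γ] [Fintype Γ] (G S : Subgroup Γ) [Fintype G] (hnorm : ∀ s ∈ S, ∀ g ∈ G, s * g * s⁻¹ ∈ G) (hcop : (Nat.card G).Coprime (Nat.card S)) (p : ℕ) (hp : p.Prime) (hS : IsPGroup p S) (C : Subgroup Γ) [Fintype C] (hC : C = G ⊓ Subgroup.centralizer (S : Set Γ)) (hCG : C ≤ G) : (∀ χ : Cfsg.IrrCharacter G, (∀ s ∈ S, ∀ g g' : G, (g' : Γ) = s * g * s⁻¹ → (χ : G → ℂ) g' = (χ : G → ℂ) g) → ∃! β : Cfsg.IrrCharacter C, ∃ m : ℕ, Cfsg.classInner (fun c : C => (χ : G → ℂ) ⟨c, hCG c.2⟩) (β : C → ℂ) = (m : ℂ) ∧ ¬ p ∣ m) ∧ (∀ χ : Cfsg.IrrCharacter G, (∀ s ∈ S, ∀ g g' : G, (g' : Γ) = s * g * s⁻¹ → (χ : G → ℂ) g' = (χ : G → ℂ) g) → ∀ β : Cfsg.IrrCharacter C, ∀ m : ℕ, Cfsg.classInner (fun c : C => (χ : G → ℂ) ⟨c, hCG c.2⟩) (β : C → ℂ) = (m : ℂ) → ¬ p ∣ m → ((m : ℤ) ≡ 1 [ZMOD p] ∨ (m : ℤ) ≡ -1 [ZMOD p])) ∧ (∀ χ χ' : Cfsg.IrrCharacter G, (∀ s ∈ S, ∀ g g' : G, (g' : Γ) = s * g * s⁻¹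 → (χ : G → ℂ) g' = (χ : G → ℂ) g) → (∀ s ∈ S, ∀ g g' : G, (g' : Γ) = s * g * s⁻¹ → (χ' : G → ℂ) g' = (χ' : G → ℂ) g) → ∀ β : Cfsg.IrrCharacter C, ∀ m m' : ℕ, Cfsg.classInner (fun c : C => (χ : G → ℂ) ⟨c, hCG c.2⟩) (β : C → ℂ) = (m : ℂ) → ¬ p ∣ m → Cfsg.classInner (fun c : C => (χ' : G → ℂ) ⟨c, hCG c.2⟩) (β : C → ℂ) = (m' : ℂ) → ¬ p ∣ m' → χ = χ') ∧ (∀ β : Cfsg.IrrCharacter C, ∃ χ : Cfsg.IrrCharacter G, (∀ s ∈ S, ∀ g g' : G, (g' : Γ) = s * g * s⁻¹ → (χ : G → ℂ) g' = (χ : G → ℂ) g) ∧ ∃ m : ℕ, Cfsg.classInner (fun c : C => (χ : G → ℂ) ⟨c, hCG c.2⟩) (β : C → ℂ) = (m : ℂ) ∧ ¬ p ∣ m) := by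
  have hG : ¬ p ∣ Nat.card G ∨ Nat.card S = 1 := by
    have := Fact.mk hp
    obtain ⟨k, hk⟩ := hS.exists_card_eq
    rcases Nat.eq_zero_or_pos k with rfl | hk0
    · right; simpa using hk
    · left
      intro hd
      exact hp.one_lt.ne' (Nat.eq_one_of_dvd_coprimes hcop hd (hk ▸ dvd_pow_self p hk0.ne'))
  have h : CL.Char.IsGlCorr p (Subgroup.inclusion hCG)
      (fun χ => ∀ s ∈ S, ∀ g g' : G, (g' : Γ) = s * g * s⁻¹ → χ g' = χ g) (fun _ => True) := by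
    rcases hG with hG | hS1
    · exact (CL.Char.isGlCorr_pgroup hp hS hG (CL.Char.glConjHom hnorm) (Subgroup.inclusion hCG)
        (Subgroup.inclusion_injective hCG) (CL.Char.glConjHom_range_inclusion hnorm hC hCG)).congr
        (fun χ _ => CL.Char.glConjHom_inv_iff hnorm χ) (fun _ _ => Iff.rfl)
    · have hb : S = ⊥ := Subgroup.card_eq_one.mp hS1
      have hsurj : Function.Surjective (Subgroup.inclusion hCG) := fun g =>
        (CL.Char.glConjHom_range_inclusion hnorm hC hCG g).mpr fun a => by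
          have : a = 1 := Subtype.ext (Subgroup.mem_bot.mp (hb.le a.2))
          rw [this]; simp
      let e : C ≃* G := MulEquiv.ofBijective _ ⟨Subgroup.inclusion_injective hCG, hsurj⟩
      refine ⟨fun χ hχ _ => ⟨_, hχ.comp_mulEquiv e, trivial, CL.Char.GlRel.of_eq fun _ => rfl⟩,
        fun χ χ' β hχ _ hχ' _ hβ r r' => ?_, fun β hβ _ => ⟨_, hβ.comp_mulEquiv e.symm,
          fun s hs g g' e' => ?_, CL.Char.GlRel.of_eq fun c => by
            change β (e.symm (e c)) = _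
            simp⟩⟩
      · have h1 := r.unique hp (CL.Char.GlRel.of_eq fun _ => rfl) hβ (hχ.comp_mulEquiv e)
        have h2 := r'.unique hp (CL.Char.GlRel.of_eq fun _ => rfl) hβ (hχ'.comp_mulEquiv e)
        funext g
        obtain ⟨c, rfl⟩ := hsurj g
        exact congrFun (h1.symm.trans h2) c
      · rw [hb, Subgroup.mem_bot] at hs
        have : g' = g := Subtype.ext (by simpa [hs] using e')
        rw [this]
  have key : ∀ χ : IrrCharacter G,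
      (∀ s ∈ S, ∀ g g' : G, (g' : Γ) = s * g * s⁻¹ → (χ : G → ℂ) g' = (χ : G → ℂ) g) →
      ∀ (β : IrrCharacter C) (m : ℕ),
      classInner (fun c : C => (χ : G → ℂ) ⟨c, hCG c.2⟩) (β : C → ℂ) = (m : ℂ) → ¬ p ∣ m →
      CL.Char.GlRel p (Subgroup.inclusion hCG) χ β := by
    intro χ hχ β m hm hpm
    obtain ⟨γ, hγ, -, r⟩ := h.ex χ χ.2 hχ
    by_cases e : γ = β
    · exact e ▸ r
    · exact absurd (by exact_mod_cast r.dvd_mult hγ β.2 e (m := m) hm) hpm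
  have key2 : ∀ (χ : G → ℂ) (β : C → ℂ), IsIrrCharacter G χ → IsIrrCharacter C β →
      CL.Char.GlRel p (Subgroup.inclusion hCG) χ β →
      ∃ m : ℕ, classInner (fun c : C => χ ⟨c, hCG c.2⟩) β = (m : ℂ) ∧ ¬ p ∣ m := by
    intro χ β hχ hβ r
    obtain ⟨m, hm⟩ := (hχ.isCharacter.comp (Subgroup.inclusion hCG)).exists_nat_classInner hβ.isCharacter
    exact ⟨m, hm, fun hd => r.not_dvd_mult hp hβ (m := m) hm (by exact_mod_cast hd)⟩
  refine ⟨fun χ hχ => ?_, fun χ hχ β m hm hpm => ?_, fun χ χ' hχ hχ' β m m' hm hpm hm' hpm' => ?_,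
    fun β => ?_⟩
  · obtain ⟨β, hβ, -, r⟩ := h.ex χ χ.2 hχ
    refine ⟨⟨β, hβ⟩, key2 χ β χ.2 hβ r, ?_⟩
    rintro γ ⟨m, hm, hpm⟩
    exact Subtype.ext ((key χ hχ γ m hm hpm).unique hp r γ.2 hβ)
  · have := (key χ hχ β m hm hpm).mult_self β.2 (m := m) hm
    rw [← ZMod.intCast_eq_intCast_iff, ← ZMod.intCast_eq_intCast_iff]
    simpa using this
  · exact Subtype.ext (h.inj _ _ _ χ.2 hχ χ'.2 hχ' β.2 (key χ hχ β m hm hpm) (key χ' hχ' β m' hm' hpm'))
  · obtain ⟨χ, hχ, hinv, r⟩ := h.surj β β.2 trivial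
    exact ⟨⟨χ, hχ⟩, hinv, key2 χ β hχ β.2 r⟩

end Cfsg.Agent.S4444
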