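import Cfsg.Statements.S4445
import Cfsg.Agent.Char.GlaubSolv

set_option autoImplicit false
open Cfsg

namespace Cfsg.Agent.S4445

/-- Inside a finite group Γ let the solvable subgroup S normalise G with the orders of G and S coprime. Then the number of S-invariant irreducible characters of G (χ(s g s⁻¹) = χ(g) for all s ∈ S, g ∈ G) equals the number of conjugacy classes of G mapped to themselves by conjugation by every element of S. -/
theorem result {Γ : Type*} [Group Γ] [Fintype Γ] (G S : Subgroup Γ) [Fintype G] (hnorm : ∀ s ∈ S, ∀ g ∈ G, s * g * s⁻¹ ∈ G) (hcop : (Nat.card G).Coprime (Nat.card S)) (hsolv : Group.IsSolvable S) : Nat.card {χ : Cfsg.IrrCharacter G // (∀ s ∈ S, ∀ g g' : G, (g' : Γ) = s * g * s⁻¹ → (χ : G → ℂ) g' = (χ : G → ℂ) g)} = Nat.card {K : ConjClasses G // ∀ s ∈ S, ∀ g g' : G, (g' : Γ) = s * g * s⁻¹ → ConjClasses.mk g = K → ConjClasses.mk g' = K} := by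
  have h1 := CL.Char.gl_card_irr_solvable hcop.symm (CL.Char.glConjHom hnorm)
    (Subgroup.inclusion (inf_le_left : G ⊓ Subgroup.centralizer (S : Set Γ) ≤ G))
    (Subgroup.inclusion_injective _) (CL.Char.glConjHom_range_inclusion hnorm rfl _)
  have h2 := CL.Char.gl_card_classes (CL.Char.glConjHom hnorm) hcop.symm (Or.inl hsolv)
    (Subgroup.inclusion (inf_le_left : G ⊓ Subgroup.centralizer (S : Set Γ) ≤ G))
    (Subgroup.inclusion_injective _) (CL.Char.glConjHom_range_inclusion hnorm rfl _)
  rw [CL.Char.card_irr_eq_card_conjClasses, ← h2] at h1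
  refine (Nat.card_congr (Equiv.subtypeEquivRight fun χ : IrrCharacter G =>
    (CL.Char.glConjHom_inv_iff hnorm (χ : G → ℂ)).symm)).trans (h1.trans ?_)
  refine Nat.card_congr (Equiv.subtypeEquivRight fun K => ⟨fun h s hs g g' e => ?_, fun h a g => ?_⟩)
  · have : g' = CL.Char.glConjHom hnorm ⟨s, hs⟩ g := Subtype.ext e
    rw [this]
    exact h _ g
  · exact h a a.2 g _ rfl

end Cfsg.Agent.S4445
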