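import Cfsg.Statements.S4446
import Cfsg.Agent.Char.GlaubSolv

set_option autoImplicit false
open Cfsg

namespace Cfsg.Agent.S4446

/-- Let the finite group Γ be generated by a normal subgroup G and a cyclic subgroup S of coprime orders, C = G ⊓ C(S), and let χ be an S-invariant irreducible character of G with canonical extension χ̂ to Γ (the extension whose determinantal order is coprime to the order of S). Then there are exactly one irreducible character β of C and one sign ε such that χ̂(c s) = ε β(c) for every c ∈ C and every generator s of S; this β is a constituent of the restriction of χ to C; distinct S-invariant χ give distinct β; and every irreducible character of C arises in this way. -/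
theorem result {Γ : Type*} [Group Γ] [Fintype Γ] (G S : Subgroup Γ) [Fintype G] (hnorm : ∀ s ∈ S, ∀ g ∈ G, s * g * s⁻¹ ∈ G) (hcop : (Nat.card G).Coprime (Nat.card S)) (htop : G ⊔ S = ⊤) (hcyc : IsCyclic S) (C : Subgroup Γ) [Fintype C] (hC : C = G ⊓ Subgroup.centralizer (S : Set Γ)) (hCG : C ≤ G) : (∀ (χ : Cfsg.IrrCharacter G) (χh : Cfsg.IrrCharacter Γ), (∀ s ∈ S, ∀ g g' : G, (g' : Γ) = s * g * s⁻¹ → (χ : G → ℂ) g' = (χ : G → ℂ) g) → (∀ g : G, (χh : Γ → ℂ) g = (χ : G → ℂ) g) → (Cfsg.detOrder (χh : Γ → ℂ)).Coprime (Nat.card S) → (∃! βε : Cfsg.IrrCharacter C × ℤ, (βε.2 = 1 ∨ βε.2 = -1) ∧ ∀ c : C, ∀ s : Γ, Subgroup.zpowers s = S → (χh : Γ → ℂ) ((c : Γ) * s) = (βε.2 : ℂ) * (βε.1 : C → ℂ) c) ∧ ∀ β : Cfsg.IrrCharacter C, ∀ ε : ℤ, (ε = 1 ∨ ε = -1) → (∀ c : C, ∀ s : Γ, Subgroup.zpowers s = S → (χh : Γ → ℂ) ((c : Γ) * s) = (ε : ℂ) * (β : C → ℂ) c) → Cfsg.classInner (fun c : C => (χ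 : G → ℂ) ⟨c, hCG c.2⟩) (β : C → ℂ) ≠ 0) ∧ (∀ (χ χ' : Cfsg.IrrCharacter G) (χh χh' : Cfsg.IrrCharacter Γ), (∀ s ∈ S, ∀ g g' : G, (g' : Γ) = s * g * s⁻¹ → (χ : G → ℂ) g' = (χ : G → ℂ) g) → (∀ s ∈ S, ∀ g g' : G, (g' : Γ) = s * g * s⁻¹ → (χ' : G → ℂ) g' = (χ' : G → ℂ) g) → (∀ g : G, (χh : Γ → ℂ) g = (χ : G → ℂ) g) → (∀ g : G, (χh' : Γ → ℂ) g = (χ' : G → ℂ) g) → (Cfsg.detOrder (χh : Γ → ℂ)).Coprime (Nat.card S) → (Cfsg.detOrder (χh' : Γ → ℂ)).Coprime (Nat.card S) → ∀ β : Cfsg.IrrCharacter C, ∀ ε ε' : ℤ, (ε = 1 ∨ ε = -1) → (ε' = 1 ∨ ε' = -1) → (∀ c : C, ∀ s : Γ, Subgroup.zpowers s = S → (χh : Γ → ℂ) ((c : Γ) * s) = (ε : ℂ) * (β : C → ℂ) c) → (∀ c : C, ∀ s : Γ, Subgroup.zpowers s = S → (χh' : Γ → ℂ) ((c : Γ) * s) = (ε' : ℂ) * (β : C → ℂ) c) → χ = χ') ∧ (∀ β : Cfsg.IrrCharacter C, ∃ (χ : Cfsg.IrrCharacter G) (χh : Cfsg.IrrCharacter Γ) (ε : ℤ), (∀ s ∈ S, ∀ g g' : G, (g' : Γ) = s *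 g * s⁻¹ → (χ : G → ℂ) g' = (χ : G → ℂ) g) ∧ (∀ g : G, (χh : Γ → ℂ) g = (χ : G → ℂ) g) ∧ (Cfsg.detOrder (χh : Γ → ℂ)).Coprime (Nat.card S) ∧ (ε = 1 ∨ ε = -1) ∧ ∀ c : C, ∀ s : Γ, Subgroup.zpowers s = S → (χh : Γ → ℂ) ((c : Γ) * s) = (ε : ℂ) * (β : C → ℂ) c) := by
  have hG := CL.Char.gl_normal_of_sup hnorm htop
  have hcy : ∀ s : Γ, (hs : Subgroup.zpowers s = S) → CL.Char.GlCyc G.subtype (Subgroup.inclusion hCG) s
      (CL.Char.glConjHom hnorm ⟨s, hs ▸ Subgroup.mem_zpowers s⟩) := fun s hs =>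
    CL.Char.glCyc_ambient hnorm hcop ⟨s, hs ▸ Subgroup.mem_zpowers s⟩
      (by rw [hC, ← CL.Char.gl_centralizer_zpowers]; simp only [hs]) hCG
  obtain ⟨s₀, hs₀⟩ : ∃ s : Γ, Subgroup.zpowers s = S := (Subgroup.isCyclic_iff_exists_zpowers_eq_top S).mp hcyc
  have h₀ := hcy s₀ hs₀
  have ho : orderOf s₀ = Nat.card S := by rw [← hs₀, Nat.card_zpowers]
  have hres : ∀ {χ : IrrCharacter G} {χh : Γ → ℂ}, (∀ g : G, χh g = (χ : G → ℂ) g) →
      IsIrrCharacter G (fun g => χh (G.subtype g)) := fun {χ χh} h => by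
    have : (fun g => χh (G.subtype g)) = χ := funext h
    rw [this]; exact χ.2
  have hall : ∀ {χh : Γ → ℂ}, IsIrrCharacter Γ χh → IsIrrCharacter G (fun g => χh (G.subtype g)) →
      (detOrder χh).Coprime (Nat.card S) → ∀ (c : C) (s : Γ), Subgroup.zpowers s = S →
      χh (c * s) = χh (c * s₀) := by
    intro χh h1 h2 h3 c s hs
    obtain ⟨m, rfl⟩ := (mem_powers_iff_mem_zpowers.mpr (hs₀ ▸ hs ▸ Subgroup.mem_zpowers s) :
      s ∈ Submonoid.powers s₀)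
    refine h₀.apply_mul_pow h1 h2 (CL.Char.gl_detChar_eq_one (ho ▸ h3)) ?_ c
    have : s₀ ∈ Subgroup.zpowers (s₀ ^ m) := by
      simp only at hs
      rw [hs, ← hs₀]; exact Subgroup.mem_zpowers s₀
    exact mem_zpowers_pow_iff.mp this
  have hne : ∀ {ε : ℤ}, (ε = 1 ∨ ε = -1) → (ε : ℂ) ≠ 0 := by
    rintro ε (rfl | rfl) <;> simp
  refine ⟨fun χ χh _ hext hdet => ⟨?_, fun β ε hε h => ?_⟩,
    fun χ χ' χh χh' _ _ hext hext' _ _ β ε ε' hε hε' h h' => ?_, fun β => ?_⟩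
  · obtain ⟨β, ε, hε, h⟩ := h₀.exists_sign χh.2 (hres hext) (CL.Char.gl_detChar_eq_one (ho ▸ hdet))
    refine ⟨(β, ε), ⟨hε, fun c s hs => (hall χh.2 (hres hext) hdet c s hs).trans (h c)⟩, ?_⟩
    rintro ⟨β', ε'⟩ ⟨hε', h'⟩
    have e : (ε' : ℂ) • (β' : C → ℂ) = (ε : ℂ) • (β : C → ℂ) := funext fun c => (h' c s₀ hs₀).symm.trans (h c)
    have e1 : β' = β := Subtype.ext (CL.Char.eq_of_classInner_smul_ne_zero β'.2 β.2 (c := ε') (by
      rw [e, CL.Char.classInner_smul_left, β.2.classInner_self, mul_one]; exact hne hε))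
    subst e1
    have e2 : (ε' : ℂ) = ε := mul_right_cancel₀ β'.2.one_ne_zero (congrFun e 1)
    exact Prod.ext rfl (by exact_mod_cast e2)
  · have e : (fun c => (χh : Γ → ℂ) (G.subtype (Subgroup.inclusion hCG c) * s₀)) = (ε : ℂ) • (β : C → ℂ) :=
      funext fun c => h c s₀ hs₀
    have := h₀.classInner_res_ne_zero χh.2.isCharacter β.2.isCharacter (by
      rw [e, CL.Char.classInner_smul_left, β.2.classInner_self, mul_one]; exact hne hε)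
    simp only [← hext]
    exact this
  · have := h₀.res_eq_of_sign χh.2.isCharacter χh'.2.isCharacter (hres hext) (hres hext') β.2 (hne hε) (hne hε')
      (fun c => h c s₀ hs₀) (fun c => h' c s₀ hs₀)
    exact Subtype.ext (funext fun g => (hext g).symm.trans ((congrFun this g).trans (hext' g)))
  · obtain ⟨χ, ψ, ε, h1, h2, h3, h4, h5, h6, h7⟩ := h₀.exists_of_irr (by
      rw [Subgroup.range_subtype, hs₀, htop]) β.2
    have hd : (detOrder ψ).Coprime (Nat.card S) := hcop.coprime_dvd_left h5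
    refine ⟨⟨χ, h1⟩, ⟨ψ, h3⟩, ε, fun s _ g g' e => h₀.invariant_of_aut (by
      rw [Subgroup.range_subtype, hs₀, htop]) h1.isClassFunction h2 s g g' e, h4, hd, h6, fun c s hs => ?_⟩
    exact (hall h3 (hres (χ := ⟨χ, h1⟩) h4) hd c s hs).trans (h7 c)

end Cfsg.Agent.S4446
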