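import Cfsg.Statements.S4448
import Cfsg.Agent.Char.GlaubInv

set_option autoImplicit false
open Cfsg

namespace Cfsg.Agent.S4448

/-- Inside a finite group Γ let S normalise G and also normalise a normal subgroup N of G, with the order of S coprime to the index of N in G and G/N solvable. Then for every S-invariant irreducible character ϑ of N, the induced character ϑ^G has an S-invariant irreducible constituent. -/
theorem result {Γ : Type*} [Group Γ] [Fintype Γ] (G S N : Subgroup Γ) [Fintype G] [Fintype N] (hnorm : ∀ s ∈ S, ∀ g ∈ G, s * g * s⁻¹ ∈ G) (hNG : N ≤ G) [hNn : (N.subgroupOf G).Normal] (hNS : ∀ s ∈ S, ∀ n ∈ N, s * n * s⁻¹ ∈ N) (hcop : (N.relIndex G).Coprime (Nat.card S)) (hsolv : Group.IsSolvable (G ⧸ N.subgroupOf G)) (θ : Cfsg.IrrCharacter N) (hinv : (∀ s ∈ S, ∀ g g' : N, (g' : Γ) = s * g * s⁻¹ → (θ : N → ℂ) g' = (θ : N → ℂ) g)) : ∃ χ : Cfsg.IrrCharacter G, Cfsg.classInner (fun n : N => (χ : G → ℂ) ⟨n, hNG n.2⟩) (θ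 : N → ℂ) ≠ 0 ∧ (∀ s ∈ S, ∀ g g' : G, (g' : Γ) = s * g * s⁻¹ → (χ : G → ℂ) g' = (χ : G → ℂ) g) := by
  have hr : (Subgroup.inclusion hNG).range = N.subgroupOf G := Subgroup.inclusion_range hNG
  have hn : (Subgroup.inclusion hNG).range.Normal := hr ▸ hNn
  obtain ⟨χ, hχ, hχi, h1⟩ := CL.Char.gl_exists_inv_over_solv_aux (CL.Char.glConjHom hNS) ⊥ θ.2
    ((CL.Char.glConjHom_inv_iff hNS _).mpr hinv) _ G rfl (CL.Char.glConjHom hnorm) (Subgroup.inclusion hNG)
    (Subgroup.inclusion_injective hNG) (fun _ _ => rfl) (fun b hb => ⟨1, fun g => by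
      rw [Subgroup.mem_bot.mp hb]; simp⟩) (by rw [Subgroup.index_bot, hr]; exact hcop.symm)
    (Group.isSolvable_of_surjective (f := (QuotientGroup.quotientMulEquivOfEq hr).symm.toMonoidHom)
      (QuotientGroup.quotientMulEquivOfEq hr).symm.surjective)
  exact ⟨⟨χ, hχ⟩, h1, (CL.Char.glConjHom_inv_iff hnorm _).mp hχi⟩

end Cfsg.Agent.S4448
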