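import Cfsg.Statements.S4451
import Cfsg.Agent.Char.GlaubSolv

set_option autoImplicit false
open Cfsg

namespace Cfsg.Agent.S4451

open CL.Char in
theorem char_pm_one {S : Type*} [Group S] [Fintype S] [Nontrivial S] (hS : ∀ a b : S, a * b = b * a)
    {φ : S → ℂ} (hφ : IsCharacter S φ) (h : ∀ x, x ≠ 1 → φ x = 1 ∨ φ x = -1) :
    ∃ (a : ℕ) (ε : ℤ) (μ : S → ℂ), (ε = 1 ∨ ε = -1) ∧ IsIrrCharacter S μ ∧
      φ = (a : ℂ) • regChar S + (ε : ℂ) • μ := by
  classical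
  obtain ⟨t₀, ht₀⟩ := hφ.exists_nat_one
  have hn2 : 2 ≤ Nat.card S := Finite.one_lt_card
  obtain ⟨a, t, hat, ht1, ht2⟩ : ∃ a t : ℤ, (t₀ : ℤ) = a * Nat.card S + t ∧ -(Nat.card S : ℤ) ≤ 2 * t ∧
      2 * t ≤ Nat.card S := by
    have h1 := Int.mul_ediv_add_emod (t₀ : ℤ) (Nat.card S)
    have h2 := Int.emod_nonneg (t₀ : ℤ) (b := Nat.card S) (by omega)
    have h3 := Int.emod_lt_of_pos (t₀ : ℤ) (b := Nat.card S) (by omega)
    by_cases h4 : 2 * ((t₀ : ℤ) % Nat.card S) ≤ Nat.card S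
    · exact ⟨t₀ / Nat.card S, t₀ % Nat.card S, by linarith, by omega, h4⟩
    · exact ⟨t₀ / Nat.card S + 1, t₀ % Nat.card S - Nat.card S, by linarith, by omega, by omega⟩
  have hψ : IsGeneralizedCharacter S (φ - (a : ℂ) • regChar S) :=
    hφ.isGeneralizedCharacter.sub (isCharacter_regChar.isGeneralizedCharacter.intCast_smul a)
  obtain ⟨u, hu, hsum⟩ := hψ.exists_eq_sum_int
  have hψ1 : (φ - (a : ℂ) • regChar S) 1 = t := by
    simp only [Pi.sub_apply, Pi.smul_apply, regChar_one, ht₀, smul_eq_mul]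
    have : ((t₀ : ℤ) : ℂ) = a * (Nat.card S : ℤ) + t := by exact_mod_cast hat
    push_cast at this
    rw [this]; ring
  have ht : t = ∑ l, u l := by
    have := congrFun hsum 1
    rw [hψ1, Finset.sum_apply] at this
    simp only [Pi.smul_apply, (Subtype.prop _ : IsIrrCharacter S _).one_eq_one_of_comm hS, smul_eq_mul,
      mul_one] at this
    exact_mod_cast this
  have hQ := classInner_self_eq_sum_sq hψ.isClassFunction u hu
  have hQ2 : (Nat.card S : ℤ) * ∑ l, u l ^ 2 = t ^ 2 + (Nat.card S - 1) := by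
    have h1 : (Nat.card S : ℂ) * classInner (φ - (a : ℂ) • regChar S) (φ - (a : ℂ) • regChar S) =
        t ^ 2 + (Nat.card S - 1) := by
      rw [classInner_def, ← mul_assoc, mul_inv_cancel₀ natCard_ne_zero, one_mul,
        ← Finset.add_sum_erase _ _ (Finset.mem_univ 1), hψ1, Finset.sum_congr rfl (g := fun _ => 1)]
      · simp [Finset.card_erase_of_mem, sq, Nat.cast_sub Fintype.card_pos]
      · intro x hx
        have hx1 := Finset.ne_of_mem_erase hx
        simp only [Pi.sub_apply, Pi.smul_apply, regChar_of_ne_one hx1, smul_zero, sub_zero]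
        rcases h x hx1 with e | e <;> simp [e]
    rw [hQ] at h1
    exact_mod_cast h1
  have h1 : t ≤ ∑ l, u l ^ 2 := ht ▸ Finset.sum_le_sum fun l _ => by nlinarith [sq_nonneg (2 * u l - 1)]
  have h2 : -t ≤ ∑ l, u l ^ 2 := by
    rw [ht, ← Finset.sum_neg_distrib]
    exact Finset.sum_le_sum fun l _ => by nlinarith [sq_nonneg (2 * u l + 1)]
  have hQ1 : ∑ l, u l ^ 2 = 1 := by
    generalize ∑ l, u l ^ 2 = Q at h1 h2 hQ2
    have hn : (2 : ℤ) ≤ Nat.card S := by exact_mod_cast hn2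
    generalize (Nat.card S : ℤ) = n at *
    have h3 : t = -1 ∨ t = 0 ∨ t = 1 := by
      by_contra hc
      have h4 : t ≤ -2 ∨ 2 ≤ t := by omega
      rcases h4 with h4 | h4 <;> nlinarith
    rcases h3 with rfl | rfl | rfl
    · nlinarith
    · exfalso
      have : 0 < Q := by nlinarith
      nlinarith
    · nlinarith
  obtain ⟨ε, μ, hε, hμ, e⟩ := hψ.exists_sign_irr (by rw [hQ, hQ1]; simp)
  have hcard : 1 < Nat.card (IrrCharacter S) := by rw [card_irr_of_comm hS]; exact hn2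
  have := Finite.one_lt_card_iff_nontrivial.mp hcard
  obtain ⟨l, hl⟩ := exists_ne (⟨μ, hμ⟩ : IrrCharacter S)
  obtain ⟨b, hb⟩ := hφ.exists_nat_classInner l.2.isCharacter
  have e' : φ = (a : ℂ) • regChar S + ε • μ := by rw [← e]; simp
  have hab : (a : ℂ) = b := by
    rw [← hb, e', classInner_add_left, classInner_smul_left, classInner_smul_left, classInner_regChar_left,
      l.2.one_eq_one_of_comm hS, hμ.classInner_of_ne l.2 fun h => hl (Subtype.ext h.symm)]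
    simp
  rcases hε with rfl | rfl
  · exact ⟨b, 1, μ, Or.inl rfl, hμ, by rw [e', hab]; simp⟩
  · exact ⟨b, -1, μ, Or.inr rfl, hμ, by rw [e', hab]; simp⟩


/-- Let the finite group Γ be generated by a normal subgroup G and a cyclic subgroup S of coprime orders such that every non-identity element of S has the same centraliser C = G ⊓ C(S) in G. Let χ be an S-invariant irreducible character of G, χ̂ its canonical extension to Γ (determinantal order coprime to the order of S), and β the irreducible character of C with χ̂(c s) = ε₀ β(c) for c ∈ C and generators s of S (ε₀ = ±1). Then there are a sign ε = ±1, which may differ from ε₀, and a linear character μ of S with μ² = 1, such that: (a) χ̂(c x) = ε β(c) μ(x) for all c ∈ C and all x ∈ S other than 1; (b) the restriction of χ to C equals |S|·ϑ + ε β for some character ϑ of C or ϑ = 0; (c) |S| divides χ(1) − ε β(1). -/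
theorem result {Γ : Type*} [Group Γ] [Fintype Γ] (G S : Subgroup Γ) [Fintype G] (hnorm : ∀ s ∈ S, ∀ g ∈ G, s * g * s⁻¹ ∈ G) (hcop : (Nat.card G).Coprime (Nat.card S)) (htop : G ⊔ S = ⊤) (hcyc : IsCyclic S) (C : Subgroup Γ) [Fintype C] (hC : C = G ⊓ Subgroup.centralizer (S : Set Γ)) (hCG : C ≤ G) (hfpf : ∀ x ∈ S, x ≠ 1 → G ⊓ Subgroup.centralizer ({x} : Set Γ) = C) (χ : Cfsg.IrrCharacter G) (hinv : (∀ s ∈ S, ∀ g g' : G, (g' : Γ) = s * g * s⁻¹ → (χ : G → ℂ) g' = (χ : G → ℂ) g)) (χh : Cfsg.IrrCharacter Γ) (hext : (∀ g : G, (χh : Γ → ℂ) g = (χ : G → ℂ) g)) (hdet : (Cfsg.detOrder (χh : Γ → ℂ)).Coprime (Nat.card S)) (β : Cfsg.IrrCharacter C) (ε₀ : ℤ) (hε₀ : ε₀ = 1 ∨ ε₀ = -1) (hβ : ∀ c : C, ∀ s : Γ, Subgroup.zpowers s = S → (χh : Γ → ℂ) ((c : Γ) * s) = (ε₀ : ℂ) * (β : C → ℂ) c) : ∃ ε : ℤ, (ε = 1 ∨ ε = -1) ∧ (∃ μ : S → ℂ, Cfsg.IsCharacter S μ ∧ μ 1 = 1 ∧ (∀ x : S, μ x * μ x = 1) ∧ ∀ c : C, ∀ x : S, x ≠ 1 → (χh : Γ → ℂ) ((c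 : Γ) * x) = (ε : ℂ) * (β : C → ℂ) c * μ x) ∧ (∃ ϑ : C → ℂ, Cfsg.IsCharacter C ϑ ∧ (fun c : C => (χ : G → ℂ) ⟨c, hCG c.2⟩) = fun c => (Nat.card S : ℂ) * ϑ c + (ε : ℂ) * (β : C → ℂ) c) ∧ (Nat.card S : ℤ) ∣ (Cfsg.charDegree (χ : G → ℂ) : ℤ) - ε * (Cfsg.charDegree (β : C → ℂ) : ℤ) := by
  classical
  have hG := CL.Char.gl_normal_of_sup hnorm htop
  obtain ⟨s₀, hs₀⟩ : ∃ s : Γ, Subgroup.zpowers s = S := (Subgroup.isCyclic_iff_exists_zpowers_eq_top S).mp hcyc
  have hs₀S : s₀ ∈ S := hs₀ ▸ Subgroup.mem_zpowers s₀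
  have hfinal : ∀ (ε : ℤ) (ϑ : C → ℂ), IsCharacter C ϑ →
      ((fun c : C => (χ : G → ℂ) ⟨c, hCG c.2⟩) = fun c => (Nat.card S : ℂ) * ϑ c + (ε : ℂ) * (β : C → ℂ) c) →
      (Nat.card S : ℤ) ∣ (charDegree (χ : G → ℂ) : ℤ) - ε * (charDegree (β : C → ℂ) : ℤ) := by
    intro ε ϑ hϑ h
    obtain ⟨n, hn⟩ := hϑ.exists_nat_one
    have h1 := congrFun h 1
    simp only [hn] at h1
    refine ⟨n, ?_⟩
    have h2 : (χ : G → ℂ) 1 = Nat.card S * n + ε * (β : C → ℂ) 1 := h1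
    rw [← χ.2.cast_charDegree, ← β.2.cast_charDegree] at h2
    have h3 : (charDegree (χ : G → ℂ) : ℤ) = Nat.card S * n + ε * charDegree (β : C → ℂ) := by
      exact_mod_cast h2
    rw [h3]; ring
  rcases subsingleton_or_nontrivial S with hS | hS
  · have h1 : s₀ = 1 := congrArg Subtype.val (Subsingleton.elim (⟨s₀, hs₀S⟩ : S) 1)
    have h2 : (fun c : C => (χ : G → ℂ) ⟨c, hCG c.2⟩) =
        fun c => (Nat.card S : ℂ) * (0 : C → ℂ) c + (ε₀ : ℂ) * (β : C → ℂ) c := by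
      funext c
      have := hβ c s₀ hs₀
      rw [h1, mul_one] at this
      rw [← hext]
      simpa using this
    exact ⟨ε₀, hε₀, ⟨fun _ => 1, CL.Char.isCharacter_one, rfl, fun _ => mul_one _,
      fun c x hx => absurd (Subsingleton.elim x 1) hx⟩, ⟨0, CL.Char.isCharacter_zero, h2⟩,
      hfinal ε₀ 0 CL.Char.isCharacter_zero h2⟩
  have := Fintype.ofFinite S
  have hcomm : ∀ a b : S, a * b = b * a := fun a b => hcyc.isMulCommutative.is_comm.comm a b
  have hres : IsIrrCharacter G (fun g => (χh : Γ → ℂ) (G.subtype g)) := by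
    have : (fun g => (χh : Γ → ℂ) (G.subtype g)) = χ := funext hext
    rw [this]; exact χ.2
  have hx : ∀ x : S, x ≠ 1 → ∃ (γ : IrrCharacter C) (ε : ℤ), (ε = 1 ∨ ε = -1) ∧
      ∀ c : C, (χh : Γ → ℂ) (c * x) = ε * (γ : C → ℂ) c := fun x hx =>
    (CL.Char.glCyc_ambient hnorm hcop x (hfpf x x.2 fun h => hx (Subtype.ext h)).symm hCG).exists_sign
      χh.2 hres (CL.Char.gl_detChar_eq_one (hdet.coprime_dvd_right
        (by rw [Subgroup.orderOf_coe]; exact orderOf_dvd_natCard x)))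
  have hCS : ∀ (c : C) (x : S), Commute (C.subtype c) (S.subtype x) := fun c x => by
    have : (c : Γ) ∈ G ⊓ Subgroup.centralizer (S : Set Γ) := hC ▸ c.2
    exact (this.2 x x.2).symm
  have hφ : ∀ γ : IrrCharacter C, IsCharacter S
      (fun x : S => classInner (fun c : C => (χh : Γ → ℂ) (c * x)) (γ : C → ℂ)) := fun γ =>
    CL.Char.gl_isCharacter_slice (χh.2.isCharacter.comp (MonoidHom.noncommCoprod C.subtype S.subtype hCS))
      γ.2.isCharacter
  have hval : ∀ (x : Γ) (γ δ : IrrCharacter C) (ε : ℤ), (∀ c : C, (χh : Γ → ℂ) (c * x) = ε * (γ : C → ℂ) c) →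
      classInner (fun c : C => (χh : Γ → ℂ) (c * x)) (δ : C → ℂ) = ((if γ = δ then ε else 0 : ℤ) : ℂ) := by
    intro x γ δ ε h
    have : (fun c : C => (χh : Γ → ℂ) (c * x)) = (ε : ℂ) • (γ : C → ℂ) := funext h
    rw [this, CL.Char.classInner_smul_left, CL.Char.classInner_irr]
    split_ifs <;> simp
  have hpow : ∀ k : ℕ, (⟨s₀, hs₀S⟩ : S) ^ k ≠ 1 → ∃ ε : ℤ, (ε = 1 ∨ ε = -1) ∧
      ∀ c : C, (χh : Γ → ℂ) (c * ((⟨s₀, hs₀S⟩ : S) ^ k : S)) = ε * (β : C → ℂ) c := by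
    intro k
    induction k using induction_on_primes with
    | zero => intro h; exact absurd (pow_zero _) h
    | one => intro _; exact ⟨ε₀, hε₀, fun c => by simpa using hβ c s₀ hs₀⟩
    | prime_mul q k hq ih =>
      intro h
      rw [pow_mul'] at h ⊢
      obtain ⟨ε, hε, h1⟩ := ih fun e => h (by rw [e, one_pow])
      obtain ⟨γ, ε', hε', h2⟩ := hx _ h
      by_cases e : γ = β
      · exact ⟨ε', hε', e ▸ h2⟩
      · exfalso
        have h3 := CL.Char.gl_int_modEq_pow (hφ β) hq 1 _ (hval _ β β ε h1)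
          (by rw [pow_one]; exact hval _ γ β ε' h2)
        rw [if_pos rfl, if_neg e] at h3
        have h4 := (Int.modEq_zero_iff_dvd.mp h3)
        have h5 : (q : ℤ) ∣ 1 := by
          rcases hε with rfl | rfl
          · exact h4
          · exact (dvd_neg.mp h4)
        exact hq.one_lt.ne' (by exact_mod_cast Int.eq_one_of_dvd_one (by positivity) h5)
  have hx' : ∀ x : S, x ≠ 1 → ∃ ε : ℤ, (ε = 1 ∨ ε = -1) ∧
      ∀ c : C, (χh : Γ → ℂ) (c * x) = ε * (β : C → ℂ) c := by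
    intro x hx1
    obtain ⟨k, hk⟩ := (mem_powers_iff_mem_zpowers.mpr (hs₀ ▸ x.2) : (x : Γ) ∈ Submonoid.powers s₀)
    have : x = (⟨s₀, hs₀S⟩ : S) ^ k := Subtype.ext hk.symm
    rw [this] at hx1 ⊢
    exact hpow k hx1
  obtain ⟨a, ε, μ, hε, hμ, hdec⟩ := char_pm_one hcomm (hφ β) fun x hx1 => by
    obtain ⟨ε, hε, h⟩ := hx' x hx1
    rw [hval _ β β ε h, if_pos rfl]
    rcases hε with rfl | rfl <;> simp
  have hμ1 := hμ.one_eq_one_of_comm hcomm
  have hμx : ∀ x : S, x ≠ 1 → ∀ ε' : ℤ, (∀ c : C, (χh : Γ → ℂ) (c * x) = ε' * (β : C → ℂ) c) →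
      (ε' : ℂ) = ε * μ x := fun x hx1 ε' h => by
    have := congrFun hdec x
    rw [hval _ β β ε' h, if_pos rfl] at this
    simpa [CL.Char.regChar_of_ne_one hx1] using this
  have hb : ∀ γ : IrrCharacter C, ∃ b : ℕ, classInner (fun c : C => (χ : G → ℂ) ⟨c, hCG c.2⟩) (γ : C → ℂ) =
      Nat.card S * b + ε * (if β = γ then 1 else 0) := by
    intro γ
    simp only [← hext]
    by_cases e : β = γ
    · subst e
      refine ⟨a, ?_⟩
      have := congrFun hdec 1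
      simpa [CL.Char.regChar_one, hμ1, mul_comm] using this
    · obtain ⟨b, hb⟩ := (hφ γ).exists_nat_classInner CL.Char.isCharacter_one
      refine ⟨b, ?_⟩
      rw [CL.Char.classInner_one_right, Finset.sum_eq_single 1 (fun x _ hx1 => by
        obtain ⟨ε', -, h⟩ := hx' x hx1
        rw [hval _ β γ ε' h, if_neg e, Int.cast_zero]) (by simp)] at hb
      rw [if_neg e, mul_zero, add_zero, ← hb, ← mul_assoc, mul_inv_cancel₀ CL.Char.natCard_ne_zero, one_mul]
      simp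
  choose b hb using hb
  have hϑ := CL.Char.isCharacter_sum_nat_smul_irr b
  have h2 : (fun c : C => (χ : G → ℂ) ⟨c, hCG c.2⟩) = fun c =>
      (Nat.card S : ℂ) * (∑ γ : IrrCharacter C, (b γ : ℂ) • (γ : C → ℂ)) c + (ε : ℂ) * (β : C → ℂ) c := by
    funext c
    refine ((χ.2.isCharacter.comp (Subgroup.inclusion hCG)).isClassFunction.apply_eq_sum_irr c).trans ?_
    change ∑ γ : IrrCharacter C, classInner (fun c : C => (χ : G → ℂ) ⟨c, hCG c.2⟩) (γ : C → ℂ) * _ = _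
    simp only [hb, add_mul, Finset.sum_add_distrib, Finset.sum_apply, Finset.mul_sum, Pi.smul_apply,
      smul_eq_mul, mul_assoc]
    simp
  refine ⟨ε, hε, ⟨μ, hμ.isCharacter, hμ1, fun x => ?_, fun c x hx1 => ?_⟩, ⟨_, hϑ, h2⟩, hfinal ε _ hϑ h2⟩
  · by_cases hx1 : x = 1
    · rw [hx1, hμ1, mul_one]
    · obtain ⟨ε', hε', h⟩ := hx' x hx1
      have h3 := hμx x hx1 ε' h
      have h4 : (ε' : ℂ) * ε' = 1 := by rcases hε' with rfl | rfl <;> simp
      have h5 : (ε : ℂ) * ε = 1 := by rcases hε with rfl | rfl <;> simp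
      rw [h3] at h4
      linear_combination h4 - (μ x * μ x) * h5
  · obtain ⟨ε', -, h⟩ := hx' x hx1
    rw [h, hμx x hx1 ε' h]
    ring

end Cfsg.Agent.S4451
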