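import Cfsg.Statements.S4452
import Cfsg.Agent.Char.GlaubDeg

set_option autoImplicit false
open Cfsg

namespace Cfsg.Agent.S4452

open CL.Char in
theorem aux {G : Type*} [Group G] [Finite G] (K H : Subgroup G) [hK : K.Normal] (hKH : K ⊔ H = ⊤)
    (hcop : (Nat.card K).Coprime (Nat.card H)) :
    Nat.card {χ : IrrCharacter G // (charDegree (χ : G → ℂ)).Coprime (Nat.card H)} =
      Nat.card {θ : IrrCharacter K // ∀ h ∈ H, ∀ n n' : K, (n' : G) = h * n * h⁻¹ →
        (θ : K → ℂ) n' = (θ : K → ℂ) n} * Nat.card (H →* ℂˣ) := by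
  have hc := (CL.Grp.isComplement'_of_sup_of_coprime hcop hKH).symm
  have hi := hc.index_eq_card
  rw [← hi, gl_card_coprime_degree K (hi ▸ hcop),
    Nat.card_congr (MulEquiv.monoidHomCongrLeftEquiv (N := ℂˣ) hc.QuotientMulEquiv)]
  congr 1
  refine Nat.card_congr (Equiv.subtypeEquivRight fun θ => ⟨fun h x _ n n' e => ?_, fun h => ?_⟩)
  · rw [← h x n]
    exact congrArg _ (Subtype.ext e)
  · rw [← inertia_eq_top_iff, eq_top_iff, ← hKH]
    exact sup_le (le_inertia θ.2.isClassFunction) fun x hx => mem_inertia.mpr fun n => h x hx n _ rfl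


/-- Let the finite group G be the product of a normal subgroup K and a solvable subgroup H of coprime orders, and let N = N_G(H). Then the number of irreducible characters of G of degree coprime to the order of H equals the number of irreducible characters of N of degree coprime to the order of H. (The two sets are in fact in a canonical bijection; only the equality of their sizes is stated here.) -/
theorem result {G : Type*} [Group G] [Finite G] (K H : Subgroup G) [K.Normal] (hKH : K ⊔ H = ⊤) (hcop : (Nat.card K).Coprime (Nat.card H)) (hsolv : Group.IsSolvable H) : Nat.card {χ : Cfsg.IrrCharacter G // (Cfsg.charDegree (χ : G → ℂ)).Coprime (Nat.card H)} = Nat.card {η : Cfsg.IrrCharacter (Subgroup.normalizer (H : Set G)) // (Cfsg.charDegree (η : Subgroup.normalizer (H : Set G) → ℂ)).Coprime (Nat.card H)} := by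
  have hnorm : ∀ s ∈ H, ∀ g ∈ K, s * g * s⁻¹ ∈ K := fun s _ g hg => Subgroup.Normal.conj_mem ‹_› g hg s
  have hHK : H ≤ Subgroup.normalizer (K : Set G) := Subgroup.le_normalizer_of_normal
  have hd : Disjoint H K := Subgroup.disjoint_of_coprime_natCard hcop.symm
  have hinf := CL.Grp.inf_normalizer_eq_inf_centralizer_of_disjoint hHK hd
  set N := Subgroup.normalizer (H : Set G) with hN
  have hHN : H ≤ N := Subgroup.le_normalizer
  have hcard : Nat.card (H.subgroupOf N) = Nat.card H := CL.Grp.card_subgroupOf_of_le hHN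
  have h2 := aux (K.subgroupOf N) (H.subgroupOf N) (CL.Grp.subgroupOf_sup_eq_top_of_le hKH hHN)
    (hcard ▸ hcop.coprime_dvd_left (CL.Grp.card_subgroupOf_dvd K N))
  rw [hcard] at h2
  rw [aux K H hKH hcop, h2,
    Nat.card_congr (MulEquiv.monoidHomCongrLeftEquiv (N := ℂˣ) (Subgroup.subgroupOfEquivOfLe hHN))]
  congr 1
  let j : K.subgroupOf N →* K := (N.subtype.comp (K.subgroupOf N).subtype).codRestrict K fun x => x.2
  have h3 := CL.Char.gl_card_irr_solvable hcop.symm (CL.Char.glConjHom hnorm) j
    (fun x y e => Subtype.ext (Subtype.ext (congrArg Subtype.val e :))) fun g => by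
      rw [CL.Char.glConjHom_fixed_iff]
      constructor
      · rintro ⟨x, rfl⟩
        have : ((x : N) : G) ∈ K ⊓ N := ⟨x.2, x.1.2⟩
        exact (hinf ▸ this).2
      · intro h
        have : (g : G) ∈ K ⊓ Subgroup.centralizer (H : Set G) := ⟨g.2, h⟩
        exact ⟨⟨⟨g, (hinf.symm ▸ this).2⟩, g.2⟩, rfl⟩
  refine (Nat.card_congr (Equiv.subtypeEquivRight fun χ : IrrCharacter K =>
    (CL.Char.glConjHom_inv_iff hnorm (χ : K → ℂ)).symm)).trans (h3.trans ?_)
  refine (Nat.card_congr (Equiv.subtypeUnivEquiv fun θ h hh n n' e => ?_)).symm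
  have h4 : ((n : N) : G) ∈ K ⊓ N := ⟨n.2, n.1.2⟩
  have h5 := (hinf ▸ h4).2 h hh
  refine congrArg _ (Subtype.ext (e.trans (Subtype.ext ?_)))
  exact mul_inv_eq_iff_eq_mul.mpr h5

end Cfsg.Agent.S4452
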