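import Cfsg.Statements.S4453
import Cfsg.Agent.Blk.Isa7

set_option autoImplicit false
open Cfsg

namespace Cfsg.Agent.S4453

/-- Inside a finite group Γ let S normalise the solvable subgroup G of odd order with the orders of G and S coprime, let C = G ⊓ C(S), and let L ≤ K be S-invariant normal subgroups of G with K/L abelian, G = KC and H = LC (so C ≤ H ≤ G). Then for each S-invariant irreducible character χ of G there is exactly one S-invariant irreducible character ψ of H whose multiplicity in the restriction of χ to H is odd, and χ ↦ ψ is a bijection from the S-invariant irreducible characters of G onto those of H (distinct χ give distinct ψ, and every S-invariant ψ arises). -/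
theorem result {Γ : Type*} [Group Γ] [Fintype Γ] (G S : Subgroup Γ) [Fintype G] (hnorm : ∀ s ∈ S, ∀ g ∈ G, s * g * s⁻¹ ∈ G) (hcop : (Nat.card G).Coprime (Nat.card S)) (hGsolv : Group.IsSolvable G) (hodd : Odd (Nat.card G)) (C : Subgroup Γ) [Fintype C] (hC : C = G ⊓ Subgroup.centralizer (S : Set Γ)) (hCG : C ≤ G) (K L H : Subgroup Γ) [Fintype H] (hLK : L ≤ K) (hKG : K ≤ G) (hKn : ∀ g ∈ G, ∀ k ∈ K, g * k * g⁻¹ ∈ K) (hLn : ∀ g ∈ G, ∀ l ∈ L, g * l * g⁻¹ ∈ L) (hKS : ∀ s ∈ S, ∀ k ∈ K, s * k * s⁻¹ ∈ K) (hLS : ∀ s ∈ S, ∀ l ∈ L, s * l * s⁻¹ ∈ L) (hab : ∀ a ∈ K, ∀ b ∈ K, a * b * a⁻¹ * b⁻¹ ∈ L) (hGKC : K ⊔ C = G) (hH : H = L ⊔ C) (hHG : H ≤ G) : (∀ χ : Cfsg.IrrCharacter G, (∀ s ∈ S, ∀ g g' : G, (g' : Γ) = s * g * s⁻¹ → (χ : G → ℂ) g' = (χ : G → ℂ) g) → ∃! ψ : Cfsg.IrrCharacter H, (∀ s ∈ S, ∀ g g' : H, (g' : Γ) = s * g * s⁻¹ → (ψ : H → ℂ)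 g' = (ψ : H → ℂ) g) ∧ ∃ m : ℕ, Cfsg.classInner (fun h : H => (χ : G → ℂ) ⟨h, hHG h.2⟩) (ψ : H → ℂ) = (m : ℂ) ∧ Odd m) ∧ (∀ χ χ' : Cfsg.IrrCharacter G, (∀ s ∈ S, ∀ g g' : G, (g' : Γ) = s * g * s⁻¹ → (χ : G → ℂ) g' = (χ : G → ℂ) g) → (∀ s ∈ S, ∀ g g' : G, (g' : Γ) = s * g * s⁻¹ → (χ' : G → ℂ) g' = (χ' : G → ℂ) g) → ∀ ψ : Cfsg.IrrCharacter H, (∀ s ∈ S, ∀ g g' : H, (g' : Γ) = s * g * s⁻¹ → (ψ : H → ℂ) g' = (ψ : H → ℂ) g) → ∀ m m' : ℕ, Cfsg.classInner (fun h : H => (χ : G → ℂ) ⟨h, hHG h.2⟩) (ψ : H → ℂ) = (m : ℂ) → Odd m → Cfsg.classInner (fun h : H => (χ' : G → ℂ) ⟨h, hHG h.2⟩) (ψ : H → ℂ) = (m' : ℂ) → Odd m' → χ = χ') ∧ (∀ ψ : Cfsg.IrrCharacter H, (∀ s ∈ S, ∀ g g' : H, (g' : Γ) = s * g * s⁻¹ → (ψ : H → ℂ) g' = (ψ : H → ℂ) g) → ∃ χ : Cfsg.IrrCharacter G, (∀ s ∈ S, ∀ g g' : G, (g' : Γ) = s * g * s⁻¹ → (χ : G → ℂ) g' = (χ : G → ℂ) g)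 ∧ ∃ m : ℕ, Cfsg.classInner (fun h : H => (χ : G → ℂ) ⟨h, hHG h.2⟩) (ψ : H → ℂ) = (m : ℂ) ∧ Odd m) := by
  classical
  subst hC hH
  have hS : S ≤ Subgroup.normalizer (G : Set Γ) := fun s hs => Subgroup.mem_normalizer_fintype (hnorm s hs)
  let α : S →* MulAut G := G.normalizerMonoidHom.comp (Subgroup.inclusion hS)
  have hα : ∀ (s : S) (g : G), (α s g : Γ) = s * g * (s : Γ)⁻¹ := fun _ _ => rfl
  have hLG := hLK.trans hKG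
  have : (K.subgroupOf G).Normal := ⟨fun k hk g => hKn g g.2 k hk⟩
  have : (L.subgroupOf G).Normal := ⟨fun k hk g => hLn g g.2 k hk⟩
  have hfix : ∀ c : G, (∀ s, α s c = c) ↔ (c : Γ) ∈ G ⊓ Subgroup.centralizer (S : Set Γ) := fun c =>
    ⟨fun h => ⟨c.2, fun s hs => mul_inv_eq_iff_eq_mul.mp (congrArg Subtype.val (h ⟨s, hs⟩))⟩,
      fun h s => Subtype.ext (mul_inv_eq_iff_eq_mul.mpr (h.2 s s.2))⟩
  have hdec : ∀ (N : Subgroup Γ) (_ : N ≤ G) [(N.subgroupOf G).Normal] (g : G),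
      (g : Γ) ∈ N ⊔ G ⊓ Subgroup.centralizer (S : Set Γ) →
        ∃ k ∈ N.subgroupOf G, ∃ c, (∀ s, α s c = c) ∧ g = k * c := fun N hN _ g hg => by
    rw [← Subgroup.mem_subgroupOf, Subgroup.subgroupOf_sup hN hCG] at hg
    obtain ⟨k, hk, c, hc, e⟩ := Subgroup.mem_sup_of_normal_left.mp hg
    exact ⟨k, hk, c, (hfix c).mpr hc, e.symm⟩
  obtain ⟨K', hK', hy⟩ := CL.Blk.Isa.exists_hyp (α := α) (K := K.subgroupOf G) (L := L.subgroupOf G)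
    (H := (L ⊔ G ⊓ Subgroup.centralizer (S : Set Γ)).subgroupOf G) (Subgroup.subgroupOf_mono G hLK)
    (Subgroup.subgroupOf_mono G le_sup_left) (fun s k hk => hKS s s.2 k hk) (fun s k hk => hLS s s.2 k hk)
    (fun a ha b hb => QuotientGroup.eq.mpr (by
      have := hab _ (K.inv_mem hb) _ (K.inv_mem ha)
      simpa [Subgroup.mem_subgroupOf, mul_assoc] using this)) (hdec L hLG)
    (fun c hc => Subgroup.mem_sup_right ((hfix c).mp hc)) (fun g => hdec K hKG g (hGKC.symm ▸ g.2)) hodd hcop hGsolv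
  obtain ⟨h1, h2, h3⟩ := hy.main
  let e := CL.Blk.irrEquiv (Subgroup.subgroupOfEquivOfLe hHG)
  have k1 : ∀ χ : Cfsg.IrrCharacter G, (∀ s ∈ S, ∀ g g' : G, (g' : Γ) = s * g * s⁻¹ →
      (χ : G → ℂ) g' = (χ : G → ℂ) g) ↔ ∀ s g, (χ : G → ℂ) (α s g) = (χ : G → ℂ) g := fun χ =>
    ⟨fun h s g => h s s.2 _ _ rfl, fun h s hs g g' e => by
      rw [← h ⟨s, hs⟩ g]
      exact congrArg _ (Subtype.ext e)⟩
  have k2 : ∀ ψ : Cfsg.IrrCharacter (L ⊔ G ⊓ Subgroup.centralizer (S : Set Γ) : Subgroup Γ),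
      (∀ s ∈ S, ∀ g g' : (L ⊔ G ⊓ Subgroup.centralizer (S : Set Γ) : Subgroup Γ), (g' : Γ) = s * g * s⁻¹ →
      ψ.1 g' = ψ.1 g) ↔ CL.Blk.Isa.Inv α (CL.Blk.Isa.idm _ (e ψ)) := fun ψ => by
    rw [CL.Blk.Isa.inv_idm_iff hy.invH]
    refine ⟨fun h s g => h s s.2 _ _ rfl, fun h s hs g g' e => ?_⟩
    refine Eq.trans ?_ (h ⟨s, hs⟩ ⟨⟨g, hHG g.2⟩, g.2⟩)
    exact congrArg _ (Subtype.ext e)
  have k3 : ∀ (χ : Cfsg.IrrCharacter G) (ψ : Cfsg.IrrCharacter (L ⊔ G ⊓ Subgroup.centralizer (S : Set Γ) : Subgroup Γ)),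
      Cfsg.classInner (fun h : (L ⊔ G ⊓ Subgroup.centralizer (S : Set Γ) : Subgroup Γ) => χ.1 ⟨h, hHG h.2⟩) ψ.1 =
      Cfsg.classInner (fun h : (L ⊔ G ⊓ Subgroup.centralizer (S : Set Γ)).subgroupOf G => χ.1 h) (e ψ).1 :=
    fun χ ψ => (CL.Char.classInner_comp_mulEquiv (Subgroup.subgroupOfEquivOfLe hHG) _ _).symm
  simp only [k1, k2, k3]
  refine ⟨fun χ hχ => (e.existsUnique_congr fun _ => Iff.rfl).mpr (h1 χ hχ), fun χ χ' hχ hχ' ψ hψ m m' a b c d =>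
    h2 χ χ' hχ hχ' _ hψ ⟨m, a, b⟩ ⟨m', c, d⟩, fun ψ hψ => h3 _ hψ⟩

end Cfsg.Agent.S4453
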