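import Cfsg.Statements.S4464
import Cfsg.Agent.Char.DegIto

set_option autoImplicit false
open Cfsg

namespace Cfsg.Agent.S4464

/-- Let p be a prime and G a finite group all of whose irreducible character degrees are less than p. Then G has a normal abelian Sylow p-subgroup. -/
theorem result {G : Type*} [Group G] [Finite G] (p : ℕ) (hp : p.Prime) (hb : ∀ χ : Cfsg.IrrCharacter G, Cfsg.charDegree (χ : G → ℂ) < p) : ∃ P : Subgroup G, P.Normal ∧ (∀ x ∈ P, ∀ y ∈ P, x * y = y * x) ∧ IsPGroup p P ∧ ¬ p ∣ P.index := by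
  have : Fact p.Prime := ⟨hp⟩
  obtain ⟨P⟩ : Nonempty (Sylow p G) := inferInstance
  exact ⟨P, CL.Char.sylow_normal_of_charDegree_lt (fun χ hχ => hb ⟨χ, hχ⟩) P,
    CL.Char.comm_of_isPGroup_of_charDegree_lt (fun χ hχ => hb ⟨χ, hχ⟩) P.isPGroup', P.isPGroup',
    P.not_dvd_index⟩

end Cfsg.Agent.S4464
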