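import Cfsg.Statements.S4471
import Cfsg.Agent.Char.DegreeLt2p

set_option autoImplicit false
open Cfsg

namespace Cfsg.Agent.S4471

/-- Let p ≥ 7 be a prime and let the finite group G have a faithful irreducible character of degree n with n < 2p and n ≠ p. If the Sylow p-subgroups of G are non-abelian then p² does not divide the index of O_p(G) in G; consequently, in every case G/O_p(G) has abelian Sylow p-subgroups. -/
theorem result {G : Type*} [Group G] [Finite G] (χ : Cfsg.IrrCharacter G) (hfaith : ∀ g : G, (χ : G → ℂ) g = (χ : G → ℂ) 1 → g = 1) (n : ℕ) (hn : Cfsg.charDegree (χ : G → ℂ) = n) (p : ℕ) (hp : p.Prime) (h7 : 7 ≤ p) (hn2 : n < 2 * p) (hnp : n ≠ p) : ((∃ P : Sylow p G, ∃ x ∈ (P : Subgroup G), ∃ y ∈ (P : Subgroup G), x * y ≠ y * x) → ¬ p ^ 2 ∣ (Cfsg.pCore p G).index) ∧ ∀ Q : Sylow p (G ⧸ Cfsg.pCore p G), ∀ x ∈ (Q : Subgroup (G ⧸ Cfsg.pCore p G)), ∀ y ∈ (Q : Subgroup (G ⧸ Cfsg.pCore p G)), x * y = y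 * x := by
  haveI := Fact.mk hp
  subst hn
  have hker := CL.Char.charKer_eq_bot_of_faithful hfaith
  refine ⟨?_, CL.Char.sylow_quotient_pCore_comm χ.2 hker h7 hn2 hnp⟩
  rintro ⟨P, x, hx, y, hy, hne⟩
  exact CL.Char.not_sq_dvd_index_pCore χ.2 hker h7 hn2 hnp P.isPGroup'
    fun h => hne (congrArg Subtype.val (h ⟨x, hx⟩ ⟨y, hy⟩))

end Cfsg.Agent.S4471
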