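import Cfsg.Statements.S4475
import Cfsg.Agent.Char.FSParity

set_option autoImplicit false
open Cfsg

namespace Cfsg.Agent.S4475

/-- Let ρ be an irreducible representation of the finite group G on the coordinate space Fin n → ℂ whose character χ is real-valued, and let ν be the Frobenius–Schur indicator of χ (the average of χ(s²)). Writing X(g) for the matrix of ρ(g), there is a nonzero matrix M with X(g)ᵀ M X(g) = M for all g ∈ G; and every such M (zero or not) satisfies Mᵀ = ν·M. -/
theorem result {G : Type*} [Group G] [Fintype G] (n : ℕ) (ρ : Representation ℂ G (Fin n → ℂ)) (hirr : ρ.IsIrreducible) (hreal : ∀ g : G, (ρ.character g).im = 0) : (∃ M : Matrix (Fin n) (Fin n) ℂ, M ≠ 0 ∧ ∀ g : G, (LinearMap.toMatrix' (ρ g)).transpose * M * LinearMap.toMatrix' (ρ g) = M) ∧ ∀ M : Matrix (Fin n) (Fin n) ℂ, (∀ g : G, (LinearMap.toMatrix' (ρ g)).transpose * M * LinearMap.toMatrix' (ρ g) = M) → M.transpose = ((Nat.card G : ℂ)⁻¹ * ∑ s : G, ρ.character (s * s)) • M := by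
  have hinv : ∀ s, ρ.character s⁻¹ = ρ.character s := fun s =>
    (CL.Char.fs_im_eq_zero_iff (CL.Char.isCharacter_character ρ) s).1 (hreal s)
  obtain ⟨⟨X, hX, hX0⟩, h1⟩ := CL.Char.fsp_form ρ hinv
  have hdet := CL.Char.fs_det_ne_zero ρ hX hX0
  have h2 := CL.Char.fsp_inv_invariant ρ hX hdet
  refine ⟨⟨X⁻¹, fun h => ?_, h2⟩, fun M hM => ?_⟩
  · have h3 := Matrix.mul_nonsing_inv X hdet.isUnit
    rw [h, Matrix.mul_zero] at h3
    apply hX0
    rw [← Matrix.mul_one X, ← h3, Matrix.mul_zero]
  · -- `X * M * X` is an invariant matrix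
    have h3 : ∀ g, CL.Char.fsMat ρ g * X = X * (CL.Char.fsMat ρ g⁻¹).transpose := fun g => by
      have h4 : CL.Char.fsMat ρ g * X * (CL.Char.fsMat ρ g).transpose = X := hX g
      conv_rhs => rw [← h4]
      rw [Matrix.mul_assoc, ← Matrix.transpose_mul, ← map_mul, inv_mul_cancel, map_one,
        Matrix.transpose_one, Matrix.mul_one]
    have h4 : X * M * X ∈ (CL.Char.fsRep ρ).invariants := fun g => by
      have h5 : (CL.Char.fsMat ρ g⁻¹).transpose * M * CL.Char.fsMat ρ g⁻¹ = M := hM g⁻¹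
      have h6 := h3 g⁻¹
      rw [inv_inv] at h6
      rw [CL.Char.fsRep_apply]
      calc _ = (CL.Char.fsMat ρ g * X) * M * (X * (CL.Char.fsMat ρ g).transpose) := by
            simp only [Matrix.mul_assoc]
        _ = X * ((CL.Char.fsMat ρ g⁻¹).transpose * M * CL.Char.fsMat ρ g⁻¹) * X := by
            rw [h3 g, ← h6]; simp only [Matrix.mul_assoc]
        _ = _ := by rw [h5]
    have h5 := h1 _ h4
    rw [Matrix.transpose_mul, Matrix.transpose_mul, h1 X hX] at h5
    have h6 : CL.Char.fsInd ρ.character * CL.Char.fsInd ρ.character = 1 := by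
      rcases CL.Char.fsInd_of_real (CL.Char.isIrrCharacter_character ρ) hreal with h | h <;>
        rw [h] <;> norm_num
    rw [Matrix.smul_mul, Matrix.mul_smul, Matrix.mul_smul, smul_smul, h6, one_smul] at h5
    have h7 := congrArg (fun Y => X⁻¹ * Y * X⁻¹) h5
    simp only [Matrix.mul_smul, Matrix.smul_mul, ← Matrix.mul_assoc,
      Matrix.nonsing_inv_mul _ hdet.isUnit, Matrix.one_mul] at h7
    simp only [Matrix.mul_assoc, Matrix.mul_nonsing_inv _ hdet.isUnit, Matrix.mul_one] at h7
    exact h7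

end Cfsg.Agent.S4475
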