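import Cfsg.Statements.S4476
import Cfsg.Agent.Char.FSParity
import Cfsg.Agent.Char.ClassAlg
import Cfsg.Agent.Char.GoodClass

set_option autoImplicit false
open Cfsg

namespace Cfsg.Agent.S4476

/-- Let G be a finite group of even order g with exactly t involutions, and put α = (g − 1)/t (a rational number). Then (a) some non-identity element x of G has at most α² conjugates; and (b) some non-principal real-valued irreducible character of G has degree at most α. -/
theorem result {G : Type*} [Group G] [Fintype G] (heven : Even (Nat.card G)) (t : ℕ) (ht : Nat.card {x : G // orderOf x = 2} = t) : (∃ x : G, x ≠ 1 ∧ ((Subgroup.centralizer ({x} : Set G)).index : ℚ) ≤ (((Nat.card G : ℚ) - 1) / t) ^ 2) ∧ ∃ χ : Cfsg.IrrCharacter G, (χ : G → ℂ) ≠ (fun _ => 1) ∧ (∀ g : G, ((χ : G → ℂ) g).im = 0) ∧ (Cfsg.charDegree (χ : G → ℂ) : ℚ) ≤ ((Nat.card G : ℚ) - 1) / t := by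
  classical
  have h0 := CL.Char.classAlg_card_sq_eq_one (G := G)
  have h1 : Nat.card {s : G // s * s = 1} = t + 1 := by
    rw [← ht, Nat.card_eq_fintype_card, Nat.card_eq_fintype_card, Fintype.card_subtype,
      Fintype.card_subtype, ← Finset.card_insert_of_notMem (a := (1 : G)) (by simp)]
    congr 1
    ext s
    simp only [Finset.mem_filter, Finset.mem_univ, true_and, Finset.mem_insert]
    constructor
    · intro h
      by_cases h2 : s = 1
      · exact Or.inl h2
      · exact Or.inr (orderOf_eq_prime (by rw [sq, h]) h2)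
    · rintro (rfl | h)
      · simp
      · rw [← sq, ← h, pow_orderOf_eq_one]
  have ht0 : 0 < t := by
    obtain ⟨x, hx⟩ := exists_prime_orderOf_dvd_card' (G := G) 2 heven.two_dvd
    have : Nonempty {x : G // orderOf x = 2} := ⟨⟨x, hx⟩⟩
    rw [← ht]; exact Nat.card_pos
  have ht0' : (0 : ℚ) < t := by exact_mod_cast ht0
  set S := (Finset.univ.erase (CL.Char.irrOne G)).filter
    (fun χ : IrrCharacter G => ∀ g, ((χ : G → ℂ) g).im = 0) with hS
  have h2 : t ≤ ∑ χ ∈ S, charDegree (χ : G → ℂ) := by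
    rw [h1, ← Finset.add_sum_erase _ _ (Finset.mem_univ (CL.Char.irrOne G)), CL.Char.coe_irrOne,
      CL.Char.fsInd_const_one] at h0
    have h3 := congrArg Complex.re h0
    rw [Complex.add_re, Complex.re_sum] at h3
    have h4 : ∑ χ ∈ Finset.univ.erase (CL.Char.irrOne G),
        (CL.Char.fsInd (χ : G → ℂ) * (χ : G → ℂ) 1).re ≤ ∑ χ ∈ S, (charDegree (χ : G → ℂ) : ℝ) := by
      rw [hS, Finset.sum_filter]
      refine Finset.sum_le_sum fun χ _ => ?_
      rw [← χ.2.cast_charDegree]
      split_ifs with h5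
      · rcases CL.Char.fsInd_of_real χ.2 h5 with h | h <;> simp [h]
      · push Not at h5
        rw [(CL.Char.fsInd_eq_zero_iff χ.2).2 h5]; simp
    have h5 : (t : ℝ) ≤ ∑ χ ∈ S, (charDegree (χ : G → ℂ) : ℝ) := by
      rw [Complex.natCast_re, mul_one, Complex.one_re] at h3
      push_cast at h3
      linarith
    exact_mod_cast h5
  have h3 : ∑ χ ∈ S, charDegree (χ : G → ℂ) ^ 2 + 1 ≤ Nat.card G := by
    rw [← CL.Char.sum_charDegree_sq, ← Finset.add_sum_erase _ _ (Finset.mem_univ (CL.Char.irrOne G)),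
      CL.Char.charDegree_eq_of_eq (χ := (CL.Char.irrOne G : G → ℂ)) (n := 1) (by simp), add_comm]
    exact Nat.add_le_add_left (Finset.sum_le_sum_of_subset (Finset.filter_subset _ _)) _
  have h2' : (t : ℚ) ≤ ∑ χ ∈ S, (charDegree (χ : G → ℂ) : ℚ) := by exact_mod_cast h2
  have h3' : ∑ χ ∈ S, (charDegree (χ : G → ℂ) : ℚ) ^ 2 ≤ Nat.card G - 1 := by
    rw [le_sub_iff_add_le]; exact_mod_cast h3
  have hne : S.Nonempty := by
    rw [Finset.nonempty_iff_ne_empty]
    intro h
    rw [h, Finset.sum_empty] at h2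
    omega
  have hg1 : (0 : ℚ) < Nat.card G - 1 := by
    refine lt_of_lt_of_le (Finset.sum_pos (fun χ _ => ?_) hne) h3'
    have := χ.2.charDegree_pos
    positivity
  constructor
  · by_contra hn
    push Not at hn
    have h4 : S.card + 1 ≤ Nat.card (ConjClasses G) := by
      rw [← CL.Char.card_irr_eq_card_conjClasses, Nat.card_eq_fintype_card, ← Finset.card_univ,
        ← Finset.card_erase_add_one (Finset.mem_univ (CL.Char.irrOne G))]
      exact Nat.add_le_add_right (Finset.card_le_card (Finset.filter_subset _ _)) _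
    have h5 := CL.Char.good_sum_card_centralizer (G := G) fun _ => True
    rw [Finset.filter_true, Nat.card_congr (Equiv.subtypeUnivEquiv fun _ => trivial),
      ← Finset.add_sum_erase _ _ (Finset.mem_univ (1 : G))] at h5
    have h6 : Subgroup.centralizer ({1} : Set G) = ⊤ := by
      rw [eq_top_iff]; rintro x - _ rfl; simp
    rw [h6, Subgroup.card_top] at h5
    set α : ℚ := ((Nat.card G : ℚ) - 1) / t with hα
    have hα0 : 0 < α := div_pos hg1 ht0'
    have h7 : ∑ x ∈ Finset.univ.erase (1 : G),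
        (Nat.card (Subgroup.centralizer ({x} : Set G)) : ℚ) * α ^ 2 <
        ∑ x ∈ Finset.univ.erase (1 : G), (Nat.card G : ℚ) := by
      refine Finset.sum_lt_sum_of_nonempty ?_ fun x hx => ?_
      · obtain ⟨x, hx⟩ := exists_prime_orderOf_dvd_card' (G := G) 2 heven.two_dvd
        refine ⟨x, Finset.mem_erase.2 ⟨?_, Finset.mem_univ _⟩⟩
        rintro rfl
        simp at hx
      · rw [← (Subgroup.centralizer ({x} : Set G)).card_mul_index, Nat.cast_mul]
        exact mul_lt_mul_of_pos_left (hn x (Finset.ne_of_mem_erase hx))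
          (by exact_mod_cast Nat.card_pos)
    rw [← Finset.sum_mul, Finset.sum_const, Finset.card_erase_of_mem (Finset.mem_univ _),
      Finset.card_univ, ← Nat.card_eq_fintype_card, nsmul_eq_mul,
      Nat.cast_sub (Nat.card_pos (α := G)), Nat.cast_one] at h7
    have h8 : ∑ x ∈ Finset.univ.erase (1 : G),
        (Nat.card (Subgroup.centralizer ({x} : Set G)) : ℚ) =
        Nat.card G * (Nat.card (ConjClasses G) - 1) := by
      have : ((Nat.card G : ℚ) + ∑ x ∈ Finset.univ.erase (1 : G),
        (Nat.card (Subgroup.centralizer ({x} : Set G)) : ℚ)) =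
        Nat.card G * Nat.card (ConjClasses G) := by exact_mod_cast h5
      linarith
    have h9 : (S.card : ℚ) ≤ Nat.card (ConjClasses G) - 1 := by
      rw [le_sub_iff_add_le]; exact_mod_cast h4
    have h10 : (t : ℚ) ^ 2 ≤ S.card * (Nat.card G - 1) :=
      (pow_le_pow_left₀ ht0'.le h2' 2).trans (sq_sum_le_card_mul_sum_sq.trans
        (mul_le_mul_of_nonneg_left h3' (by positivity)))
    have h11 : ((Nat.card (ConjClasses G) : ℚ) - 1) * α ^ 2 < Nat.card G - 1 := by
      rw [h8] at h7
      have : (0 : ℚ) < Nat.card G := by linarith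
      nlinarith
    have h12 : α * t = Nat.card G - 1 := div_mul_cancel₀ _ ht0'.ne'
    have h13 : (S.card : ℚ) * α ^ 2 < α * t := by
      rw [h12]
      exact lt_of_le_of_lt (mul_le_mul_of_nonneg_right h9 (by positivity)) h11
    rw [← h12] at h10
    have h14 : (S.card : ℚ) * α < t := by nlinarith
    nlinarith
  · by_contra hn
    push Not at hn
    have h4 : ∑ χ ∈ S, ((Nat.card G : ℚ) - 1) / t * (charDegree (χ : G → ℂ) : ℚ) <
        ∑ χ ∈ S, (charDegree (χ : G → ℂ) : ℚ) ^ 2 := by
      refine Finset.sum_lt_sum_of_nonempty hne fun χ hχ => ?_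
      obtain ⟨h5, h6⟩ := Finset.mem_filter.1 hχ
      rw [sq]
      exact mul_lt_mul_of_pos_right (hn χ (fun h => Finset.ne_of_mem_erase h5 (Subtype.ext h)) h6)
        (by exact_mod_cast χ.2.charDegree_pos)
    rw [← Finset.mul_sum] at h4
    have h5 := mul_le_mul_of_nonneg_left h2' (div_pos hg1 ht0').le
    rw [div_mul_cancel₀ _ ht0'.ne'] at h5
    linarith

end Cfsg.Agent.S4476
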