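import Cfsg.Statements.S4478
import Cfsg.Agent.Char.FSParity
import Cfsg.Agent.Char.PiSection
import Cfsg.Agent.Char.Faithful

set_option autoImplicit false
open Cfsg

namespace Cfsg.Agent.S4478

/-- Let G be a finite group of even order and χ an irreducible character of G whose degree x is divisible by the full power of 2 dividing the order of G and, for every odd prime p such that G has an element of order 2p, by the full power of p dividing the order of G. Then all involutions of G are conjugate, the centralizer of every involution has order exactly x with x coprime to its index, and the Frobenius–Schur indicator of χ equals 1. -/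
theorem result {G : Type*} [Group G] [Fintype G] (heven : Even (Nat.card G)) (χ : Cfsg.IrrCharacter G) (h2 : 2 ^ (Nat.card G).factorization 2 ∣ Cfsg.charDegree (χ : G → ℂ)) (hp : ∀ p : ℕ, p.Prime → p ≠ 2 → (∃ g : G, orderOf g = 2 * p) → p ^ (Nat.card G).factorization p ∣ Cfsg.charDegree (χ : G → ℂ)) : (∀ s t : G, orderOf s = 2 → orderOf t = 2 → IsConj s t) ∧ (∀ s : G, orderOf s = 2 → Nat.card (Subgroup.centralizer ({s} : Set G)) = Cfsg.charDegree (χ : G → ℂ) ∧ (Nat.card (Subgroup.centralizer ({s} : Set G))).Coprime (Subgroup.centralizer ({s} : Set G)).index) ∧ (Nat.card G : ℂ)⁻¹ * ∑ g : G, (χ : G → ℂ) (g * g) = 1 := by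
  classical
  obtain ⟨k, hk⟩ := χ.2.charDegree_dvd_card
  have hG0 : Nat.card G ≠ 0 := Nat.card_pos.ne'
  have hd0 := χ.2.charDegree_pos
  have hvan : ∀ p : ℕ, p.Prime → p ^ (Nat.card G).factorization p ∣ charDegree (χ : G → ℂ) →
      ∀ x : G, p ∣ orderOf x → (χ : G → ℂ) x = 0 := fun p hp' h x hx =>
    CL.Char.irr_eq_zero_of_defect_zero hp' χ.2 χ.2.cast_charDegree.symm hk (fun h1 => by
      have h3 := Nat.mul_dvd_mul h h1
      rw [← hk, ← pow_succ] at h3
      exact Nat.pow_succ_factorization_not_dvd hG0 hp' h3) hx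
  have hne : (χ : G → ℂ) ≠ fun _ => 1 := fun h => by
    rw [CL.Char.charDegree_eq_of_eq (χ := (χ : G → ℂ)) (n := 1) (by simp [h]), Nat.dvd_one,
      Nat.pow_eq_one] at h2
    have := (Nat.Prime.factorization_pos_of_dvd Nat.prime_two hG0 heven.two_dvd)
    omega
  set t := (Finset.univ.filter fun g : G => orderOf g = 2).card with ht
  have h3 : ∀ g : G, (χ : G → ℂ) (g * g) = (if Odd (orderOf g) then (χ : G → ℂ) (g * g) else 0) +
      if orderOf g = 2 then (χ : G → ℂ) 1 else 0 := by
    intro g
    by_cases h4 : Odd (orderOf g)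
    · rw [if_pos h4, if_neg (fun h => by rw [h] at h4; exact absurd h4 (by decide)), add_zero]
    rw [if_neg h4, zero_add]
    split_ifs with h5
    · rw [← sq, ← h5, pow_orderOf_eq_one]
    · obtain ⟨m, hm⟩ := (Nat.not_odd_iff_even.1 h4).two_dvd
      have h6 : orderOf (g * g) = m := by
        rw [← sq, orderOf_pow' _ two_ne_zero, hm, Nat.gcd_eq_right (Dvd.intro _ rfl),
          Nat.mul_div_cancel_left _ two_pos]
      have hm1 : m ≠ 1 := by rintro rfl; exact h5 hm
      obtain ⟨p, hp', c, hc⟩ := Nat.exists_prime_and_dvd hm1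
      refine hvan p hp' ?_ _ (h6 ▸ Dvd.intro _ hc.symm)
      by_cases h7 : p = 2
      · exact h7 ▸ h2
      · have hc0 : c ≠ 0 := by
          rintro rfl
          rw [hc, mul_zero, mul_zero] at hm
          exact (orderOf_pos g).ne' hm
        refine hp p hp' h7 ⟨g ^ c, ?_⟩
        rw [orderOf_pow' _ hc0, hm, hc, ← mul_assoc, Nat.gcd_eq_right (Dvd.intro_left _ rfl),
          Nat.mul_div_cancel _ (Nat.pos_of_ne_zero hc0)]
  have h4 : ∑ g : G, (if Odd (orderOf g) then (χ : G → ℂ) (g * g) else 0) = 0 := by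
    rw [← Finset.sum_filter, ← χ.2.sum_eq_zero hne,
      ← Finset.sum_subset (Finset.subset_univ (Finset.univ.filter fun g : G => Odd (orderOf g)))
        (fun g _ hg => hvan 2 Nat.prime_two h2 g (by
          simpa [Nat.not_odd_iff_even, even_iff_two_dvd] using hg))]
    have h5 : ∀ g : G, Odd (orderOf g) → orderOf (g * g) = orderOf g := fun g hg => by
      rw [← sq, Nat.Coprime.orderOf_pow (Nat.coprime_two_right.2 hg)]
    refine Finset.sum_bij (fun g _ => g * g) (fun g hg => ?_) (fun a ha b hb hab => ?_)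
      (fun g hg => ?_) fun _ _ => rfl
    · simp only [Finset.mem_filter, Finset.mem_univ, true_and] at hg ⊢
      rwa [h5 g hg]
    · simp only [Finset.mem_filter, Finset.mem_univ, true_and] at ha hb
      have h6 : orderOf a = orderOf b := by rw [← h5 a ha, ← h5 b hb, hab]
      obtain ⟨r, hr⟩ := ha
      have h7 : ∀ c : G, orderOf c = 2 * r + 1 → c = (c * c) ^ (r + 1) := fun c hc => by
        rw [← sq, ← pow_mul, show 2 * (r + 1) = 2 * r + 1 + 1 by ring, pow_succ, ← hc,
          pow_orderOf_eq_one, one_mul]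
      rw [h7 a hr, h7 b (h6 ▸ hr), hab]
    · simp only [Finset.mem_filter, Finset.mem_univ, true_and] at hg ⊢
      obtain ⟨r, hr⟩ := id hg
      refine ⟨g ^ (r + 1), hg.of_dvd_nat (orderOf_pow_dvd _), ?_⟩
      rw [← pow_add, show r + 1 + (r + 1) = 2 * r + 1 + 1 by ring, pow_succ, ← hr,
        pow_orderOf_eq_one, one_mul]
  have h5 : ∑ g : G, (χ : G → ℂ) (g * g) = ((t * charDegree (χ : G → ℂ) : ℕ) : ℂ) := by
    rw [Finset.sum_congr rfl fun g _ => h3 g, Finset.sum_add_distrib, h4, zero_add,
      ← Finset.sum_filter, Finset.sum_const, nsmul_eq_mul, Nat.cast_mul, χ.2.cast_charDegree]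
  have ht0 : 0 < t := by
    obtain ⟨x, hx⟩ := exists_prime_orderOf_dvd_card' (G := G) 2 heven.two_dvd
    exact Finset.card_pos.2 ⟨x, by simpa using hx⟩
  have hGc : (Nat.card G : ℂ) ≠ 0 := CL.Char.natCard_ne_zero
  have h6 : CL.Char.fsInd (χ : G → ℂ) = 1 := by
    have h7 : (Nat.card G : ℂ) * CL.Char.fsInd (χ : G → ℂ) =
        ((t * charDegree (χ : G → ℂ) : ℕ) : ℂ) := by
      rw [CL.Char.fsInd, mul_inv_cancel_left₀ hGc, h5]
    have h8 : 0 < t * charDegree (χ : G → ℂ) := Nat.mul_pos ht0 hd0
    rcases CL.Char.fsInd_trichotomy χ.2 with h | h | h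
    · rw [h, mul_zero] at h7
      exact absurd h7.symm (by exact_mod_cast h8.ne')
    · exact h
    · rw [h, mul_neg_one, neg_eq_iff_add_eq_zero] at h7
      have : Nat.card G + t * charDegree (χ : G → ℂ) = 0 := by exact_mod_cast h7
      omega
  have h7 : t * charDegree (χ : G → ℂ) = Nat.card G := by
    have h8 := h6
    rw [CL.Char.fsInd, h5, inv_mul_eq_one₀ hGc] at h8
    exact_mod_cast h8.symm
  have h8 : ∀ s : G, orderOf s = 2 → ∀ p : ℕ, p.Prime →
      p ∣ Nat.card (Subgroup.centralizer ({s} : Set G)) →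
      p ^ (Nat.card G).factorization p ∣ charDegree (χ : G → ℂ) := by
    intro s hs p hp' hd
    by_cases h9 : p = 2
    · exact h9 ▸ h2
    have := Fact.mk hp'
    obtain ⟨y, hy⟩ := exists_prime_orderOf_dvd_card' p hd
    rw [← Subgroup.orderOf_coe] at hy
    refine hp p hp' h9 ⟨s * y, ?_⟩
    rw [Commute.orderOf_mul_eq_mul_orderOf_of_coprime (y.2 s rfl), hs, hy]
    rw [hs, hy]
    exact (Nat.coprime_primes Nat.prime_two hp').2 (Ne.symm h9)
  have h9 : ∀ s : G, orderOf s = 2 →
      Nat.card (Subgroup.centralizer ({s} : Set G)) ∣ charDegree (χ : G → ℂ) := by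
    intro s hs
    rw [Nat.dvd_iff_prime_pow_dvd_dvd]
    intro p j hp' hj
    rcases j with _ | j
    · simp
    refine Dvd.dvd.trans (Nat.pow_dvd_pow _ ?_) (h8 s hs p hp' ((dvd_pow_self p j.succ_ne_zero).trans hj))
    exact (hp'.pow_dvd_iff_le_factorization hG0).1 (hj.trans (Subgroup.card_subgroup_dvd_card _))
  have h10 : ∀ s : G, orderOf s = 2 → (Finset.univ.filter fun x => IsConj s x) =
      (Finset.univ.filter fun g : G => orderOf g = 2) ∧
      Nat.card (Subgroup.centralizer ({s} : Set G)) = charDegree (χ : G → ℂ) := by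
    intro s hs
    have h11 := CL.Char.card_isConj_mul_card_centralizer s
    rw [Nat.card_eq_fintype_card, Fintype.card_subtype, ← h7] at h11
    have h12 : (Finset.univ.filter fun x => IsConj s x) ⊆
        (Finset.univ.filter fun g : G => orderOf g = 2) := fun x hx => by
      simp only [Finset.mem_filter, Finset.mem_univ, true_and] at hx ⊢
      obtain ⟨c, rfl⟩ := isConj_iff.1 hx
      rw [← hs]
      exact MulEquiv.orderOf_eq (MulAut.conj c) s
    have h13 := Finset.card_le_card h12
    have h14 := Nat.le_of_dvd hd0 (h9 s hs)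
    rw [← ht] at h13
    refine ⟨Finset.eq_of_subset_of_card_le h12 ?_, ?_⟩
    · rw [← ht]; nlinarith
    · nlinarith
  refine ⟨fun s u hs hu => ?_, fun s hs => ⟨(h10 s hs).2, ?_⟩, h6⟩
  · have h11 : u ∈ Finset.univ.filter fun g : G => orderOf g = 2 := by simpa using hu
    rw [← (h10 s hs).1] at h11
    exact (Finset.mem_filter.1 h11).2
  · refine Nat.coprime_of_dvd fun p hp' h11 h12 => ?_
    have h13 := Nat.mul_dvd_mul ((h10 s hs).2 ▸ h8 s hs p hp' h11) h12
    rw [Subgroup.card_mul_index, ← pow_succ] at h13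
    exact Nat.pow_succ_factorization_not_dvd hG0 hp' h13

end Cfsg.Agent.S4478
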