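import Cfsg.Statements.S4480
import Cfsg.Agent.Blk.Klein2

set_option autoImplicit false
open Cfsg

namespace Cfsg.Agent.S4480

/-- Same setting as the Klein-four order formula: G of order 4·g₀ (g₀ odd) with no normal 2-complement, P a Sylow 2-subgroup, J an involution of P, M over 2, principal 2-block {1, χ₁, χ₂, χ₃} with χ_i(J) = ε_i = ±1. Suppose ε₁ε₂ε₃ = −1 and ε₃ = −1, and put q = x₃ = χ₃(1). Then there is a natural number m with 4·c(J) = m·c(P)·(q + 1), and the order of G equals (m³·c(P)/4)·(q³ − q)/2, that is 8·#G = m³·c(P)·(q³ − q). -/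
theorem result {G : Type*} [Group G] [Finite G] (M : Ideal Cfsg.AlgInt) (hM : Cfsg.IsPModular 2 M) (g₀ : ℕ) (hg₀ : Odd g₀) (hG : Nat.card G = 4 * g₀) (hnc : ¬ ∃ N : Subgroup G, N.Normal ∧ Nat.card N = g₀) (P : Sylow 2 G) (J : G) (hJ : J ∈ (P : Subgroup G)) (hJ2 : orderOf J = 2) (χ₁ χ₂ χ₃ : Cfsg.IrrCharacter G) (ε₁ ε₂ ε₃ : ℤ) (hB : Cfsg.principalBlock M G = {χ : Cfsg.IrrCharacter G | (χ : G → ℂ) = (fun _ => 1) ∨ χ = χ₁ ∨ χ = χ₂ ∨ χ = χ₃}) (hdist : (χ₁ : G → ℂ) ≠ (fun _ => 1) ∧ (χ₂ : G → ℂ) ≠ (fun _ => 1) ∧ (χ₃ : G → ℂ) ≠ (fun _ => 1) ∧ χ₁ ≠ χ₂ ∧ χ₁ ≠ χ₃ ∧ χ₂ ≠ χ₃) (hε : (ε₁ = 1 ∨ ε₁ = -1) ∧ (ε₂ = 1 ∨ ε₂ = -1) ∧ (ε₃ = 1 ∨ ε₃ = -1)) (hval : (χ₁ : G → ℂ) J = ε₁ ∧ (χ₂ : G → ℂ) J = ε₂ ∧ (χ₃ : G → ℂ) J = ε₃) (hprod : ε₁ * ε₂ * ε₃ = -1) (hε₃ : ε₃ = -1) : ∃ m : ℕ, 4 * Nat.card (Subgroup.centralizer ({J} : Set G)) = m * Nat.card (Subgroup.centralizer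 ((P : Subgroup G) : Set G)) * (Cfsg.charDegree (χ₃ : G → ℂ) + 1) ∧ 8 * Nat.card G = m ^ 3 * Nat.card (Subgroup.centralizer ((P : Subgroup G) : Set G)) * (Cfsg.charDegree (χ₃ : G → ℂ) ^ 3 - Cfsg.charDegree (χ₃ : G → ℂ)) := by
  obtain ⟨hP, hone⟩ := CL.Blk.klein_of_card P hg₀ hG hnc
  obtain ⟨h1, h2, h3, h4, h5, h6⟩ := hdist
  obtain ⟨hrel, h⟩ := CL.Blk.klein_order_rat hM P hP hone hJ hJ2 hB h1 h2 h3 h4 h5 h6 hε.1 hε.2.1
    hε.2.2 hval.1 hval.2.1 hval.2.2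
  have da := CL.Blk.irr_charDegree_pos χ₁
  have db := CL.Blk.irr_charDegree_pos χ₂
  have dc := CL.Blk.irr_charDegree_pos χ₃
  subst hε₃
  obtain ⟨rfl, rfl⟩ : ε₁ = 1 ∧ ε₂ = 1 := by
    rcases hε.1 with rfl | rfl <;> rcases hε.2.1 with rfl | rfl <;> omega
  have hbar := CL.Blk.klein_irrBar_eq hM P hP hJ2 hB h1 h2 h3 h4 h5 h6 (by simpa using hval.1)
    (by simpa using hval.2.1) (by simpa using hval.2.2)
  have hdeg : charDegree (χ₂ : G → ℂ) = charDegree (χ₁ : G → ℂ) := by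
    rw [← hbar]
    simp [charDegree]
  have h41 := CL.Blk.klein_four_dvd P hP hone hJ2 χ₁ hval.1
  rw [hdeg] at hrel h
  obtain ⟨k, hk⟩ : ∃ k : ℕ, charDegree (χ₁ : G → ℂ) = 4 * k + 1 := ⟨charDegree (χ₁ : G → ℂ) / 4, by omega⟩
  have hq : charDegree (χ₃ : G → ℂ) = 8 * k + 3 := by omega
  have hle : Subgroup.centralizer ((P : Subgroup G) : Set G) ≤ Subgroup.centralizer ({J} : Set G) :=
    Subgroup.centralizer_le (Set.singleton_subset_iff.2 hJ)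
  obtain ⟨u, hu⟩ := Subgroup.card_dvd_of_le hle
  obtain ⟨i, hi⟩ := Subgroup.card_subgroup_dvd_card (Subgroup.centralizer ({J} : Set G))
  have hc : 0 < Nat.card (Subgroup.centralizer ((P : Subgroup G) : Set G)) := Nat.card_pos
  have hu0 : 0 < u := Nat.pos_of_mul_pos_left (hu ▸ Nat.card_pos)
  rw [hk, hq, hi, hu] at h
  rw [hq, hi, hu]
  generalize Nat.card (Subgroup.centralizer ((P : Subgroup G) : Set G)) = c at *
  have h7 : i * (2 * k + 1) ^ 2 = (4 * k + 1) * (8 * k + 3) * u ^ 2 := by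
    have h8 : (i : ℚ) * (2 * k + 1) ^ 2 = (4 * k + 1) * (8 * k + 3) * u ^ 2 := by
      have c0 : (c : ℚ) ≠ 0 := by exact_mod_cast hc.ne'
      have u0 : (u : ℚ) ≠ 0 := by exact_mod_cast hu0.ne'
      have k0 : (4 * k + 1 : ℚ) ≠ 0 := by positivity
      apply mul_left_cancel₀ (mul_ne_zero (mul_ne_zero (pow_ne_zero 3 c0) u0)
        (mul_ne_zero (by norm_num : (8 : ℚ) ≠ 0) k0))
      push_cast at h
      linear_combination h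
    exact_mod_cast h8
  have hcop : Nat.Coprime (2 * k + 1) ((4 * k + 1) * (8 * k + 3)) := by
    refine Nat.Coprime.mul_right ?_ ?_
    · exact Nat.isCoprime_iff_coprime.1 ⟨2, -1, by push_cast; ring⟩
    · exact Nat.isCoprime_iff_coprime.1 ⟨4, -1, by push_cast; ring⟩
  have h9 : (2 * k + 1) ^ 2 ∣ u ^ 2 :=
    (hcop.pow_left 2).dvd_of_dvd_mul_left ⟨i, by rw [← h7]; ring⟩
  obtain ⟨m, rfl⟩ := (Nat.pow_dvd_pow_iff two_ne_zero).1 h9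
  refine ⟨m, by ring, ?_⟩
  have h10 : i = (4 * k + 1) * (8 * k + 3) * m ^ 2 := by
    apply Nat.eq_of_mul_eq_mul_right (pow_pos (Nat.succ_pos (2 * k)) 2)
    rw [Nat.succ_eq_add_one, h7]; ring
  have h11 : (8 * k + 3) ^ 3 - (8 * k + 3) = (8 * k + 3) * (8 * k + 2) * (8 * k + 4) := by
    apply Nat.sub_eq_of_eq_add
    ring
  rw [h10, h11]
  ring

end Cfsg.Agent.S4480
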