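import Cfsg.Statements.S4481
import Cfsg.Agent.Blk.Dihedral2

set_option autoImplicit false
open Cfsg

namespace Cfsg.Agent.S4481

/-- The principal 2-block of a group with dihedral Sylow 2-subgroups. Let G be a finite group whose Sylow 2-subgroup P is dihedral of order 2^n ≥ 8, let σ be an element of P of order 2^(n−1), ζ a primitive 2^(n−1)-th root of unity, and M a maximal ideal of the algebraic integers containing 2. Then the principal 2-block consists of exactly 3 + 2^(n−2) irreducible characters, which can be labelled 1, χ₁, χ₂, χ₃ and χ^(j) for 1 ≤ j ≤ 2^(n−2) − 1 (all distinct), with signs δ₁, δ₂, δ₃ such that for 0 < λ < 2^(n−1): χ₁(σ^λ) = δ₁, χ₂(σ^λ) = δ₂(−1)^(λ+1), χ₃(σ^λ) = δ₃(−1)^(λ+1) and χ^(j)(σ^λ) = δ₁(ζ^(jλ) + ζ^(−jλ)); and for every element ρ of odd order and every j: 1 + δ₁χ₁(ρ) =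 −δ₂χ₂(ρ) − δ₃χ₃(ρ) = δ₁χ^(j)(ρ). -/
theorem result {G : Type*} [Group G] [Finite G] (M : Ideal Cfsg.AlgInt) (hM : Cfsg.IsPModular 2 M) (n : ℕ) (hn : 3 ≤ n) (P : Sylow 2 G) (hP : Nonempty ((P : Subgroup G) ≃* DihedralGroup (2 ^ (n - 1)))) (σ : G) (hσ : σ ∈ (P : Subgroup G)) (hσo : orderOf σ = 2 ^ (n - 1)) (ζ : ℂ) (hζ : IsPrimitiveRoot ζ (2 ^ (n - 1))) : Nat.card (Cfsg.principalBlock M G) = 3 + 2 ^ (n - 2) ∧ ∃ (χ₁ χ₂ χ₃ : Cfsg.IrrCharacter G) (χ' : Fin (2 ^ (n - 2) - 1) → Cfsg.IrrCharacter G) (δ₁ δ₂ δ₃ : ℤ), (δ₁ = 1 ∨ δ₁ = -1) ∧ (δ₂ = 1 ∨ δ₂ = -1) ∧ (δ₃ = 1 ∨ δ₃ = -1) ∧ Function.Injective χ' ∧ (χ₁ : G → ℂ) ≠ (fun _ => 1) ∧ (χ₂ : G → ℂ) ≠ (fun _ => 1) ∧ (χ₃ : G → ℂ) ≠ (fun _ => 1) ∧ χ₁ ≠ χ₂ ∧ χ₁ ≠ χ₃ ∧ χ₂ ≠ χ₃ ∧ (∀ j, χ' j ≠ χ₁ ∧ χ' j ≠ χ₂ ∧ χ' j ≠ χ₃ ∧ (χ' j : G → ℂ) ≠ (fun _ => 1)) ∧ Cfsg.principalBlock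 M G = {χ : Cfsg.IrrCharacter G | (χ : G → ℂ) = (fun _ => 1) ∨ χ = χ₁ ∨ χ = χ₂ ∨ χ = χ₃ ∨ ∃ j, χ = χ' j} ∧ (∀ l : ℕ, 0 < l → l < 2 ^ (n - 1) → (χ₁ : G → ℂ) (σ ^ l) = δ₁ ∧ (χ₂ : G → ℂ) (σ ^ l) = δ₂ * (-1) ^ (l + 1) ∧ (χ₃ : G → ℂ) (σ ^ l) = δ₃ * (-1) ^ (l + 1) ∧ ∀ j : Fin (2 ^ (n - 2) - 1), (χ' j : G → ℂ) (σ ^ l) = δ₁ * (ζ ^ (((j : ℕ) + 1) * l) + (ζ ^ (((j : ℕ) + 1) * l))⁻¹)) ∧ ∀ ρ : G, Odd (orderOf ρ) → ∀ j : Fin (2 ^ (n - 2) - 1), 1 + δ₁ * (χ₁ : G → ℂ) ρ = -δ₂ * (χ₂ : G → ℂ) ρ - δ₃ * (χ₃ : G → ℂ) ρ ∧ 1 + δ₁ * (χ₁ : G → ℂ) ρ = δ₁ * (χ' j : G → ℂ) ρ := by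
  classical
  have := Fintype.ofFinite G
  have := Fintype.ofFinite (Subgroup.zpowers σ)
  obtain ⟨k, rfl⟩ : ∃ k, n = k + 2 := ⟨n - 2, by omega⟩
  obtain ⟨e⟩ := hP
  obtain ⟨τ, h⟩ := CL.Blk.exists_dihSyl_of_equiv (k := k) (by omega) e hσ hσo
  rw [← hσo] at hζ
  obtain ⟨lam, hlam, hl⟩ := CL.Blk.exists_lin_of_primitiveRoot hζ
  have hm : 2 ^ k - 1 + 1 = 2 ^ k := Nat.sub_add_cancel Nat.one_le_two_pow
  obtain ⟨D⟩ := h.nonempty_data hM (hlam.trans h.ord) hm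
  have hne : ∀ χ : IrrCharacter G, χ ≠ CL.Char.irrOne G → (χ : G → ℂ) ≠ fun _ => 1 :=
    fun χ h1 h2 => h1 (Subtype.ext h2)
  have hζh : ζ ^ 2 ^ k = -1 :=
    (hζ.pow (orderOf_pos σ) (by rw [h.ord, pow_succ])).eq_neg_one_of_two_right
  refine ⟨?_, D.χ₁, D.χ₂, D.χ₃, D.χ', D.δ₁, D.δ₂, D.δ₃, D.sign₁, D.sign₂, D.sign₃, D.inj, hne _ D.ne₁,
    hne _ D.ne₂, hne _ D.ne₃, D.ne₁₂, D.ne₁₃, D.ne₂₃, fun j => ⟨(D.ne' j).1, (D.ne' j).2.1,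
      (D.ne' j).2.2.1, hne _ (D.ne' j).2.2.2⟩, Set.ext fun χ => ?_, fun l h1 h2 => ?_,
    fun ρ hρ j => ?_⟩
  · rw [Nat.subtype_card (insert (CL.Char.irrOne G) (insert D.χ₁ (insert D.χ₂ (insert D.χ₃
      (Finset.univ.image D.χ'))))) fun χ => by simp [D.mem_iff, eq_comm],
      Finset.card_insert_of_notMem (by
        simp [D.ne₁.symm, D.ne₂.symm, D.ne₃.symm, fun j => (D.ne' j).2.2.2]),
      Finset.card_insert_of_notMem (by simp [D.ne₁₂, D.ne₁₃, fun j => (D.ne' j).1]),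
      Finset.card_insert_of_notMem (by simp [D.ne₂₃, fun j => (D.ne' j).2.1]),
      Finset.card_insert_of_notMem (by simp [fun j => (D.ne' j).2.2.1]),
      Finset.card_image_of_injective _ D.inj, Finset.card_univ, Fintype.card_fin,
      Nat.add_sub_cancel]
    omega
  · rw [D.mem_iff]
    exact or_congr_left ⟨fun h => by rw [h]; rfl, fun h => Subtype.ext h⟩
  · have hy : (⟨σ ^ l, pow_mem (Subgroup.mem_zpowers σ) l⟩ : Subgroup.zpowers σ) ≠ 1 := fun h3 =>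
      pow_ne_one_of_lt_orderOf h1.ne' (hσo ▸ h2) (congrArg Subtype.val h3)
    refine ⟨D.val₁ _ hy, (D.val₂ _ hy).trans ?_, (D.val₃ _ hy).trans ?_, fun j => (D.val' j _ hy).trans ?_⟩
    · rw [hl, hm, pow_mul, hζh]; ring
    · rw [hl, hm, pow_mul, hζh]; ring
    · rw [← hl, CL.Blk.lin_apply _ (_)⁻¹, map_inv, Units.val_inv_eq_inv_val]
      rfl
  · have h2 : ¬ 2 ∣ orderOf ρ := by rw [Nat.odd_iff] at hρ; omega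
    have e1 := CL.Blk.tau_apply_eq_zero_of_pRegular hM h.isPGroup
      (θ := CL.Blk.lin (lam ^ ((j : ℕ) + 1)) - CL.Blk.lin 1) (by simp) h2
    have e2 := CL.Blk.tau_apply_eq_zero_of_pRegular hM h.isPGroup
      (θ := CL.Blk.lin (lam ^ (2 ^ k - 1 + 1)) - CL.Blk.lin 1) (by simp) h2
    rw [CL.Blk.tau_apply, D.col] at e1
    rw [CL.Blk.tau_apply, D.col'] at e2
    simp only [show ∀ g, ((CL.Char.irrOne G : IrrCharacter G) : G → ℂ) g = 1 from fun _ => rfl] at e1 e2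
    exact ⟨by linear_combination -e2, by linear_combination -e1⟩

end Cfsg.Agent.S4481
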