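import Cfsg.Statements.S4482
import Cfsg.Agent.Blk.Dihedral2

set_option autoImplicit false
open Cfsg

namespace Cfsg.Agent.S4482

/-- An order formula for groups with dihedral Sylow 2-subgroups and one class of involutions. Let G be a finite group whose Sylow 2-subgroup P = ⟨σ, τ⟩ is dihedral of order 2^n ≥ 8 (σ of order 2^(n−1), τ an involution inverting σ), let J be the central involution σ^(2^(n−2)), and suppose J, τ and στ are conjugate in G. Fix M over 2 and let χ₁ be an irreducible character in the principal 2-block taking one constant value δ₁ = ±1 at every non-identity power of σ, with χ₁ ≠ 1. Then, with x₁ = χ₁(1) and c(·) denoting orders of centralizers, x₁ ≠ δ₁ and #G · (x₁ − δ₁)² = 2·x₁(x₁ + δ₁)·c(J)³·(1/c(J, τ) + 1/c(J, στ))², where c(J, y) is the order of the joint centralizer of J and y. -/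
theorem result {G : Type*} [Group G] [Finite G] (M : Ideal Cfsg.AlgInt) (hM : Cfsg.IsPModular 2 M) (n : ℕ) (hn : 3 ≤ n) (P : Sylow 2 G) (σ τ : G) (hσ : σ ∈ (P : Subgroup G)) (hτ : τ ∈ (P : Subgroup G)) (hσo : orderOf σ = 2 ^ (n - 1)) (hτo : orderOf τ = 2) (hrel : τ * σ * τ⁻¹ = σ⁻¹) (hgen : Subgroup.closure ({σ, τ} : Set G) = (P : Subgroup G)) (hconj : IsConj (σ ^ (2 ^ (n - 2))) τ ∧ IsConj (σ ^ (2 ^ (n - 2))) (σ * τ)) (χ₁ : Cfsg.IrrCharacter G) (hχ₁ : χ₁ ∈ Cfsg.principalBlock M G) (h1 : (χ₁ : G → ℂ) ≠ (fun _ => 1)) (δ₁ : ℤ) (hδ₁ : δ₁ = 1 ∨ δ₁ = -1) (hval : ∀ l : ℕ, 0 < l → l < 2 ^ (n - 1) → (χ₁ : G → ℂ) (σ ^ l) = δ₁) : (Cfsg.charDegree (χ₁ : G → ℂ) : ℤ) ≠ δ₁ ∧ (Nat.card G : ℚ) * ((Cfsg.charDegree (χ₁ : G → ℂ) : ℚ) - δ₁) ^ 2 = 2 * (Cfsg.charDegree (χ₁ : G → ℂ) : ℚ) * ((Cfsg.charDegree (χ₁ : G → ℂ) : ℚ) + δ₁) * (Nat.card (Subgroup.centralizer ({σ ^ (2 ^ (n - 2))} : Set G)) :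 ℚ) ^ 3 * (1 / (Nat.card (Subgroup.centralizer ({σ ^ (2 ^ (n - 2)), τ} : Set G)) : ℚ) + 1 / (Nat.card (Subgroup.centralizer ({σ ^ (2 ^ (n - 2)), σ * τ} : Set G)) : ℚ)) ^ 2 := by
  classical
  have := Fintype.ofFinite G
  obtain ⟨k, rfl⟩ : ∃ k, n = k + 2 := ⟨n - 2, by omega⟩
  have h := CL.Blk.dihSyl_of_closure (k := k) (by omega) hσo (CL.Inv.mul_self_of_orderOf_two hτo)
    hrel hgen
  obtain ⟨h2, h3⟩ := h.order_formula hM hconj.1 hconj.2 hχ₁ (fun h => h1 (by rw [h]; rfl)) hδ₁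
    fun y hy hy1 => by
      rw [mem_zpowers_iff_mem_range_orderOf, Finset.mem_image] at hy
      obtain ⟨l, hl, rfl⟩ := hy
      exact hval l (Nat.pos_of_ne_zero fun h4 => hy1 (by rw [h4, pow_zero]))
        (hσo ▸ Finset.mem_range.1 hl)
  refine ⟨fun h4 => ?_, h3⟩
  have h5 : (charDegree (χ₁ : G → ℂ) : ℚ) = δ₁ := by exact_mod_cast h4
  have h6 : (0 : ℚ) < (charDegree (χ₁ : G → ℂ) : ℚ) + δ₁ := by exact_mod_cast h2
  have h7 : (0 : ℚ) < charDegree (χ₁ : G → ℂ) := by exact_mod_cast CL.Blk.irr_charDegree_pos χ₁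
  have h8 : ∀ H : Subgroup G, (0 : ℚ) < Nat.card H := fun H => by exact_mod_cast Nat.card_pos
  rw [← sub_eq_zero] at h5
  rw [h5] at h3
  refine absurd h3 (ne_of_lt ?_)
  rw [zero_pow two_ne_zero, mul_zero]
  have := h8
  exact mul_pos (mul_pos (mul_pos (mul_pos two_pos h7) h6) (pow_pos (h8 _) _))
    (pow_pos (add_pos (one_div_pos.2 (h8 _)) (one_div_pos.2 (h8 _))) _)

end Cfsg.Agent.S4482
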