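import Cfsg.Statements.S4483
import Cfsg.Agent.Blk.Defect2
import Cfsg.Agent.Blk.RkFeit

set_option autoImplicit false
open Cfsg

namespace Cfsg.Agent.S4483

/-- Let G be a finite group of order 2^n·g₀ with g₀ odd, and M a maximal ideal of the algebraic integers containing 2. Every real-valued irreducible character of G of odd degree lies in the principal 2-block; consequently G has at most 2^(2n) real-valued irreducible characters of odd degree. -/
theorem result {G : Type*} [Group G] [Finite G] (M : Ideal Cfsg.AlgInt) (hM : Cfsg.IsPModular 2 M) : (∀ χ : Cfsg.IrrCharacter G, (∀ g : G, ((χ : G → ℂ) g).im = 0) → Odd (Cfsg.charDegree (χ : G → ℂ)) → χ ∈ Cfsg.principalBlock M G) ∧ Nat.card {χ : Cfsg.IrrCharacter G // (∀ g : G, ((χ : G → ℂ) g).im = 0) ∧ Odd (Cfsg.charDegree (χ : G → ℂ))} ≤ 2 ^ (2 * (Nat.card G).factorization 2) := by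
  have h1 : ∀ χ : Cfsg.IrrCharacter G, (∀ g : G, ((χ : G → ℂ) g).im = 0) →
      Odd (Cfsg.charDegree (χ : G → ℂ)) → χ ∈ Cfsg.principalBlock M G := by
    intro χ hr ho
    have hd : CL.Blk.dualIrr χ = χ := by
      apply Subtype.ext
      funext g
      rw [CL.Blk.dualIrr_apply_conj]
      exact Complex.conj_eq_iff_im.mpr (hr g)
    refine CL.Blk.mem_principal_of_real hM ?_ fun g _ => ?_
    · exact CL.Blk.blockDefect_eq_full_of_not_dvd (CL.Blk.tr_mem_blockOf_self hM χ)
        (fun h => (Nat.not_even_iff_odd.mpr ho) (even_iff_two_dvd.mpr h))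
    · rw [← CL.Blk.centralChar_dualIrr, hd]
  refine ⟨h1, ?_⟩
  have h2 : Nat.card {χ : Cfsg.IrrCharacter G // (∀ g : G, ((χ : G → ℂ) g).im = 0) ∧
      Odd (Cfsg.charDegree (χ : G → ℂ))} ≤ Nat.card (Cfsg.principalBlock M G) :=
    Nat.card_le_card_of_injective (fun χ => ⟨χ.1, h1 χ.1 χ.2.1 χ.2.2⟩)
      (fun a b h => Subtype.ext (by simpa using h))
  have h3 := CL.Blk.Rk.four_mul_card_le hM (CL.Blk.tr_isPBlock_principalBlock (M := M) (G := G))
  have : Fact (Nat.Prime 2) := ⟨Nat.prime_two⟩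
  rw [CL.Blk.blockDefect_principal hM] at h3
  refine h2.trans ?_
  rcases Nat.eq_zero_or_pos ((Nat.card G).factorization 2) with h | h
  · rw [h] at h3 ⊢
    omega
  · have : 2 ^ 2 ≤ 2 ^ (2 * (Nat.card G).factorization 2) :=
      Nat.pow_le_pow_right (by norm_num) (by omega)
    omega

end Cfsg.Agent.S4483
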