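import Cfsg.Statements.S4491
import Cfsg.Agent.Blk.Third2

set_option autoImplicit false
open Cfsg

namespace Cfsg.Agent.S4491

/-- Let B be a p-block of defect d of the finite group G (relative to a maximal ideal M of the algebraic integers containing p), and let p^a be the p-part of the order of G. Then the exact power of p dividing the sum of the squares of the degrees of the irreducible characters in B is p^(2a − d). -/
theorem result {G : Type*} [Group G] [Finite G] (p : ℕ) [Fact p.Prime] (M : Ideal Cfsg.AlgInt) (hM : Cfsg.IsPModular p M) (B : Set (Cfsg.IrrCharacter G)) (hB : Cfsg.IsPBlock M B) : (∑ᶠ χ ∈ B, Cfsg.charDegree (χ : G → ℂ) ^ 2).factorization p = 2 * (Nat.card G).factorization p - Cfsg.blockDefect p B := by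
  classical
  obtain ⟨ψ, hψ, h0⟩ := CL.Blk.exists_height_zero (p := p) (CL.Blk.pblock_nonempty hM hB)
  have h1 := CL.Blk.val_sum_degree_sq hM hB hψ h0
  rw [CL.Blk.finsum_mem_irr_eq_sum]
  have e : ∑ χ : Cfsg.IrrCharacter G with χ ∈ B, (χ : G → ℂ) 1 * (χ : G → ℂ) 1
      = ((∑ χ : Cfsg.IrrCharacter G with χ ∈ B, Cfsg.charDegree (χ : G → ℂ) ^ 2 : ℕ) : ℂ) := by
    rw [Nat.cast_sum]
    exact Finset.sum_congr rfl fun χ _ => by rw [Nat.cast_pow, CL.Blk.charDegree_cast_irr, sq]
  have hp : p ^ (Nat.card G).factorization p ≠ 0 := pow_ne_zero _ hM.1.ne_zero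
  have hd := CL.Blk.charDegree_ne_zero ψ.2
  rw [e, ← CL.Blk.charDegree_cast_irr, ← Nat.cast_mul] at h1
  generalize (∑ χ : Cfsg.IrrCharacter G with χ ∈ B, Cfsg.charDegree (χ : G → ℂ) ^ 2) = n at h1
  have hn : n ≠ 0 := by
    rintro rfl
    rw [Nat.cast_zero, map_zero, eq_comm, Valuation.zero_iff, Nat.cast_eq_zero] at h1
    exact mul_ne_zero hp hd h1
  rw [CL.Blk.val_natCast_eq_iff hM hn (mul_ne_zero hp hd), Nat.factorization_mul hp hd,
    Finsupp.add_apply, Nat.factorization_pow, Finsupp.smul_apply, hM.1.factorization_self,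
    smul_eq_mul, mul_one] at h1
  have h2 := CL.Blk.factorization_charDegree_add_blockDefect (p := p) hψ
  omega

end Cfsg.Agent.S4491
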