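import Cfsg.Statements.S4492
import Cfsg.Agent.Blk.FongP2

set_option autoImplicit false
open Cfsg

namespace Cfsg.Agent.S4492

/-- Let G be a finite p-solvable group, N = O_{p'}(G) its largest normal subgroup of order prime to p, and θ an irreducible character of N invariant under conjugation by G; fix a maximal ideal M of the algebraic integers containing p. Then the irreducible characters of G lying over θ (those whose restriction to N contains θ) form a single p-block of G, and the defect groups of that block are exactly the Sylow p-subgroups of G. -/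
theorem result {G : Type*} [Group G] [Fintype G] (p : ℕ) [Fact p.Prime] (M : Ideal Cfsg.AlgInt) (hM : Cfsg.IsPModular p M) (hsolv : Cfsg.IsPSolvable p G) (N : Subgroup G) [hN : N.Normal] [Fintype N] (hNdef : N = Cfsg.pPrimeCore p G) (θ : Cfsg.IrrCharacter N) (hinv : ∀ (g : G) (n : N), (θ : N → ℂ) ⟨g * n * g⁻¹, hN.conj_mem n n.2 g⟩ = (θ : N → ℂ) n) : ∃ B : Set (Cfsg.IrrCharacter G), Cfsg.IsPBlock M B ∧ (∀ χ : Cfsg.IrrCharacter G, χ ∈ B ↔ Cfsg.classInner (fun n : N => (χ : G → ℂ) n) (θ : N → ℂ) ≠ 0) ∧ (∀ P : Sylow p G, Cfsg.IsDefectGroup p M B (P : Subgroup G)) ∧ ∀ D : Subgroup G, Cfsg.IsDefectGroup p M B D → ∃ P : Sylow p G, D = (P : Subgroup G) := by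
  have hG := CL.Loc.isPConstrained_of_isPSolvable hsolv
  have hθ := CL.Blk.isInvSet_singleton_iff.2 hinv
  refine ⟨CL.Blk.overSet N {θ}, CL.Blk.fong_isPBlock hM hG hNdef hθ,
    fun χ => CL.Blk.mem_overSet_singleton.trans CL.Blk.over_iff,
    CL.Blk.fong_isDefectGroup_sylow hM hG hNdef hθ, fun D hD => ?_⟩
  obtain ⟨P, hP⟩ := (CL.Grp.isSylowIn_top_iff (p := p) (S := D)).1
    ⟨le_top, CL.Blk.tr_isPGroup_of_isDefectGroup hD, by
      rw [Subgroup.relIndex_top_right]
      exact CL.Blk.fong_not_dvd_index hM hG hNdef hθ hD⟩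
  exact ⟨P, hP.symm⟩

end Cfsg.Agent.S4492
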