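import Cfsg.Statements.S4493
import Cfsg.Agent.Char.DegIto

set_option autoImplicit false
open Cfsg

namespace Cfsg.Agent.S4493

/-- Let G be a finite solvable group and p a prime. Then G has a normal abelian Sylow p-subgroup if and only if no irreducible character degree of G is divisible by p. -/
theorem result {G : Type*} [Group G] [Finite G] (hsolv : Group.IsSolvable G) (p : ℕ) (hp : p.Prime) : (∃ P : Subgroup G, P.Normal ∧ (∀ x ∈ P, ∀ y ∈ P, x * y = y * x) ∧ IsPGroup p P ∧ ¬ p ∣ P.index) ↔ ∀ χ : Cfsg.IrrCharacter G, ¬ p ∣ Cfsg.charDegree (χ : G → ℂ) := by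
  have : Fact p.Prime := ⟨hp⟩
  constructor
  · rintro ⟨P, hn, hab, -, hi⟩ χ hd
    exact hi (hd.trans (CL.Char.isIrr_degree_dvd_index_of_abelian_normal χ.2 χ.2.cast_charDegree.symm _ hab))
  · intro h
    obtain ⟨P⟩ : Nonempty (Sylow p G) := inferInstance
    obtain ⟨h2, h3⟩ := (CL.Char.ito_normal_abelian_sylow_iff (CL.Loc.isPSolvable_of_isSolvable hsolv) P).mpr
      (fun χ hχ => h ⟨χ, hχ⟩)
    exact ⟨P, h2, h3, P.isPGroup', P.not_dvd_index⟩

end Cfsg.Agent.S4493
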