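import Cfsg.Statements.S4498
import Cfsg.Agent.S4731

set_option autoImplicit false
open Cfsg

namespace Cfsg.Agent.S4498

/-- Let p and q be distinct primes dividing the order of the finite group G, and suppose G has no element of order p·q. Fix maximal ideals M_p over p and M_q over q of the algebraic integers. Then the principal p-block and the principal q-block of G have a non-principal irreducible character in common. -/
theorem result {G : Type*} [Group G] [Finite G] (p q : ℕ) [Fact p.Prime] [Fact q.Prime] (hpq : p ≠ q) (hp : p ∣ Nat.card G) (hq : q ∣ Nat.card G) (hno : ∀ g : G, orderOf g ≠ p * q) (Mp Mq : Ideal Cfsg.AlgInt) (hMp : Cfsg.IsPModular p Mp) (hMq : Cfsg.IsPModular q Mq) : ∃ χ : Cfsg.IrrCharacter G, (χ : G → ℂ) ≠ (fun _ => 1) ∧ χ ∈ Cfsg.principalBlock Mp G ∧ χ ∈ Cfsg.principalBlock Mq G := by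
  by_contra h
  push Not at h
  obtain ⟨y, hy⟩ := exists_prime_orderOf_dvd_card' p hp
  obtain ⟨ω, hω⟩ := Cfsg.Agent.S4731.result p q hpq Mp Mq hMp hMq hno _ rfl _
    (CL.Blk.isPBlock_principal Mp) _ (CL.Blk.isPBlock_principal Mq) y (hy ▸ dvd_rfl)
  have e : Cfsg.principalBlock Mp G ∩ Cfsg.principalBlock Mq G = {CL.Char.irrOne G} := by
    ext χ
    refine ⟨fun hχ => ?_, fun hχ => ?_⟩
    · by_contra hne
      exact h χ (fun e => hne (Subtype.ext e)) hχ.1 hχ.2
    · rw [Set.mem_singleton_iff.1 hχ]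
      exact ⟨CL.Blk.irrOne_mem_principal hMp, CL.Blk.irrOne_mem_principal hMq⟩
  rw [e, finsum_mem_singleton, CL.Char.coe_irrOne, CL.Blk.charDegree_const_one, Nat.cast_one,
    mul_one] at hω
  have h1 : CL.Blk.val Mq ((q : ℂ) ^ (Nat.card G).factorization q * (ω : ℂ)) < 1 := by
    refine CL.Blk.val_mul_lt_one_left ?_ (CL.Blk.algInt_mem_valRing Mq ω)
    rw [← Nat.cast_pow, CL.Blk.val_natCast_lt_one_iff hMq]
    exact dvd_pow_self q (hMq.1.factorization_pos_of_dvd Nat.card_pos.ne' hq).ne'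
  rw [← hω, map_one] at h1
  exact lt_irrefl _ h1

end Cfsg.Agent.S4498
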