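import Cfsg.Statements.S4500
import Cfsg.Agent.Blk.RkFeit
import Cfsg.Agent.Blk.Second
import Cfsg.Agent.Blk.DefectNum
import Cfsg.Agent.Char.Congruence

set_option autoImplicit false
open Cfsg

namespace Cfsg.Agent.S4500

/-- Let G be a non-trivial finite group of order p^a · q^b · r^c with p, q, r distinct primes and a ≤ 2. Then G has a non-principal irreducible character whose degree is a power of q, and a non-principal irreducible character whose degree is a power of r; the power may be the zeroth, so a non-principal linear character serves for both. -/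
theorem result {G : Type*} [Group G] [Finite G] [Nontrivial G] (p q r a b c : ℕ) (hp : p.Prime) (hq : q.Prime) (hr : r.Prime) (hpq : p ≠ q) (hpr : p ≠ r) (hqr : q ≠ r) (ha : a ≤ 2) (hG : Nat.card G = p ^ a * q ^ b * r ^ c) : (∃ χ : Cfsg.IrrCharacter G, (χ : G → ℂ) ≠ (fun _ => 1) ∧ ∃ k : ℕ, Cfsg.charDegree (χ : G → ℂ) = q ^ k) ∧ ∃ χ : Cfsg.IrrCharacter G, (χ : G → ℂ) ≠ (fun _ => 1) ∧ ∃ k : ℕ, Cfsg.charDegree (χ : G → ℂ) = r ^ k := by
  classical
  obtain ⟨A, x, h1A, hsum, hA⟩ : ∃ (A : Finset (IrrCharacter G)) (x : G), CL.Char.irrOne G ∈ A ∧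
      ∑ χ ∈ A, (χ : G → ℂ) 1 * (χ : G → ℂ) x = 0 ∧ ∀ χ ∈ A, ¬ p ∣ charDegree (χ : G → ℂ) := by
    by_cases hpG : p ∣ Nat.card G
    · obtain ⟨M, hM⟩ := CL.Blk.exists_isPModular' hp
      have := Fact.mk hp
      obtain ⟨x, hx⟩ := exists_prime_orderOf_dvd_card' p hpG
      have hB := CL.Blk.isPBlock_principal (G := G) M
      refine ⟨Finset.univ.filter (· ∈ principalBlock M G), x⁻¹,
        Finset.mem_filter.2 ⟨Finset.mem_univ _, CL.Blk.irrOne_mem_principal hM⟩, ?_, fun χ hχ => ?_⟩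
      · refine CL.Blk.block_orth hM hB (CL.Blk.isPPart_self hp ⟨0, by simp⟩)
          (CL.Blk.isPPart_self hp ⟨1, by simpa using hx⟩) fun h => ?_
        rw [isConj_one_right] at h
        rw [h, orderOf_one] at hx
        exact hp.one_lt.ne hx
      · have hχ := (Finset.mem_filter.1 hχ).2
        have hfac : (Nat.card G).factorization p ≤ 2 := by
          rw [hG, Nat.factorization_mul (mul_ne_zero (pow_ne_zero _ hp.ne_zero) (pow_ne_zero _ hq.ne_zero))
            (pow_ne_zero _ hr.ne_zero), Nat.factorization_mul (pow_ne_zero _ hp.ne_zero)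
            (pow_ne_zero _ hq.ne_zero)]
          simpa [hp.factorization, hq.factorization, hr.factorization, Finsupp.single_apply, hpq.symm, hpr.symm]
            using ha
        have h0 := CL.Blk.Rk.height_eq_zero_of_defect_le_two hM hB (CL.Blk.blockDefect_le.trans hfac) hχ
        have h2 := (CL.Blk.blockHeight_eq_zero_iff hχ).1 h0 _ (CL.Blk.irrOne_mem_principal hM)
        rw [CL.Char.coe_irrOne, CL.Blk.charDegree_const_one, Nat.factorization_one] at h2
        intro hd
        have := hp.factorization_pos_of_dvd (CL.Blk.charDegree_ne_zero χ.2) hd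
        simp at h2
        omega
    · obtain ⟨x, hx⟩ := exists_ne (1 : G)
      refine ⟨Finset.univ, x, Finset.mem_univ _, ?_, fun χ _ h => hpG (h.trans (CL.Blk.charDegree_dvd_card χ.2))⟩
      rw [CL.Char.sum_irr_one_mul_apply, CL.Char.regChar_of_ne_one hx]
  have key : ∀ s : ℕ, s.Prime → ∃ χ ∈ A, (χ : G → ℂ) ≠ (fun _ => 1) ∧ ¬ s ∣ charDegree (χ : G → ℂ) := by
    intro s hs
    by_contra hcon
    push Not at hcon
    have h1 : CL.Char.CongMod s (∑ χ ∈ A.erase (CL.Char.irrOne G), (χ : G → ℂ) 1 * (χ : G → ℂ) x)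
        (∑ χ ∈ A.erase (CL.Char.irrOne G), 0) := by
      refine CL.Char.CongMod.sum _ fun χ hχ => ?_
      obtain ⟨d, hd⟩ := hcon χ (Finset.mem_of_mem_erase hχ)
        (fun h => Finset.ne_of_mem_erase hχ (Subtype.ext h))
      refine ⟨d * (χ : G → ℂ) x, (isIntegral_natCast d).mul (CL.Char.isChar_isIntegral χ.2.isCharacter x), ?_⟩
      rw [← CL.Blk.charDegree_cast_irr, hd]
      push_cast
      ring
    rw [← Finset.add_sum_erase _ _ h1A, CL.Char.irrOne_apply, CL.Char.irrOne_apply, mul_one] at hsum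
    rw [Finset.sum_const_zero, eq_neg_of_add_eq_zero_right hsum] at h1
    have h2 : CL.Char.CongMod s ((-1 : ℤ) : ℂ) ((0 : ℤ) : ℂ) := by simpa using h1
    have h3 := h2.intModEq.dvd
    simp only [sub_neg_eq_add, zero_add, Int.natCast_dvd, Int.natAbs_one, Nat.dvd_one] at h3
    exact hs.one_lt.ne' h3
  have fin : ∀ (s t : ℕ) (j k : ℕ), s.Prime → t.Prime → Nat.card G = p ^ a * s ^ j * t ^ k →
      ∃ χ : Cfsg.IrrCharacter G, (χ : G → ℂ) ≠ (fun _ => 1) ∧ ∃ k : ℕ, Cfsg.charDegree (χ : G → ℂ) = s ^ k := by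
    intro s t j k hs ht h
    obtain ⟨χ, hχ, h1, h2⟩ := key t ht
    have hd := CL.Blk.charDegree_dvd_card χ.2
    rw [h] at hd
    have hd1 := (Nat.Coprime.pow_right k ((Nat.Prime.coprime_iff_not_dvd ht).2 h2).symm).dvd_of_dvd_mul_right hd
    have hd2 := (Nat.Coprime.pow_right a
      ((Nat.Prime.coprime_iff_not_dvd hp).2 (hA χ hχ)).symm).dvd_of_dvd_mul_left hd1
    obtain ⟨i, -, hi⟩ := (Nat.dvd_prime_pow hs).1 hd2
    exact ⟨χ, h1, i, hi⟩
  exact ⟨fin q r b c hq hr hG, fin r q c b hr hq (by rw [hG]; ring)⟩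

end Cfsg.Agent.S4500
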