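import Cfsg.Statements.S4502
import Cfsg.Agent.Inv.LowDeg
import Cfsg.Agent.Char.Ito

set_option autoImplicit false
open Cfsg

namespace Cfsg.Agent.S4502

open Finset Subgroup CL.Inv.PO CL.Char CL.Blk
open scoped Classical

variable {G : Type*} [Group G] [Fintype G] {p : ℕ} [hp : Fact p.Prime] {x : G} {C : Subgroup G}

theorem mem_iff_inner {K : Ctx p x C} {θ : IrrCharacter C} {B : Set (IrrCharacter G)}
    (D : Data K θ B) (χ : IrrCharacter G) :
    χ ∈ B ↔ ∃ l : (ZMod p)ˣ, classInner (χ : G → ℂ) (K.A θ l) ≠ 0 := by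
  refine ⟨fun h => ?_, fun ⟨l, hl⟩ => by_contra fun h => hl (D.inner_notMem χ h l)⟩
  rcases (D.mem_iff χ).1 h with h | ⟨k, rfl⟩
  · exact ⟨1, by rw [D.inner_X χ h]; rcases D.hs χ h with h1 | h1 <;> simp [h1]⟩
  · exact ⟨k, by rcases D.hε with h1 | h1 <;> simp [D.inner_μ, h1]⟩

theorem sum_rel (K : Ctx p x C) (χ : IrrCharacter G) :
    ∑ θ ∈ univ.filter K.Ker, (if ∃ l : (ZMod p)ˣ, classInner (χ : G → ℂ) (K.A θ l) ≠ 0 then
      Nat.card (K.E θ) else 0) = if ¬ p ∣ charDegree (χ : G → ℂ) then K.f else 0 := by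
  by_cases h : p ∣ charDegree (χ : G → ℂ)
  · rw [if_neg (not_not.2 h)]
    refine sum_eq_zero fun θ _ => if_neg fun ⟨l, hl⟩ => hl ?_
    have h1 : (charDegree (χ : G → ℂ)).factorization p = (Nat.card G).factorization p :=
      le_antisymm (Nat.factorization_le_factorization_of_dvd_right χ.2.charDegree_dvd_card
        χ.2.charDegree_pos.ne' Nat.card_pos.ne') (by
        rw [K.factorization_card]
        exact hp.out.factorization_pos_of_dvd χ.2.charDegree_pos.ne' h)
    rw [classInner, sum_eq_zero fun g _ => ?_, mul_zero]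
    by_cases hg : p ∣ orderOf g
    · rw [irr_apply_eq_zero_of_defect_zero hp.out h1 hg, zero_mul]
    · simp [K.A_reg θ l hg]
  · obtain ⟨θ₀, B, ⟨D⟩, hB⟩ := K.exists_data_mem h
    have h1 : ∀ θ, K.Ker θ ∧ (∃ l : (ZMod p)ˣ, classInner (χ : G → ℂ) (K.A θ l) ≠ 0) ↔
        θ ∈ Set.range fun n : Nz x => K.cc n⁻¹ θ₀ := fun θ => by
      constructor
      · rintro ⟨h1, l, hl⟩
        by_contra h2
        refine hl (D.inner_ne χ hB θ h1 (fun n hn => h2 ⟨n, ?_⟩) l)
        simp only [← hn, ← K.cc_mul, mul_inv_cancel, K.cc_one]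
      · rintro ⟨n, rfl⟩
        obtain ⟨l, hl⟩ := (mem_iff_inner D χ).1 hB
        exact ⟨D.ker.cc _, K.a n⁻¹ * l, by rwa [Units.val_mul, K.A_cc]⟩
    have h2 := card_range_of_quotient (K.stab θ₀) (fun n : Nz x => K.cc n⁻¹ θ₀) fun k l => by
      rw [K.mem_stab, K.cc_mul]
      constructor
      · intro h
        rw [h, ← K.cc_mul, inv_mul_cancel, K.cc_one]
      · intro h
        have := congrArg (K.cc l⁻¹) h
        rwa [← K.cc_mul l, mul_inv_cancel, K.cc_one] at this
    have h3 := (K.stab θ₀).card_mul_index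
    rw [K.card_stab, K.card_N, mul_right_comm] at h3
    rw [if_pos h, ← sum_filter, filter_filter, sum_congr (filter_congr fun θ _ => h1 θ)
      (g := fun _ => Nat.card (K.E θ₀)) fun θ hθ => by
        obtain ⟨n, rfl⟩ := (mem_filter.1 hθ).2
        rw [K.E_cc], sum_const, smul_eq_mul, ← Nat.eq_of_mul_eq_mul_right Nat.card_pos h3,
      mul_comm, ← h2, Nat.card_eq_fintype_card (α := Set.range _), Fintype.card_subtype]

theorem count (K : Ctx p x C) :
    K.f * Nat.card {χ : IrrCharacter G // ¬ p ∣ charDegree (χ : G → ℂ)} =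
      ∑ θ ∈ univ.filter K.Ker, (Nat.card (K.E θ) ^ 2 + (p - 1)) := by
  obtain ⟨M, hM⟩ := exists_isPModular' hp.out
  rw [Nat.card_eq_fintype_card, Fintype.card_subtype, mul_comm, ← smul_eq_mul, ← sum_const,
    sum_filter, ← sum_congr rfl fun χ _ => sum_rel K χ, sum_comm]
  refine sum_congr rfl fun θ hθ => ?_
  obtain ⟨B, hB⟩ := K.inducedBlockDefined hM θ
  obtain ⟨D⟩ := K.nonempty_data hM (mem_filter.1 hθ).2 hB
  rw [← sum_filter, sum_const, smul_eq_mul, ← K.card_E_mul_index θ, pow_two, ← mul_add, mul_comm,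
    ← D.card_B, Nat.card_eq_fintype_card (α := B), Fintype.card_subtype]
  congr 2
  exact filter_congr fun χ _ => (mem_iff_inner D χ).symm

/-- Let G be a finite group whose order is divisible by the prime p exactly once, and let P be a Sylow p-subgroup. Then the number of irreducible characters of G of degree not divisible by p equals the number of conjugacy classes of the normalizer of P. -/
theorem result {G : Type*} [Group G] [Finite G] (p : ℕ) [Fact p.Prime] (hdiv : p ∣ Nat.card G) (hsq : ¬ p ^ 2 ∣ Nat.card G) (P : Sylow p G) : Nat.card {χ : Cfsg.IrrCharacter G // ¬ p ∣ Cfsg.charDegree (χ : G → ℂ)} = Nat.card (ConjClasses (Subgroup.normalizer ((P : Subgroup G) : Set G))) := by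
  have := Fintype.ofFinite G
  have hp : Fact p.Prime := inferInstance
  obtain ⟨x, hx, ⟨K⟩⟩ := exists_ctx_of_sylow P (by
    rw [P.card_eq_multiplicity, show (Nat.card G).factorization p = 1 from le_antisymm
      (Nat.le_of_lt_succ (lt_of_not_ge fun h => hsq
        ((hp.out.pow_dvd_iff_le_factorization Nat.card_pos.ne').2 h)))
      (hp.out.factorization_pos_of_dvd Nat.card_pos.ne' hdiv), pow_one])
  rw [← hx] at K ⊢
  set C := centralizer (zpowers x : Set G)
  let x' : Nz x := ⟨x, le_normalizer (mem_zpowers x)⟩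
  have hz : ∀ n : Nz x, n ∈ zpowers x' ↔ (n : G) ∈ zpowers x := fun n => by
    simp only [mem_zpowers_iff, Subtype.ext_iff, x', SubgroupClass.coe_zpow]
  have hN : (zpowers x').Normal := ⟨fun u hu g => (hz _).2 ((mem_normalizer_iff.1 g.2 _).1 ((hz _).1 hu))⟩
  have hx' : orderOf x' = p := by rw [← orderOf_coe]; exact K.hx
  obtain ⟨K'⟩ := nonempty_ctx (C := C.subgroupOf (Nz x)) hx' (fun h => hsq (by
      refine dvd_trans ?_ (card_subgroup_dvd_card (Nz x))
      rw [← (zpowers x').card_mul_index, Nat.card_zpowers, hx', pow_two]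
      exact Nat.mul_dvd_mul_left _ h))
    fun g => by rw [mem_subgroupOf, K.memC, Subtype.ext_iff]; rfl
  let e := subgroupOfEquivOfLe K.C_le_N
  have hc : Nat.card (C.subgroupOf (Nz x)) = Nat.card C := Nat.card_congr e.toEquiv
  have ht : Nz x' = ⊤ := normalizer_eq_top_iff.2 hN
  have hf : K'.f = K.f := by
    have := K'.card_N
    rw [ht, card_top, K.card_N, hc] at this
    exact (Nat.eq_of_mul_eq_mul_right Nat.card_pos this).symm
  have h1 := count K'
  rw [Nat.card_congr (Equiv.subtypeUnivEquiv fun χ : IrrCharacter (Nz x) => fun h => K'.hP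
    (h.trans (isIrr_degree_dvd_index_of_abelian_normal χ.2 χ.2.cast_charDegree.symm _
      fun a ha b hb => commute_of_mem_zpowers' ha (commute_of_mem_zpowers' hb rfl).symm))),
    card_irr_eq_card_conjClasses, hf] at h1
  refine Nat.eq_of_mul_eq_mul_left K.f_pos ((count K).trans (.trans ?_ h1.symm))
  refine sum_equiv (irrEquiv e) (fun θ => ?_) fun θ _ => ?_
  · simp only [mem_filter, mem_univ, true_and, Ctx.Ker]
    rw [θ.2.mem_charKer, (irrEquiv e θ).2.mem_charKer, irrEquiv_apply, irrEquiv_apply, map_one]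
    rfl
  · have h2 : Nat.card (K.stab θ) = Nat.card (K'.stab (irrEquiv e θ)) := by
      refine Nat.card_congr (Equiv.subtypeEquiv (Equiv.subtypeUnivEquiv (p := (· ∈ Nz x'))
        fun n => ht ▸ mem_top n).symm fun n => ?_)
      rw [K.mem_stab, K'.mem_stab, Subtype.ext_iff, Subtype.ext_iff, funext_iff, funext_iff,
        e.surjective.forall]
      rfl
    rw [K.card_stab, K'.card_stab, hc] at h2
    rw [Nat.eq_of_mul_eq_mul_right Nat.card_pos h2]

end Cfsg.Agent.S4502
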