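import Cfsg.Statements.S4506
import Cfsg.Agent.Blk.TildeInt
import Cfsg.Agent.Char.Galois

set_option autoImplicit false
open Cfsg

namespace Cfsg.Agent.S4506

/-- Let G be a finite group, p a prime, p^a the p-part of the order of G and g′ its p′-part. Call two irreducible characters p-conjugate when one is obtained from the other by applying a field automorphism of ℂ that fixes the g′-th roots of unity, and let r be the number of characters p-conjugate to the irreducible character χ (χ included). Then the exponent of p in r·χ(1) is at most a; and if p^a divides r·χ(1) then p^a already divides χ(1). -/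
theorem result {G : Type*} [Group G] [Finite G] (p : ℕ) (hp : p.Prime) (χ : Cfsg.IrrCharacter G) (r : ℕ) (hr : Nat.card {ψ : Cfsg.IrrCharacter G // ∃ σ : ℂ ≃+* ℂ, σ (Complex.exp (2 * Real.pi * Complex.I / ((Nat.card G / p ^ (Nat.card G).factorization p) : ℕ))) = Complex.exp (2 * Real.pi * Complex.I / ((Nat.card G / p ^ (Nat.card G).factorization p) : ℕ)) ∧ (ψ : G → ℂ) = fun g => σ ((χ : G → ℂ) g)} = r) : (r * Cfsg.charDegree (χ : G → ℂ)).factorization p ≤ (Nat.card G).factorization p ∧ (p ^ (Nat.card G).factorization p ∣ r * Cfsg.charDegree (χ : G → ℂ) → p ^ (Nat.card G).factorization p ∣ Cfsg.charDegree (χ : G → ℂ)) := by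
  classical
  haveI := Fintype.ofFinite G
  haveI : Fact p.Prime := ⟨hp⟩
  set a := (Nat.card G).factorization p with ha
  set d := Cfsg.charDegree (χ : G → ℂ) with hd
  set b := d.factorization p with hb
  have hd0 : d ≠ 0 := CL.Blk.charDegree_ne_zero χ.2
  have hba : b ≤ a := CL.Blk.factorization_charDegree_le p χ.2
  set ζ := Complex.exp (2 * Real.pi * Complex.I / ((Nat.card G / p ^ a : ℕ))) with hζ
  set S := Finset.univ.filter fun ψ : Cfsg.IrrCharacter G =>
    ∃ σ : ℂ ≃+* ℂ, σ ζ = ζ ∧ (ψ : G → ℂ) = fun g => σ ((χ : G → ℂ) g) with hS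
  have hrS : S.card = r := by
    rw [← hr, Nat.card_eq_fintype_card, Fintype.card_subtype]
  have hχS : χ ∈ S := by
    rw [hS, Finset.mem_filter]
    exact ⟨Finset.mem_univ _, RingEquiv.refl ℂ, rfl, rfl⟩
  have hr0 : r ≠ 0 := hrS ▸ Finset.card_ne_zero_of_mem hχS
  have hg0 : Nat.card G / p ^ a ≠ 0 := (Nat.ordCompl_pos p Nat.card_pos.ne').ne'
  have hprim := Complex.isPrimitiveRoot_exp _ hg0
  have hreg : ∀ ψ ∈ S, pRegularPart p (ψ : G → ℂ) = pRegularPart p (χ : G → ℂ) := by
    intro ψ hψ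
    obtain ⟨σ, hσ, hψσ⟩ := (Finset.mem_filter.mp hψ).2
    funext x
    rw [CL.Blk.pRegularPart_apply, CL.Blk.pRegularPart_apply]
    split_ifs with hx
    · rfl
    · rw [hψσ]
      refine (CL.Char.isChar_map_eq_pow χ.2.isCharacter x (σ : ℂ →+* ℂ) 1 fun z hz => ?_).trans
        (by rw [pow_one])
      have h1 : orderOf x ∣ Nat.card G / p ^ a := by
        refine (Nat.Coprime.pow_right a ((Nat.Prime.coprime_iff_not_dvd hp).mpr hx).symm).dvd_of_dvd_mul_left ?_
        rw [Nat.ordProj_mul_ordCompl_eq_self]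
        exact orderOf_dvd_natCard x
      obtain ⟨k, hk⟩ := h1
      haveI : NeZero (Nat.card G / p ^ a) := ⟨hg0⟩
      obtain ⟨i, -, rfl⟩ := hprim.eq_pow_of_pow_eq_one (ξ := z) (by rw [hk, pow_mul, hz, one_pow])
      rw [pow_one, map_pow]
      exact congrArg (· ^ i) hσ
  have hη := CL.Blk.isGeneralizedCharacter_pow_smul_pRegularPart hp χ (k := a - b) (by change a ≤ a - b + b; omega)
  set η := (p : ℂ) ^ (a - b) • pRegularPart p (χ : G → ℂ) with hηd
  obtain ⟨m, hm, hm'⟩ := hη.exists_eq_sum_int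
  have hpp : pRegularPart p η = η := by
    funext x
    simp only [hηd, CL.Blk.pRegularPart_apply, Pi.smul_apply]
    split_ifs <;> simp
  have hmS : ∀ ψ ∈ S, m ψ = m χ := by
    intro ψ hψ
    apply Int.cast_injective (α := ℂ)
    rw [← hm, ← hm, ← hpp, CL.Blk.classInner_pRegularPart_left, CL.Blk.classInner_pRegularPart_left,
      hreg ψ hψ]
  have h1 := CL.Char.classInner_self_eq_sum_sq hη.isClassFunction m hm
  have h2 : ∑ ψ, m ψ ^ 2 = p ^ (a - b) * m χ := by
    apply Int.cast_injective (α := ℂ)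
    rw [← h1, Int.cast_mul, ← hm]
    conv_lhs => rw [hηd]
    rw [CL.Char.classInner_smul_right, ← hηd, ← CL.Blk.classInner_pRegularPart_left, hpp]
    simp
  have hη1 : η 1 = (p : ℂ) ^ (a - b) * d := by
    rw [hηd, Pi.smul_apply, CL.Blk.pRegularPart_apply, if_neg (by simpa using hp.ne_one), hd,
      CL.Blk.charDegree_cast_irr, smul_eq_mul]
  have hm0 : m χ ≠ 0 := by
    intro h0
    rw [h2, h0, mul_zero, Int.cast_zero, CL.Char.classInner_self_eq_zero] at h1
    rw [h1] at hη1
    exact mul_ne_zero (pow_ne_zero _ (Nat.cast_ne_zero.mpr hp.ne_zero)) (Nat.cast_ne_zero.mpr hd0)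
      hη1.symm
  have h3 : ∑ ψ ∈ S, m ψ ^ 2 = r * m χ ^ 2 := by
    rw [Finset.sum_congr rfl fun ψ hψ => by rw [hmS ψ hψ], Finset.sum_const, hrS, nsmul_eq_mul]
  have h4 := Finset.sum_add_sum_compl S fun ψ => m ψ ^ 2
  have h5 : 0 ≤ ∑ ψ ∈ Sᶜ, m ψ ^ 2 := Finset.sum_nonneg fun _ _ => sq_nonneg _
  have hpos : (0 : ℤ) < p ^ (a - b) := by have := hp.pos; positivity
  have hr1 : (1 : ℤ) ≤ r := by exact_mod_cast Nat.one_le_iff_ne_zero.mpr hr0
  have hsq : 0 < m χ ^ 2 := by positivity
  have hm1 : 1 ≤ m χ := by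
    by_contra hcon
    have : m χ < 0 := by omega
    nlinarith
  have h6 : (r : ℤ) * m χ ≤ p ^ (a - b) := by
    refine le_of_mul_le_mul_right ?_ (by omega : 0 < m χ)
    nlinarith
  have h7 : r ≤ p ^ (a - b) := by
    have : (r : ℤ) ≤ p ^ (a - b) := by nlinarith
    exact_mod_cast this
  have h8 : r.factorization p ≤ a - b :=
    (Nat.pow_le_pow_iff_right hp.one_lt).mp ((Nat.ordProj_le p hr0).trans h7)
  have h9 : (r * d).factorization p = r.factorization p + b := by
    rw [Nat.factorization_mul hr0 hd0, Finsupp.add_apply]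
  refine ⟨by omega, fun hdvd => ?_⟩
  have h10 := (hp.pow_dvd_iff_le_factorization (mul_ne_zero hr0 hd0)).mp hdvd
  have h11 : r = p ^ (a - b) := le_antisymm h7 (Nat.le_of_dvd (Nat.pos_of_ne_zero hr0)
    ((hp.pow_dvd_iff_le_factorization hr0).mpr (by omega)))
  have h11' : (r : ℤ) = p ^ (a - b) := by exact_mod_cast h11
  have h12 : m χ = 1 := by
    rw [← h11'] at h6
    nlinarith
  have h13 : ∀ ψ ∈ Sᶜ, m ψ ^ 2 = 0 := by
    refine (Finset.sum_eq_zero_iff_of_nonneg fun _ _ => sq_nonneg _).mp ?_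
    rw [h3, h2, h12, h11'] at h4
    linarith
  obtain ⟨P⟩ : Nonempty (Sylow p G) := inferInstance
  haveI := Fintype.ofFinite P
  obtain ⟨n, hn⟩ := (χ.2.isCharacter.restrict P).exists_nat_classInner CL.Char.isCharacter_one
  have h14 : classInner (fun x : (P : Subgroup G) => η x) (fun _ => 1) = r * n := by
    have : (fun x : (P : Subgroup G) => η x) = ∑ ψ ∈ S, fun x : (P : Subgroup G) => (ψ : G → ℂ) x := by
      funext x
      rw [hm', Finset.sum_apply, Finset.sum_apply, ← Finset.sum_add_sum_compl S,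
        Finset.sum_eq_zero (s := Sᶜ) (fun ψ hψ => by simp [pow_eq_zero_iff two_ne_zero |>.mp (h13 ψ hψ)]),
        add_zero]
      exact Finset.sum_congr rfl fun ψ hψ => by simp [hmS ψ hψ, h12]
    rw [this, CL.Char.classInner_sum_left, Finset.sum_congr rfl (g := fun _ => (n : ℂ)),
      Finset.sum_const, hrS, nsmul_eq_mul]
    intro ψ hψ
    obtain ⟨σ, -, hψσ⟩ := (Finset.mem_filter.mp hψ).2
    have := CL.Char.classInner_gal_gal' (χ.2.isGeneralizedCharacter.restrict P)
      CL.Char.isCharacter_one.isGeneralizedCharacter (σ : ℂ →+* ℂ)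
    rw [hψσ, ← hn, ← this]
    simp
  rw [CL.Char.classInner_def, Finset.sum_eq_single 1, OneMemClass.coe_one, hη1,
    P.card_eq_multiplicity, inv_mul_eq_iff_eq_mul₀ (Nat.cast_ne_zero.mpr (pow_ne_zero _ hp.ne_zero)),
    map_one, mul_one, h11, mul_left_comm, Nat.cast_pow p (a - b)] at h14
  · exact ⟨n, by exact_mod_cast mul_left_cancel₀ (pow_ne_zero _ (Nat.cast_ne_zero.mpr hp.ne_zero)) h14⟩
  · intro x _ hx
    rw [hηd, Pi.smul_apply, CL.Blk.pRegularPart_apply, if_pos, smul_zero, zero_mul]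
    obtain ⟨k, hk⟩ := (IsPGroup.iff_orderOf.mp P.isPGroup') x
    rw [Subgroup.orderOf_coe, hk]
    refine dvd_pow_self p ?_
    rintro rfl
    exact hx (orderOf_eq_one_iff.mp hk)
  · intro h; exact absurd (Finset.mem_univ _) h

end Cfsg.Agent.S4506
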