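import Cfsg.Statements.S4507
import Cfsg.Agent.Inv.POPrinc

set_option autoImplicit false
open Cfsg
open CL.Inv.PO CL.Blk CL.Char Finset

namespace Cfsg.Agent.S4507

/-- Let G be a finite group whose order g is divisible by the prime p exactly once, g′ = g/p, and fix a maximal ideal M of the algebraic integers containing p. Call two irreducible characters p-conjugate when a field automorphism of ℂ fixing the g′-th roots of unity carries one to the other. Let B be a p-block of positive defect (its defect group is a Sylow p-subgroup). Then B contains a subset Y (the exceptional family) such that: Y is a full p-conjugacy class (its members are pairwise p-conjugate and every p-conjugate of a member of Y lies in Y); every member of B outside Y is p-conjugate only to itself; the size t of Y divides p − 1 and B has exactly t + (p − 1)/t members; and there are signs δ_χ = ±1 (χ ∈ B) such that for every p-regular element x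 and every θ ∈ Y, Σ_{χ ∈ B ∖ Y} δ_χ χ(x) + δ_θ θ(x) = 0. -/
theorem result {G : Type*} [Group G] [Finite G] (p : ℕ) [Fact p.Prime] (M : Ideal Cfsg.AlgInt) (hM : Cfsg.IsPModular p M) (hdiv : p ∣ Nat.card G) (hsq : ¬ p ^ 2 ∣ Nat.card G) (B : Set (Cfsg.IrrCharacter G)) (hB : Cfsg.IsPBlock M B) (hd : 0 < Cfsg.blockDefect p B) : ∃ Y : Set (Cfsg.IrrCharacter G), Y ⊆ B ∧ Y.Nonempty ∧ (∀ θ ∈ Y, ∀ ψ : Cfsg.IrrCharacter G, (∃ σ : ℂ ≃+* ℂ, σ (Complex.exp (2 * Real.pi * Complex.I / ((Nat.card G / p ^ (Nat.card G).factorization p) : ℕ))) = Complex.exp (2 * Real.pi * Complex.I / ((Nat.card G / p ^ (Nat.card G).factorization p) : ℕ)) ∧ (ψ : G → ℂ) = fun g => σ ((θ : G → ℂ) g)) ↔ ψ ∈ Y) ∧ (∀ χ ∈ B, χ ∉ Y → ∀ ψ : Cfsg.IrrCharacter G, (∃ σ : ℂ ≃+* ℂ, σ (Complex.exp (2 * Real.pi * Complex.I / ((Nat.card G / p ^ (Nat.card G).factorization p) : ℕ))) = Complex.exp (2 * Real.pi * Complex.I / ((Nat.card G / p ^ (Nat.card G).factorization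 p) : ℕ)) ∧ (ψ : G → ℂ) = fun g => σ ((χ : G → ℂ) g)) → ψ = χ) ∧ Nat.card Y ∣ p - 1 ∧ Nat.card B = Nat.card Y + (p - 1) / Nat.card Y ∧ ∃ δ : Cfsg.IrrCharacter G → ℤ, (∀ χ ∈ B, δ χ = 1 ∨ δ χ = -1) ∧ ∀ x : G, ¬ p ∣ orderOf x → ∀ θ ∈ Y, (∑ᶠ χ ∈ B \ Y, (δ χ : ℂ) * (χ : G → ℂ) x) + (δ θ : ℂ) * (θ : G → ℂ) x = 0 := by
  classical
  haveI := Fintype.ofFinite G
  obtain ⟨x, ⟨K⟩⟩ := exists_ctx_of_dvd hdiv hsq
  obtain ⟨θ, hθ, hind⟩ := K.exists_induced hM hB hd.ne'
  obtain ⟨D⟩ := K.nonempty_data hM hθ hind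
  have hn : Nat.card G / p ^ (Nat.card G).factorization p ≠ 0 :=
    (Nat.ordCompl_pos p (Nat.card_pos (α := G)).ne').ne'
  have hp : p.Prime := Fact.out
  refine ⟨Set.range D.μ, ?_, ⟨_, 1, rfl⟩, ?_, ?_, ?_, ?_,
    fun χ => if χ ∈ D.X then D.s χ else -D.ε, fun χ _ => ?_, ?_⟩
  · rintro _ ⟨k, rfl⟩
    exact D.μ_mem k
  · rintro _ ⟨k, rfl⟩ ψ
    constructor
    · rintro ⟨σ, hσ, h⟩
      obtain ⟨l, hl⟩ := D.exists_eq_gal_μ ((fix_exp_iff hn σ).1 hσ) k
      exact ⟨l, Subtype.ext (by rw [h]; exact funext fun g => (hl g).symm)⟩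
    · rintro ⟨l, rfl⟩
      obtain ⟨σ, hσ, h⟩ := D.exists_gal_μ k l
      exact ⟨σ, (fix_exp_iff hn σ).2 hσ, funext fun g => (h g).symm⟩
  · rintro χ hχ hY ψ ⟨σ, hσ, h⟩
    exact Subtype.ext (h.trans (funext
      (D.gal_X ((fix_exp_iff hn σ).1 hσ) (D.mem_X_iff.2 ⟨hχ, hY⟩))))
  · rw [D.card_range_μ, ← K.card_E_mul_index θ]
    exact Dvd.intro_left _ rfl
  · rw [D.card_B, D.card_range_μ, ← K.card_E_mul_index θ,
      Nat.mul_div_cancel _ (Nat.pos_of_ne_zero Subgroup.index_ne_zero_of_finite), add_comm]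
  · dsimp only
    split_ifs with h
    · exact D.hs χ h
    · rcases D.hε with h | h <;> simp [h]
  · rintro g hg _ ⟨k, rfl⟩
    have : B \ Set.range D.μ = D.X := by
      ext χ; rw [mem_coe, D.mem_X_iff]; rfl
    rw [this, finsum_mem_coe_finset]
    dsimp only
    rw [if_neg (D.μ_notMem k), sum_congr rfl fun χ hχ => by rw [if_pos hχ], ← D.reg_rel k hg]
    simp

end Cfsg.Agent.S4507
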