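import Cfsg.Statements.S4509
import Cfsg.Agent.Inv.SCGroup

set_option autoImplicit false
open Cfsg
open CL.Inv CL.Inv.PO

namespace Cfsg.Agent.S4509

/-- Let the finite group G contain an element x of prime order p with C_G(x) = ⟨x⟩; let t be the number of conjugacy classes of elements of order p and 1 + n·p the number of subgroups of order p. Then G has a normal subgroup of order 1 + n·p if and only if either t = p − 1, or t < p − 1 and G″ ≠ G′. Moreover, if t = p − 1 then G′ has order 1 + n·p and G/G′ is cyclic of order p; and if t < p − 1 and G″ ≠ G′ then G″ has order 1 + n·p and G′ has order p·(1 + n·p). -/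
theorem result {G : Type*} [Group G] [Finite G] (p : ℕ) (hp : p.Prime) (x : G) (hx : orderOf x = p) (hC : Subgroup.centralizer ({x} : Set G) = Subgroup.zpowers x) (t : ℕ) (ht : Nat.card {C : ConjClasses G // ∃ g ∈ C.carrier, orderOf g = p} = t) (n : ℕ) (hn : Nat.card {H : Subgroup G // Nat.card H = p} = 1 + n * p) : ((∃ S : Subgroup G, S.Normal ∧ Nat.card S = 1 + n * p) ↔ (t = p - 1 ∨ (t < p - 1 ∧ derivedSeries G 2 ≠ derivedSeries G 1))) ∧ (t = p - 1 → Nat.card (commutator G) = 1 + n * p ∧ IsCyclic (G ⧸ commutator G) ∧ (commutator G).index = p) ∧ (t < p - 1 → derivedSeries G 2 ≠ derivedSeries G 1 → Nat.card (derivedSeries G 2) = 1 + n * p ∧ Nat.card (commutator G) = p * (1 + n * p)) := by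
  have : Fact p.Prime := ⟨hp⟩
  have := Fintype.ofFinite G
  obtain ⟨K⟩ := nonempty_ctx_of_self hx hC
  have h := K.card_classes
  rw [ht] at h
  rw [K.card_subgroups] at hn
  have hp2 := hp.two_le
  have hf : t = p - 1 ↔ K.f = 1 := ⟨fun h1 =>
    Nat.eq_of_mul_eq_mul_left (by omega : 0 < t) (by rw [h, mul_one, h1]),
    fun e => by simpa [e] using h⟩
  have e1 : derivedSeries G 1 = commutator G := derivedSeries_one G
  have e2 : derivedSeries G 2 = ⁅commutator G, commutator G⁆ := by rw [derivedSeries_succ, e1]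
  have hA : t = p - 1 → Nat.card (commutator G) = 1 + n * p ∧ IsCyclic (G ⧸ commutator G) ∧
      (commutator G).index = p := fun h1 => by
    have h2 := (K.index_commutator_eq (hf.1 h1)).1
    refine ⟨?_, isCyclic_of_prime_card h2, h2⟩
    have h3 := (commutator G).card_mul_index
    rw [h2, K.card_G le_rfl, hf.1 h1, hn, mul_one, mul_comm p] at h3
    exact Nat.eq_of_mul_eq_mul_right hp.pos h3
  have hB : t < p - 1 → derivedSeries G 2 ≠ derivedSeries G 1 →
      Nat.card (derivedSeries G 2) = 1 + n * p ∧ Nat.card (commutator G) = p * (1 + n * p) :=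
    fun h1 h2 => by
      rw [e1, e2] at h2
      rw [e2, ← hn]
      exact K.card_derived (fun e => h1.ne (hf.2 e)) h2
  refine ⟨⟨fun ⟨S, hS, hc⟩ => ?_, ?_⟩, hA, hB⟩
  · by_cases h1 : t = p - 1
    · exact .inl h1
    have hd : ¬ p ∣ Nat.card S := by
      rw [hc, Nat.dvd_add_left (dvd_mul_left p n), Nat.dvd_one]; omega
    refine .inr ⟨lt_of_le_of_ne (h ▸ Nat.le_mul_of_pos_right _ K.f_pos) h1, fun h2 => ?_⟩
    have h3 : Nz x ⊔ S = ⊤ := by
      rw [← Subgroup.card_eq_iff_eq_top, K.card_sup_N hd, hc, ← hn, Subgroup.card_mul_index]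
    rw [e1, e2] at h2
    exact K.x_ne_one (K.eq_one_of_mem hd (Subgroup.mem_zpowers x)
      (K.derived_two_le hd h3 (h2.symm ▸ K.x_mem_commutator fun e => h1 (hf.2 e))))
  · rintro (h1 | ⟨h1, h2⟩)
    · exact ⟨_, inferInstance, (hA h1).1⟩
    · exact ⟨_, inferInstance, (hB h1 h2).1⟩

end Cfsg.Agent.S4509
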