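import Cfsg.Statements.S4510
import Cfsg.Agent.Blk.Defect2

set_option autoImplicit false
open Cfsg

namespace Cfsg.Agent.S4510

/-- Let G be a finite group, p a prime, M a maximal ideal of the algebraic integers containing p, and call the defect of a conjugacy class the exponent of p in the order of the centralizer of its elements. Two irreducible characters lying in p-blocks of defect exactly d lie in the same block if and only if their central characters (class size times χ(x)/χ(1)) agree modulo the local ideal at M at every p-regular element x whose class has defect exactly d. -/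
theorem result {G : Type*} [Group G] [Finite G] (p : ℕ) [Fact p.Prime] (M : Ideal Cfsg.AlgInt) (hM : Cfsg.IsPModular p M) (d : ℕ) (χ ψ : Cfsg.IrrCharacter G) (hχ : Cfsg.blockDefect p (Cfsg.blockOf M (χ : G → ℂ)) = d) (hψ : Cfsg.blockDefect p (Cfsg.blockOf M (ψ : G → ℂ)) = d) : Cfsg.SameBlock M (χ : G → ℂ) (ψ : G → ℂ) ↔ ∀ x : G, ¬ p ∣ orderOf x → (Nat.card (Subgroup.centralizer ({x} : Set G))).factorization p = d → Cfsg.MemLocalIdeal M (Cfsg.centralChar (χ : G → ℂ) x - Cfsg.centralChar (ψ : G → ℂ) x) := by
  refine ⟨fun h x _ _ => h x, fun h => ?_⟩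
  refine CL.Blk.sameBlock_of_red_centralChar_eq_on_defect hM (hχ.trans hψ.symm).le fun x hx hd => ?_
  exact (CL.Blk.memLocalIdeal_sub_iff_red hM (CL.Blk.memLocalRing_centralChar hM χ x)
    (CL.Blk.memLocalRing_centralChar hM ψ x)).mp (h x hx (hd.trans hχ))

end Cfsg.Agent.S4510
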