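import Cfsg.Statements.S4513
import Cfsg.Agent.Blk.CycEx

set_option autoImplicit false
open Cfsg

namespace Cfsg.Agent.S4513

/-- Blocks of defect one for p = 2. Let M be a maximal ideal of the algebraic integers containing 2, B a 2-block of the finite group G whose defect group is the subgroup generated by an involution x, C = C_G(x), b a block of C inducing B and θ a member of b taking the same value at x as at 1 (there is exactly one). Then B consists of exactly two irreducible characters, which agree on every element of odd order, and they can be labelled χ₁, χ₂ with signs ε₁, ε₂ = ±1, ε₁ε₂ = −1, such that χᵢ(x y) = εᵢ θ(y) for every element y of C of odd order. -/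
theorem result {G : Type*} [Group G] [Finite G] (M : Ideal Cfsg.AlgInt) (hM : Cfsg.IsPModular 2 M) (x : G) (hx : orderOf x = 2)
    (B : Set (Cfsg.IrrCharacter G)) (hB : Cfsg.IsPBlock M B) (hBD : Cfsg.IsDefectGroup 2 M B (Subgroup.zpowers x))
    (b : Set (Cfsg.IrrCharacter ↥(Subgroup.centralizer ({x} : Set G)))) (hb : Cfsg.IsInducedBlock M (Subgroup.centralizer ({x} : Set G)) b B)
    (θ : Cfsg.IrrCharacter ↥(Subgroup.centralizer ({x} : Set G))) (hθ : θ ∈ b)
    (hθx : ∀ z : ↥(Subgroup.centralizer ({x} : Set G)), (z : G) = x → (θ : ↥(Subgroup.centralizer ({x} : Set G)) → ℂ) z = (θ : ↥(Subgroup.centralizer ({x} : Set G)) → ℂ) 1) :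
    Nat.card B = 2 ∧ (∀ χ ∈ B, ∀ ψ ∈ B, ∀ g : G, ¬ 2 ∣ orderOf g → (χ : G → ℂ) g = (ψ : G → ℂ) g) ∧
      ∃ χ₁ ∈ B, ∃ χ₂ ∈ B, χ₁ ≠ χ₂ ∧ ∃ ε₁ ε₂ : ℤ, (ε₁ = 1 ∨ ε₁ = -1) ∧ (ε₂ = 1 ∨ ε₂ = -1) ∧ ε₁ * ε₂ = -1 ∧
        ∀ y : ↥(Subgroup.centralizer ({x} : Set G)), ¬ 2 ∣ orderOf y →
          (χ₁ : G → ℂ) (x * y) = (ε₁ : ℂ) * (θ : ↥(Subgroup.centralizer ({x} : Set G)) → ℂ) y ∧ (χ₂ : G → ℂ) (x * y) = (ε₂ : ℂ) * (θ : ↥(Subgroup.centralizer ({x} : Set G)) → ℂ) y := by
  open CL.Blk CL.Blk.Pair CL.Char Subgroup in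
  classical
  have := Fintype.ofFinite G
  have := charP_resField hM
  generalize hC : centralizer ({x} : Set G) = C at *
  obtain rfl := (centralizer_zpowers_eq x).trans hC
  have := Fintype.ofFinite (centralizer (zpowers x : Set G))
  have := Fintype.ofFinite (Multiplicative (ZMod 2) →* ℂˣ)
  have hR : Nat.card (zpowers x) = 2 := by rw [Nat.card_zpowers, hx]
  obtain ⟨ι, h2, h3⟩ := cy_exists_hom (A := Multiplicative (ZMod 2)) (D := zpowers x)
    inferInstance inferInstance (by rw [hR]; simp)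
  obtain ⟨f, κ, j, χ, t, a, h, hκ, -⟩ := exists_cyLoc hM hB (cy_isMax hM hBD hb) h2 h3
    inferInstance le_rfl hR
  obtain rfl := hat_inj hM h.step.hf hb.1 (h.step.ple.eq_of_le le_rfl)
  obtain ⟨ψ, s, hd⟩ := h.exists_cyData rfl
  have := Fintype.ofFinite (zpowers a)
  have := Fintype.ofFinite (cyJ (zpowers a))
  have hE : Nat.card (zpowers a) = 1 := Nat.dvd_one.1 hd.card_dvd
  have hJ : Nat.card (cyJ (zpowers a)) = 1 := by rw [hd.card_J, hE]; simp
  obtain ⟨_, -⟩ := Nat.card_eq_one_iff_unique.1 hE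
  obtain ⟨_, ⟨O⟩⟩ := Nat.card_eq_one_iff_unique.1 hJ
  obtain ⟨w, hw⟩ : x ∈ ι.range := h3 ▸ mem_zpowers x
  have hwc : κ w ∈ center _ := mem_center_iff.2 fun y => Subtype.ext (by
    simpa [hκ, hw] using (y.2 x (mem_zpowers x)).symm)
  obtain ⟨l, rfl⟩ := h.nil.range.symm ▸ hθ
  obtain rfl : l = 1 := by
    have h4 := hθx (κ w) (by rw [hκ, hw])
    rw [h.nil.cen l w hwc, mul_left_eq_self₀, or_iff_left (irr_one_ne_zero _)] at h4
    refine cy_hom_ext (g := w) (map_injective h2 ?_) (Units.ext h4)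
    rw [MonoidHom.map_zpowers, hw, ← h3, MonoidHom.range_eq_map]
  have hrel : ∀ g, ¬ 2 ∣ orderOf g → (s (.inr O) : ℂ) * (ψ (.inr O) : G → ℂ) g =
      -(s (.inl 1) * (ψ (.inl 1) : G → ℂ) g) := fun g hg => by
    rw [eq_neg_iff_add_eq_zero, ← hd.rel O hg, Fintype.sum_subsingleton _ 1]
  have hs : s (.inr O) = -s (.inl 1) := by
    have h4 := hrel 1 (by simp)
    simp only [← charDegree_cast_irr] at h4
    have h5 : s (.inr O) * charDegree (ψ (.inr O) : G → ℂ) =
      -(s (.inl 1) * charDegree (ψ (.inl 1) : G → ℂ)) := by exact_mod_cast h4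
    have h6 := charDegree_pos (ψ (.inr O)).2
    have h7 := charDegree_pos (ψ (.inl 1)).2
    rcases hd.sgn (.inr O) with h8 | h8 <;> rcases hd.sgn (.inl 1) with h9 | h9 <;>
      rw [h8, h9] at h5 ⊢ <;> omega
  have hreg : ∀ i g, ¬ 2 ∣ orderOf g → (ψ i : G → ℂ) g = (ψ (.inl 1) : G → ℂ) g := by
    rintro (i | O') g hg
    · rw [Subsingleton.elim i 1]
    · have := hrel g hg
      rw [hs, Int.cast_neg, neg_mul, neg_inj] at this
      rw [Subsingleton.elim O' O,
        mul_left_cancel₀ (left_ne_zero_of_mul_eq_one (hd.s_mul_self' _)) this]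
  have hN : ∀ n, n ∈ normalizer (zpowers x : Set G) ↔ n ∈ centralizer (zpowers x : Set G) := by
    refine fun n => ⟨fun hn => ?_, fun hn => centralizer_le_normalizer _ hn⟩
    have := (Nat.card_eq_one_iff_unique.1 (show Nat.card (MulAut (zpowers x)) = 1 by
      rw [IsCyclic.card_mulAut, hR]; rfl)).1
    have : (⟨n, hn⟩ : normalizer _) ∈ (normalizerMonoidHom (zpowers x)).ker :=
      Subsingleton.elim _ _
    rwa [normalizerMonoidHom_ker] at this
  refine ⟨by rw [hd.card, hE, hJ], ?_, _, hd.mem (.inl 1), _, hd.mem (.inr O),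
    hd.inj.ne Sum.inl_ne_inr, -s (.inl 1), s (.inl 1),
    by rcases hd.sgn (.inl 1) with h | h <;> simp [h], hd.sgn _,
    by rw [neg_mul, hd.s_mul_self], fun y hy => ?_⟩
  · intro χ₁ h₁ χ₂ h₂ g hg
    obtain ⟨i, rfl⟩ := hd.range.symm ▸ h₁
    obtain ⟨i', rfl⟩ := hd.range.symm ▸ h₂
    rw [hreg i g hg, hreg i' g hg]
  have hxy : Commute x y := y.2 x (mem_zpowers x)
  have h4 : zpowers x ≤ zpowers (x * y) := by
    obtain ⟨k, hk⟩ := Nat.odd_iff.2 (Nat.two_dvd_ne_zero.1 hy)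
    refine zpowers_le.2 ⟨orderOf y, ?_⟩
    simp only [zpow_natCast]
    rw [hxy.mul_pow, ← Subgroup.coe_pow, pow_orderOf_eq_one, hk, pow_succ, pow_mul, ← hx,
      pow_orderOf_eq_one]
    simp
  have h5 : 2 ∣ orderOf (x * y) := by
    rw [← hR, ← Nat.card_zpowers]; exact card_dvd_of_le h4
  have h6 : cyI χ 1 (x * y) = (χ 1 : centralizer (zpowers x : Set G) → ℂ) y := by
    rw [cyI, h.step.ind_apply (Rk.blockPart_irr_of_mem hθ) h4,
      Finset.sum_congr (Finset.filter_congr fun n _ => hN n) (g := fun _ =>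
        (χ 1 : centralizer (zpowers x : Set G) → ℂ) y) fun n hn => ?_]
    · rw [Finset.sum_const, ← Fintype.card_subtype, nsmul_eq_mul, ← Nat.card_eq_fintype_card,
        inv_mul_cancel_left₀ natCard_ne_zero]
    have := congrFun (cyConj_of_mem (χ 1).2.isClassFunction (Finset.mem_filter.1 hn).2) (κ w * y)
    rw [h.nil.apply_mul 1 hwc] at this
    simpa [cyConj, hκ, hw] using this
  have h7 := hd.singX 1 h5
  have h8 := hd.sum' h5
  rw [Fintype.sum_subsingleton _ O, ← hd.singY O h5, hs] at h8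
  rw [hE, h6, Nat.cast_one, one_mul] at h7 h8
  have h9 := hd.s_mul_self' (.inl 1)
  push_cast at h8 ⊢
  exact ⟨by linear_combination s (.inl 1) * h7 - (ψ (.inl 1) : G → ℂ) (x * y) * h9,
    by linear_combination -s (.inl 1) * h8 - (ψ (.inr O) : G → ℂ) (x * y) * h9⟩

end Cfsg.Agent.S4513
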