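import Cfsg.Statements.S4633
import Cfsg.Agent.Blk.CycGrp

set_option autoImplicit false
open Cfsg

namespace Cfsg.Agent.S4633

/-- Let B be a block of the finite group G relative to a maximal ideal M of the algebraic integers containing the prime p, with a nontrivial cyclic defect group P. Let c be a block of C_G(P) inducing B and T the stabilizer of c in N_G(P) (the elements of N_G(P) conjugating c to itself); T contains C_G(P). Then T/C_G(P) is cyclic of order dividing p − 1, and it acts freely on the non-identity elements of P: an element of T fixing some non-identity element of P under conjugation lies in C_G(P). -/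
theorem result {G : Type*} [Group G] [Finite G] (p : ℕ) [Fact p.Prime] (M : Ideal Cfsg.AlgInt) (hM : Cfsg.IsPModular p M) (B : Set (Cfsg.IrrCharacter G)) (hB : Cfsg.IsPBlock M B) (P : Subgroup G) (hPD : Cfsg.IsDefectGroup p M B P) (hP1 : P ≠ ⊥) (hcyc : IsCyclic P) (c : Set (Cfsg.IrrCharacter (Subgroup.centralizer (P : Set G)))) (hc : Cfsg.IsInducedBlock M (Subgroup.centralizer (P : Set G)) c B) (T : Subgroup G) (hT : ∀ g : G, g ∈ T ↔ (g ∈ Subgroup.normalizer (P : Set G) ∧ Cfsg.StabilizesBlock (Subgroup.centralizer (P : Set G)) c g)) [hn : ((Subgroup.centralizer (P : Set G)).subgroupOf T).Normal] : IsCyclic (T ⧸ (Subgroup.centralizer (P : Set G)).subgroupOf T) ∧ (Subgroup.centralizer (P : Set G)).relIndex T ∣ p - 1 ∧ ∀ g ∈ T, ∀ x ∈ P, x ≠ 1 → g * x * g⁻¹ = x → g ∈ Subgroup.centralizer (P : Set G) := by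
  open CL.Blk CL.Blk.Pair in
  have := charP_resField hM
  have h := cy_isMax hM hPD hc
  obtain rfl := eq_nst_of_forall hM hc.1 hT
  obtain ⟨h1, h2⟩ := cy_quot_cyclic hcyc h.pgroup hP1 (T := nst ⊤ P (hat M _ c))
    (fun _ hx => hx.1.2) (h.cy_not_dvd hcyc)
  refine ⟨h1, h2, fun g hg x hx hx1 hgx => h.cy_free hcyc (Subgroup.zpowers_le.2 hx)
    (by simpa using hx1) hg ?_⟩
  rintro _ ⟨n, rfl⟩
  have : Commute x g := by
    rw [mul_inv_eq_iff_eq_mul] at hgx
    exact hgx.symm
  exact (this.zpow_left n).eq

end Cfsg.Agent.S4633
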