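import Cfsg.Statements.S4634
import Cfsg.Agent.Blk.CycPerf

set_option autoImplicit false
open Cfsg

namespace Cfsg.Agent.S4634

/-- Let B be a block of the finite group G relative to a maximal ideal M of the algebraic integers containing the prime p, with a nontrivial cyclic defect group P, let c be a block of C_G(P) inducing B, T the stabilizer of c in N_G(P) and e the index of C_G(P) in T. Let F be any finite group of order #P · e having a cyclic subgroup Q of order #P that is its own centralizer (F is then the semidirect product of Q by a cyclic group of order e acting faithfully). Then there is a perfect isometry from the set of all irreducible characters of F onto B whose signs agree on all the characters of F that do not contain Q in their kernel. -/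
theorem result {G : Type*} [Group G] [Finite G] (p : ℕ) [Fact p.Prime] (M : Ideal Cfsg.AlgInt) (hM : Cfsg.IsPModular p M) (B : Set (Cfsg.IrrCharacter G)) (hB : Cfsg.IsPBlock M B) (P : Subgroup G) (hPD : Cfsg.IsDefectGroup p M B P) (hP1 : P ≠ ⊥) (hcyc : IsCyclic P) (c : Set (Cfsg.IrrCharacter (Subgroup.centralizer (P : Set G)))) (hc : Cfsg.IsInducedBlock M (Subgroup.centralizer (P : Set G)) c B) (T : Subgroup G) (hT : ∀ g : G, g ∈ T ↔ (g ∈ Subgroup.normalizer (P : Set G) ∧ Cfsg.StabilizesBlock (Subgroup.centralizer (P : Set G)) c g)) (e : ℕ) (he : (Subgroup.centralizer (P : Set G)).relIndex T = e) (F : Type*) [Group F] [Finite F] (hF : Nat.card F = Nat.card P * e) (Q : Subgroup F) (hQ : IsCyclic Q) (hQcard : Nat.card Q = Nat.card P) (hQC : Subgroup.centralizer (Q : Set F) = Q) : ∃ (I : Cfsg.IrrCharacter F → Cfsg.IrrCharacter G) (ε : Cfsg.IrrCharacter F → ℤ), Cfsg.IsPerfectIsometry p M (Set.univ : Set (Cfsg.IrrCharacter F)) B I ε ∧ ∀ η η' : Cfsg.IrrCharacter F, (∃ x ∈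 Q, (η : F → ℂ) x ≠ (η : F → ℂ) 1) → (∃ x ∈ Q, (η' : F → ℂ) x ≠ (η' : F → ℂ) 1) → ε η = ε η' := by
  open CL.Blk CL.Blk.Pair CL.Char Subgroup in
  classical
  have hp : p.Prime := Fact.out
  have := Fintype.ofFinite G
  have := Fintype.ofFinite F
  have := charP_resField hM
  have : NeZero (Nat.card P) := ⟨Nat.card_pos.ne'⟩
  have := Fintype.ofFinite (Multiplicative (ZMod (Nat.card P)) →* ℂˣ)
  obtain ⟨E, ψ, s, I, hd, hE⟩ := exists_cyData (A := Multiplicative (ZMod (Nat.card P))) hM hB
    (cy_isMax hM hPD hc) hcyc hP1 inferInstance (by simp)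
  rw [← eq_nst_of_forall hM hc.1 hT, he] at hE
  subst hE
  have := Fintype.ofFinite E
  have := Fintype.ofFinite (cyJ E)
  have hi : Q.index = Nat.card E := by
    rw [← mul_right_inj' (Nat.card_pos (α := Q)).ne', card_mul_index, hF, hQcard]
  have hQp : IsPGroup p Q := IsPGroup.of_card (by
    rw [hQcard, card_defectGroup hM hB hPD])
  let S : Sylow p F := hQp.toSylow (hi ▸ hd.ndvd)
  have h1 : Nat.card (Sylow p F) = 1 := by
    have h1 : Nat.card (Sylow p F) ≤ p - 1 := Nat.le_of_dvd (by have := hp.two_le; omega)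
      (S.card_dvd_index.trans (hi ▸ hd.card_dvd))
    exact Nat.ModEq.eq_of_lt_of_lt (card_sylow_modEq_one p F) (by have := hp.pos; omega) hp.one_lt
  have := (Nat.card_eq_one_iff_unique.1 h1).1
  have : Q.Normal := S.normal_of_subsingleton
  have h : IsMax p ⊤ ⊤ _ Q (hat M _ (principalBlock M (centralizer (Q : Set F)))) :=
    isMax_of_isMaximal hM (isMaximalBrauerPair_principal hM S)
  have hQ1 : Q ≠ ⊥ := fun h0 => hP1 (card_eq_one.1 (by rw [← hQcard, h0, card_bot]))
  obtain ⟨ι, h2, h3⟩ := cy_exists_hom (A := Multiplicative (ZMod (Nat.card P))) hQ inferInstance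
    (by rw [hQcard]; simp)
  obtain ⟨R, h4, h5⟩ := cy_exists_omega hQp hQ1
  have := Fintype.ofFinite (centralizer (R : Set F))
  obtain ⟨f, κ, j, χ, t, a, hl, hκ, ha⟩ := exists_cyLoc hM tr_isPBlock_principalBlock h h2 h3
    inferInstance h4 h5
  have hn : nst ⊤ Q (hat M _ (principalBlock M (centralizer (Q : Set F)))) = ⊤ := by
    rw [nst_principal, normalizer_eq_top]
  have hC : centralizer (R : Set F) = Q := le_antisymm
    (fun g hg => hQC.le (h.cy_free hQ h4 (cy_omega_ne_bot h5) (hn.ge (mem_top g)) hg)) hl.step.le_C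
  rw [hn, relIndex_top_right, hQC, hi] at ha
  obtain rfl := cy_eq_of_card_mulAut hd.cyc hd.cardA (E' := zpowers a)
    (by rw [Nat.card_zpowers, ha]) hd.ndvd
  obtain ⟨ψ', s', hd'⟩ := hl.exists_cyData rfl
  have : (centralizer (R : Set F)).Normal := hC.symm ▸ ‹Q.Normal›
  have hκ' : Function.Bijective κ := ⟨fun x y hxy => h2 (by rw [← hκ, ← hκ, hxy]), fun x => by
    obtain ⟨w, hw⟩ := h3.ge (hC.le x.2)
    exact ⟨w, Subtype.ext (by rw [hκ, hw])⟩⟩
  have hker : ∀ η : IrrCharacter F, (∃ x ∈ Q, (η : F → ℂ) x ≠ (η : F → ℂ) 1) →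
      ∃ w, (η : F → ℂ) (κ w) ≠ (η : F → ℂ) 1 := by
    rintro η ⟨x, hx, h6⟩
    obtain ⟨w, rfl⟩ := h3.ge hx
    exact ⟨w, by rwa [hκ]⟩
  have hu := principalBlock_eq_univ_of_normal hM hQp hQC.le
  obtain ⟨J, ε, h6, h7⟩ := hd.exists_isPerfectIsometry hd'
  refine ⟨J, ε, hu ▸ h6, fun η η' hη hη' => ?_⟩
  have hi' : (centralizer (R : Set F)).index = orderOf a := by rw [hC, hi, Nat.card_zpowers]
  obtain ⟨i | O, rfl⟩ := hd'.range.ge (hu.ge (Set.mem_univ η))
  · rw [eq_of_not_ker hl hκ' hi' hd' (hker _ hη) (hker _ hη')]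
  obtain ⟨i' | O', rfl⟩ := hd'.range.ge (hu.ge (Set.mem_univ η'))
  · rw [eq_of_not_ker hl hκ' hi' hd' (hker _ hη') (hker _ hη)]
  rw [h7, h7, hd.sgnY O O', hd'.sgnY O O']

end Cfsg.Agent.S4634
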