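import Cfsg.Statements.S4635
import Cfsg.Agent.Blk.CycPerf

set_option autoImplicit false
open Cfsg

namespace Cfsg.Agent.S4635

/-- Let B be a block of the finite group G relative to a maximal ideal M of the algebraic integers containing the prime p, with a nontrivial cyclic defect group P; let Z be the subgroup of order p of P and H = N_G(Z), which contains N_G(P). Let c be the block of H with defect group P that induces B. Then B and c contain the same number of irreducible characters, have the same p-regular rank, and there is a perfect isometry from c onto B. -/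
theorem result {G : Type*} [Group G] [Finite G] (p : ℕ) [Fact p.Prime] (M : Ideal Cfsg.AlgInt) (hM : Cfsg.IsPModular p M) (B : Set (Cfsg.IrrCharacter G)) (hB : Cfsg.IsPBlock M B) (P : Subgroup G) (hPD : Cfsg.IsDefectGroup p M B P) (hP1 : P ≠ ⊥) (hcyc : IsCyclic P) (Z : Subgroup G) (hZ : Z ≤ P) (hZcard : Nat.card Z = p) (H : Subgroup G) (hH : H = Subgroup.normalizer (Z : Set G)) (c : Set (Cfsg.IrrCharacter H)) (hcD : Cfsg.IsDefectGroup p M c (P.subgroupOf H)) (hc : Cfsg.IsInducedBlock M H c B) : Nat.card c = Nat.card B ∧ Cfsg.blockRank p c = Cfsg.blockRank p B ∧ ∃ (I : Cfsg.IrrCharacter H → Cfsg.IrrCharacter G) (ε : Cfsg.IrrCharacter H → ℤ), Cfsg.IsPerfectIsometry p M c B I ε := by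
  open CL.Blk CL.Blk.Pair CL.Char Subgroup in
  classical
  have := Fintype.ofFinite G
  have := Fintype.ofFinite H
  have := charP_resField hM
  have : NeZero (Nat.card P) := ⟨Nat.card_pos.ne'⟩
  have := Fintype.ofFinite (Multiplicative (ZMod (Nat.card P)) →* ℂˣ)
  have hP := tr_isPGroup_of_isDefectGroup hPD
  have hN : normalizer (P : Set G) ≤ H := hH ▸ cy_normalizer_le hcyc hZ
  have hPH : P ≤ H := le_normalizer.trans hN
  have hC : centralizer (P : Set G) ≤ H := (centralizer_le_normalizer _).trans hN
  have hm := map_subgroupOf_subtype hPH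
  obtain ⟨e, h⟩ := exists_isMax_of_isDefectGroup hM hc.1 hcD
  have h1 : IsPair p H P (incl H e) := by
    simpa only [hm, map_top_subtype] using isPair_map_incl.2 h.pair
  have h2 : br P (hat M H c) * incl H e = incl H e := by
    have := congrArg (incl H) h.br_mul
    rwa [map_mul, ← br_map_incl, hm] at this
  have h' : IsMax p ⊤ ⊤ (eBlk M B) P (incl H e) :=
    ⟨isBlk_eBlk hM hB, le_rfl, top_le_normalizer_top, (isDefectGroup_iff_isDef_top hM hB).1 hPD,
      ⟨hP, by simpa only [cen, top_inf_eq, inf_eq_right.2 hC] using h1.blk⟩,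
      by rw [← h2, ← mul_assoc, br_eBlk_mul_br_hat_of_isInducedBlock hM hc hP hPH hC]⟩
  have σ := subgroupOfEquivOfLe hPH
  obtain ⟨E, ψ, s, I, hd, hE⟩ := exists_cyData (A := Multiplicative (ZMod (Nat.card P))) hM hB h'
    hcyc hP1 inferInstance (by simp)
  obtain ⟨E', ψ', s', I', hd', hE'⟩ := exists_cyData (A := Multiplicative (ZMod (Nat.card P))) hM
    hc.1 h (isCyclic_of_surjective σ.symm σ.symm.surjective)
    (fun h0 => hP1 (by rw [← hm, h0, Subgroup.map_bot])) inferInstance
    (by rw [Nat.card_congr σ.toEquiv]; simp)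
  rw [← relIndex_map_map_of_injective _ _ H.subtype_injective, map_nst, map_centralizer_subtype,
    hm, map_top_subtype, inf_eq_right.2 hC, show nst H P (incl H e) = nst ⊤ P (incl H e) by
      rw [nst_top, nst, inf_eq_right.2 hN], ← hE] at hE'
  obtain rfl := cy_eq_of_card_mulAut hd.cyc hd.cardA hE'.symm hd.ndvd
  have := Fintype.ofFinite E
  have := Fintype.ofFinite (cyJ E)
  obtain ⟨J, ε, h3, -⟩ := hd.exists_isPerfectIsometry hd'
  exact ⟨by rw [hd.card, hd'.card], by rw [hd.rank, hd'.rank], J, ε, h3⟩

end Cfsg.Agent.S4635
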