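import Cfsg.Statements.S4638
import Cfsg.Agent.Blk.KleinBlk

set_option autoImplicit false
open Cfsg

namespace Cfsg.Agent.S4638

/-- Let B be a block of the finite group G relative to a maximal ideal M of the algebraic integers containing 2, with a Klein four defect group P, and let c be its Brauer correspondent: the block of N_G(P) with defect group P that induces B. Then there is a perfect isometry from c onto B. -/
theorem result {G : Type*} [Group G] [Finite G] (M : Ideal Cfsg.AlgInt) (hM : Cfsg.IsPModular 2 M) (B : Set (Cfsg.IrrCharacter G)) (hB : Cfsg.IsPBlock M B) (P : Subgroup G) (hPD : Cfsg.IsDefectGroup 2 M B P) (hV : IsKleinFour P) (c : Set (Cfsg.IrrCharacter (Subgroup.normalizer (P : Set G)))) (hcD : Cfsg.IsDefectGroup 2 M c (P.subgroupOf (Subgroup.normalizer (P : Set G)))) (hc : Cfsg.IsInducedBlock M (Subgroup.normalizer (P : Set G)) c B) : ∃ (I : Cfsg.IrrCharacter (Subgroup.normalizer (P : Set G)) → Cfsg.IrrCharacter G) (ε : Cfsg.IrrCharacter (Subgroup.normalizer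 (P : Set G)) → ℤ), Cfsg.IsPerfectIsometry 2 M c B I ε := by
  classical
  have := Fintype.ofFinite G
  have := Fintype.ofFinite (Subgroup.normalizer (P : Set G))
  set f := Subgroup.subgroupOfEquivOfLe (Subgroup.le_normalizer (H := P)) with hf
  have hV' : IsKleinFour (P.subgroupOf (Subgroup.normalizer (P : Set G))) :=
    ⟨(Nat.card_congr f.toEquiv).trans hV.card_four,
      (Monoid.exponent_eq_of_mulEquiv f).trans hV.exponent_two⟩
  obtain ⟨e', h'⟩ := CL.Blk.Pair.exists_isMax_of_isDefectGroup hM hc.1 hcD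
  have h := h'.incl_normalizer hM hPD hc
  have hidx := CL.Blk.Pair.relIndex_nst_incl e'
  obtain ⟨χ₀, hχ₀⟩ := CL.Blk.tr_nonempty hM hB
  rcases h.klein_index hM hV with h1 | h3
  · obtain ⟨Φ, d, hd, hΦ⟩ := h.klein_colData_one hM hV hB h1
    obtain ⟨Φ', d', hd', hΦ'⟩ := h'.klein_colData_one hM hV' hc.1 (hidx ▸ h1)
    set σ : c ≃ B := Φ'.symm.trans ((CL.Blk.irrEquiv f.symm).trans Φ) with hσ
    refine ⟨fun η => if hη : η ∈ c then σ ⟨η, hη⟩ else χ₀, fun _ => 1,
      hd.isPerfectIsometry (d' := fun v => d' ⟨f.symm v.1, by simpa using v.2⟩)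
        (hd'.reindex (fun v => ⟨⟨f v.1, by simpa using v.2⟩, fun χ _ => by simp⟩)
          fun v => ⟨_, fun χ _ => rfl⟩) hM ⟨fun η hη => ?_, fun η hη η' hη' h => ?_, fun χ hχ => ?_⟩
        (fun _ _ => Or.inl rfl) fun v η hη => ?_⟩
    · simp only [dif_pos hη]; exact (σ _).2
    · simp only [dif_pos hη, dif_pos hη'] at h
      exact congrArg Subtype.val (σ.injective (Subtype.ext h))
    · exact ⟨σ.symm ⟨χ, hχ⟩, (σ.symm _).2, by simp⟩
    · obtain ⟨θ, hθ⟩ := Φ'.surjective ⟨η, hη⟩
      obtain rfl : η = Φ' θ := (congrArg Subtype.val hθ).symm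
      simp only [dif_pos hη, Subtype.coe_eta, hσ, Equiv.trans_apply, Equiv.symm_apply_apply]
      rw [(hΦ' _ _).2, (hΦ' _ _).1, (hΦ _ _).1, Int.cast_one, one_mul]
      rfl
  · obtain ⟨g, hg, hd⟩ := h.klein_colData_three hM hV hB h3
    obtain ⟨g', hg', hd'⟩ := h'.klein_colData_three hM hV' hc.1 (hidx ▸ h3)
    obtain ⟨σ⟩ : Nonempty (c ≃ B) := Finite.card_eq.1
      ((h'.klein_card hM hV' hc.1).trans (h.klein_card hM hV hB).symm)
    have key : ∀ η ∈ c, ((if hη : η ∈ c then σ ⟨η, hη⟩ else χ₀ : Cfsg.IrrCharacter G)) ∈ B :=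
      fun η hη => by simp only [dif_pos hη]; exact (σ _).2
    refine ⟨fun η => if hη : η ∈ c then σ ⟨η, hη⟩ else χ₀,
      fun η => g (if hη : η ∈ c then σ ⟨η, hη⟩ else χ₀) * g' η,
      hd.isPerfectIsometry hd' hM ⟨key, fun η hη η' hη' h => ?_, fun χ hχ => ?_⟩
        (fun η hη => ?_) fun v η hη => ?_⟩
    · simp only [dif_pos hη, dif_pos hη'] at h
      exact congrArg Subtype.val (σ.injective (Subtype.ext h))
    · exact ⟨σ.symm ⟨χ, hχ⟩, (σ.symm _).2, by simp⟩
    · rcases hg _ (key η hη) with h | h <;> rcases hg' η hη with h' | h' <;> simp [h, h']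
    · rcases hg _ (key η hη) with h | h <;> rcases hg' η hη with h' | h' <;> simp [h, h']

end Cfsg.Agent.S4638
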