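import Cfsg.Statements.S4639
import Cfsg.Agent.Blk.FreeGram

set_option autoImplicit false
open Cfsg

namespace Cfsg.Agent.S4639

open CL.Blk CL.Blk.Rk CL.Blk.Pair CL.Char
open scoped IsMulCommutative


/-- Let B be a block of the finite group G relative to a maximal ideal M of the algebraic integers containing the prime p, with a nontrivial commutative defect group P. Let c be a block of C_G(P) inducing B, T the stabilizer of c in N_G(P) and e the index of C_G(P) in T. Suppose that T/C_G(P) is commutative (all commutators of elements of T lie in C_G(P)) and acts freely on the non-identity elements of P (an element of T fixing a non-identity element of P under conjugation lies in C_G(P)). Then B has at most e + (#P − 1)/e irreducible characters and p-regular rank at most e; equality holds in the first bound exactly when it holds in the second; and both equalities hold when e ≤ 3. -/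
theorem result {G : Type*} [Group G] [Finite G] (p : ℕ) [Fact p.Prime] (M : Ideal Cfsg.AlgInt) (hM : Cfsg.IsPModular p M) (B : Set (Cfsg.IrrCharacter G)) (hB : Cfsg.IsPBlock M B) (P : Subgroup G) (hPD : Cfsg.IsDefectGroup p M B P) (hP1 : P ≠ ⊥) (hPab : ∀ x ∈ P, ∀ y ∈ P, x * y = y * x) (c : Set (Cfsg.IrrCharacter (Subgroup.centralizer (P : Set G)))) (hc : Cfsg.IsInducedBlock M (Subgroup.centralizer (P : Set G)) c B) (T : Subgroup G) (hT : ∀ g : G, g ∈ T ↔ (g ∈ Subgroup.normalizer (P : Set G) ∧ Cfsg.StabilizesBlock (Subgroup.centralizer (P : Set G)) c g)) (e : ℕ) (he : (Subgroup.centralizer (P : Set G)).relIndex T = e) (hEab : ∀ g ∈ T, ∀ h ∈ T, g * h * g⁻¹ * h⁻¹ ∈ Subgroup.centralizer (P : Set G)) (hfree : ∀ g ∈ T, ∀ x ∈ P, x ≠ 1 → g * x * g⁻¹ = x → g ∈ Subgroup.centralizer (P : Set G)) : Nat.card B ≤ e + (Nat.card P - 1) / e ∧ Cfsg.blockRank p B ≤ e ∧ (Nat.card B = e + (Nat.card P - 1) / e ↔ Cfsg.blockRank p B = e) ∧ (e ≤ 3 → Nat.card B = e + (Nat.card P - 1) / e ∧ Cfsg.blockRank p B = e) := by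
  have := Fintype.ofFinite G
  have : IsMulCommutative P := ⟨⟨fun a b => Subtype.ext (hPab _ a.2 _ b.2)⟩⟩
  have : Nontrivial P := (Subgroup.nontrivial_iff_ne_bot P).2 hP1
  have h := exists_abMax hM hB (isMax_of_isInducedBlock_centralizer hM hPD hc)
  have h1 : Nat.card (inE P.subtype (hat M _ c)) = e := by
    rw [h.card_inE, P.range_subtype, ← eq_nst_of_forall hM hc.1 hT, he]
  obtain ⟨t, h2, h3, h4, h5⟩ := h.free_counts fun α ⟨g, hg, h2⟩ a ha h3 => by
    rw [P.range_subtype, ← eq_nst_of_forall hM hc.1 hT] at hg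
    have h4 := hfree g hg a a.2 (by simpa using ha) (by simpa [h3] using (h2 a).symm)
    exact MulEquiv.ext fun b => Subtype.ext ((h2 b).trans (mul_inv_eq_iff_eq_mul.2 (h4 b b.2).symm))
  have h6 : 0 < e := h1 ▸ Nat.card_pos
  rw [h1] at h2 h4 h5
  rw [h2, Nat.add_sub_cancel_left, Nat.mul_div_cancel _ h6]
  omega

end Cfsg.Agent.S4639
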