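import Cfsg.Statements.S4641
import Cfsg.Agent.Blk.Basic2
import Cfsg.Agent.Blk.Third2

set_option autoImplicit false
open Cfsg

namespace Cfsg.Agent.S4641

open CL.Blk CL.Blk.Rk

/-- Let B be a block of the finite group G relative to a maximal ideal M of the algebraic integers containing the prime p, let p^a be the p-part of the order of G and p^d the order of a defect group D of B, and let g be the greatest common divisor of the degrees of the members of B. Then the p-part of g is exactly p^(a−d), and writing g = p^(a−d)·u there is a positive integer v, prime to p and at least the p-regular rank of B (its number of irreducible Brauer characters), with Σ_{χ ∈ B} χ(1)² = p^(2a−d)·u²·v. -/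
theorem result {G : Type*} [Group G] [Finite G] (p : ℕ) [Fact p.Prime] (M : Ideal Cfsg.AlgInt) (hM : Cfsg.IsPModular p M) (B : Set (Cfsg.IrrCharacter G)) (hB : Cfsg.IsPBlock M B) (D : Subgroup G) (hD : Cfsg.IsDefectGroup p M B D) (a d : ℕ) (ha : (Nat.card G).factorization p = a) (hd : Nat.card D = p ^ d) (g : ℕ) (hg1 : ∀ χ ∈ B, g ∣ Cfsg.charDegree (χ : G → ℂ)) (hg2 : ∀ g' : ℕ, (∀ χ ∈ B, g' ∣ Cfsg.charDegree (χ : G → ℂ)) → g' ∣ g) : g.factorization p = a - d ∧ ∃ v : ℕ, 0 < v ∧ ¬ p ∣ v ∧ Cfsg.blockRank p B ≤ v ∧ ∑ᶠ χ ∈ B, Cfsg.charDegree (χ : G → ℂ) ^ 2 = p ^ (2 * a - d) * (g / p ^ (a - d)) ^ 2 * v := by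
  classical
  letI := Fintype.ofFinite G
  have hp := hM.1
  have hO := blockIdem_mem_OG hM hB
  have hne := tr_nonempty hM hB
  have hd' : blockDefect p B = d :=
    Nat.pow_right_injective hp.two_le ((card_defectGroup hM hB hD).symm.trans hd)
  have hm : minExp p B = a - d := by rw [minExp_eq_sub hne, ha, hd']
  have hda : d ≤ a := by rw [← hd', ← ha]; exact blockDefect_le
  obtain ⟨ψ, hψ, h0⟩ := exists_height_zero (p := p) hne
  have hψ' := (blockHeight_eq_zero_iff_eq hψ).1 h0
  have hg0 : g ≠ 0 := fun h => irr_charDegree_ne_zero ψ (Nat.eq_zero_of_zero_dvd (h ▸ hg1 ψ hψ))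
  have h1 : p ^ (a - d) ∣ g := hg2 _ fun χ hχ => hm ▸ pow_minExp_dvd_charDegree hχ
  have h2 : g.factorization p = a - d := le_antisymm
    (by rw [← hm, ← hψ']; exact Nat.factorization_le_factorization_of_dvd_right (hg1 ψ hψ) hg0 (irr_charDegree_ne_zero ψ))
    ((hp.pow_dvd_iff_le_factorization hg0).1 h1)
  refine ⟨h2, ?_⟩
  obtain ⟨u, hu⟩ := h1
  have hu1 : g / p ^ (a - d) = u := by rw [hu, Nat.mul_div_cancel_left _ (pow_pos hp.pos _)]
  have hu2 : ¬ p ∣ u := fun h => by
    have : p ^ (a - d + 1) ∣ g := by rw [hu, pow_succ]; exact Nat.mul_dvd_mul_left _ h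
    have := (hp.pow_dvd_iff_le_factorization hg0).1 this
    omega
  choose x hx using dvd_dim_of_forall_dvd hM hO hg1
  have h3 : ∀ j : IBr M B, p ^ a * u ∣ charDegree ((ibrSet hM hO).Φ j) := fun j =>
    Nat.Coprime.mul_dvd_of_dvd_of_dvd (Nat.Coprime.pow_left _ ((hp.coprime_iff_not_dvd).2 hu2))
      (ha ▸ pow_dvd_charDegree_Φ hM hO j) (by
        rw [charDegree_Φ]
        exact Finset.dvd_sum fun χ hχ =>
          ((Dvd.intro_left _ hu.symm).trans (hg1 χ (Finset.mem_filter.1 hχ).2)).mul_left _)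
  choose w hw using h3
  have h4 : ∀ j, 1 ≤ x j * w j := fun j => Nat.mul_pos
    (Nat.pos_of_mul_pos_left (hx j ▸ j.1.dim_pos))
    (Nat.pos_of_mul_pos_left (hw j ▸ charDegree_Φ_pos hM hO j))
  have h5 : blockRank p B ≤ ∑ j, x j * w j := by
    rw [← card_iBr hM hO, ← Finset.card_univ, Finset.card_eq_sum_ones]
    exact Finset.sum_le_sum fun j _ => h4 j
  have h6 : ∑ χ : IrrCharacter G with χ ∈ B, charDegree (χ : G → ℂ) ^ 2 =
      p ^ (2 * a - d) * u ^ 2 * ∑ j, x j * w j := by
    rw [sum_charDegree_sq_eq hM hO, Finset.mul_sum]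
    refine Finset.sum_congr rfl fun j _ => ?_
    rw [hx, hw, hu, show 2 * a - d = a - d + a by omega, pow_add]
    ring
  refine ⟨∑ j, x j * w j, (blockRank_pos hp hne).trans_le h5, fun h => ?_, h5, ?_⟩
  · have h7 := val_sum_degree_sq hM hB hψ h0
    simp only [← irr_natCast_charDegree, ← sq, ← Nat.cast_pow, ← Nat.cast_mul] at h7
    rw [← Nat.cast_sum, h6, Nat.cast_mul, Nat.cast_mul, Nat.cast_mul, map_mul, map_mul, map_mul,
      val_natCast_eq_pow hM (irr_charDegree_ne_zero ψ), hψ', hm, ha, Nat.cast_pow, Nat.cast_pow,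
      Nat.cast_pow, map_pow, map_pow, map_pow, ← pow_add, (val_natCast_eq_one_iff hM u).2 hu2,
      one_pow, mul_one, show a + (a - d) = 2 * a - d by omega,
      mul_eq_left₀ (pow_pos (val_prime_pos hM) _).ne', val_natCast_eq_one_iff hM] at h7
    exact h7 h
  · rw [finsum_mem_irr_eq_sum, hu1, ← h6]

end Cfsg.Agent.S4641
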