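import Cfsg.Statements.S4644
import Cfsg.Agent.Blk.Watanabe

set_option autoImplicit false
open Cfsg

namespace Cfsg.Agent.S4644

open CL.Blk CL.Blk.Rk CL.Blk.Pair CL.Char
open scoped IsMulCommutative

/-- Let B be a block of the finite group G relative to a maximal ideal M of the algebraic integers containing the prime p, with a commutative defect group P; let c be a block of C_G(P) inducing B and T the stabilizer of c in N_G(P). Let u be an element of P fixed under conjugation by every element of T, H = C_G(u) (so C_G(P) ≤ H), and f the block of H induced by c inside H. Then B and f have the same p-regular rank and the same number of irreducible characters. -/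
theorem result {G : Type*} [Group G] [Finite G] (p : ℕ) [Fact p.Prime] (M : Ideal Cfsg.AlgInt) (hM : Cfsg.IsPModular p M) (B : Set (Cfsg.IrrCharacter G)) (hB : Cfsg.IsPBlock M B) (P : Subgroup G) (hPD : Cfsg.IsDefectGroup p M B P) (hPab : ∀ x ∈ P, ∀ y ∈ P, x * y = y * x) (c : Set (Cfsg.IrrCharacter (Subgroup.centralizer (P : Set G)))) (hc : Cfsg.IsInducedBlock M (Subgroup.centralizer (P : Set G)) c B) (T : Subgroup G) (hT : ∀ g : G, g ∈ T ↔ (g ∈ Subgroup.normalizer (P : Set G) ∧ Cfsg.StabilizesBlock (Subgroup.centralizer (P : Set G)) c g)) (u : G) (hu : u ∈ P) (huT : ∀ g ∈ T, g * u * g⁻¹ = u) (H : Subgroup G) (hH : H = Subgroup.centralizer ({u} : Set G)) (f : Set (Cfsg.IrrCharacter H)) (hf : Cfsg.IsInducedBlockIn M H (Subgroup.centralizer (P : Set G)) c f) : Cfsg.blockRank p B = Cfsg.blockRank p f ∧ Nat.card B = Nat.card f := by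
  have := Fintype.ofFinite G
  have := charP_resField hM
  have : IsMulCommutative P := ⟨⟨fun a b => Subtype.ext (hPab a a.2 b b.2)⟩⟩
  have h0 := isMax_of_isInducedBlock_centralizer hM hPD hc
  have h := exists_abMax hM hB h0
  obtain rfl := eq_nst_of_forall hM hc.1 hT
  have h1 := h.watanabe (z := ⟨u, hu⟩) fun α ⟨g, hg, hα⟩ => Subtype.ext
    ((hα _).trans (huT g (by rwa [Subgroup.range_subtype] at hg)))
  have h2 : (Subgroup.zpowers (⟨u, hu⟩ : P)).map P.subtype = Subgroup.zpowers u :=
    MonoidHom.map_zpowers _ _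
  obtain rfl : H = Subgroup.centralizer
      (((Subgroup.zpowers (⟨u, hu⟩ : P)).map P.subtype : Subgroup G) : Set G) := by
    rw [hH, h2, centralizer_zpowers_eq]
  have h3 := range_le_centralizer_map P.subtype (Subgroup.zpowers (⟨u, hu⟩ : P))
  rw [Subgroup.range_subtype] at h3
  have h4 := (isInducedBlockIn_iff_br hM h0.pgroup h3 (inf_eq_right.2 (Subgroup.centralizer_le
    (Subgroup.map_subtype_le _))).symm).1 hf
  have h5 : f = locB p P.subtype (hat M _ c) (Subgroup.zpowers ⟨u, hu⟩) := by
    refine hat_inj hM h4.2.1 (h.isPBlock_locB _) ?_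
    rw [h.hat_locB, Subgroup.range_subtype]
    refine (sub_eq h0.pair (NLe.ple ⟨⟨h0.pgroup.to_le (Subgroup.map_subtype_le _), ?_⟩, h0.pair,
      Subgroup.map_subtype_le _, h3.trans (Subgroup.centralizer_le_normalizer _),
      (fixedBy_hat f).mono h3, h4.2.2⟩)).symm
    rw [cen_top]
    exact isBlk_hat hM h4.2.1
  rw [h5]
  exact ⟨h1.1.symm, h1.2.symm⟩

end Cfsg.Agent.S4644
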