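import Cfsg.Statements.S4645
import Cfsg.Agent.Blk.CycGrp
import Cfsg.Agent.Blk.BP

set_option autoImplicit false
open Cfsg

namespace Cfsg.Agent.S4645

/-- Let B be a block of the finite group G relative to a maximal ideal M of the algebraic integers containing the prime p, with a nontrivial cyclic defect group P; let c be a block of C_G(P) inducing B and T the stabilizer of c in N_G(P). Let Q be a nontrivial subgroup of P (so C_G(P) ≤ C_G(Q)), f the block of C_G(Q) induced by c inside C_G(Q), and T' the stabilizer of f in N_G(Q). Then T' = T·C_G(Q), the index of C_G(Q) in T' equals the index of C_G(P) in T, f has p-regular rank 1, and f is a nilpotent block of C_G(Q). -/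
theorem result {G : Type*} [Group G] [Finite G] (p : ℕ) [Fact p.Prime] (M : Ideal Cfsg.AlgInt) (hM : Cfsg.IsPModular p M) (B : Set (Cfsg.IrrCharacter G)) (hB : Cfsg.IsPBlock M B) (P : Subgroup G) (hPD : Cfsg.IsDefectGroup p M B P) (hP1 : P ≠ ⊥) (hcyc : IsCyclic P) (c : Set (Cfsg.IrrCharacter (Subgroup.centralizer (P : Set G)))) (hc : Cfsg.IsInducedBlock M (Subgroup.centralizer (P : Set G)) c B) (T : Subgroup G) (hT : ∀ g : G, g ∈ T ↔ (g ∈ Subgroup.normalizer (P : Set G) ∧ Cfsg.StabilizesBlock (Subgroup.centralizer (P : Set G)) c g)) (Q : Subgroup G) (hQP : Q ≤ P) (hQ1 : Q ≠ ⊥) (f : Set (Cfsg.IrrCharacter (Subgroup.centralizer (Q : Set G)))) (hf : Cfsg.IsInducedBlockIn M (Subgroup.centralizer (Q : Set G)) (Subgroup.centralizer (P : Set G)) c f) (T' : Subgroup G) (hT' : ∀ g : G, g ∈ T' ↔ (g ∈ Subgroup.normalizer (Q : Set G) ∧ Cfsg.StabilizesBlock (Subgroup.centralizer (Q : Set G)) f g)) : T' = T ⊔ Subgroup.centralizer (Q : Set G) ∧ (Subgroup.centralizer (Q :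 Set G)).relIndex T' = (Subgroup.centralizer (P : Set G)).relIndex T ∧ Cfsg.blockRank p f = 1 ∧ Cfsg.IsNilpotentBlock p M f := by
  open CL.Blk CL.Blk.Pair in
  have := charP_resField hM
  have h := cy_isMax hM hPD hc
  have hPQ : P ≤ Subgroup.centralizer (Q : Set G) := cy_le_centralizer_of_le hcyc hQP
  obtain ⟨hc', hf', h1⟩ := (isInducedBlockIn_iff_br hM h.pgroup hPQ
    (inf_eq_right.2 (Subgroup.centralizer_le hQP)).symm).1 hf
  have hQp : IsPGroup p Q := h.pgroup.to_le hQP
  have hfp : IsPair p ⊤ Q (hat M _ f) := isPair_hat hM ⟨hQp, hf'⟩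
  have hle : PLe p ⊤ Q (hat M _ f) P (hat M _ c) :=
    NLe.ple ⟨hfp, h.pair, hQP, hPQ.trans (Subgroup.centralizer_le_normalizer _),
      (fixedBy_hat f).mono hPQ, h1⟩
  have hn : IsNilpotentBlock p M f := (isNilpotentBlock_iff hM).2 ⟨hf', h.cy_isNil hcyc hle hQ1⟩
  rw [eq_nst_of_forall hM hc' hT, eq_nst_of_forall hM hf' hT']
  exact ⟨h.cy_nst_eq hcyc hle, h.cy_relIndex hcyc hle hQ1,
    blockRank_eq_one_of_isNilpotentBlock hM hn, hn⟩

end Cfsg.Agent.S4645
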