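import Cfsg.Statements.S4649
import Cfsg.Agent.Blk.CycEx

set_option autoImplicit false
open Cfsg

namespace Cfsg.Agent.S4649

/-- A block with cyclic defect group, of a finite group relative to a maximal ideal M of the algebraic integers containing the prime p, is nilpotent if and only if its p-regular rank is 1 (it has a unique irreducible Brauer character). -/
theorem result {G : Type*} [Group G] [Finite G] (p : ℕ) [Fact p.Prime] (M : Ideal Cfsg.AlgInt) (hM : Cfsg.IsPModular p M) (B : Set (Cfsg.IrrCharacter G)) (hB : Cfsg.IsPBlock M B) (P : Subgroup G) (hPD : Cfsg.IsDefectGroup p M B P) (hcyc : IsCyclic P) : Cfsg.IsNilpotentBlock p M B ↔ Cfsg.blockRank p B = 1 := by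
  open CL.Blk CL.Blk.Pair in
  have := charP_resField hM
  refine ⟨blockRank_eq_one_of_isNilpotentBlock hM, fun h1 => ?_⟩
  obtain ⟨e, h⟩ := exists_isMax_of_isDefectGroup hM hB hPD
  refine (isNilpotentBlock_iff_top hM).2
    ⟨hB, (h.isNil_iff_of_abelian (cy_le_centralizer hcyc)).2 ?_⟩
  by_cases hP : P = ⊥
  · subst hP
    exact fun x _ y hy => by simp [Subgroup.mem_bot.1 hy]
  rw [cy_blockRank hM hB h hcyc hP, Subgroup.relIndex_eq_one] at h1
  exact h1

end Cfsg.Agent.S4649
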