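import Cfsg.Statements.S4650
import Cfsg.Agent.Blk.PairNil2
-- import your own Cfsg.Agent.* helpers here

set_option autoImplicit false
open Cfsg

namespace Cfsg.Agent.S4650

/-- Let B be a block of the finite group G relative to a maximal ideal M of the algebraic integers containing the prime p, with a nontrivial commutative defect group P; let c be a block of C_G(P) inducing B and T the stabilizer of c in N_G(P). Then T/C_G(P) acts freely on the non-identity elements of P (an element of T fixing a non-identity element of P under conjugation lies in C_G(P)) if and only if, for every nontrivial subgroup Q of P, the block of C_G(Q) induced by c inside C_G(Q) is a nilpotent block of C_G(Q). -/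
theorem result {G : Type*} [Group G] [Finite G] (p : ℕ) [Fact p.Prime] (M : Ideal Cfsg.AlgInt) (hM : Cfsg.IsPModular p M) (B : Set (Cfsg.IrrCharacter G)) (hB : Cfsg.IsPBlock M B) (P : Subgroup G) (hPD : Cfsg.IsDefectGroup p M B P) (hPab : ∀ x ∈ P, ∀ y ∈ P, x * y = y * x) (hP1 : P ≠ ⊥) (c : Set (Cfsg.IrrCharacter (Subgroup.centralizer (P : Set G)))) (hc : Cfsg.IsInducedBlock M (Subgroup.centralizer (P : Set G)) c B) (T : Subgroup G) (hT : ∀ g : G, g ∈ T ↔ (g ∈ Subgroup.normalizer (P : Set G) ∧ Cfsg.StabilizesBlock (Subgroup.centralizer (P : Set G)) c g)) : (∀ g ∈ T, ∀ x ∈ P, x ≠ 1 → g * x * g⁻¹ = x → g ∈ Subgroup.centralizer (P : Set G)) ↔ ∀ Q : Subgroup G, Q ≤ P → Q ≠ ⊥ → ∀ f : Set (Cfsg.IrrCharacter (Subgroup.centralizer (Q : Set G))), Cfsg.IsInducedBlockIn M (Subgroup.centralizer (Q : Set G)) (Subgroup.centralizer (P : Set G)) c f → Cfsg.IsNilpotentBlock p M f := by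
  open CL.Blk CL.Blk.Pair in
  have := charP_resField hM
  have hD := (isDefectGroup_iff_isDef_top hM hB).1 hPD
  obtain ⟨hc1, -, hc2⟩ := (isBrauerPairOf_iff hM).1
    ((isInducedBlock_iff_isBrauerPairOf hM hD.pgroup).1 hc)
  have hcb : IsPBlock M c := hc1.2
  have h : IsMax p ⊤ ⊤ (eBlk M B) P (hat M _ c) :=
    ⟨isBlk_eBlk hM hB, le_rfl, top_le_normalizer_top, hD, isPair_hat hM hc1, hc2⟩
  have hab : P ≤ Subgroup.centralizer (P : Set G) := fun x hx y hy => hPab y hy x hx
  have hT' := eq_nst_of_forall hM hcb hT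
  have key : ∀ Q : Subgroup G, Q ≤ P → ((∀ f : Set (IrrCharacter (Subgroup.centralizer (Q : Set G))),
      IsInducedBlockIn M (Subgroup.centralizer (Q : Set G)) (Subgroup.centralizer (P : Set G)) c f →
        IsNilpotentBlock p M f) ↔
      T ⊓ Subgroup.centralizer (Q : Set G) ≤ Subgroup.centralizer (P : Set G)) := by
    intro Q hQ
    have hPQ : P ≤ Subgroup.centralizer (Q : Set G) :=
      hab.trans (Subgroup.centralizer_le (SetLike.coe_subset_coe.2 hQ))
    have hK : Subgroup.centralizer (P : Set G) = cen (Subgroup.centralizer (Q : Set G)) P :=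
      (inf_eq_right.2 (Subgroup.centralizer_le (SetLike.coe_subset_coe.2 hQ))).symm
    have hQp : IsPGroup p Q := hD.pgroup.to_le hQ
    have h2 : ∀ f : Set (IrrCharacter (Subgroup.centralizer (Q : Set G))), IsPBlock M f →
        PLe p ⊤ Q (hat M _ f) P (hat M _ c) → (IsNilpotentBlock p M f ↔
          T ⊓ Subgroup.centralizer (Q : Set G) ≤ Subgroup.centralizer (P : Set G)) := by
      intro f hf hle
      have h3 := h.local hle (cen_top Q).le (hle.left h.pair).centralizer_le_nst hPQ
      rw [cen_top] at h3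
      rw [isNilpotentBlock_iff hM, and_iff_right hf, h3.isNil_iff_of_abelian hab, hT']
      refine ⟨fun H x hx => H ⟨⟨hx.2, hx.1.1.2⟩, hx.1.2⟩,
        fun H x hx => H ⟨⟨⟨trivial, hx.1.2⟩, hx.2⟩, hx.1.1⟩⟩
    have h4 : ∀ f : Set (IrrCharacter (Subgroup.centralizer (Q : Set G))), IsPBlock M f →
        (br P (hat M _ f) * hat M _ c = hat M _ c ↔ PLe p ⊤ Q (hat M _ f) P (hat M _ c)) := by
      intro f hf
      have hn : P ≤ Subgroup.normalizer (Q : Set G) :=
        hPQ.trans (Subgroup.centralizer_le_normalizer _)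
      refine ⟨fun H => NLe.ple ⟨isPair_hat hM ⟨hQp, hf⟩, h.pair, hQ, hn,
        (fixedBy_hat f).mono hPQ, H⟩, fun H => (PLe.nle h.pair h.le_norm H hn).br_mul⟩
    constructor
    · intro H
      obtain ⟨g, hg⟩ := h.exists_ple hQ
      obtain ⟨f, hf, rfl⟩ := (hg.left h.pair).exists_hat hM
      exact (h2 f hf.2 hg).1 (H f ((isInducedBlockIn_iff_br hM hD.pgroup hPQ hK).2
        ⟨hcb, hf.2, (h4 f hf.2).2 hg⟩))
    · intro H f hf
      obtain ⟨-, hf1, hf2⟩ := (isInducedBlockIn_iff_br hM hD.pgroup hPQ hK).1 hf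
      exact (h2 f hf1 ((h4 f hf1).1 hf2)).2 H
  constructor
  · intro H Q hQ hQ1
    refine (key Q hQ).2 fun g hg => ?_
    obtain ⟨⟨x, hx⟩, hx1⟩ := Subgroup.ne_bot_iff_exists_ne_one.1 hQ1
    refine H g hg.1 x (hQ hx) (fun h => hx1 (Subtype.ext h)) ?_
    rw [← hg.2 x hx, mul_inv_cancel_right]
  · intro H g hg x hx hx1 hgx
    have hQ : Subgroup.zpowers x ≤ P := (Subgroup.zpowers_le (G := G)).2 hx
    refine (key _ hQ).1 (H _ hQ (by simpa using hx1)) ⟨hg, ?_⟩
    rintro _ ⟨n, rfl⟩
    have : Commute x g := by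
      change x * g = g * x
      conv_lhs => rw [← hgx]
      group
    exact (this.zpow_left n).eq


end Cfsg.Agent.S4650
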