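import Cfsg.Statements.S4654
import Cfsg.Agent.Blk.PairOrb
-- import your own Cfsg.Agent.* helpers here

set_option autoImplicit false
open Cfsg

namespace Cfsg.Agent.S4654

/-- Fix a prime p and a maximal ideal M of the algebraic integers containing p. Let P be a normal p-subgroup of the finite group G, B a p-block of G and e a p-block of C_G(P) such that (P, e) is a Brauer pair of B (as P is normal, this says that e occurs in the idempotent of B, which is supported on C_G(P)). Let T be the stabilizer of e in G under conjugation. Then the idempotent of e is a block idempotent of T: some block E of T has, at every element of T, the same idempotent coefficient as e (zero off C_G(P)); and the idempotent of B is the sum of the distinct G-conjugates of the idempotent of e: its coefficient at g is the sum over all x in G of the coefficient of e at x⁻¹ g x, divided by the order of T. -/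
theorem result {G : Type*} [Group G] [Fintype G] (p : ℕ) [Fact p.Prime] (M : Ideal Cfsg.AlgInt) (hM : Cfsg.IsPModular p M) (P : Subgroup G) [P.Normal] (hP : IsPGroup p P) (B : Set (Cfsg.IrrCharacter G)) (e : Set (Cfsg.IrrCharacter (Subgroup.centralizer (P : Set G)))) (hBe : Cfsg.IsBrauerPairOf p M B P e) (T : Subgroup G) (hT : ∀ x : G, x ∈ T ↔ Cfsg.StabilizesBlock (Subgroup.centralizer (P : Set G)) e x) : (∃ E : Set (Cfsg.IrrCharacter T), Cfsg.IsPBlock M E ∧ ∀ t : T, Cfsg.blockCoeff E t = Cfsg.subgroupBlockCoeff (Subgroup.centralizer (P : Set G)) e (t : G)) ∧ ∀ g : G, Cfsg.blockCoeff B g = (Nat.card T : ℂ)⁻¹ * ∑ x : G, Cfsg.subgroupBlockCoeff (Subgroup.centralizer (P : Set G)) e (x⁻¹ * g * x) := by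
  open CL.Blk CL.Blk.Pair in
  have := charP_resField hM
  obtain ⟨h1, hB, h2⟩ := (isBrauerPairOf_iff hM).1 hBe
  have hN : ∀ K : Subgroup G, K ≤ Subgroup.normalizer (P : Set G) := fun K => by
    rw [Subgroup.normalizer_eq_top]; exact le_top
  have hp := isPair_hat hM h1
  have hT' : T = stab (hat M _ e) := by
    ext x
    rw [hT, stabilizesBlock_iff hM h1.2, mem_stab]
    exact and_iff_right (normalizer_le_normalizer_centralizer P (hN ⊤ trivial))
  have hCT : Subgroup.centralizer (P : Set G) ≤ T := by
    rw [hT', ← fixedBy_iff_le_stab]; exact fixedBy_hat e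
  have hb := isBlk_eBlk hM hB
  refine ⟨?_, fun g => ?_⟩
  · obtain ⟨E, h3, h4, -⟩ := exists_block_of_isBlk hM hCT
      ((hN T).trans (normalizer_le_normalizer_centralizer P)) h1.2
      (hp.isBlk_of_fixedBy (by rw [hT', ← fixedBy_iff_le_stab]; exact hp.fixedBy) (hN T)
        (by rwa [cen_top]) le_top (by rw [fixedBy_iff_le_stab, hT']))
    exact ⟨E, h3, h4⟩
  · rw [hb.br_eq_of_normal hP le_top (hN ⊤)] at h2
    exact blockCoeff_eq_sum_conj hM h1.2 hB
      (suppIn_centralizer_of_idem hP le_top (hN ⊤) hb.supp hb.fix hb.idem) h2 hT g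


end Cfsg.Agent.S4654
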