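import Cfsg.Statements.S4657
import Cfsg.Agent.Blk.PairBridge
-- import your own Cfsg.Agent.* helpers here

set_option autoImplicit false
open Cfsg

namespace Cfsg.Agent.S4657

/-- Fix a prime p and a maximal ideal M of the algebraic integers containing p. Every Brauer pair (P, e) of the finite group G is a Brauer pair of exactly one p-block B of G. -/
theorem result {G : Type*} [Group G] [Fintype G] (p : ℕ) [Fact p.Prime] (M : Ideal Cfsg.AlgInt) (hM : Cfsg.IsPModular p M) (P : Subgroup G) (e : Set (Cfsg.IrrCharacter (Subgroup.centralizer (P : Set G)))) (hPe : Cfsg.IsBrauerPair p M P e) : ∃! B : Set (Cfsg.IrrCharacter G), Cfsg.IsBrauerPairOf p M B P e := by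
  open CL.Blk CL.Blk.Pair in
  have := charP_resField hM
  have hp := isPair_hat hM hPe
  have h0 : IsPair p ⊤ (⊥ : Subgroup G) = IsBlk (k := resField M) ⊤ ⊤ := by
    have : cen (⊤ : Subgroup G) ⊥ = ⊤ := by
      rw [cen_top, eq_top_iff]; intro g _ x hx; rw [Subgroup.mem_bot.1 hx]; simp
    funext b
    exact propext ⟨fun h => this ▸ h.blk, fun h => ⟨IsPGroup.of_bot, this.symm ▸ h⟩⟩
  obtain ⟨b, hb⟩ := exists_ple hp (le_normalizer_top P) bot_le
  obtain ⟨B, hB, rfl⟩ := exists_eBlk_eq hM (h0 ▸ hb.left hp)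
  have key : ∀ B' : Set (IrrCharacter G), IsPBlock M B' →
      (br P (eBlk M B') * hat M _ e = hat M _ e ↔ eBlk M B' * eBlk M B = eBlk M B) := fun B' hB' => by
    have h := isBlk_eBlk hM hB'
    rw [hb.br_mul_iff h.supp (h.fix.mono le_top) (h.fix.mono le_top) h.idem, br_bot]
  refine ⟨B, (isBrauerPairOf_iff hM).2 ⟨hPe, hB, (key B hB).2 (eBlk_mul_self hM hB)⟩, fun B' h => ?_⟩
  obtain ⟨-, h1, h2⟩ := (isBrauerPairOf_iff hM).1 h
  exact eq_of_eBlk_mul_ne_zero hM h1 hB (by rw [(key B' h1).1 h2]; exact eBlk_ne_zero hM hB)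


end Cfsg.Agent.S4657
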