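import Cfsg.Statements.S4661
import Cfsg.Agent.Blk.PairBridge2
-- import your own Cfsg.Agent.* helpers here

set_option autoImplicit false
open Cfsg

namespace Cfsg.Agent.S4661

/-- Fix a prime p and a maximal ideal M of the algebraic integers containing p. Let (P, e) be a maximal Brauer pair of the p-block B of the finite group G, Q ≤ P, and f the p-block of C_G(Q) with (Q, f) ≤ (P, e). Then C_P(Q) is contained in a defect group of f (as a block of the group C_G(Q)); and for some x in G the conjugate pair (x Q x⁻¹, conjugate of f) again lies below (P, e) and C_P(x Q x⁻¹) is a defect group of the conjugate of f in C_G(x Q x⁻¹). -/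
theorem result {G : Type*} [Group G] [Fintype G] (p : ℕ) [Fact p.Prime] (M : Ideal Cfsg.AlgInt) (hM : Cfsg.IsPModular p M) (B : Set (Cfsg.IrrCharacter G)) (P Q : Subgroup G) (e : Set (Cfsg.IrrCharacter (Subgroup.centralizer (P : Set G)))) (f : Set (Cfsg.IrrCharacter (Subgroup.centralizer (Q : Set G)))) (hmax : Cfsg.IsMaximalBrauerPair p M B P e) (hQP : Q ≤ P) (hf : Cfsg.IsPBlock M f) (hle : Cfsg.SubpairLE p M Q f P e) : (∃ D : Subgroup (Subgroup.centralizer (Q : Set G)), Cfsg.IsDefectGroup p M f D ∧ (P ⊓ Subgroup.centralizer (Q : Set G)).subgroupOf (Subgroup.centralizer (Q : Set G)) ≤ D) ∧ ∃ x : G, Cfsg.SubpairLE p M (Q.map (MulAut.conj x).toMonoidHom) (Cfsg.conjBlock Q x f) P e ∧ Cfsg.IsDefectGroup p M (Cfsg.conjBlock Q x f) ((P ⊓ Subgroup.centralizer ((Q.map (MulAut.conj x).toMonoidHom) : Set G)).subgroupOf (Subgroup.centralizer ((Q.map (MulAut.conj x).toMonoidHom) : Set G))) := by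
  open CL.Blk CL.Blk.Pair in
  have := charP_resField hM
  have h := isMax_of_isMaximal hM hmax
  have he : IsPBlock M e := hmax.1.1.2
  have hle' := ple_of_subpairLE hM hle
  have hp := hle'.left h.pair
  constructor
  · obtain ⟨D, hD, h1⟩ := exists_isDef_ge (H := Subgroup.centralizer (Q : Set G))
      (h.pgroup.to_le inf_le_left) inf_le_right
      (h.br_inf_ne_zero hle' (Subgroup.centralizer_le_normalizer _))
    exact ⟨D.subgroupOf _, (isDefectGroup_subgroupOf_iff_isDef hM hf hD.le).2 hD,
      Subgroup.subgroupOf_mono _ h1⟩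
  · obtain ⟨D, hD⟩ := exists_isDef p (Subgroup.centralizer (Q : Set G)) hp.blk.ne_zero
    obtain ⟨x, -, h1, h2⟩ := h.exists_conj_isDef hp le_top (h.br_mul_of_ple hle')
      hp.centralizer_le_nst hD
    refine ⟨x, (subpairLE_conjBlock_iff hM hf he x).2 h1, ?_⟩
    rw [isDefectGroup_subgroupOf_iff_isDef hM (isPBlock_conjBlock x hf) inf_le_right,
      hat_conjBlock, ← cjs_centralizer, h2]
    exact hD.cj x


end Cfsg.Agent.S4661
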