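import Cfsg.Statements.S4662
import Cfsg.Agent.Blk.PairBridge2
-- import your own Cfsg.Agent.* helpers here

set_option autoImplicit false
open Cfsg

namespace Cfsg.Agent.S4662

/-- Fix a prime p and a maximal ideal M of the algebraic integers containing p. Let (P, e) be a maximal Brauer pair of the p-block B of the finite group G, Q ≤ P, and f the p-block of C_G(Q) with (Q, f) ≤ (P, e). Let T be the stabilizer of f in N_G(Q). Then the idempotent of f is a block idempotent of T, and N_P(Q) is contained in a defect group of that block of T; moreover for some x in G the conjugate pair (x Q x⁻¹, conjugate of f) again lies below (P, e) and, with T' the stabilizer of the conjugate of f in N_G(x Q x⁻¹), N_P(x Q x⁻¹) is a defect group of the block of T' whose idempotent is that of the conjugate of f. -/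
theorem result {G : Type*} [Group G] [Fintype G] (p : ℕ) [Fact p.Prime] (M : Ideal Cfsg.AlgInt) (hM : Cfsg.IsPModular p M) (B : Set (Cfsg.IrrCharacter G)) (P Q : Subgroup G) (e : Set (Cfsg.IrrCharacter (Subgroup.centralizer (P : Set G)))) (f : Set (Cfsg.IrrCharacter (Subgroup.centralizer (Q : Set G)))) (hmax : Cfsg.IsMaximalBrauerPair p M B P e) (hQP : Q ≤ P) (hf : Cfsg.IsPBlock M f) (hle : Cfsg.SubpairLE p M Q f P e) (T : Subgroup G) (hT : ∀ y : G, y ∈ T ↔ y ∈ Subgroup.normalizer (Q : Set G) ∧ Cfsg.StabilizesBlock (Subgroup.centralizer (Q : Set G)) f y) : (∃ F : Set (Cfsg.IrrCharacter T), Cfsg.IsPBlock M F ∧ (∀ t : T, Cfsg.blockCoeff F t = Cfsg.subgroupBlockCoeff (Subgroup.centralizer (Q : Set G)) f (t : G)) ∧ ∃ D : Subgroup T, Cfsg.IsDefectGroup p M F D ∧ (P ⊓ Subgroup.normalizer (Q : Set G)).subgroupOf T ≤ D) ∧ ∃ x : G, Cfsg.SubpairLE p M (Q.map (MulAut.conj x).toMonoidHom) (Cfsg.conjBlock Q x f) P e ∧ ∀ (T' : Subgroup G), (∀ y : G, y ∈ T' ↔ y ∈ Subgroup.normalizer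 ((Q.map (MulAut.conj x).toMonoidHom) : Set G) ∧ Cfsg.StabilizesBlock (Subgroup.centralizer ((Q.map (MulAut.conj x).toMonoidHom) : Set G)) (Cfsg.conjBlock Q x f) y) → ∃ F' : Set (Cfsg.IrrCharacter T'), Cfsg.IsPBlock M F' ∧ (∀ t : T', Cfsg.blockCoeff F' t = Cfsg.subgroupBlockCoeff (Subgroup.centralizer ((Q.map (MulAut.conj x).toMonoidHom) : Set G)) (Cfsg.conjBlock Q x f) (t : G)) ∧ Cfsg.IsDefectGroup p M F' ((P ⊓ Subgroup.normalizer ((Q.map (MulAut.conj x).toMonoidHom) : Set G)).subgroupOf T') := by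
  open CL.Blk CL.Blk.Pair in
  have := charP_resField hM
  have h := isMax_of_isMaximal hM hmax
  have he : IsPBlock M e := hmax.1.1.2
  have hle' := ple_of_subpairLE hM hle
  have hp := hle'.left h.pair
  obtain rfl := eq_nst_of_forall hM hf hT
  constructor
  · obtain ⟨F, h1, h2, h3⟩ := exists_block_of_le_nst hM ⟨hp.pgroup, hf⟩ (hp.le_nst le_top)
      hp.centralizer_le_nst le_rfl
    obtain ⟨D, hD, h4⟩ := exists_isDef_ge (h.pgroup.to_le inf_le_left) (h.inf_le_nst hle')
      (h.br_inf_ne_zero hle' le_rfl)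
    exact ⟨F, h1, h2, D.subgroupOf _, (isDefectGroup_subgroupOf_iff_isDef hM h1 hD.le).2 (by rw [h3]; exact hD),
      Subgroup.subgroupOf_mono _ h4⟩
  · obtain ⟨D, hD⟩ := exists_isDef p (nst ⊤ Q (hat M _ f)) hp.blk.ne_zero
    obtain ⟨x, -, h1, h2⟩ := h.exists_conj_isDef hp le_top (h.br_mul_of_ple hle') le_rfl hD
    refine ⟨x, (subpairLE_conjBlock_iff hM hf he x).2 h1, fun T' hT' => ?_⟩
    have hf' := isPBlock_conjBlock x hf
    obtain rfl := eq_nst_of_forall hM hf' hT'
    have hp' := isPair_hat hM (e := conjBlock Q x f) ⟨isPGroup_cjs x hp.pgroup, hf'⟩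
    obtain ⟨F, h3, h4, h5⟩ := exists_block_of_le_nst hM ⟨hp'.pgroup, hf'⟩ (hp'.le_nst le_top)
      hp'.centralizer_le_nst le_rfl
    refine ⟨F, h3, h4, ?_⟩
    have h6 := hD.cj x
    rw [← h2, cjs_nst, cjs_top, h.inf_nst h1, ← hat_conjBlock] at h6
    exact (isDefectGroup_subgroupOf_iff_isDef hM h3 h6.le).2 (by rw [h5]; exact h6)


end Cfsg.Agent.S4662
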