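import Cfsg.Statements.S4664
import Cfsg.Agent.Blk.Defect2

set_option autoImplicit false
open Cfsg

namespace Cfsg.Agent.S4664

/-- Fix a prime p and a maximal ideal M of the algebraic integers containing p, and let B be a p-block of the finite group G. Let m be the p'-part of the order of G and η = exp(2πi/m). Then every coefficient of the idempotent of B lies in the cyclotomic field ℚ(η). -/
theorem result {G : Type*} [Group G] [Fintype G] (p : ℕ) [Fact p.Prime] (M : Ideal Cfsg.AlgInt) (hM : Cfsg.IsPModular p M) (B : Set (Cfsg.IrrCharacter G)) (hB : Cfsg.IsPBlock M B) (g : G) : Cfsg.blockCoeff B g ∈ IntermediateField.adjoin ℚ ({Complex.exp (2 * Real.pi * Complex.I / ((Nat.card G / p ^ (Nat.card G).factorization p : ℕ) : ℂ))} : Set ℂ) := by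
  classical
  by_cases hg : p ∣ orderOf g
  · rw [CL.Blk.blockCoeff_eq_zero_of_dvd_orderOf hM (CL.Blk.blockIdem_mem_OG hM hB) hg]
    exact zero_mem _
  set m := Nat.card G / p ^ (Nat.card G).factorization p with hm
  have hm0 : m ≠ 0 := (Nat.ordCompl_pos p Nat.card_pos.ne').ne'
  have : NeZero m := ⟨hm0⟩
  have hdvd : orderOf g⁻¹ ∣ m := by
    rw [orderOf_inv]
    refine Nat.Coprime.dvd_of_dvd_mul_left (m := p ^ (Nat.card G).factorization p)
      (Nat.Coprime.pow_right _ ((Nat.Prime.coprime_iff_not_dvd hM.1).mpr hg).symm) ?_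
    rw [hm, Nat.ordProj_mul_ordCompl_eq_self]
    exact orderOf_dvd_natCard g
  have hζ := Complex.isPrimitiveRoot_exp m hm0
  rw [CL.Blk.blockCoeff_eq_sum]
  refine mul_mem (inv_mem (natCast_mem _ _)) (sum_mem fun χ _ => mul_mem ?_ ?_)
  · rw [← CL.Blk.irr_natCast_charDegree]
    exact natCast_mem _ _
  · rw [CL.Blk.irr_conj]
    obtain ⟨n, μ, -, hμ, hs⟩ := CL.Char.isChar_exists_eigenvalues χ.2.isCharacter g⁻¹
    have h1 := hs 1
    simp only [pow_one] at h1
    rw [h1]
    refine sum_mem fun i _ => ?_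
    obtain ⟨k, hk⟩ := hdvd
    obtain ⟨j, -, hj⟩ := hζ.eq_pow_of_pow_eq_one (ξ := μ i) (by rw [hk, pow_mul, hμ, one_pow])
    rw [← hj]
    exact pow_mem (IntermediateField.mem_adjoin_simple_self ℚ _) _

end Cfsg.Agent.S4664
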