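import Cfsg.Statements.S4666
import Cfsg.Agent.Blk.TildeInt

set_option autoImplicit false
open Cfsg

namespace Cfsg.Agent.S4666

/-- Fix a prime p and a maximal ideal M of the algebraic integers containing p, and a p-block B of the finite group G of defect d. For every integer combination χ of the irreducible characters in B, p^d times the function that agrees with χ on p-regular elements and vanishes elsewhere is again an integer combination of the irreducible characters in B. -/
theorem result {G : Type*} [Group G] [Fintype G] (p : ℕ) [Fact p.Prime] (M : Ideal Cfsg.AlgInt) (hM : Cfsg.IsPModular p M) (B : Set (Cfsg.IrrCharacter G)) (hB : Cfsg.IsPBlock M B) (χ : G → ℂ) (hχ : (∃ n : Cfsg.IrrCharacter G → ℤ, ∀ g : G, χ g = ∑ᶠ ψ ∈ B, (n ψ : ℂ) * (ψ : G → ℂ) g)) : (∃ n : Cfsg.IrrCharacter G → ℤ, ∀ g : G, (p ^ Cfsg.blockDefect p B : ℂ) * Cfsg.pRegularPart p χ g = ∑ᶠ ψ ∈ B, (n ψ : ℂ) * (ψ : G → ℂ) g) := by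
  classical
  obtain ⟨n, hn⟩ := hχ
  have e : (fun g => (p ^ Cfsg.blockDefect p B : ℂ) * Cfsg.pRegularPart p χ g)
      = ∑ ψ : Cfsg.IrrCharacter G, (((if ψ ∈ B then n ψ else 0 : ℤ)) : ℂ) •
        ((p : ℂ) ^ Cfsg.blockDefect p B • Cfsg.pRegularPart p (ψ : G → ℂ)) := by
    rw [CL.Blk.eq_sum_of_int_comb hn, CL.Blk.pRegularPart_sum]
    funext g
    simp only [CL.Blk.pRegularPart_smul, Finset.sum_apply, Pi.smul_apply, smul_eq_mul,
      Finset.mul_sum]
    exact Finset.sum_congr rfl fun ψ _ => by ring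
  refine CL.Blk.exists_int_comb_of_classInner
    (θ := fun g => (p ^ Cfsg.blockDefect p B : ℂ) * Cfsg.pRegularPart p χ g) ?_ fun ξ hξ => ?_
  · rw [e]
    refine CL.Char.isGeneralizedCharacter_sum _ _ fun ψ _ => ?_
    split_ifs with hψ
    · refine (CL.Blk.isGeneralizedCharacter_pow_smul_pRegularPart hM.1 ψ ?_).intCast_smul _
      have := CL.Blk.factorization_charDegree_add_blockDefect (p := p) hψ
      omega
    · simpa using CL.Char.isGeneralizedCharacter_zero
  · rw [e, CL.Char.classInner_sum_left]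
    refine Finset.sum_eq_zero fun ψ _ => ?_
    rw [CL.Char.classInner_smul_left, CL.Char.classInner_smul_left]
    split_ifs with hψ
    · rw [CL.Blk.classInner_pRegularPart_eq_zero hM hB hψ hξ, mul_zero, mul_zero]
    · simp

end Cfsg.Agent.S4666
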