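import Cfsg.Statements.S4668
import Cfsg.Agent.Blk.Defect2
import Cfsg.Agent.S0028

set_option autoImplicit false
open Cfsg

namespace Cfsg.Agent.S4668

/-- Fix a prime p and a maximal ideal M of the algebraic integers containing p. Let Q₀ < Q₁ < ⋯ < Q_m be a strictly increasing chain of p-subgroups of the finite group G and N the intersection of their normalizers. Then every block idempotent of N is supported on C_G(Q_m): for every p-block E of N, the idempotent coefficient of E vanishes at every element of N outside C_G(Q_m). -/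
theorem result {G : Type*} [Group G] [Fintype G] (p : ℕ) [Fact p.Prime] (M : Ideal Cfsg.AlgInt) (hM : Cfsg.IsPModular p M) (m : ℕ) (Q : Fin (m + 1) → Subgroup G) (hQ : StrictMono Q) (hQp : ∀ i, IsPGroup p (Q i)) (N : Subgroup G) (hN : ∀ g : G, g ∈ N ↔ ∀ i, g ∈ Subgroup.normalizer (Q i : Set G)) (E : Set (Cfsg.IrrCharacter N)) (hE : Cfsg.IsPBlock M E) (n : N) (hn : (n : G) ∉ Subgroup.centralizer (Q (Fin.last m) : Set G)) : Cfsg.blockCoeff E n = 0 := by
  by_contra h0
  apply hn
  have hO := CL.Blk.blockIdem_mem_OG hM hE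
  have hreg : ¬ p ∣ orderOf n := fun h => h0 (CL.Blk.blockCoeff_eq_zero_of_dvd_orderOf hM hO h)
  have hnN : ∀ i, (n : G) ∈ Subgroup.normalizer (Q i : Set G) := (hN n).1 n.2
  haveI : ((Q (Fin.last m)).subgroupOf N).Normal := ⟨fun x hx g => by
    rw [Subgroup.mem_subgroupOf] at hx ⊢
    exact (Subgroup.mem_normalizer_iff.1 ((hN g).1 g.2 (Fin.last m)) x).1 hx⟩
  have hC : n ∈ Subgroup.centralizer (((Q (Fin.last m)).subgroupOf N : Subgroup N) : Set N) := by
    by_contra h
    exact h0 (CL.Blk.blockCoeff_eq_zero_of_notMem_centralizer hM hO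
      (P := (Q (Fin.last m)).subgroupOf N) (hQp _).comap_subtype h)
  have hC' : ∀ x ∈ Q (Fin.last m), x ∈ N → x * n = n * x := fun x hx hxN =>
    congrArg Subtype.val (Subgroup.mem_centralizer_iff.1 hC ⟨x, hxN⟩ hx)
  have hco : (Nat.card (Subgroup.zpowers (n : G))).Coprime p := by
    rw [Nat.card_zpowers, Subgroup.orderOf_coe]
    exact ((Nat.Prime.coprime_iff_not_dvd hM.1).2 hreg).symm
  have key : ∀ i, (n : G) ∈ Subgroup.centralizer (Q i : Set G) := by
    intro i
    induction i using Fin.induction with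
    | zero =>
      exact Subgroup.mem_centralizer_iff.2 fun x hx => hC' x (hQ.monotone (Fin.le_last 0) hx)
        ((hN x).2 fun j => Subgroup.le_normalizer (hQ.monotone (Fin.zero_le j) hx))
    | succ i ih =>
      have hle : Q i.castSucc ≤ Q i.succ := hQ.monotone (Fin.castSucc_lt_succ (i := i)).le
      refine Cfsg.Agent.S0028.result p (Q i.castSucc) (Subgroup.zpowers (n : G)) (Q i.succ)
        (hQp _) hco (hQp _) (Subgroup.le_centralizer_iff.1 ((Subgroup.zpowers_le).2 ih))
        (hle.trans Subgroup.le_normalizer) ((Subgroup.zpowers_le).2 (hnN _)) ?_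
        (Subgroup.mem_zpowers _)
      refine Subgroup.le_centralizer_iff.1 ((Subgroup.zpowers_le).2
        (Subgroup.mem_centralizer_iff.2 fun x hx => hC' x (hQ.monotone (Fin.le_last _) hx.1)
          ((hN x).2 fun j => ?_)))
      rcases le_or_gt j i.castSucc with hj | hj
      · exact Subgroup.centralizer_le_normalizer _
          (Subgroup.centralizer_le (fun y hy => hQ.monotone hj hy) hx.2)
      · exact Subgroup.le_normalizer (hQ.monotone (Fin.castSucc_lt_iff_succ_le.1 hj) hx.1)
  exact key _

end Cfsg.Agent.S4668
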