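import Cfsg.Statements.S4670
import Cfsg.Agent.Blk.First

set_option autoImplicit false
open Cfsg

namespace Cfsg.Agent.S4670

/-- Fix a prime p and a maximal ideal M of the algebraic integers containing p. Let P be a p-subgroup of the finite group G and H a subgroup containing N_G(P). For every p-block B of G with defect group P there is exactly one p-block c of H with defect group P whose idempotent agrees with that of B, modulo the local ideal at M, at every element of C_G(P) (their Brauer-map images at P coincide); and every p-block c of H with defect group P arises in this way from exactly one such B. This is the Brauer correspondence over H. -/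
theorem result {G : Type*} [Group G] [Fintype G] (p : ℕ) [Fact p.Prime] (M : Ideal Cfsg.AlgInt) (hM : Cfsg.IsPModular p M) (P H : Subgroup G) (hP : IsPGroup p P) (hH : Subgroup.normalizer (P : Set G) ≤ H) : (∀ B : Set (Cfsg.IrrCharacter G), Cfsg.IsPBlock M B → Cfsg.IsDefectGroup p M B P → ∃! c : Set (Cfsg.IrrCharacter H), Cfsg.IsPBlock M c ∧ Cfsg.IsDefectGroup p M c (P.subgroupOf H) ∧ ∀ x : G, x ∈ Subgroup.centralizer (P : Set G) → Cfsg.MemLocalIdeal M (Cfsg.blockCoeff B x - Cfsg.subgroupBlockCoeff H c x)) ∧ (∀ c : Set (Cfsg.IrrCharacter H), Cfsg.IsPBlock M c → Cfsg.IsDefectGroup p M c (P.subgroupOf H) → ∃! B : Set (Cfsg.IrrCharacter G), Cfsg.IsPBlock M B ∧ Cfsg.IsDefectGroup p M B P ∧ ∀ x : G, x ∈ Subgroup.centralizer (P : Set G) → Cfsg.MemLocalIdeal M (Cfsg.blockCoeff B x - Cfsg.subgroupBlockCoeff H c x)) := by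
  have hPH : P ≤ H := Subgroup.le_normalizer.trans hH
  have key : ∀ {B : Set (Cfsg.IrrCharacter G)} {c : Set (Cfsg.IrrCharacter H)},
      Cfsg.IsPBlock M B → Cfsg.IsPBlock M c →
      ((∀ x : G, x ∈ Subgroup.centralizer (P : Set G) →
        Cfsg.MemLocalIdeal M (Cfsg.blockCoeff B x - Cfsg.subgroupBlockCoeff H c x)) ↔
      CL.Blk.trunc (Subgroup.centralizer (P : Set G)) (CL.Blk.eBlk M B) =
        CL.Blk.trunc (Subgroup.centralizer (P : Set G)) (CL.Blk.incl H (CL.Blk.eBlk M c))) := by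
    intro B c hB hc
    rw [CL.Blk.trunc_eq_trunc_iff]
    simp only [CL.Blk.memLocalIdeal_blockCoeff_sub_iff hM hB hc]
  refine ⟨fun B hB hBP => ?_, fun c hc hcP => ?_⟩
  · obtain ⟨c, hc, hcP, h⟩ := CL.Blk.exists_block_trunc_eBlk_eq hM hP hH hB hBP
    refine ⟨c, ⟨hc, hcP, (key hB hc).2 h⟩, fun c' h' => ?_⟩
    have h2 := (key hB h'.1).1 h'.2.2
    refine CL.Blk.eq_of_trunc_incl_eBlk_eq hM hP hPH h'.1 hc ?_ (h2.symm.trans h)
    rw [← h2]
    exact CL.Blk.trunc_eBlk_ne_zero_of_isDefectGroup hM hB hBP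
  · obtain ⟨B, hB, hBP, h⟩ := CL.Blk.exists_block_trunc_eBlk_eq' hM hP hH hc hcP
    refine ⟨B, ⟨hB, hBP, (key hB hc).2 h⟩, fun B' h' => ?_⟩
    have h2 := (key h'.1 hc).1 h'.2.2
    exact CL.Blk.eq_of_trunc_eBlk_eq hM hP h'.1 hB
      (CL.Blk.trunc_eBlk_ne_zero_of_isDefectGroup hM h'.1 h'.2.1) (h2.trans h.symm)

end Cfsg.Agent.S4670
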