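import Cfsg.Statements.S4672
import Cfsg.Agent.Blk.Knorr

set_option autoImplicit false
open Cfsg

namespace Cfsg.Agent.S4672

/-- Fix a prime p and a maximal ideal M of the algebraic integers containing p. Let N be a normal subgroup of the finite group G of p-power index and c a p-block of N stable under conjugation by G. Then the idempotent of c is a block idempotent of G: there is a p-block B of G whose idempotent coefficients agree with those of c on N and vanish off N; and for every defect group P of such a block B, G = NP and P ∩ N is a defect group of c. -/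
theorem result {G : Type*} [Group G] [Fintype G] (p : ℕ) [Fact p.Prime] (M : Ideal Cfsg.AlgInt) (hM : Cfsg.IsPModular p M) (N : Subgroup G) [N.Normal] (hN : ∃ k : ℕ, N.index = p ^ k) (c : Set (Cfsg.IrrCharacter N)) (hc : Cfsg.IsPBlock M c) (hst : ∀ x : G, Cfsg.StabilizesBlock N c x) : (∃ B : Set (Cfsg.IrrCharacter G), Cfsg.IsPBlock M B ∧ ∀ g : G, Cfsg.blockCoeff B g = Cfsg.subgroupBlockCoeff N c g) ∧ ∀ B : Set (Cfsg.IrrCharacter G), Cfsg.IsPBlock M B → (∀ g : G, Cfsg.blockCoeff B g = Cfsg.subgroupBlockCoeff N c g) → ∀ P : Subgroup G, Cfsg.IsDefectGroup p M B P → N ⊔ P = ⊤ ∧ Cfsg.IsDefectGroup p M c ((P ⊓ N).subgroupOf N) := by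
  obtain ⟨k, hk⟩ := hN
  have hinv : CL.Blk.IsInvSet c := CL.Blk.isInvSet_iff_blockStab_eq_top.2
    (eq_top_iff.2 fun x _ => CL.Blk.mem_blockStab_iff_stabilizesBlock.2 (hst x))
  have h1 : ∀ g : G, blockCoeff (CL.Blk.overSet N c) g = subgroupBlockCoeff N c g := fun g => by
    rw [← CL.Blk.coeff_blockIdem, ← hinv.incl_blockIdem, ← CL.Blk.ofFun_subgroupBlockCoeff,
      CL.Blk.coeff_ofFun]
  refine ⟨⟨_, CL.Blk.isPBlock_overSet_of_index_eq_pow hM hk hc, h1⟩, fun B hB h P hP => ?_⟩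
  have h2 : B = CL.Blk.overSet N c := CL.Blk.blockIdem_injective
    (CL.Blk.grpAlg_ext fun g => by rw [CL.Blk.coeff_blockIdem, CL.Blk.coeff_blockIdem, h, h1])
  obtain ⟨χ, hχ⟩ := CL.Blk.tr_nonempty hM hB
  have h3 : CL.Blk.Covers N B c := ⟨χ, hχ, show χ ∈ CL.Blk.overSet N c from h2 ▸ hχ⟩
  exact ⟨sup_comm P N ▸ h3.sup_eq_top_of_index_eq_pow hM hk hB hc hinv hP,
    h3.isDefectGroup_inf hM hB hc hinv hP⟩

end Cfsg.Agent.S4672
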