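import Cfsg.Statements.S4681
import Cfsg.Agent.Blk.PairBridge2
-- import your own Cfsg.Agent.* helpers here

set_option autoImplicit false
open Cfsg

namespace Cfsg.Agent.S4681

/-- Fix a prime p and a maximal ideal M of the algebraic integers containing p. Let B₀ be the principal p-block of the finite group G, P a Sylow p-subgroup and e₀ the principal p-block of C_G(P). Then (P, e₀) is a maximal Brauer pair of B₀, and the fusion system of B₀ on (P, e₀) is the fusion system of G on P: its maps from each subgroup of P are exactly the conjugation maps into P by elements of G. -/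
theorem result {G : Type*} [Group G] [Fintype G] (p : ℕ) [Fact p.Prime] (M : Ideal Cfsg.AlgInt) (hM : Cfsg.IsPModular p M) (S : Sylow p G) : Cfsg.IsMaximalBrauerPair p M (Cfsg.principalBlock M G) (S : Subgroup G) (Cfsg.principalBlock M (Subgroup.centralizer ((S : Subgroup G) : Set G))) ∧ ∀ F : Cfsg.FusionSystem (S : Subgroup G), Cfsg.IsBlockFusionSystemOn p M (Cfsg.principalBlock M G) (S : Subgroup G) (Cfsg.principalBlock M (Subgroup.centralizer ((S : Subgroup G) : Set G))) F → ∀ Q : Subgroup G, F.Hom Q = (Cfsg.groupFusionSystem (S : Subgroup G)).Hom Q := by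
  open CL.Blk CL.Blk.Pair CL.Fus in
  have := charP_resField hM
  refine ⟨isMaximalBrauerPair_principal hM S, fun F hF Q => ?_⟩
  have h := isMax_of_isMaximal hM hF.1
  rw [fusionSystem_ext_mor (E := F) (F := groupFusionSystem (S : Subgroup G)) fun R φ => ?_]
  rw [mor_group_iff]
  constructor
  · intro h1
    obtain ⟨x, -, -, h2, -⟩ := (isBFS_of hM hF R φ).1 h1
    exact ⟨h1.le, fun _ => h1.mem, x, h2⟩
  · rintro ⟨h1, h2, x, h3⟩
    refine (isBFS_of hM hF R φ).2 ⟨x, trivial, _, h3, ple_principal hM S.isPGroup' h1, ?_⟩
    rw [cj_hat_principal x (cjs_centralizer x R)]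
    exact ple_principal hM S.isPGroup' (by rw [← img_eq_cjs h3, img_le_iff]; exact h2)


end Cfsg.Agent.S4681
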