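import Cfsg.Statements.S4688
import Cfsg.Agent.Blk.PairBridge2
-- import your own Cfsg.Agent.* helpers here

set_option autoImplicit false
open Cfsg

namespace Cfsg.Agent.S4688

/-- Fix a prime p and a maximal ideal M of the algebraic integers containing p, and a nilpotent p-block B of the finite group G with maximal Brauer pair (P, e). Then for every Brauer pair (Q, f) of B, f is a nilpotent block of C_G(Q); and if moreover (Q, f) ≤ (P, e), then C_P(Q) is a defect group of f as a block of C_G(Q). -/
theorem result {G : Type*} [Group G] [Fintype G] (p : ℕ) [Fact p.Prime] (M : Ideal Cfsg.AlgInt) (hM : Cfsg.IsPModular p M) (B : Set (Cfsg.IrrCharacter G)) (P : Subgroup G) (e : Set (Cfsg.IrrCharacter (Subgroup.centralizer (P : Set G)))) (hmax : Cfsg.IsMaximalBrauerPair p M B P e) (hnil : Cfsg.IsNilpotentBlock p M B) (Q : Subgroup G) (f : Set (Cfsg.IrrCharacter (Subgroup.centralizer (Q : Set G)))) (hQf : Cfsg.IsBrauerPairOf p M B Q f) : Cfsg.IsNilpotentBlock p M f ∧ (Cfsg.SubpairLE p M Q f P e → Cfsg.IsDefectGroup p M f ((P ⊓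 Subgroup.centralizer (Q : Set G)).subgroupOf (Subgroup.centralizer (Q : Set G)))) := by
  open CL.Blk CL.Blk.Pair in
  have := charP_resField hM
  have h := isMax_of_isMaximal hM hmax
  have hn := ((isNilpotentBlock_iff_top hM).1 hnil).2
  obtain ⟨h1, -, h2⟩ := (isBrauerPairOf_iff hM).1 hQf
  have hp := isPair_hat hM h1
  constructor
  · refine (isNilpotentBlock_iff hM).2 ⟨h1.2, ?_⟩
    have := hn.local h.blk le_rfl hp le_top h2 hp.centralizer_le_nst
    rwa [cen_top] at this
  · intro hle
    exact (isDefectGroup_subgroupOf_iff_isDef hM h1.2 inf_le_right).2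
      (h.isDef_inf_of_isNil hn (ple_of_subpairLE hM hle) hp.cst_top.le hp.centralizer_le_nst)


end Cfsg.Agent.S4688
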