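import Cfsg.Statements.S4692
import Cfsg.Agent.Blk.PairNil2
-- import your own Cfsg.Agent.* helpers here

set_option autoImplicit false
open Cfsg

namespace Cfsg.Agent.S4692

/-- Fix a prime p and a maximal ideal M of the algebraic integers containing p. Let N be a normal subgroup of p-power index in the finite group G and c a p-block of N stable under conjugation by G, and let B be the p-block of G whose idempotent is that of c (it exists and is unique). Then c is nilpotent as a block of N if and only if B is nilpotent as a block of G. -/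
theorem result {G : Type*} [Group G] [Fintype G] (p : ℕ) [Fact p.Prime] (M : Ideal Cfsg.AlgInt) (hM : Cfsg.IsPModular p M) (N : Subgroup G) [N.Normal] (hN : ∃ k : ℕ, N.index = p ^ k) (c : Set (Cfsg.IrrCharacter N)) (hc : Cfsg.IsPBlock M c) (hst : ∀ x : G, Cfsg.StabilizesBlock N c x) (B : Set (Cfsg.IrrCharacter G)) (hB : Cfsg.IsPBlock M B) (hBc : ∀ g : G, Cfsg.blockCoeff B g = Cfsg.subgroupBlockCoeff N c g) : Cfsg.IsNilpotentBlock p M c ↔ Cfsg.IsNilpotentBlock p M B := by
  open CL.Blk CL.Blk.Pair in
  have := charP_resField hM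
  have h1 : eBlk M B = hat M N c := alg_ext fun g => by rw [coeff_hat, coeff_eBlk, hBc]
  have hn : (⊤ : Subgroup G) ≤ Subgroup.normalizer (N : Set G) := by
    rw [Subgroup.normalizer_eq_top]
  have hb : IsBlk N ⊤ (hat M N c) :=
    (isBlk_hat hM hc).of_fixedBy le_top (h1 ▸ (isBlk_eBlk hM hB).fix)
  obtain ⟨k, hk⟩ := hN
  have hp : PExt p N ⊤ := pExt_of_relIndex_eq_pow (n := k) (by rwa [Subgroup.relIndex_top_right]) hn
  rw [isNilpotentBlock_iff hM, isNilpotentBlock_iff_top hM, and_iff_right hc, and_iff_right hB, h1,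
    isNil_iff_of_pExt hb le_top hn hp]
  exact isNil_iff_of_pExt' hb le_top hn hp fun C e he g hg => he.not_dvd_orderOf hM hg


end Cfsg.Agent.S4692
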