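import Cfsg.Statements.S4693
import Cfsg.Agent.Blk.PairNil2
import Cfsg.Agent.Blk.First
-- import your own Cfsg.Agent.* helpers here

set_option autoImplicit false
open Cfsg

namespace Cfsg.Agent.S4693

/-- Fix a prime p and a maximal ideal M of the algebraic integers containing p, a p-block B of the finite group G with maximal Brauer pair (P, e) and fusion system F on P, and a Brauer pair (Q, f) ≤ (P, e) with Q centric in F. Suppose every element of G normalizes Q and stabilizes f. Then the idempotent of B agrees with that of f modulo M at every element of G, and f is the idempotent of a nilpotent block of Q·C_G(Q): some p-block of Q·C_G(Q) has the idempotent coefficients of f and is nilpotent. -/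
theorem result {G : Type*} [Group G] [Fintype G] (p : ℕ) [Fact p.Prime] (M : Ideal Cfsg.AlgInt) (hM : Cfsg.IsPModular p M) (B : Set (Cfsg.IrrCharacter G)) (P : Subgroup G) (e : Set (Cfsg.IrrCharacter (Subgroup.centralizer (P : Set G)))) (hmax : Cfsg.IsMaximalBrauerPair p M B P e) (F : Cfsg.FusionSystem P) (hF : Cfsg.IsBlockFusionSystemOn p M B P e F) (Q : Subgroup G) (f : Set (Cfsg.IrrCharacter (Subgroup.centralizer (Q : Set G)))) (hQP : Q ≤ P) (hf : Cfsg.IsPBlock M f) (hle : Cfsg.SubpairLE p M Q f P e) (hcen : F.IsCentric Q) (hG : ∀ x : G, x ∈ Subgroup.normalizer (Q : Set G) ∧ Cfsg.StabilizesBlock (Subgroup.centralizer (Q : Set G)) f x) : (∀ g : G, Cfsg.MemLocalIdeal M (Cfsg.blockCoeff B g - Cfsg.subgroupBlockCoeff (Subgroup.centralizer (Q : Set G)) f g)) ∧ ∃ F' : Set (Cfsg.IrrCharacter ↥(Q ⊔ Subgroup.centralizer (Q : Set G))), Cfsg.IsPBlock M F' ∧ (∀ t : ↥(Q ⊔ Subgroup.centralizer (Q : Set G)), Cfsg.blockCoeff F' t = Cfsg.subgroupBlockCoeff (Subgroup.centralizer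 (Q : Set G)) f (t : G)) ∧ Cfsg.IsNilpotentBlock p M F' := by
  open CL.Blk CL.Blk.Pair in
  have := charP_resField hM
  obtain ⟨hB, he, h⟩ := (isMaximalBrauerPair_iff_isMax hM).1 hmax
  have hF' := isBFS_of hM hF
  have hle' := ple_of_subpairLE hM hle
  have hf' := hle'.left h.pair
  have hT : (⊤ : Subgroup G) ≤ nst ⊤ Q (hat M _ f) := fun x _ => (mem_nst_top_iff hM hf).2 (hG x)
  have hN : (⊤ : Subgroup G) ≤ Subgroup.normalizer (Q : Set G) := fun x _ => (hG x).1
  have hb : IsBlk ⊤ ⊤ (hat M _ f) := hf'.isBlk_of_fixedBy le_top hN le_top le_top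
    (fixedBy_iff_le_stab.2 (hT.trans inf_le_right))
  have h1 : eBlk M B = hat M _ f := by
    refine h.blk.eq_of_mul_ne_zero le_rfl hb ?_
    have := h.br_mul_of_ple hle'
    rw [h.blk.br_eq_of_normal hf'.pgroup le_top hN] at this
    rw [this]; exact hb.ne_zero
  refine ⟨fun g => (memLocalIdeal_blockCoeff_sub_iff hM hB hf g).2 (by rw [h1]; rfl), ?_⟩
  obtain ⟨F', hF1, hF2, hF3⟩ := exists_block_of_le_nst hM (T := Q ⊔ Subgroup.centralizer (Q : Set G))
    ⟨hf'.pgroup, hf⟩ le_sup_left le_sup_right (le_top.trans hT)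
  refine ⟨F', hF1, hF2, (isNilpotentBlock_iff hM).2 ⟨hF1, ?_⟩⟩
  have hPC : P ⊓ Subgroup.centralizer (Q : Set G) ≤ Q := by
    have := hcen.2 Q (CL.Fus.isConj_refl F hQP)
    exact this
  have hD := (hF'.isCentric_iff h hle').1 hcen
  have hPC' : P ⊓ Subgroup.centralizer (Q : Set G) = Q ⊓ Subgroup.centralizer (Q : Set G) :=
    le_antisymm (le_inf hPC inf_le_right) (inf_le_inf hQP le_rfl)
  have hD' := h.isDef_sup hle' (hPC' ▸ hD) (U := Q) (le_inf hQP Subgroup.le_normalizer) hPC
  rw [hf'.cst_top] at hD'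
  have hbl := isBlk_hat hM hF1
  rw [hF3] at hbl ⊢
  have hc : cen (Q ⊔ Subgroup.centralizer (Q : Set G)) Q = cen ⊤ Q := by
    rw [cen_top]; exact inf_eq_right.2 le_sup_right
  have hm : IsMax p _ _ (hat M _ f) Q (hat M _ f) := ⟨hbl, le_rfl, Subgroup.le_normalizer, hD',
    ⟨hf'.pgroup, hc ▸ hf'.blk⟩, by rw [hf'.br_self, hbl.idem]⟩
  exact hm.isNil_of_pExt ((pExt_of_isPGroup hf'.pgroup).sup
    (Subgroup.le_normalizer.trans (normalizer_le_normalizer_centralizer Q)))


end Cfsg.Agent.S4693
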