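import Cfsg.Statements.S4694
import Cfsg.Agent.Blk.PairWt
-- import your own Cfsg.Agent.* helpers here

set_option autoImplicit false
open Cfsg

namespace Cfsg.Agent.S4694

/-- Fix a prime p and a maximal ideal M of the algebraic integers containing p, a p-block B of the finite group G and a Brauer pair (Q, e) of B. Let T be the stabilizer of e in N_G(Q) and suppose that (Q, e) carries a weight: the block of T whose idempotent is that of e contains an irreducible character χ that is constant on the cosets of Q and whose degree has p-part equal to the p-part of the index of Q in T. Then Z(Q) is a defect group of e as a block of C_G(Q), and Q is the largest normal p-subgroup of T: every p-subgroup of T normalized by T lies in Q. -/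
theorem result {G : Type*} [Group G] [Fintype G] (p : ℕ) [Fact p.Prime] (M : Ideal Cfsg.AlgInt) (hM : Cfsg.IsPModular p M) (B : Set (Cfsg.IrrCharacter G)) (Q : Subgroup G) (e : Set (Cfsg.IrrCharacter (Subgroup.centralizer (Q : Set G)))) (hQe : Cfsg.IsBrauerPairOf p M B Q e) (T : Subgroup G) (hT : ∀ y : G, y ∈ T ↔ y ∈ Subgroup.normalizer (Q : Set G) ∧ Cfsg.StabilizesBlock (Subgroup.centralizer (Q : Set G)) e y) (F' : Set (Cfsg.IrrCharacter T)) (hF' : Cfsg.IsPBlock M F') (hF'e : ∀ t : T, Cfsg.blockCoeff F' t = Cfsg.subgroupBlockCoeff (Subgroup.centralizer (Q : Set G)) e (t : G)) (χ : Cfsg.IrrCharacter T) (hχ : χ ∈ F') (hχQ : ∀ q : G, q ∈ Q → ∀ t : T, ∀ t' : T, (t' : G) = q * (t : G) → (χ : T → ℂ) t' = (χ : T → ℂ) t) (hdeg : (Cfsg.charDegree (χ : T → ℂ)).factorization p + (Nat.card Q).factorization p = (Nat.card T).factorization p) : Cfsg.IsDefectGroup p M e ((Q ⊓ Subgroup.centralizer (Q : Set G)).subgroupOf (Subgroup.centralizer (Q : Set G))) ∧ ∀ R : Subgroup G, R ≤ T → IsPGroup p R → (∀ t ∈ T, t ∈ Subgroup.normalizer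 (R : Set G)) → R ≤ Q := by
  open CL.Blk CL.Blk.Pair in
  have := charP_resField hM
  have : IsAlgClosed (resField M) := inferInstance
  have he : IsPBlock M e := hQe.1.2
  have hf := isPair_hat hM hQe.1
  have hT' := eq_nst_of_forall hM he hT
  have hQT : Q ≤ T := hT' ▸ hf.le_nst le_top
  have hCT : Subgroup.centralizer (Q : Set G) ≤ T := hT' ▸ hf.centralizer_le_nst
  have hTN : T ≤ Subgroup.normalizer (Q : Set G) := hT' ▸ (inf_le_left.trans inf_le_right)
  have hTC := hTN.trans (normalizer_le_normalizer_centralizer Q)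
  have hhat : hat M T F' = hat M _ e := hat_eq_of_coeff hCT hF'e
  have hQn : (Q.subgroupOf T).Normal := (Subgroup.normal_subgroupOf_iff_le_normalizer hQT).2 hTN
  have h1 : ∀ x ∈ Q.subgroupOf T, (χ : T → ℂ) x = (χ : T → ℂ) 1 := fun x hx =>
    hχQ x hx 1 x (by simp)
  have h2 : (charDegree (χ : T → ℂ)).factorization p = (Q.subgroupOf T).index.factorization p := by
    have h3 := factorization_card_eq_add p (Q.subgroupOf T)
    rw [Nat.card_congr (Subgroup.subgroupOfEquivOfLe hQT).toEquiv] at h3
    omega
  have hL : Q ⊔ Subgroup.centralizer (Q : Set G) ≤ T := sup_le hQT hCT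
  have hTL : T ≤ Subgroup.normalizer ((Q ⊔ Subgroup.centralizer (Q : Set G) : Subgroup G) : Set G) :=
    fun x hx => cjs_eq_self_iff.1 (by
      rw [cjs_sup, cjs_eq_self_iff.2 (hTN hx), cjs_eq_self_iff.2 (hTC hx)])
  refine ⟨?_, fun R hRT hR hRn => ?_⟩
  · have hLn : ((Q ⊔ Subgroup.centralizer (Q : Set G)).subgroupOf T).Normal :=
      (Subgroup.normal_subgroupOf_iff_le_normalizer hL).2 hTL
    have hbl : IsBlk (Q ⊔ Subgroup.centralizer (Q : Set G)) (Q ⊔ Subgroup.centralizer (Q : Set G))
        (hat M _ e) := hf.isBlk_of_fixedBy le_sup_left (hL.trans hTN)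
          ((cen_top Q).le.trans le_sup_right) le_top
          (fixedBy_iff_le_stab.2 (hL.trans (hT' ▸ inf_le_right)))
    have hD := isDef_of_weight hM (N := (Q ⊔ Subgroup.centralizer (Q : Set G)).subgroupOf T)
      (Q := Q.subgroupOf T)
      (hf.pgroup.comap_of_injective _ T.subtype_injective) (Subgroup.comap_mono le_sup_left) ?_ hF'
      ?_ hχ h1 h2
    · rw [← isDef_map_incl, map_subgroupOf_subtype hL, map_subgroupOf_subtype hQT] at hD
      change IsDef p _ (hat M T F') Q at hD
      rw [hhat] at hD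
      have hC := isBlk_hat hM he
      rw [isDefectGroup_subgroupOf_iff_isDef hM he inf_le_right]
      exact hD.inf (hC.of_fixedBy le_sup_right hbl.fix) le_sup_right (hL.trans hTC) le_sup_right
        (hL.trans hTC) hC le_rfl
    · intro x hx
      obtain ⟨u, hu, c, hc, huc⟩ := (mem_sup_iff_of_le_normalizer
        (Subgroup.le_normalizer.trans (normalizer_le_normalizer_centralizer Q))).1 hx
      have : x = (⟨u, hQT hu⟩ : T) * ⟨c, hCT hc⟩ := Subtype.ext huc.symm
      rw [this]
      exact Subgroup.mul_mem _ (Subgroup.mem_sup_left hu)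
        (Subgroup.mem_sup_right fun y hy => Subtype.ext (hc y hy))
    · rw [← isBlk_map_incl, map_subgroupOf_subtype hL]
      change IsBlk _ _ (hat M T F')
      rwa [hhat]
  · have hRn' : (R.subgroupOf T).Normal :=
      (Subgroup.normal_subgroupOf_iff_le_normalizer hRT).2 hRn
    have h3 := le_of_defect_zero_mod hM (R := R.subgroupOf T)
      (hR.comap_of_injective _ T.subtype_injective) h1 h2
    exact fun x hx => h3 (x := ⟨x, hRT hx⟩) hx


end Cfsg.Agent.S4694
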