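import Cfsg.Statements.S4696
import Cfsg.Agent.Blk.CycEx

set_option autoImplicit false
open Cfsg

namespace Cfsg.Agent.S4696

/-- Let p be a prime, M a maximal ideal of the algebraic integers containing p, and B a p-block of the finite group G whose defect group D is cyclic of order p^a with a ≥ 1. Let C = C_G(D), let b be a block of C inducing B, let T be the stabilizer of b in N_G(D) (the elements g of N_G(D) such that the g-conjugate of every member of b is again in b), and let e be the index of C in T (the inertial index of B). Then e divides p − 1, every irreducible character in B has height zero, and B is the disjoint union of a set X of e characters and a set Y of (p^a − 1)/e characters, the members of Y agreeing on p-regular elements, for which there are signs δ_χ = ±1 (χ ∈ X) and δ₀ = ±1 such that: for every ψ ∈ Y and every p-regular g, δ₀ ψ(g) + Σ_{χ ∈ X} δ_χ χ(g) = 0; for all χ, χ' ∈ X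 the integers δ_χ χ(1) and δ_χ' χ'(1) are congruent modulo p^a; and for ψ ∈ Y and χ ∈ X, ψ(1) ≡ −e δ₀ δ_χ χ(1) modulo p^a. -/
theorem result {G : Type*} [Group G] [Finite G] (p : ℕ) [Fact p.Prime] (M : Ideal Cfsg.AlgInt) (hM : Cfsg.IsPModular p M) (D : Subgroup G) (hD : IsCyclic D) (a : ℕ) (ha : 1 ≤ a) (hDa : Nat.card D = p ^ a) (B : Set (Cfsg.IrrCharacter G)) (hB : Cfsg.IsPBlock M B) (hBD : Cfsg.IsDefectGroup p M B D) (b : Set (Cfsg.IrrCharacter (Subgroup.centralizer (D : Set G)))) (hind : Cfsg.IsInducedBlock M (Subgroup.centralizer (D : Set G)) b B) (T : Subgroup G) (hT : ∀ g : G, g ∈ T ↔ (g ∈ Subgroup.normalizer (D : Set G) ∧ ∀ θ ∈ b, ∀ θ' : Cfsg.IrrCharacter (Subgroup.centralizer (D : Set G)), (∀ h h' : Subgroup.centralizer (D : Set G), (h' : G) = g * h * g⁻¹ → (θ' : Subgroup.centralizer (D : Set G) → ℂ) h' = (θ : Subgroup.centralizer (D : Set G) → ℂ) h) → θ' ∈ b)) (e : ℕ) (he : (Subgroup.centralizer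 (D : Set G)).relIndex T = e) : e ∣ p - 1 ∧ (∀ χ ∈ B, Cfsg.blockHeight p B (χ : G → ℂ) = 0) ∧ ∃ X Y : Set (Cfsg.IrrCharacter G), B = X ∪ Y ∧ Disjoint X Y ∧ Nat.card X = e ∧ Nat.card Y = (p ^ a - 1) / e ∧ (∀ ψ ∈ Y, ∀ ψ' ∈ Y, ∀ g : G, ¬ p ∣ orderOf g → (ψ : G → ℂ) g = (ψ' : G → ℂ) g) ∧ ∃ (δ : Cfsg.IrrCharacter G → ℤ) (δ₀ : ℤ), (∀ χ ∈ X, δ χ = 1 ∨ δ χ = -1) ∧ (δ₀ = 1 ∨ δ₀ = -1) ∧ (∀ ψ ∈ Y, ∀ g : G, ¬ p ∣ orderOf g → (δ₀ : ℂ) * (ψ : G → ℂ) g + ∑ᶠ χ ∈ X, (δ χ : ℂ) * (χ : G → ℂ) g = 0) ∧ (∀ χ ∈ X, ∀ χ' ∈ X, δ χ * (Cfsg.charDegree (χ : G → ℂ) : ℤ) ≡ δ χ' * (Cfsg.charDegree (χ' : G → ℂ) : ℤ) [ZMOD (p : ℤ) ^ a]) ∧ (∀ ψ ∈ Y, ∀ χ ∈ X, (Cfsg.charDegree (ψ : G → ℂ) : ℤ) ≡ -((e : ℤ) * δ₀ * δ χ * (Cfsg.charDegree (χ : G → ℂ) : ℤ)) [ZMOD (p : ℤ) ^ a]) := by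
  open CL.Blk CL.Blk.Pair in
  have := Fintype.ofFinite G
  have hp : p.Prime := Fact.out
  have : NeZero (Nat.card D) := ⟨Nat.card_pos.ne'⟩
  have := Fintype.ofFinite (Multiplicative (ZMod (Nat.card D)) →* ℂˣ)
  obtain ⟨E, ψ, s, I, h, h3⟩ := exists_cyData (A := Multiplicative (ZMod (Nat.card D))) hM hB
    (cy_isMax hM hBD hind) hD (by
      rintro rfl
      rw [Subgroup.card_bot, eq_comm, pow_eq_one_iff, or_iff_left (by omega)] at hDa
      exact hp.one_lt.ne' hDa) inferInstance (by simp)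
  rw [← eq_nst_of_forall' hM hind.1 hT, he] at h3
  subst h3
  have := Fintype.ofFinite E
  have := Fintype.ofFinite (cyJ E)
  have hX : Function.Injective (ψ ∘ Sum.inl) := h.inj.comp Sum.inl_injective
  have hY : Function.Injective (ψ ∘ Sum.inr) := h.inj.comp Sum.inr_injective
  obtain ⟨O₀⟩ := h.free.nonempty h.dvd
  have hδ : ∀ i, s (Function.invFun ψ (ψ i)) = s i := fun i => by
    rw [Function.leftInverse_invFun h.inj]
  have hdvd : (p : ℤ) ^ a ∣ (p : ℤ) ^ (Nat.card G).factorization p := pow_dvd_pow _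
    ((hp.pow_dvd_iff_le_factorization Nat.card_pos.ne').1 (hDa ▸ D.card_subgroup_dvd_card))
  refine ⟨h.card_dvd, fun χ => h.height, Set.range (ψ ∘ Sum.inl), Set.range (ψ ∘ Sum.inr),
    by rw [← h.range, Set.range_comp, Set.range_comp, ← Set.image_union,
      Set.range_inl_union_range_inr, Set.image_univ], ?_, Nat.card_range_of_injective hX,
    by rw [Nat.card_range_of_injective hY, h.card_J, ← hDa]; simp, ?_,
    fun χ => s (Function.invFun ψ χ), s (.inr O₀), fun χ _ => h.sgn _, h.sgn _, ?_, ?_, ?_⟩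
  · rw [Set.disjoint_left]
    rintro _ ⟨i, rfl⟩ ⟨O, hO⟩
    exact Sum.inr_ne_inl (h.inj hO)
  · rintro _ ⟨O, rfl⟩ _ ⟨O', rfl⟩ g hg
    exact h.regY O O' hg
  · rintro _ ⟨O, rfl⟩ g hg
    rw [finsum_mem_range hX, finsum_eq_sum_of_fintype, h.sgnY O₀ O]
    simpa only [Function.comp, hδ] using h.rel O hg
  · rintro _ ⟨i, rfl⟩ _ ⟨i', rfl⟩
    simpa only [Function.comp, hδ] using (h.degX i i').of_dvd hdvd
  · rintro _ ⟨O, rfl⟩ _ ⟨i, rfl⟩
    simpa only [Function.comp, hδ, h.sgnY O₀ O] using (h.degY O i).of_dvd hdvd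

end Cfsg.Agent.S4696
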