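import Cfsg.Statements.S4697
import Cfsg.Agent.Blk.CycMin

set_option autoImplicit false
open Cfsg

namespace Cfsg.Agent.S4697

open CL.Blk CL.Blk.Rk CL.Blk.Pair CL.Char Subgroup
open scoped IsMulCommutative

theorem aux {G : Type*} [Group G] [Finite G] {p : ℕ} [hp : Fact p.Prime] {M : Ideal AlgInt}
    (hM : IsPModular p M) {B : Set (IrrCharacter G)} (hB : IsPBlock M B) {D : Subgroup G}
    (hD : IsDefectGroup p M B D) [IsMulCommutative D] (hr : Group.rank D = 3) {u v w : D}
    (h : closure {u, v, w} = ⊤) (hv : orderOf v ∣ orderOf u) (hw : orderOf w ∣ orderOf u) :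
    Nat.card B ^ 3 ≤ p ^ (5 * blockDefect p B) := by
  obtain ⟨K, _, _, c, f, hc, h1, h2, h3, -, h4, -⟩ := exists_major_quot hM hB hD u.2
    fun x hx => mem_centralizer_singleton_iff.2 (congrArg Subtype.val (mul_comm (⟨x, hx⟩ : D) u))
  have h5 : Nat.card c ≤ p ^ blockDefect p c := by
    refine card_le_of_closure_pair hM hc h1 (u := f.rangeRestrict v) (v := f.rangeRestrict w) ?_ ?_
    · rintro _ ⟨x, rfl⟩
      rw [mem_centralizer_singleton_iff, MonoidHom.coe_rangeRestrict, ← map_mul, mul_comm, map_mul]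
    · have h6 : f.rangeRestrict u = 1 := Subtype.ext h2
      rw [← MonoidHom.range_eq_top.2 f.rangeRestrict_surjective, f.rangeRestrict.range_eq_map, ← h,
        MonoidHom.map_closure, Set.image_insert_eq, Set.image_pair, h6, closure_insert_one]
  have h6 : Nat.card D ∣ orderOf u ^ Group.rank D := by
    refine card_dvd_exponent_pow_rank' D fun g => ?_
    have h7 : closure {u, v, w} ≤ (powMonoidHom (orderOf u) : D →* D).ker := by
      rw [closure_le]
      rintro _ (rfl | rfl | rfl)
      exacts [pow_orderOf_eq_one _, orderOf_dvd_iff_pow_eq_one.1 hv, orderOf_dvd_iff_pow_eq_one.1 hw]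
    exact h7 (h ▸ mem_top g)
  rw [hr, card_defectGroup hM hB hD] at h6
  rw [orderOf_coe] at h3
  have h7 := Nat.le_of_dvd (pow_pos (orderOf_pos u) 3) h6
  have h8 := Nat.pow_le_pow_left (h4.trans (Nat.mul_le_mul_left _ h5)) 3
  rw [pow_mul']
  generalize p ^ blockDefect p B = q at *
  generalize p ^ blockDefect p c = r at *
  refine h8.trans (Nat.le_of_mul_le_mul_right (c := orderOf u ^ 3) ?_ (pow_pos (orderOf_pos u) 3))
  calc (q * r) ^ 3 * orderOf u ^ 3 = q ^ 5 * q := by rw [← mul_pow, mul_assoc, h3]; ring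
    _ ≤ _ := Nat.mul_le_mul_left _ h7


/-- Let p be a prime, M a maximal ideal of the algebraic integers containing p, and B a p-block of the finite group G with an abelian defect group D of order p^d. If D has rank 2 (its least number of generators is 2) then B contains at most p^d irreducible characters; if D has rank 3 then the number k of irreducible characters in B satisfies k^3 ≤ p^(5d). -/
theorem result {G : Type*} [Group G] [Finite G] (p : ℕ) [Fact p.Prime] (M : Ideal Cfsg.AlgInt) (hM : Cfsg.IsPModular p M) (B : Set (Cfsg.IrrCharacter G)) (hB : Cfsg.IsPBlock M B) (D : Subgroup G) (hBD : Cfsg.IsDefectGroup p M B D) (hab : IsMulCommutative D) (d : ℕ) (hDd : Nat.card D = p ^ d) : (Group.rank D = 2 → Nat.card B ≤ p ^ d) ∧ (Group.rank D = 3 → Nat.card B ^ 3 ≤ p ^ (5 * d)) := by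
  classical
  have hd : d = blockDefect p B := Nat.pow_right_injective hM.1.two_le
    (hDd.symm.trans (card_defectGroup hM hB hBD))
  subst hd
  obtain ⟨S, hS, h⟩ := Group.rank_spec D
  refine ⟨fun hr => ?_, fun hr => ?_⟩
  · obtain ⟨u, v, -, rfl⟩ := Finset.card_eq_two.1 (hS.trans hr)
    exact card_le_of_closure_pair hM hB hBD (u := u) (v := v)
      (fun x hx => mem_centralizer_singleton_iff.2 (congrArg Subtype.val (mul_comm (⟨x, hx⟩ : D) u)))
      (by simpa using h)
  · obtain ⟨u, v, w, -, -, -, rfl⟩ := Finset.card_eq_three.1 (hS.trans hr)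
    have h1 : ∀ x y : D, orderOf x ∣ orderOf y ∨ orderOf y ∣ orderOf x := fun x y => by
      obtain ⟨a, ha⟩ := IsPGroup.iff_orderOf.1 (tr_isPGroup_of_isDefectGroup hBD) x
      obtain ⟨b, hb⟩ := IsPGroup.iff_orderOf.1 (tr_isPGroup_of_isDefectGroup hBD) y
      rw [ha, hb]
      exact (le_total a b).imp (pow_dvd_pow p) (pow_dvd_pow p)
    simp only [Finset.coe_insert, Finset.coe_singleton] at h
    have h2 : closure {v, u, w} = ⊤ := by rw [Set.insert_comm, h]
    have h3 : closure {w, u, v} = ⊤ := by rw [Set.insert_comm, Set.pair_comm, h]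
    rcases h1 u v with h4 | h4
    · rcases h1 v w with h5 | h5
      exacts [aux hM hB hBD hr h3 (h4.trans h5) h5, aux hM hB hBD hr h2 h4 h5]
    · rcases h1 u w with h5 | h5
      exacts [aux hM hB hBD hr h3 h5 (h4.trans h5), aux hM hB hBD hr h h4 h5]

end Cfsg.Agent.S4697
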