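import Cfsg.Statements.S4699
import Cfsg.Agent.Blk.SmTr

set_option autoImplicit false
open Cfsg

namespace Cfsg.Agent.S4699

open Finset Subgroup Polynomial in
theorem pow_sub_one_pow {k A : Type*} [Field k] [Ring A] [Algebra k A] (p : ℕ) [hp : Fact p.Prime]
    [CharP k p] (a : A) {s : ℕ} (hs : ¬ p ∣ s) :
    ∃ w, (a ^ s - 1) ^ (p - 1) = (a - 1) ^ (p - 1) + (a - 1) ^ p * w := by
  have h1 : (X - C 1 : k[X]) ∣ (∑ i ∈ range s, X ^ i) ^ (p - 1) - 1 := by
    rw [dvd_iff_isRoot, IsRoot.def]
    have : ((s : ZMod p)) ^ (p - 1) = 1 :=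
      ZMod.pow_card_sub_one_eq_one (by rwa [Ne, ZMod.natCast_eq_zero_iff])
    have h2 := congrArg (ZMod.castHom (dvd_refl p) k) this
    simpa [eval_finsetSum, sub_eq_zero] using h2
  obtain ⟨w, hw⟩ := h1
  have h2 : ((X : k[X]) ^ s - 1) ^ (p - 1) = (X - 1) ^ (p - 1) + (X - 1) ^ p * w := by
    rw [← mul_geom_sum, mul_pow, eq_add_of_sub_eq hw, map_one]
    conv_rhs => rw [← Nat.sub_add_cancel hp.out.one_le, pow_succ, Nat.add_sub_cancel]
    ring
  refine ⟨aeval a w, ?_⟩
  simpa using congrArg (aeval a) h2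

open Subgroup Finset CL.Blk.Sm in
/-- Let p be a prime and G a finite group whose Sylow p-subgroup P is cyclic of order p^n with n ≥ 2 and meets every other Sylow p-subgroup trivially. Then every faithful irreducible representation of G on a finite-dimensional space over a finite field of characteristic p has dimension at least p^n − (p − 1). -/
theorem result {G : Type*} [Group G] [Finite G] (p : ℕ) [Fact p.Prime] (P : Sylow p G) (hcyc : IsCyclic P) (n : ℕ) (hn : 2 ≤ n) (hPn : Nat.card P = p ^ n) (hTI : ∀ Q : Sylow p G, Q ≠ P → (P : Subgroup G) ⊓ (Q : Subgroup G) = ⊥) (F : Type*) [Field F] [Finite F] [CharP F p] (V : Type*) [AddCommGroup V] [Module F V] [FiniteDimensional F V] (ρ : Representation F G V) (hfaith : Function.Injective ρ) (hirr : ρ.IsIrreducible) : p ^ n - (p - 1) ≤ Module.finrank F V := by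
  classical
  by_contra hlt
  have hp : p.Prime := Fact.out
  obtain ⟨x₀, hx₀⟩ := hcyc.exists_generator
  set x : G := (x₀ : G)
  have hx : zpowers x = P := by
    refine le_antisymm (by rw [zpowers_le]; exact x₀.2) fun g hg => ?_
    obtain ⟨j, hj⟩ := mem_zpowers_iff.1 (hx₀ ⟨g, hg⟩)
    exact mem_zpowers_iff.2 ⟨j, congrArg Subtype.val hj⟩
  have hox : orderOf x = p ^ n := by rw [← Nat.card_zpowers, hx, hPn]
  set N := normalizer ((P : Subgroup G) : Set G)
  have hti : TI x N := ti_of_sylow P hx hTI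
  set T : Module.End F V := ρ x - 1 with hT
  have hTq : T ^ p ^ n = 0 := by
    rw [hT, sub_one_pow_char F p, ← map_pow, ← hox, pow_orderOf_eq_one, map_one, sub_self]
  have hTd : T ^ Module.finrank F V = 0 := pow_finrank_eq_zero ⟨_, hTq⟩
  let _ : MulAction N G := MulAction.compHom G (MulAut.conj.comp N.subtype)
  have hsm : ∀ (m : N) (g : G), m • g = m * g * (m : G)⁻¹ := fun _ _ => rfl
  have : Fintype (MulAction.orbit N x) := Fintype.ofFinite _
  have he : ¬ p ∣ Fintype.card (MulAction.orbit N x) := by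
    rw [← Nat.card_eq_fintype_card, Nat.card_coe_set_eq, ← MulAction.index_stabilizer]
    intro hd
    have h1 : (P : Subgroup G).subgroupOf N ≤ MulAction.stabilizer N x := fun m hm => by
      rw [mem_subgroupOf, ← hx] at hm
      obtain ⟨j, hj⟩ := mem_zpowers_iff.1 hm
      rw [MulAction.mem_stabilizer_iff, hsm, ← hj, mul_inv_eq_iff_eq_mul]
      exact ((Commute.refl x).zpow_left j).eq
    exact P.not_dvd_index ((hd.trans (index_dvd_of_le h1)).trans
      (relIndex_dvd_index_of_le le_normalizer))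
  have hy : ∀ y : MulAction.orbit N x, ∃ w, (ρ y - 1) ^ (p - 1) = T ^ (p - 1) + T ^ p * w := by
    rintro ⟨_, m, rfl⟩
    have h1 : (m : G) * x * (m : G)⁻¹ ∈ zpowers x := by
      rw [hx]
      exact (mem_normalizer_iff.1 m.2 x).1 x₀.2
    obtain ⟨s, hs⟩ := mem_powers_iff_mem_zpowers.2 h1
    have hs' : x ^ s = m * x * (m : G)⁻¹ := hs
    have h2 : ¬ p ∣ s := by
      rintro ⟨j, rfl⟩
      have h3 : (x ^ (p * j)) ^ p ^ (n - 1) = 1 := by
        rw [← pow_mul, show p * j * p ^ (n - 1) = p ^ n * j by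
          rw [← Nat.sub_add_cancel (show 1 ≤ n by omega), pow_succ, Nat.add_sub_cancel]; ring,
          pow_mul, ← hox, pow_orderOf_eq_one, one_pow]
      rw [hs', conj_pow, conj_eq_one_iff, ← orderOf_dvd_iff_pow_eq_one, hox,
        Nat.pow_dvd_pow_iff_le_right hp.one_lt] at h3
      omega
    obtain ⟨w, hw⟩ := pow_sub_one_pow (k := F) p (ρ x) h2
    refine ⟨w, ?_⟩
    rw [← hw, ← map_pow, hs']
    rfl
  choose w hw using hy
  obtain ⟨b, c, hb, e⟩ := hti.exists_hom p ρ ρ hox hTd
    (f := ∑ y : MulAction.orbit N x, (ρ y - 1) ^ (p - 1)) fun m hm v => by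
      have h1 : ∀ y : G, (ρ (m * y * m⁻¹) - 1) ^ (p - 1) * ρ m = ρ m * (ρ y - 1) ^ (p - 1) :=
        fun y => by
          refine (SemiconjBy.pow_right ?_ _).symm
          rw [SemiconjBy, mul_sub, sub_mul, ← map_mul, ← map_mul]
          simp
      rw [← Module.End.mul_apply, ← Module.End.mul_apply, mul_sum, sum_mul]
      simp only [← h1]
      rw [← Equiv.sum_comp (MulAction.toPerm (⟨m, hm⟩ : N))]
      rfl
  obtain ⟨j, hj⟩ := Nat.exists_eq_add_of_le (show p ≤ p ^ n - Module.finrank F V by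
    have := hp.one_le
    omega)
  have hb' : b = (Fintype.card (MulAction.orbit N x) : F) • T ^ (p - 1) +
      T ^ p * (∑ y, w y + T ^ j * c) := by
    rw [e, hj, pow_add, mul_add, mul_sum, ← add_assoc, ← mul_assoc]
    congr 1
    simp only [hw]
    rw [sum_add_distrib, sum_const, card_univ, Nat.cast_smul_eq_nsmul]
  have hp1 : T ^ (p - 1) = T * T ^ (p - 2) := by
    rw [← pow_succ']
    congr 1
    have := hp.two_le
    omega
  have hp2 : T ^ p = T * T ^ (p - 1) := by rw [← pow_succ', Nat.sub_add_cancel hp.one_le]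
  have hb0 : b = 0 := by
    let f : Representation.IntertwiningMap ρ ρ := ⟨b, fun g => LinearMap.ext (hb g)⟩
    rcases Representation.IsIrreducible.bijective_or_eq_zero f with h | h
    · exfalso
      have h1 : Function.Surjective T := by
        have h2 : b = T * ((Fintype.card (MulAction.orbit N x) : F) • T ^ (p - 2) +
            T ^ (p - 1) * (∑ y, w y + T ^ j * c)) := by
          rw [mul_add, mul_smul_comm, ← hp1, ← mul_assoc, ← hp2, hb']
        have h3 : Function.Surjective b := h.2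
        rw [h2] at h3
        exact Function.Surjective.of_comp h3
      have h2 : Function.Surjective (T ^ p ^ n) := by
        rw [Module.End.coe_pow]
        exact h1.iterate _
      rw [hTq] at h2
      have h3 : (⊥ : Subrepresentation ρ) = ⊤ := by
        ext v
        obtain ⟨u, rfl⟩ := h2 v
        simp
      exact bot_ne_top h3
    · exact congrArg Representation.IntertwiningMap.toLinearMap h
  have he' : (Fintype.card (MulAction.orbit N x) : F) ≠ 0 := by rwa [Ne, CharP.cast_eq_zero_iff F p]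
  have h0 : T ^ (p - 1) = 0 := eq_zero_of_eq_mul ⟨_, hTq⟩
    (Z := -(Fintype.card (MulAction.orbit N x) : F)⁻¹ • (∑ y, w y + T ^ j * c)) (by
    rw [← hp2, mul_smul_comm, neg_smul, ← smul_neg, eq_inv_smul_iff₀ he', eq_neg_iff_add_eq_zero,
      ← hb', hb0])
  have h1 : x ^ p = 1 := by
    apply hfaith
    have h2 := sub_one_pow_char F p 1 (ρ x)
    rw [pow_one, ← hT, hp2, h0, mul_zero] at h2
    rw [map_pow, map_one, ← sub_eq_zero, ← h2]
  rw [← orderOf_dvd_iff_pow_eq_one, hox] at h1
  have := (Nat.pow_dvd_pow_iff_le_right hp.one_lt).1 (h1.trans (dvd_of_eq (pow_one p).symm))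
  omega

end Cfsg.Agent.S4699
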