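import Cfsg.Statements.S4701
import Cfsg.Agent.Inv.BRMain

set_option autoImplicit false
open Cfsg
open CL.Inv CL.Inv.PO

namespace Cfsg.Agent.S4701

/-- Let G be a finite perfect group and p a prime dividing the order of G with p^3 larger than the order of G. Suppose a Sylow p-subgroup of G is not normal and G has no normal subgroup of order 2. Then p > 3 and G is isomorphic to PSL(2, p), or to SL(2, 2^m) with p = 2^m + 1. -/
theorem result {G : Type*} [Group G] [Finite G] (hperf : commutator G = ⊤) (p : ℕ) [Fact p.Prime] (hdvd : p ∣ Nat.card G) (hbig : Nat.card G < p ^ 3) (P : Sylow p G) (hP : ¬ (P : Subgroup G).Normal) (h2 : ∀ N : Subgroup G, N.Normal → Nat.card N ≠ 2) : (∃ (F : Type) (_ : Field F) (_ : Fintype F), Fintype.card F = p ∧ 3 < p ∧ Nonempty (G ≃* Matrix.ProjectiveSpecialLinearGroup (Fin 2) F)) ∨ (∃ (m : ℕ) (F : Type) (_ : Field F) (_ : Fintype F), Fintype.card F = 2 ^ m ∧ p = 2 ^ m + 1 ∧ 3 < p ∧ Nonempty (G ≃* Matrix.SpecialLinearGroup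 (Fin 2) F)) := by
  rcases brauer_reynolds_cube hperf hdvd hbig P hP h2 with h1 | ⟨m, F, _, _, hF, h1, h2, ⟨e⟩⟩
  · exact .inl h1
  · obtain ⟨e'⟩ := nonempty_psl2_equiv_sl2 hF
    exact .inr ⟨m, F, _, _, hF, h1, h2, ⟨e.trans e'⟩⟩

end Cfsg.Agent.S4701
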