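import Cfsg.Statements.S4702
import Cfsg.Agent.Perm.ZassMain

set_option autoImplicit false
open Cfsg

namespace Cfsg.Agent.S4702

theorem center_eq_bot (K : Type*) [Field K] (h2 : (2 : K) = 0) :
    Subgroup.center (Matrix.SpecialLinearGroup (Fin 2) K) = ⊥ := by
  refine eq_bot_iff.2 fun A hA => ?_
  obtain ⟨r, hr, e⟩ := Matrix.SpecialLinearGroup.mem_center_iff.1 hA
  have h1 : r = 1 := by
    have : (r - 1) ^ 2 = 0 := by
      rw [Fintype.card_fin] at hr
      linear_combination hr + (1 - r) * h2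
    exact sub_eq_zero.1 (pow_eq_zero_iff two_ne_zero |>.1 this)
  refine Subgroup.mem_bot.2 (Subtype.ext ?_)
  rw [← e, h1, map_one]
  rfl

/-- Let G be a triply transitive permutation group on a finite set of odd size m ≥ 3 in which only the identity fixes three or more points. Then m = 2^a + 1 for some a ≥ 1 and G is isomorphic to SL(2, 2^a). -/
theorem result {α : Type*} [Fintype α] [DecidableEq α] (hm : 3 ≤ Fintype.card α) (hodd : Odd (Fintype.card α)) (G : Subgroup (Equiv.Perm α)) (h3 : MulAction.IsMultiplyPretransitive G α 3) (hfix : ∀ g : G, 3 ≤ Nat.card (MulAction.fixedBy α g) → g = 1) : ∃ a : ℕ, 1 ≤ a ∧ Fintype.card α = 2 ^ a + 1 ∧ ∃ (F : Type) (_ : Field F) (_ : Fintype F), Fintype.card F = 2 ^ a ∧ Nonempty (G ≃* Matrix.SpecialLinearGroup (Fin 2) F) := by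
  have hc : Nat.card α = Fintype.card α := Nat.card_eq_fintype_card
  have h : CL.Perm.IsSharp3 G α := by
    refine CL.Perm.isSharp3_of h3 (fun x => eq_bot_iff.2 fun g hg => hfix g ?_) (hc ▸ hm)
    have hx : ∀ i, g • x i = x i := fun i => congrArg (fun y : Fin 3 ↪ α => y i) hg
    exact (Nat.card_fin 3).ge.trans (Nat.card_le_card_of_injective
      (fun i : Fin 3 => (⟨x i, hx i⟩ : MulAction.fixedBy α g))
      fun i j e => x.injective (congrArg Subtype.val e))
  obtain ⟨a, b, -, hab, -⟩ := h.three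
  obtain ⟨K, _, _, n, e1, e2, ⟨e⟩⟩ := h.toIsZ.psl2_of_odd_degree (hc ▸ hodd) hab (h.card_stab2 hab)
  have hn : 1 ≤ n := by
    rcases n with _ | n
    · rw [hc] at e2; omega
    · omega
  have h2 : (2 : K) = 0 := by
    have := FiniteField.cast_card_eq_zero K
    rw [e1] at this
    exact (pow_eq_zero_iff (n := n) (by omega)).1 (by exact_mod_cast this)
  exact ⟨n, hn, hc ▸ e2, K, inferInstance, inferInstance, e1,
    ⟨e.trans ((QuotientGroup.quotientMulEquivOfEq (center_eq_bot K h2)).trans QuotientGroup.quotientBot)⟩⟩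

end Cfsg.Agent.S4702
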