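import Cfsg.Statements.S4704
import Cfsg.Agent.Blk.SmFin

set_option autoImplicit false
open Cfsg

namespace Cfsg.Agent.S4704

/-- Let G be a finite group with centre Z, p > 7 a prime, and suppose a Sylow p-subgroup of G has order p and is not normal. Let ζ be a faithful irreducible character of G and t the number of conjugacy classes of G consisting of elements of order p. Then one of the following holds: G/Z is isomorphic to PSL(2, p), ζ has degree (p + 1)/2 or (p − 1)/2 and t = 2; or ζ has degree at least p − 1; or ζ has degree at least p + 3/2 − √(p + 5/4) and p ≤ t^2 − 3t + 1. -/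
theorem result {G : Type*} [Group G] [Finite G] (p : ℕ) [Fact p.Prime] (hp : 7 < p) (P : Sylow p G) (hP : Nat.card P = p) (hnn : ¬ (P : Subgroup G).Normal) (ζ : G → ℂ) (hζ : Cfsg.IsIrrCharacter G ζ) (hfaith : ∀ g : G, ζ g = ζ 1 → g = 1) (t : ℕ) (ht : Nat.card {c : ConjClasses G // ∃ g : G, ConjClasses.mk g = c ∧ orderOf g = p} = t) : ((∃ (F : Type) (_ : Field F) (_ : Fintype F), Fintype.card F = p ∧ Nonempty (G ⧸ Subgroup.center G ≃* Matrix.ProjectiveSpecialLinearGroup (Fin 2) F)) ∧ (2 * Cfsg.charDegree ζ = p + 1 ∨ 2 * Cfsg.charDegree ζ = p - 1) ∧ t = 2) ∨ p - 1 ≤ Cfsg.charDegree ζ ∨ ((p : ℝ) + 3 / 2 - Real.sqrt ((p : ℝ) + 5 / 4) ≤ (Cfsg.charDegree ζ : ℝ) ∧ (p : ℤ) ≤ (t : ℤ) ^ 2 - 3 * t + 1) := by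
  have := Fintype.ofFinite G
  obtain ⟨x, hx, ⟨K⟩⟩ := CL.Inv.PO.exists_ctx_of_sylow P hP
  by_cases hd : charDegree ζ + 2 ≤ p
  · have h1 : t * K.f + 1 = p := by
      have h2 := K.card_classes
      simp only [ConjClasses.mem_carrier_iff_mk_eq, ht] at h2
      omega
    rcases CL.Blk.Sm.cases_of_le K hp (hx ▸ hnn) hζ (CL.Char.charKer_eq_bot_of_faithful hfaith) hd
      h1 with h | ⟨h2, h3, -⟩
    · exact .inl ⟨⟨ZMod p, inferInstance, inferInstance, ZMod.card p, h.1⟩, h.2⟩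
    · refine .inr (.inr ⟨?_, ?_⟩)
      · have e1 : (p : ℝ) = t * K.f + 1 := by exact_mod_cast h1.symm
        have e2 : (charDegree ζ : ℝ) + K.f = p := by exact_mod_cast h2
        have e3 : (K.f : ℝ) + 3 ≤ t := by exact_mod_cast h3
        have e4 : (K.f : ℝ) + 3 / 2 ≤ Real.sqrt ((p : ℝ) + 5 / 4) :=
          Real.le_sqrt_of_sq_le (by nlinarith [Nat.cast_nonneg (α := ℝ) K.f])
        linarith
      · have e1 : (p : ℤ) = t * K.f + 1 := by exact_mod_cast h1.symm
        have e3 : (K.f : ℤ) + 3 ≤ t := by exact_mod_cast h3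
        nlinarith [Nat.cast_nonneg (α := ℤ) t]
  · omega

end Cfsg.Agent.S4704
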