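import Cfsg.Statements.S4706
import Cfsg.Agent.Inv.PrimeDeg

set_option autoImplicit false
open Cfsg
open CL.Inv CL.Inv.PO

namespace Cfsg.Agent.S4706

/-- Let p > 2 be a prime and G a permutation group on p letters whose Sylow p-subgroup P has normalizer of order 2p. Then either P is normal in G, or p − 1 = 2^a for some a and G is isomorphic to SL(2, 2^a). -/
theorem result {α : Type*} [Fintype α] [DecidableEq α] {p : ℕ} [Fact p.Prime] (hp : 2 < p) (hα : Fintype.card α = p) (G : Subgroup (Equiv.Perm α)) (P : Sylow p G) (hN : Nat.card (Subgroup.normalizer ((P : Subgroup G) : Set G)) = 2 * p) : (P : Subgroup G).Normal ∨ ∃ (a : ℕ) (F : Type) (_ : Field F) (_ : Fintype F), p = 2 ^ a + 1 ∧ Fintype.card F = 2 ^ a ∧ Nonempty (G ≃* Matrix.SpecialLinearGroup (Fin 2) F) := by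
  have hpp : p.Prime := Fact.out
  have hG : Nat.card G ∣ p.factorial := by
    rw [← hα, ← Fintype.card_perm, ← Nat.card_eq_fintype_card]
    exact Subgroup.card_subgroup_dvd_card G
  have hNG := Subgroup.card_subgroup_dvd_card (Subgroup.normalizer ((P : Subgroup G) : Set G))
  rw [hN] at hNG
  by_cases h3 : p = 3
  · left
    subst h3
    rw [← Subgroup.normalizer_eq_top_iff, ← Subgroup.card_eq_iff_eq_top, hN]
    exact Nat.dvd_antisymm hNG hG
  have hsq : ¬ p ^ 2 ∣ Nat.card G := fun h => by
    have h1 := h.trans hG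
    rw [← Nat.mul_factorial_pred hpp.ne_zero, sq] at h1
    have := hpp.dvd_factorial.1 (Nat.dvd_of_mul_dvd_mul_left hpp.pos h1)
    omega
  have hP : Nat.card P = p := by
    obtain ⟨x, ⟨K⟩⟩ := exists_ctx_of_dvd ((dvd_mul_left p 2).trans hNG) hsq
    rw [P.card_eq_multiplicity, K.factorization_card, pow_one]
  obtain ⟨x, hx, ⟨K⟩⟩ := exists_ctx_of_sylow P hP
  rw [← hx] at hN ⊢
  exact prime_degree_main α (by simpa using hα) (by omega) K hN

end Cfsg.Agent.S4706
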