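import Cfsg.Statements.S4707
import Cfsg.Agent.Inv.DegTwoP

set_option autoImplicit false
open Cfsg

namespace Cfsg.Agent.S4707

/-- Let p > 3 be a prime and G a primitive permutation group of degree 2p that is not doubly transitive. If a Sylow p-subgroup of G has normalizer of order 2p, then p = 5 and G is isomorphic to the alternating group of degree 5. -/
theorem result {α : Type*} [Fintype α] [DecidableEq α] {p : ℕ} [Fact p.Prime] (hp : 3 < p) (hα : Fintype.card α = 2 * p) (G : Subgroup (Equiv.Perm α)) (hprim : MulAction.IsPreprimitive G α) (hnot2 : ¬ MulAction.IsMultiplyPretransitive G α 2) (P : Sylow p G) (hN : Nat.card (Subgroup.normalizer ((P : Subgroup G) : Set G)) = 2 * p) : p = 5 ∧ Nonempty (G ≃* alternatingGroup (Fin 5)) := by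
  have hpp : p.Prime := Fact.out
  have hα' : Nat.card α = 2 * p := by simpa using hα
  have : Nonempty α := (Nat.card_pos_iff.1 (by omega)).1
  have hP : Nat.card P = p := by
    obtain ⟨k, hk⟩ := IsPGroup.iff_card.1 P.2
    have h1 := Subgroup.card_dvd_of_le (Subgroup.le_normalizer (H := (P : Subgroup G)))
    have h2 : p ^ 1 ∣ Nat.card P := P.pow_dvd_card_of_pow_dvd_card (by
      rw [← (MulAction.stabilizer G (Classical.arbitrary α)).index_mul_card,
        MulAction.index_stabilizer_of_transitive, hα', pow_one]
      exact (dvd_mul_left _ _).mul_right _)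
    rw [hN] at h1
    refine Nat.dvd_antisymm (Nat.Coprime.dvd_of_dvd_mul_left ?_ h1) (by simpa using h2)
    exact hk ▸ ((Nat.coprime_primes hpp Nat.prime_two).2 (by omega)).pow_left k
  obtain ⟨x, hx, ⟨K⟩⟩ := CL.Inv.PO.exists_ctx_of_sylow P hP
  rw [← hx] at hN
  exact CL.Inv.PO.two_p_main α hα' hp hnot2 K hN

end Cfsg.Agent.S4707
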