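import Cfsg.Statements.S4708
import Cfsg.Agent.Blk.PrincCrit2

set_option autoImplicit false
open Cfsg

namespace Cfsg.Agent.S4708

/-- Let p be a prime, M a maximal ideal of the algebraic integers containing p, G a finite group and H a normal subgroup. Write λ(X) for the sum of the squares of the degrees of the irreducible characters in the principal p-block of a group X. Then λ(H) ≤ λ(G) ≤ [G : H]·λ(H). -/
theorem result {G : Type*} [Group G] [Finite G] (p : ℕ) [Fact p.Prime] (M : Ideal Cfsg.AlgInt) (hM : Cfsg.IsPModular p M) (H : Subgroup G) [H.Normal] : (∑ᶠ θ ∈ Cfsg.principalBlock M H, Cfsg.charDegree (θ : H → ℂ) ^ 2) ≤ (∑ᶠ χ ∈ Cfsg.principalBlock M G, Cfsg.charDegree (χ : G → ℂ) ^ 2) ∧ (∑ᶠ χ ∈ Cfsg.principalBlock M G, Cfsg.charDegree (χ : G → ℂ) ^ 2) ≤ H.index * ∑ᶠ θ ∈ Cfsg.principalBlock M H, Cfsg.charDegree (θ : H → ℂ) ^ 2 := by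
  classical
  have := Fintype.ofFinite H
  simp only [CL.Blk.finsum_mem_irr_eq_sum]
  constructor
  · calc ∑ θ : Cfsg.IrrCharacter H with θ ∈ Cfsg.principalBlock M H, Cfsg.charDegree (θ : H → ℂ) ^ 2
        ≤ ∑ θ : Cfsg.IrrCharacter H, ∑ χ : Cfsg.IrrCharacter G with χ ∈ Cfsg.principalBlock M G,
            if Cfsg.classInner (fun h : H => (χ : G → ℂ) h) (θ : H → ℂ) ≠ 0 then
              Cfsg.charDegree (θ : H → ℂ) ^ 2 else 0 := by
          refine (Finset.sum_le_sum fun θ hθ => ?_).trans
            (Finset.sum_le_sum_of_subset (Finset.filter_subset _ _))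
          simp only [Finset.mem_filter, Finset.mem_univ, true_and] at hθ
          obtain ⟨χ, hχ, h⟩ := CL.Blk.exists_principal_over hM H hθ
          refine le_trans (by rw [if_pos h]) (Finset.single_le_sum (a := χ)
            (f := fun χ : Cfsg.IrrCharacter G =>
              if Cfsg.classInner (fun h : H => (χ : G → ℂ) h) (θ : H → ℂ) ≠ 0 then
                Cfsg.charDegree (θ : H → ℂ) ^ 2 else 0) (fun _ _ => Nat.zero_le _) (by simpa using hχ))
      _ ≤ _ := by
          rw [Finset.sum_comm]
          refine Finset.sum_le_sum fun χ _ => ?_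
          rw [← Finset.sum_filter]
          exact CL.Blk.sum_sq_constituents_le (χ.2.isCharacter.restrict H)
  · rw [← CL.Blk.sum_sq_overSet (CL.Blk.isInvSet_principal hM H)]
    refine Finset.sum_le_sum_of_subset fun χ hχ => ?_
    simp only [Finset.mem_filter, Finset.mem_univ, true_and] at hχ ⊢
    exact (CL.Blk.covers_principalBlock hM H).subset_overSet hM (CL.Blk.isPBlock_principal M)
      (CL.Blk.blockIdem_mem_OG hM (CL.Blk.isPBlock_principal M)) hχ

end Cfsg.Agent.S4708
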