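import Cfsg.Statements.S4709
import Cfsg.Agent.Blk.AbelFrob

set_option autoImplicit false
open Cfsg

namespace Cfsg.Agent.S4709

/-- Let p be a prime, M a maximal ideal of the algebraic integers containing p, and G a finite group with a nontrivial abelian Sylow p-subgroup P; put N = N_G(P), C = C_G(P). Suppose N/C is cyclic of order m with 1 < m < #P − 1 (C has index m in N and N is generated by C and one element), and C_G(y) ∩ N = C for every non-identity y ∈ P. Put r = (#P − 1)/m. Then there is s ≤ m such that the principal p-block is the disjoint union of a set X of s characters containing the principal character and a set Y of r characters, with integers a_χ ≠ 0 (χ ∈ X), d and a sign δ = ±1, such that: every χ ∈ X takes the value a_χ at every element whose p-part is a non-identity element of P; there is a map ζ from the non-principal linear characters ψ of P onto Y, constant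 on N-conjugacy classes, with ζ_ψ(z) = d + δ·Σ ψ'(y) for every z whose p-part y is a non-identity element of P, the sum running over the N-conjugates ψ' of ψ; (d − δ)^2 + (r − 1) d^2 + Σ_{χ ∈ X} a_χ^2 = m + 1; all members of Y agree on p-regular elements; and (r d − δ) η(g) + Σ_{χ ∈ X} a_χ χ(g) = 0 for every η ∈ Y and every p-regular g. -/
theorem result {G : Type*} [Group G] [Finite G] (p : ℕ) [Fact p.Prime] (M : Ideal Cfsg.AlgInt) (hM : Cfsg.IsPModular p M) (P : Sylow p G) (hab : IsMulCommutative P) (hP1 : Nat.card P ≠ 1) (m : ℕ) (hm1 : 1 < m) (hm2 : m + 1 < Nat.card P) (hCN : (Subgroup.centralizer ((P : Subgroup G) : Set G)).relIndex (Subgroup.normalizer ((P : Subgroup G) : Set G)) = m) (hcyc : ∃ g : G, g ∈ Subgroup.normalizer ((P : Subgroup G) : Set G) ∧ Subgroup.centralizer ((P : Subgroup G) : Set G) ⊔ Subgroup.zpowers g = Subgroup.normalizer ((P : Subgroup G) : Set G))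 (hfrob : ∀ y : G, y ∈ (P : Subgroup G) → y ≠ 1 → Subgroup.centralizer ({y} : Set G) ⊓ Subgroup.normalizer ((P : Subgroup G) : Set G) = Subgroup.centralizer ((P : Subgroup G) : Set G)) : ∃ (s : ℕ) (X Y : Set (Cfsg.IrrCharacter G)), s ≤ m ∧ Cfsg.principalBlock M G = X ∪ Y ∧ Disjoint X Y ∧ Nat.card X = s ∧ Nat.card Y = (Nat.card P - 1) / m ∧ (∃ χ₁ ∈ X, (χ₁ : G → ℂ) = fun _ => 1) ∧ ∃ (a : Cfsg.IrrCharacter G → ℤ) (d δ : ℤ) (ζ : (↥(P : Subgroup G) →* ℂˣ) → Cfsg.IrrCharacter G), (δ = 1 ∨ δ = -1) ∧ (∀ χ ∈ X, a χ ≠ 0 ∧ ∀ z y : G, Cfsg.IsPPart p z y → y ∈ (P : Subgroup G) → y ≠ 1 → (χ : G → ℂ) z = (a χ : ℂ)) ∧ (∀ ψ : ↥(P : Subgroup G) →* ℂˣ, ψ ≠ 1 → ζ ψ ∈ Y) ∧ (∀ η ∈ Y, ∃ ψ : ↥(P : Subgroup G) →* ℂˣ, ψ ≠ 1 ∧ ζ ψ = η) ∧ (∀ ψ ψ' : ↥(P : Subgroup G) →* ℂˣ, ψ ≠ 1 → (∃ n : G, n ∈ Subgroup.normalizer ((P : Subgroup G) : Set G) ∧ ∀ w w' : ↥(P : Subgroup G), (w' : G) = n * w * n⁻¹ → ψ' w'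 = ψ w) → ζ ψ' = ζ ψ) ∧ (∀ ψ : ↥(P : Subgroup G) →* ℂˣ, ψ ≠ 1 → ∀ (z : G) (y : ↥(P : Subgroup G)), Cfsg.IsPPart p z (y : G) → (y : G) ≠ 1 → (ζ ψ : G → ℂ) z = (d : ℂ) + (δ : ℂ) * ∑ᶠ ψ' ∈ {ψ' : ↥(P : Subgroup G) →* ℂˣ | ∃ n : G, n ∈ Subgroup.normalizer ((P : Subgroup G) : Set G) ∧ ∀ w w' : ↥(P : Subgroup G), (w' : G) = n * w * n⁻¹ → ψ' w' = ψ w}, ((ψ' y : ℂˣ) : ℂ)) ∧ ((d - δ) ^ 2 + ((Nat.card P - 1) / m - 1 : ℤ) * d ^ 2 + ∑ᶠ χ ∈ X, a χ ^ 2 = (m : ℤ) + 1) ∧ (∀ η ∈ Y, ∀ η' ∈ Y, ∀ g : G, ¬ p ∣ orderOf g → (η : G → ℂ) g = (η' : G → ℂ) g) ∧ (∀ η ∈ Y, ∀ g : G, ¬ p ∣ orderOf g → ((((Nat.card P - 1) / m : ℕ) : ℂ) * d - δ) * (η : G → ℂ) g + ∑ᶠ χ ∈ X, (a χ : ℂ) * (χ : G → ℂ) g = 0) := by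
  classical
  have := Fintype.ofFinite G
  have := Fintype.ofFinite (P : Subgroup G)
  have h : CL.Blk.AbFrob P := ⟨fun a b => hab.is_comm.comm a b, fun y hy hy1 => (hfrob y hy hy1).le⟩
  obtain ⟨D⟩ := h.nonempty_data hM hCN hm2
  have hY : D.Y.card = (Nat.card P - 1) / m := by
    have h1 : m * D.Y.card + 1 = Nat.card P := D.card_Y
    rw [← h1, Nat.add_sub_cancel, Nat.mul_div_cancel_left _ (by omega)]
  have hY' : (D.Y.card : ℤ) = ((Nat.card P : ℤ) - 1) / m := by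
    have h1 : m * D.Y.card + 1 = Nat.card P := D.card_Y
    rw [← h1]
    push_cast
    rw [add_sub_cancel_right, Int.mul_ediv_cancel_left _ (by omega)]
  refine ⟨D.X.card, D.X, D.Y, D.card_X_le, ?_, by exact_mod_cast D.disj, by simp, by simp [hY],
    ⟨_, D.one_mem, rfl⟩, D.a, D.d, D.δ, D.ζ, D.sign, fun χ hχ => ⟨D.a_ne χ hχ, ?_⟩, D.ζ_mem,
    D.ζ_surj, ?_, ?_, ?_, ?_, ?_⟩
  · ext χ
    simp [D.mem_iff]
  · intro z y hz hy hy1
    rw [h.apply_section hM (D.X_mem hχ) hz hy hy1, D.val_X χ hχ y hy hy1]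
  · intro ψ ψ' hψ hc
    exact (D.ζ_eq ψ ψ' hψ (CL.Blk.LinConj.ne_one hc hψ)).2 hc
  · intro ψ hψ z y hz hy1
    rw [h.apply_section hM (D.Y_mem (D.ζ_mem ψ hψ)) hz y.2 hy1,
      D.val_Y ψ hψ y (fun h1 => hy1 (by rw [h1]; rfl)), CL.Blk.orbSum_eq_finsum]
    rfl
  · rw [← hY', finsum_mem_coe_finset]
    exact D.norm
  · intro η hη η' hη' g hg
    exact D.Y_eq_pRegular hM P.isPGroup' hη hη' hg
  · intro η hη g hg
    rw [← hY, finsum_mem_coe_finset]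
    exact D.rel_pRegular hM P.isPGroup' hη hg

end Cfsg.Agent.S4709
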