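import Cfsg.Statements.S4712
import Cfsg.Agent.Blk.IndSet
import Cfsg.Agent.Blk.CData

set_option autoImplicit false
open Cfsg

namespace Cfsg.Agent.S4712

open CL.Blk CL.Blk.Rk

/-- Let p be an odd prime, M a maximal ideal of the algebraic integers containing p, G a finite group of order n with p-part p^a, and B a p-block of G. Call an irreducible character χ p-rational when χ(g^k) = χ(g) for every g and every k coprime to n with k ≡ 1 modulo n/p^a (χ is fixed by the Galois automorphisms fixing the roots of unity of order prime to p). Then the number of p-rational irreducible characters in B is at least the p-regular rank of B (the number of irreducible Brauer characters in B). -/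
theorem result {G : Type*} [Group G] [Finite G] (p : ℕ) [Fact p.Prime] (hodd : p ≠ 2) (M : Ideal Cfsg.AlgInt) (hM : Cfsg.IsPModular p M) (B : Set (Cfsg.IrrCharacter G)) (hB : Cfsg.IsPBlock M B) : Cfsg.blockRank p B ≤ Nat.card {χ : Cfsg.IrrCharacter G // χ ∈ B ∧ ∀ k : ℕ, Nat.Coprime k (Nat.card G) → k ≡ 1 [MOD Nat.card G / p ^ (Nat.card G).factorization p] → ∀ g : G, (χ : G → ℂ) (g ^ k) = (χ : G → ℂ) g} := by
  classical
  haveI := Fintype.ofFinite G
  have hp := hM.1
  set a := (Nat.card G).factorization p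
  set m := Nat.card G / p ^ a with hm
  have hn : p ^ a * m = Nat.card G := Nat.ordProj_mul_ordCompl_eq_self _ _
  have hco : (p ^ a).Coprime m := Nat.Coprime.pow_left _ (Nat.coprime_ordCompl hp Nat.card_pos.ne')
  haveI : NeZero (p ^ a) := ⟨(pow_pos hp.pos a).ne'⟩
  haveI := ZMod.isCyclic_units_of_prime_pow p hp hodd a
  obtain ⟨γ, hγ⟩ := IsCyclic.exists_monoid_generator (α := (ZMod (p ^ a))ˣ)
  obtain ⟨k, hk1, hk2⟩ := Nat.chineseRemainder hco (γ : ZMod (p ^ a)).val 1
  have hk : k.Coprime (Nat.card G) := by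
    rw [← hn]
    refine Nat.Coprime.mul_right ?_ ?_
    · rw [Nat.Coprime, hk1.gcd_eq]; exact ZMod.val_coe_unit_coprime γ
    · rw [Nat.Coprime, hk2.gcd_eq]; exact Nat.gcd_one_left m
  refine (blockRank_le_card_fixed hM hB hk hk2).trans ?_
  rw [natCard_subtype_eq]
  refine Finset.card_le_card fun χ hχ => ?_
  obtain ⟨-, h1, h2⟩ := Finset.mem_filter.1 hχ
  refine Finset.mem_filter.2 ⟨Finset.mem_univ _, h1, fun l hl hl1 g => ?_⟩
  obtain ⟨j, hj⟩ := hγ (ZMod.unitOfCoprime l (hl.coprime_dvd_right ⟨m, hn.symm⟩))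
  have h3 : l ≡ k ^ j [MOD Nat.card G] := by
    rw [← hn]
    refine (Nat.modEq_and_modEq_iff_modEq_mul hco).1 ⟨?_, ?_⟩
    · rw [← ZMod.natCast_eq_natCast_iff, Nat.cast_pow, (ZMod.natCast_eq_natCast_iff _ _ _).2 hk1,
        ZMod.natCast_zmod_val, ← Units.val_pow_eq_pow_val]
      simp only at hj
      rw [hj, ZMod.coe_unitOfCoprime]
    · exact hl1.trans (by simpa using (hk2.pow j).symm)
  rw [pow_eq_pow_iff_modEq.2 (h3.of_dvd (orderOf_dvd_natCard g))]
  clear h3 hj
  induction j with
  | zero => simp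
  | succ j ih => rw [pow_succ, pow_mul, h2, ih]

end Cfsg.Agent.S4712
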