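import Cfsg.Statements.S4715
import Cfsg.Agent.Blk.SubSec

set_option autoImplicit false
open Cfsg

namespace Cfsg.Agent.S4715

/-- Let p be a prime, M a maximal ideal of the algebraic integers containing p, B a p-block of the finite group G with defect group D of order p^d, H = D·C_G(D), b a block of H inducing B, T the stabilizer of b in N_G(D) and e = [T : H] the inertial index of B; let n be the integer with p^n ≤ e < p^(n+1) and p^c the order of the centre of D. Then every irreducible character in B has height h with h + c ≤ n + d. -/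
theorem result {G : Type*} [Group G] [Finite G] (p : ℕ) [Fact p.Prime] (M : Ideal Cfsg.AlgInt) (hM : Cfsg.IsPModular p M) (B : Set (Cfsg.IrrCharacter G)) (hB : Cfsg.IsPBlock M B) (D : Subgroup G) (hBD : Cfsg.IsDefectGroup p M B D) (d : ℕ) (hDd : Nat.card D = p ^ d) (H : Subgroup G) (hH : H = D ⊔ Subgroup.centralizer (D : Set G)) (b : Set (Cfsg.IrrCharacter H)) (hind : Cfsg.IsInducedBlock M H b B) (T : Subgroup G) (hT : ∀ g : G, g ∈ T ↔ (g ∈ Subgroup.normalizer (D : Set G) ∧ ∀ θ ∈ b, ∀ θ' : Cfsg.IrrCharacter H, (∀ h h' : H, (h' : G) = g * h * g⁻¹ → (θ' : H → ℂ) h' = (θ : H → ℂ) h) → θ' ∈ b)) (e : ℕ) (he : H.relIndex T = e) (n : ℕ) (hn : p ^ n ≤ e ∧ e < p ^ (n + 1)) (c : ℕ) (hc : Nat.card (Subgroup.center D) = p ^ c) : ∀ χ ∈ B, Cfsg.blockHeight p B (χ : G → ℂ) + c ≤ n + d := by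
  classical
  intro χ hχ
  have := Fintype.ofFinite G
  have := CL.Blk.charP_resField hM
  have hmax := CL.Blk.Pair.isMax_of_isInducedBlock hM hBD hH hind
  set ê := CL.Blk.Pair.hat M H b with hê
  have hd : Cfsg.blockDefect p B = d :=
    Nat.pow_right_injective hM.1.two_le ((hmax.card_eq hM hB).symm.trans hDd)
  have hTn : CL.Blk.Pair.nst ⊤ D ê ≤ T := by
    intro t ht
    have h1 := CL.Blk.cjs_sup_centralizer_eq hH ht.1.2
    have h2 := CL.Blk.image_conjEquiv_eq_of_cj_hat_eq hM h1 hind.1 hind.1 ht.2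
    refine (hT t).2 ⟨ht.1.2, fun θ hθ θ' h => ?_⟩
    rw [← (CL.Blk.Pair.eq_irrEquiv_conjEquiv_iff t h1).2 h, ← h2]
    exact Set.mem_image_of_mem _ hθ
  set W : D → ℝ := fun v => (CL.Blk.Pair.ctr p M (v : G) (CL.Blk.Pair.below p D ê v) χ χ).re
    with hW
  have hcf := χ.2.isClassFunction
  have h1 := CL.Blk.Pair.sum_le_mul_sum_div hmax.pair W
    (fun v => hmax.ctr_self_re_nonneg hM hcf v.2)
    (fun v w hw => congrArg Complex.re (hmax.ctr_eq_of_mem_fcls hM hcf hcf v.2 hw))
    (Finset.univ.filter fun z : D => z ∈ Subgroup.center D) (m := e) (by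
      intro v
      rcases Finset.eq_empty_or_nonempty ((Finset.univ.filter fun z : D =>
        z ∈ Subgroup.center D).filter fun z : D => (z : G) ∈ CL.Blk.Pair.fcls p D ê v
          (CL.Blk.Pair.below p D ê v)) with h0 | ⟨z, hz⟩
      · rw [h0]; simp
      have hcen : ∀ z : D, z ∈ Subgroup.center D → (z : G) ∈ Subgroup.centralizer (D : Set G) :=
        fun z hz x hx => congrArg Subtype.val (Subgroup.mem_center_iff.1 hz ⟨x, hx⟩)
      simp only [Finset.mem_filter, Finset.mem_univ, true_and] at hz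
      have h2 : (Subgroup.centralizer ({(z : G)} : Set G)).relIndex T ≤ e := by
        rw [← he]
        refine Subgroup.relIndex_le_of_le_left ?_ Subgroup.FiniteIndex.index_ne_zero
        rw [hH, ← CL.Blk.centralizer_zpowers_eq]
        exact sup_le (CL.Blk.Pair.le_centralizer_zpowers (hcen z hz.1))
          (Subgroup.centralizer_le (Subgroup.zpowers_le.2 z.2))
      rw [← CL.Blk.Pair.ncard_cls] at h2
      rw [Nat.cast_le, ← Set.ncard_coe_finset,
        ← Set.ncard_image_of_injective _ Subtype.val_injective]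
      refine le_trans (Set.ncard_le_ncard ?_ (Set.toFinite _)) h2
      rintro _ ⟨w, hw, rfl⟩
      simp only [Finset.coe_filter, Finset.mem_filter, Finset.mem_univ, true_and,
        Set.mem_ofPred_eq] at hw
      obtain ⟨t, ht, h⟩ := hmax.exists_nst_conj z.2 (hcen z hz.1)
        (by rw [CL.Blk.Pair.fcls_eq_of_mem hmax.pair hz.2]; exact hw.2) (hcen w hw.1)
      exact ⟨t, hTn ht, h⟩)
  have h2 := congrArg Complex.re (hmax.classInner_irr_eq_sum hM hB hχ hcf)
  rw [χ.2.classInner_self, Complex.re_sum] at h2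
  simp only [Complex.div_natCast_re, Complex.one_re] at h2
  rw [← h2, mul_one] at h1
  have h3 : ∑ z ∈ Finset.univ.filter (fun z : D => z ∈ Subgroup.center D), W z =
      ∑ z : Subgroup.center D, W z := Finset.sum_subtype _ (by simp) W
  have h4 : ∀ t ∈ CL.Blk.Rk.tSet p d, ∑ z : Subgroup.center D, W (z ^ t) =
      ∑ z : Subgroup.center D, W z := fun t ht =>
    (powCoprime (G := Subgroup.center D) (n := t) (by
      rw [hc]
      exact (CL.Blk.Rk.coprime_of_not_dvd hM.1 (CL.Blk.Rk.not_dvd_of_mem_tSet ht) c).symm)).sum_comp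
      fun z : Subgroup.center D => W z
  have h5 : ∀ z : Subgroup.center D, ((CL.Blk.Rk.tSet p d).card : ℝ) *
      p ^ Cfsg.blockHeight p B (χ : G → ℂ) ≤ p ^ d * ∑ t ∈ CL.Blk.Rk.tSet p d, W (z ^ t) := by
    intro z
    have := hmax.card_mul_pow_le_sum_ctr hM hB (z : D).2
      (fun x hx => congrArg Subtype.val (Subgroup.mem_center_iff.1 z.2 ⟨x, hx⟩)) (k := d) (by
        rw [pow_succ, pow_mul, ← hDd, ← Subgroup.coe_pow, pow_card_eq_one', Subgroup.coe_one,
          one_pow]) hχ
    rwa [hd] at this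
  have h6 := Finset.sum_le_sum fun z (_ : z ∈ Finset.univ) => h5 z
  rw [← Finset.mul_sum, ← Finset.mul_sum, Finset.sum_comm, Finset.sum_congr rfl h4,
    Finset.sum_const, Finset.sum_const, Finset.card_univ, ← Nat.card_eq_fintype_card, hc, ← h3,
    nsmul_eq_mul, nsmul_eq_mul] at h6
  have h7 : (0 : ℝ) < (CL.Blk.Rk.tSet p d).card := Nat.cast_pos.2 (CL.Blk.Rk.card_tSet_pos hM.1)
  have hp0 : (0 : ℝ) < p := Nat.cast_pos.2 hM.1.pos
  have h8 : ((p ^ (Cfsg.blockHeight p B (χ : G → ℂ) + c) : ℕ) : ℝ) ≤ ((p ^ d * e : ℕ) : ℝ) := by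
    push_cast at h6 ⊢
    refine le_of_mul_le_mul_left ?_ h7
    calc _ = _ := by rw [pow_add, mul_comm ((p : ℝ) ^ _)]
      _ ≤ _ := h6
      _ ≤ _ := by
        rw [mul_left_comm]
        gcongr
  have h9 : p ^ (Cfsg.blockHeight p B (χ : G → ℂ) + c) < p ^ (d + (n + 1)) := by
    rw [pow_add p d]
    exact (Nat.cast_le.1 h8).trans_lt (Nat.mul_lt_mul_of_pos_left hn.2 (pow_pos hM.1.pos _))
  have := (Nat.pow_lt_pow_iff_right hM.1.one_lt).1 h9
  omega

end Cfsg.Agent.S4715
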