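import Cfsg.Statements.S4719
import Cfsg.Agent.Blk.Deficiency

set_option autoImplicit false
universe u
open Cfsg

namespace Cfsg.Agent.S4719

/-- For every natural number a there is a bound N with the following property. Let G be a finite group with Sylow 2-subgroups of order 2^a and r ≥ 0 such that G has no non-principal 2-block (relative to a maximal ideal of the algebraic integers containing 2) of defect ≥ r, and suppose a Sylow 2-subgroup of G contains an elementary abelian subgroup of order 2^(r+1). Then the order of G is at most N. -/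
theorem result (a : ℕ) : ∃ N : ℕ, ∀ (G : Type u) [Group G] [Finite G] (M : Ideal Cfsg.AlgInt) (r : ℕ) (P : Sylow 2 G), Cfsg.IsPModular 2 M → Nat.card P = 2 ^ a → (∀ B : Set (Cfsg.IrrCharacter G), Cfsg.IsPBlock M B → B ≠ Cfsg.principalBlock M G → Cfsg.blockDefect 2 B < r) → (∃ E : Subgroup G, E ≤ (P : Subgroup G) ∧ IsMulCommutative E ∧ (∀ x ∈ E, x * x = 1) ∧ Nat.card E = 2 ^ (r + 1)) → Nat.card G ≤ N := by
  choose f hf using CL.Blk.exists_bound_of_defClass.{u} a
  refine ⟨(Finset.range (a + 1)).sup f, fun G _ _ M r P hM hP h hE => ?_⟩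
  obtain ⟨E, hEP, -, hE, hEc⟩ := hE
  have h1 : (Nat.card G).factorization 2 = a := by
    rw [P.card_eq_multiplicity] at hP
    exact Nat.pow_right_injective le_rfl hP
  have h2 : r + 1 ≤ a := by
    have := Subgroup.card_le_of_le hEP
    rw [hEc] at this
    exact (Nat.pow_le_pow_iff_right one_lt_two).1 (hP ▸ this)
  exact (hf r G M hM h1.le h E hE hEc).trans
    (Finset.le_sup (f := f) (Finset.mem_range.2 (by omega)))

end Cfsg.Agent.S4719
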