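import Cfsg.Statements.S4721
import Cfsg.Agent.Blk.AbelThree

set_option autoImplicit false
open Cfsg

namespace Cfsg.Agent.S4721

/-- Let p be a prime, M a maximal ideal of the algebraic integers containing p, and G a finite group with a nontrivial abelian Sylow p-subgroup P, N = N_G(P), C = C_G(P), such that N/C is cyclic of order 3, #P > 4, and C_G(y) ∩ N = C for every non-identity y ∈ P. Then the principal p-block is the disjoint union of a set X of exactly 3 characters containing the principal character and a set Y of (#P − 1)/3 characters, with signs a_χ = ±1 (χ ∈ X, a = 1 at the principal character) and δ = ±1 such that every χ ∈ X takes the value a_χ at every element whose p-part is a non-identity element of P, and there is a map ζ from the non-principal linear characters of P onto Y, constant on N-conjugacy classes, with ζ_ψ(z) = δ·Σ ψ'(y) over the N-orbit of ψ, for z with p-part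 y ≠ 1 in P. If moreover G has an involution lying in no proper normal subgroup of G, then exactly two of the three numbers −δ and a_χ (χ ∈ X non-principal) equal −1, and the product of the degrees of the two non-principal members of X and of any member of Y is a perfect square. -/
theorem result {G : Type*} [Group G] [Finite G] (p : ℕ) [Fact p.Prime] (M : Ideal Cfsg.AlgInt) (hM : Cfsg.IsPModular p M) (P : Sylow p G) (hab : IsMulCommutative P) (hP1 : Nat.card P ≠ 1) (hCN : (Subgroup.centralizer ((P : Subgroup G) : Set G)).relIndex (Subgroup.normalizer ((P : Subgroup G) : Set G)) = 3) (hcyc : ∃ g : G, g ∈ Subgroup.normalizer ((P : Subgroup G) : Set G) ∧ Subgroup.centralizer ((P : Subgroup G) : Set G) ⊔ Subgroup.zpowers g = Subgroup.normalizer ((P : Subgroup G) : Set G)) (hm2 : 3 + 1 < Nat.card P) (hfrob : ∀ y : G, y ∈ (P : Subgroup G) → y ≠ 1 → Subgroup.centralizer ({y} : Set G) ⊓ Subgroup.normalizer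 ((P : Subgroup G) : Set G) = Subgroup.centralizer ((P : Subgroup G) : Set G)) : ∃ (X Y : Set (Cfsg.IrrCharacter G)), Cfsg.principalBlock M G = X ∪ Y ∧ Disjoint X Y ∧ Nat.card X = 3 ∧ Nat.card Y = (Nat.card P - 1) / 3 ∧ (∃ χ₁ ∈ X, (χ₁ : G → ℂ) = fun _ => 1) ∧ ∃ (a : Cfsg.IrrCharacter G → ℤ) (δ : ℤ) (ζ : (↥(P : Subgroup G) →* ℂˣ) → Cfsg.IrrCharacter G), (δ = 1 ∨ δ = -1) ∧ (∀ χ ∈ X, (a χ = 1 ∨ a χ = -1) ∧ ∀ z y : G, Cfsg.IsPPart p z y → y ∈ (P : Subgroup G) → y ≠ 1 → (χ : G → ℂ) z = (a χ : ℂ)) ∧ (∀ ψ : ↥(P : Subgroup G) →* ℂˣ, ψ ≠ 1 → ζ ψ ∈ Y) ∧ (∀ η ∈ Y, ∃ ψ : ↥(P : Subgroup G) →* ℂˣ, ψ ≠ 1 ∧ ζ ψ = η) ∧ (∀ ψ ψ' : ↥(P : Subgroup G) →* ℂˣ, ψ ≠ 1 → (∃ n : G, n ∈ Subgroup.normalizer ((P : Subgroup G) : Set G) ∧ ∀ w w' : ↥(P : Subgroup G), (w' : G) = n * w * n⁻¹ → ψ' w' = ψ w) → ζ ψ' = ζ ψ) ∧ (∀ ψ : ↥(P : Subgroup G) →* ℂˣ, ψ ≠ 1 → ∀ (z : G) (y : ↥(P : Subgroup G)), Cfsg.IsPPart p z (y : G)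 → (y : G) ≠ 1 → (ζ ψ : G → ℂ) z = (δ : ℂ) * ∑ᶠ ψ' ∈ {ψ' : ↥(P : Subgroup G) →* ℂˣ | ∃ n : G, n ∈ Subgroup.normalizer ((P : Subgroup G) : Set G) ∧ ∀ w w' : ↥(P : Subgroup G), (w' : G) = n * w * n⁻¹ → ψ' w' = ψ w}, ((ψ' y : ℂˣ) : ℂ)) ∧ ((∃ t : G, orderOf t = 2 ∧ ∀ K : Subgroup G, K.Normal → t ∈ K → K = ⊤) → Nat.card {χ : Cfsg.IrrCharacter G // χ ∈ X ∧ (χ : G → ℂ) ≠ (fun _ => 1) ∧ a χ = -1} + (if δ = 1 then 1 else 0) = 2 ∧ ∀ η ∈ Y, IsSquare (Cfsg.charDegree (η : G → ℂ) * ∏ᶠ χ ∈ {χ : Cfsg.IrrCharacter G | χ ∈ X ∧ (χ : G → ℂ) ≠ fun _ => 1}, Cfsg.charDegree (χ : G → ℂ))) := by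
  classical
  have := Fintype.ofFinite G
  have := Fintype.ofFinite (P : Subgroup G)
  have h : CL.Blk.AbFrob P := ⟨fun a b => hab.is_comm.comm a b, fun y hy hy1 => (hfrob y hy hy1).le⟩
  obtain ⟨D⟩ := h.nonempty_data hM hCN hm2
  obtain ⟨hd, hX, ha⟩ := D.three_shape hM P.isPGroup'
  have hY : D.Y.card = (Nat.card P - 1) / 3 := by
    have h1 : 3 * D.Y.card + 1 = Nat.card P := D.card_Y
    omega
  refine ⟨D.X, D.Y, ?_, by exact_mod_cast D.disj, by simp [hX], by simp [hY],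
    ⟨_, D.one_mem, rfl⟩, D.a, D.δ, D.ζ, D.sign, fun χ hχ => ⟨ha χ hχ, ?_⟩, D.ζ_mem,
    D.ζ_surj, ?_, ?_, ?_⟩
  · ext χ
    simp [D.mem_iff]
  · intro z y hz hy hy1
    rw [h.apply_section hM (D.X_mem hχ) hz hy hy1, D.val_X χ hχ y hy hy1]
  · intro ψ ψ' hψ hc
    exact (D.ζ_eq ψ ψ' hψ (CL.Blk.LinConj.ne_one hc hψ)).2 hc
  · intro ψ hψ z y hz hy1
    rw [h.apply_section hM (D.Y_mem (D.ζ_mem ψ hψ)) hz y.2 hy1,
      D.val_Y ψ hψ y (fun h1 => hy1 (by rw [h1]; rfl)), CL.Blk.orbSum_eq_finsum, hd, Int.cast_zero,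
      zero_add]
    rfl
  rintro ⟨t, ht, hK⟩
  obtain ⟨χ₂, χ₃, η, v₂, v₃, v₄, h23, hE, hη, hv₂, -, r₁, r₂, r₃⟩ :=
    h.three_rel hM hCN hm2 D (CL.Inv.mul_self_of_orderOf_two ht)
  have m₂ : χ₂ ∈ D.X.erase (CL.Char.irrOne G) := hE ▸ by simp
  have m₃ : χ₃ ∈ D.X.erase (CL.Char.irrOne G) := hE ▸ by simp
  obtain ⟨h1, h2⟩ := CL.Blk.three_signs_arith (ha χ₂ (Finset.mem_of_mem_erase m₂))
    (ha χ₃ (Finset.mem_of_mem_erase m₃)) D.sign (CL.Blk.irr_charDegree_pos _)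
    (CL.Blk.irr_charDegree_pos _) (CL.Blk.irr_charDegree_pos _) r₁ r₂ r₃ fun h1 =>
      (Finset.mem_erase.1 m₂).1 (Subtype.ext (χ₂.2.charKer_eq_top_iff.1 (hK _ χ₂.2.charKer_normal
        (χ₂.2.mem_charKer.2 (by rw [hv₂, h1, ← CL.Blk.irr_natCast_charDegree]; rfl)))))
  have hmem : ∀ χ : IrrCharacter G, (χ ∈ (D.X : Set (IrrCharacter G)) ∧ (χ : G → ℂ) ≠ fun _ => 1) ↔
      χ ∈ ({χ₂, χ₃} : Finset (IrrCharacter G)) := fun χ => by
    rw [← hE, Finset.mem_erase, and_comm]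
    exact and_congr_left' (not_congr ⟨fun h => Subtype.ext h, fun h => by rw [h]; rfl⟩)
  refine ⟨?_, fun η' hη' => ?_⟩
  · rw [← h1]
    congr 1
    rw [Nat.subtype_card (({χ₂, χ₃} : Finset (IrrCharacter G)).filter fun χ => D.a χ = -1)
      fun χ => by rw [Finset.mem_filter, ← hmem, and_assoc], Finset.card_filter, Finset.sum_pair h23]
  · have h3 : charDegree (η' : G → ℂ) = charDegree (η : G → ℂ) := by
      have h4 := D.Y_eq_pRegular hM P.isPGroup' hη' hη (g := 1)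
        (by rw [orderOf_one]; exact hM.1.not_dvd_one)
      rw [← CL.Blk.irr_natCast_charDegree, ← CL.Blk.irr_natCast_charDegree] at h4
      exact_mod_cast h4
    rw [h3, show {χ : IrrCharacter G | χ ∈ (D.X : Set (IrrCharacter G)) ∧ (χ : G → ℂ) ≠ fun _ => 1} =
      {χ₂, χ₃} from Set.ext fun χ => (hmem χ).trans (by simp), finprod_mem_pair h23]
    exact h2

end Cfsg.Agent.S4721
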