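import Cfsg.Statements.S4722
import Cfsg.Agent.Blk.Column
import Cfsg.Agent.Char.ClassAlg

set_option autoImplicit false
open Cfsg

namespace Cfsg.Agent.S4722

/-- Let M be a maximal ideal of the algebraic integers containing 2, P a 2-subgroup of the finite group G, U a subset of P, and t an involution of G such that no element of U is inverted by any conjugate of t. Let θ be a generalized character of P vanishing outside U, and for χ in the principal 2-block B₀ put a_χ = #P⁻¹ Σ_{y ∈ P} χ(y) θ(y⁻¹). Then Σ_{χ ∈ B₀} a_χ χ(t)^2/χ(1) = 0, Σ_{χ ∈ B₀} a_χ χ(1) = 0 and Σ_{χ ∈ B₀} a_χ χ(t) = 0. If moreover #P⁻¹ Σ_{y ∈ P} θ(y) ≠ 0, then either at least two of the a_χ have positive real part and at least two have negative real part, or G has a proper normal subgroup containing O_2'(G) and t. -/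
theorem result {G : Type*} [Group G] [Finite G] (M : Ideal Cfsg.AlgInt) (hM : Cfsg.IsPModular 2 M) (P : Subgroup G) (hP : IsPGroup 2 P) (U : Set G) (hUP : U ⊆ (P : Set G)) (t : G) (ht : orderOf t = 2) (hinv : ∀ u ∈ U, ∀ g : G, (g * t * g⁻¹) * u * (g * t * g⁻¹)⁻¹ ≠ u⁻¹) (θ : ↥P → ℂ) (hθ : Cfsg.IsGeneralizedCharacter ↥P θ) (hθU : ∀ y : ↥P, (y : G) ∉ U → θ y = 0) : (∑ᶠ χ ∈ Cfsg.principalBlock M G, ((Nat.card ↥P : ℂ)⁻¹ * ∑ᶠ y : ↥P, (χ : G → ℂ) (y : G) * θ y⁻¹) * (χ : G → ℂ) t ^ 2 / (χ : G → ℂ) 1 = 0) ∧ (∑ᶠ χ ∈ Cfsg.principalBlock M G, ((Nat.card ↥P : ℂ)⁻¹ * ∑ᶠ y : ↥P, (χ : G → ℂ) (y : G) * θ y⁻¹) * (χ : G → ℂ) 1 = 0) ∧ (∑ᶠ χ ∈ Cfsg.principalBlock M G, ((Nat.card ↥P : ℂ)⁻¹ * ∑ᶠ y : ↥P, (χ : G → ℂ) (y : G) * θ y⁻¹) * (χ : G → ℂ) t = 0) ∧ ((Nat.card ↥P : ℂ)⁻¹ * ∑ᶠ y : ↥P, θ y ≠ 0 → (2 ≤ Nat.card {χ : Cfsg.IrrCharacter G // χ ∈ Cfsg.principalBlock M G ∧ 0 < (((Nat.card ↥P : ℂ)⁻¹ * ∑ᶠ y : ↥P, (χ : G →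 ℂ) (y : G) * θ y⁻¹)).re} ∧ 2 ≤ Nat.card {χ : Cfsg.IrrCharacter G // χ ∈ Cfsg.principalBlock M G ∧ (((Nat.card ↥P : ℂ)⁻¹ * ∑ᶠ y : ↥P, (χ : G → ℂ) (y : G) * θ y⁻¹)).re < 0}) ∨ ∃ K : Subgroup G, K.Normal ∧ K ≠ ⊤ ∧ Cfsg.pPrimeCore 2 G ≤ K ∧ t ∈ K) := by
  classical
  have := Fintype.ofFinite G
  have := Fintype.ofFinite P
  have := Fact.mk Nat.prime_two
  simp only [CL.Blk.finsum_mul_apply_inv_eq_classInner, CL.Blk.finsum_mem_irr_eq_sum]
  have ht2 : t * t = 1 := by rw [← sq, ← ht, pow_orderOf_eq_one]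
  have hti : t⁻¹ = t := inv_eq_of_mul_eq_one_right ht2
  have hU : ∀ y : P, θ y ≠ 0 → (y : G) ∈ U := fun y hy => by
    by_contra h; exact hy (hθU y h)
  have hθ1 : θ 1 = 0 := by
    by_contra h
    exact hinv _ (hU 1 h) 1 (by simp [ht2])
  have e1 : ∑ χ : IrrCharacter G with χ ∈ principalBlock M G,
      classInner θ (fun y : P => (χ : G → ℂ) y) * (χ : G → ℂ) t ^ 2 / (χ : G → ℂ) 1 = 0 := by
    simp only [mul_div_assoc]
    refine CL.Blk.sum_classInner_mul_pair_eq_zero fun y hy => ?_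
    have hyp : ∃ k : ℕ, orderOf (y : G)⁻¹ = 2 ^ k := by
      rw [orderOf_inv]; exact CL.Blk.exists_orderOf_eq_of_mem hP y.2
    have h := CL.Blk.sum_block_pair_eq_zero hM (CL.Blk.isPBlock_principal M) (a := t) (b := t)
      (x := (y : G)⁻¹) (fun u v hu hv huv => by
        obtain ⟨c, rfl⟩ := isConj_iff.1 hu
        have h1 := (CL.Blk.inverts_pPart_of_mul Nat.prime_two
          (CL.Char.classAlg_mul_self_of_isConj ht2 hu)
          (CL.Char.classAlg_mul_self_of_isConj ht2 hv) huv).1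
        refine hinv _ (hU y hy) c ?_
        have h2 := congrArg (·⁻¹) h1
        simpa [mul_assoc] using h2) (CL.Blk.isPPart_self Nat.prime_two hyp)
    rw [← h]
    refine Finset.sum_congr rfl fun χ _ => ?_
    rw [hti]
    ring
  have e2 : ∑ χ : IrrCharacter G with χ ∈ principalBlock M G,
      classInner θ (fun y : P => (χ : G → ℂ) y) * (χ : G → ℂ) 1 = 0 := by
    rw [← CL.Blk.tau_apply]
    exact CL.Blk.tau_apply_eq_zero_of_pRegular hM hP hθ1 (by simp)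
  have e3 : ∑ χ : IrrCharacter G with χ ∈ principalBlock M G,
      classInner θ (fun y : P => (χ : G → ℂ) y) * (χ : G → ℂ) t = 0 := by
    rw [← CL.Blk.tau_apply]
    refine CL.Blk.tau_apply_eq_zero hM hP (CL.Blk.isPPart_self Nat.prime_two ⟨1, by simp [ht]⟩)
      fun y hy => ?_
    by_contra h
    obtain ⟨c, hc⟩ := isConj_iff.1 hy
    refine hinv _ (hU y h) c ?_
    rw [hc, mul_inv_cancel_right, ← hc, conj_inv, hti]
  refine ⟨e1, e2, e3, fun h0 => ?_⟩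
  choose a ha using fun χ : IrrCharacter G =>
    hθ.exists_int_classInner (χ.2.isGeneralizedCharacter.restrict P)
  simp only [ha] at e1 e2 e3 ⊢
  have ha1 : a (CL.Char.irrOne G) ≠ 0 := by
    intro h
    have h1 := ha (CL.Char.irrOne G)
    rw [h, Int.cast_zero, CL.Char.classInner_def] at h1
    apply h0
    rw [finsum_eq_sum_of_fintype]
    simpa using h1
  rcases CL.Blk.sign_lemma_irr _ a ht2 e1 e2 e3
    (Finset.mem_filter.2 ⟨Finset.mem_univ _, CL.Blk.irrOne_mem_principal hM⟩) ha1 with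
    h | ⟨χ, h1, h2, -, h3⟩
  · left
    simp only [Nat.card_eq_fintype_card, Fintype.card_subtype, Complex.intCast_re, Int.cast_pos,
      Int.cast_lt_zero]
    simpa only [Finset.filter_filter] using h
  · right
    have hχ := (Finset.mem_filter.1 h1).2
    refine ⟨CL.Char.charKer (χ : G → ℂ), χ.2.charKer_normal, ?_, ?_, χ.2.mem_charKer.2 h3⟩
    · rw [Ne, χ.2.charKer_eq_top_iff]
      exact fun h => h2 (Subtype.ext h)
    · intro n hn
      exact χ.2.mem_charKer.2 (CL.Blk.principal_apply_of_mem hM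
        (CL.Grp.not_dvd_card_pPrimeCore 2 G) hχ hn)

end Cfsg.Agent.S4722
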