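import Cfsg.Statements.S4724
import Cfsg.Agent.Inv.Tuan3
import Cfsg.Agent.Perm.PrimeDegree4
import Cfsg.Agent.Cls.SmallIso
import Cfsg.Agent.S0806

set_option autoImplicit false
open Cfsg
open CL.Inv CL.Inv.PO CL.Inv.Tuan CL.Char CL.Blk CL.Perm Subgroup MulAction

namespace Cfsg.Agent.S4724

/-- Let G be a transitive permutation group of prime degree p having exactly one irreducible character of degree p. Let P be a Sylow p-subgroup and suppose N_G(P) = P·E for a subgroup E with P ∩ E = 1, such that the normalizer of E has order 2·#E and E meets each of its conjugates by elements outside its normalizer trivially. Then p is 5, 7 or 11 and G is isomorphic to PSL(2, p). -/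
theorem result {α : Type*} [Fintype α] [DecidableEq α] {p : ℕ} [Fact p.Prime] (hα : Fintype.card α = p) (G : Subgroup (Equiv.Perm α)) [MulAction.IsPretransitive G α] (huniq : ∃! χ : Cfsg.IrrCharacter G, Cfsg.charDegree (χ : G → ℂ) = p) (P : Sylow p G) (E : Subgroup G) (hPE : (P : Subgroup G) ⊔ E = Subgroup.normalizer ((P : Subgroup G) : Set G)) (hPE' : (P : Subgroup G) ⊓ E = ⊥) (hNE : Nat.card (Subgroup.normalizer (E : Set G)) = 2 * Nat.card E) (hTI : ∀ g : G, g ∉ Subgroup.normalizer (E : Set G) → E ⊓ E.map (MulAut.conj g).toMonoidHom = ⊥) : (p = 5 ∨ p = 7 ∨ p = 11) ∧ ∃ (F : Type) (_ : Field F) (_ : Fintype F), Fintype.card F = p ∧ Nonempty (G ≃* Matrix.ProjectiveSpecialLinearGroup (Fin 2) F) := by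
  classical
  have hp : p.Prime := Fact.out
  have hα' : Nat.card α = p := by simpa using hα
  obtain ⟨x, hx, hPx⟩ := exists_sylow_eq_zpowers hα' P
  obtain ⟨a⟩ : Nonempty α := Fintype.card_pos_iff.1 (hα ▸ hp.pos)
  obtain ⟨co, -, hco⟩ := exists_coords hα' hx a
  obtain ⟨K⟩ := nonempty_ctx_of_self hx (le_antisymm
    (fun g hg => mem_zpowers_of_commute_coords hco (mem_centralizer_singleton_iff.1 hg))
    (zpowers_le.2 (mem_centralizer_singleton_iff.2 rfl)))
  have hle := sylow_le_normal_of_prime_degree hα' P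
  rw [hPx] at hPE hPE' hle
  obtain ⟨K, y, hy, hH, rfl, he, ha⟩ := exists_ctx_of_compl K hPE hPE'
  obtain ⟨θ, hθ, hu⟩ := huniq
  have hθ1 : (θ : G → ℂ) 1 = p := by rw [← θ.2.cast_charDegree, hθ]
  have hu' : ∀ χ, IsIrrCharacter G χ → χ 1 = p → χ = θ := fun χ h h1 =>
    congrArg Subtype.val (hu ⟨χ, h⟩ (CL.Char.charDegree_eq_of_eq h1))
  have hθ0 : ∀ g, p ∣ orderOf g → (θ : G → ℂ) g = 0 := fun g hg => irr_apply_eq_zero_of_defect_zero hp
    (by rw [hθ, K.factorization_card, hp.factorization_self]) hg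
  have hsq : p ^ 2 ≤ Nat.card G :=
    (hθ ▸ θ.2.charDegree_sq_le_index_center).trans (Nat.le_of_dvd Nat.card_pos (index_dvd_card _))
  have hp2 := hp.two_le
  have hf := Nat.le_of_dvd (by omega) K.f_dvd
  have hN := K.card_N_self le_rfl
  have hn : ¬ (zpowers x).Normal := fun h => by
    rw [show Nz x = ⊤ from normalizer_eq_top _, card_top] at hN
    have := Nat.mul_le_mul_right p (show K.f + 1 ≤ p by omega)
    nlinarith
  have hy1 : y ≠ 1 := by
    rintro rfl
    rw [zpowers_one_eq_bot, normalizer_eq_top, card_top, card_bot] at hNE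
    nlinarith
  have hperf := perfect_of_unique K θ.2 hθ1 hu' hθ0 hy fun h => hy1 (K.H_inf y (hH ▸ mem_zpowers y) h)
  have : Nontrivial G := ⟨y, 1, hy1⟩
  have : IsSimpleGroup G := ⟨fun N hN => or_iff_not_imp_left.2 fun h => eq_top_iff.2
    (hperf ▸ K.commutator_le_of_dvd (K.card_P ▸ card_dvd_of_le (hle N h)))⟩
  by_cases h2 : K.f = 2
  · have h3 : 3 < p := by
      by_contra h3
      have h4 := Nat.le_of_dvd (Nat.factorial_pos _) (card_dvd_factorial_of_faithful (G := G) (α := α))
      have h5 : p = 3 := by omega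
      rw [hα', h5] at h4
      exact absurd ((h5 ▸ hsq).trans h4) (by decide)
    obtain ⟨b, F, _, _, hb, hF, ⟨e⟩⟩ := (prime_degree_main α hα' h3 K (h2 ▸ hN)).resolve_left hn
    have : CharP F 2 := charP_of_card_eq_prime_pow hF
    have h4 := card_le_centralizer (CharTwo.two_eq_zero (R := F)) (g := e y) (by rw [e.orderOf_eq, he, h2])
    have h5 : Nat.card (centralizer ({e y} : Set (Matrix.SpecialLinearGroup (Fin 2) F))) ≤ _ :=
      Nat.card_le_card_of_injective (fun c => (⟨e.symm c, centralizer_le_normalizer _ (by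
        rw [centralizer_zpowers_eq, mem_centralizer_singleton_iff]
        simpa using congrArg e.symm (mem_centralizer_singleton_iff.1 c.2))⟩ : normalizer (zpowers y : Set G)))
        fun c d h => Subtype.ext (e.symm.injective (congrArg Subtype.val h))
    rw [hNE, Nat.card_zpowers, he, h2] at h5
    rw [Nat.card_eq_fintype_card] at h4
    have h6 : p = 5 := by
      have : p ≠ 4 := by rintro rfl; norm_num at hp
      omega
    have h7 : Fintype.card F = 4 := by omega
    obtain ⟨e1⟩ := nonempty_psl2_equiv_sl2 hF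
    obtain ⟨e2⟩ := CL.Cls.nonempty_PSL2_four h7
    obtain ⟨e3⟩ := CL.Cls.nonempty_PSL2_five ((ZMod.card p).trans h6)
    exact ⟨.inl h6, ZMod p, inferInstance, inferInstance, ZMod.card p, ⟨e.trans (e1.symm.trans (e2.trans e3.symm))⟩⟩
  have h3 : 3 ≤ K.f := by
    have : K.f ≠ 1 := fun h => hy1 (orderOf_eq_one_iff.1 (he.trans h))
    have := K.f_pos
    omega
  obtain ⟨e⟩ := psl_of_TI K hn hperf hy hH he ha h3 θ.2 hθ1 hθ0
    (fun g => congrFun (hu' _ θ.2.inv (by simp [hθ1])) g) (isCharacter_card_fixedBy (G := G) α)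
    (by simp [hα]) (fun g hg => Nat.cast_eq_zero.2 (by
      obtain ⟨k, hk⟩ := K.exists_isConj_pow (orderOf_eq_prime (K.pow_eq_one_of_sing le_rfl hg)
        (by rintro rfl; exact hp.ne_one (by simpa using hg)))
      have := (isCharacter_card_fixedBy (G := G) α).isClassFunction.apply_eq_of_isConj hk
      rw [Nat.cast_injective this, Nat.card_eq_zero]
      refine .inl ⟨fun ⟨b, hb⟩ => k.ne_zero ?_⟩
      obtain ⟨j, rfl⟩ := co.surjective b
      rw [mem_fixedBy, pow_smul_coords hco] at hb
      simpa using hb)) (fun g => ⟨_, rfl⟩) hNE fun g hg u h1 h4 => by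
      have : g⁻¹ * u * g ∈ zpowers y ⊓ (zpowers y).map (MulAut.conj g⁻¹).toMonoidHom := ⟨h4, u, h1, by simp⟩
      rw [hTI g⁻¹ (by rwa [inv_mem_iff]), mem_bot] at this
      exact conj_eq_one_iff.1 (show g⁻¹ * u * g⁻¹⁻¹ = 1 by rwa [inv_inv])
  refine ⟨?_, ZMod p, inferInstance, inferInstance, ZMod.card p, ⟨e⟩⟩
  by_contra h
  have h4 : ((stabilizer G a).map e.toMonoidHom).index = p := by
    rw [index_map_of_bijective e.bijective, index_stabilizer_of_transitive, hα']
  have := (S0806.result (ZMod.card p) (by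
    have : p ≠ 9 := by rintro rfl; norm_num at hp
    simp only [Finset.mem_insert, Finset.mem_singleton]
    omega)).1 ((stabilizer G a).map e.toMonoidHom) fun h => by rw [h, index_top] at h4; omega
  omega

end Cfsg.Agent.S4724
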