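import Cfsg.Statements.S4726
import Cfsg.Agent.Blk.First2

set_option autoImplicit false
open Cfsg
open scoped Pointwise

namespace Cfsg.Agent.S4726

/-- Let p be a prime, M a maximal ideal of the algebraic integers containing p, H a subgroup of the finite group G and b a p-block of H with defect group D₀ such that C_G(D₀) ≤ H. Then b induces a block of G, and for every block B of G induced by b there is a defect group D of B with Z(D) ≤ Z(D₀) ≤ D₀ ≤ D (as subgroups of G). In particular, if the defect groups of B are abelian then D₀ is a defect group of B. -/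
theorem result {G : Type*} [Group G] [Finite G] (p : ℕ) [Fact p.Prime] (M : Ideal Cfsg.AlgInt) (hM : Cfsg.IsPModular p M) (H : Subgroup G) (b : Set (Cfsg.IrrCharacter ↥H)) (hb : Cfsg.IsPBlock M b) (D₀ : Subgroup ↥H) (hD₀ : Cfsg.IsDefectGroup p M b D₀) (hC : Subgroup.centralizer ((D₀.map H.subtype : Subgroup G) : Set G) ≤ H) : Cfsg.InducedBlockDefined M H b ∧ ∀ B : Set (Cfsg.IrrCharacter G), Cfsg.IsInducedBlock M H b B → (∃ D : Subgroup G, Cfsg.IsDefectGroup p M B D ∧ (Subgroup.center ↥D).map D.subtype ≤ ((Subgroup.center ↥D₀).map D₀.subtype).map H.subtype ∧ ((Subgroup.center ↥D₀).map D₀.subtype).map H.subtype ≤ D₀.map H.subtype ∧ D₀.map H.subtype ≤ D) ∧ (∀ D : Subgroup G, Cfsg.IsDefectGroup p M B D → IsMulCommutative ↥D → Cfsg.IsDefectGroup p M B (D₀.map H.subtype)) := by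
  refine ⟨CL.Blk.inducedBlockDefined_of_centralizer_le hM hb hD₀ hC, fun B hind => ?_⟩
  obtain ⟨D, hD, hle, hcen⟩ := CL.Blk.exists_isDefectGroup_inf_centralizer_le hM hind hD₀ hC
  refine ⟨⟨D, hD, ?_, Subgroup.map_mono (Subgroup.map_subtype_le _), hle⟩, fun E hE hab => ?_⟩
  · rintro _ ⟨x, hx, rfl⟩
    have hxC : (x : G) ∈ Subgroup.centralizer ((D₀.map H.subtype : Subgroup G) : Set G) :=
      Subgroup.mem_centralizer_iff.2 fun w hw =>
        congrArg Subtype.val (Subgroup.mem_center_iff.1 hx ⟨w, hle hw⟩)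
    obtain ⟨y, hy, hyx⟩ := hcen ⟨x.2, hxC⟩
    refine ⟨y, ⟨⟨y, hy⟩, Subgroup.mem_center_iff.2 fun w => Subtype.ext (Subtype.ext ?_), rfl⟩, hyx⟩
    have := Subgroup.mem_centralizer_iff.1 hxC w ⟨w, w.2, rfl⟩
    rw [← hyx] at this
    exact this
  · obtain ⟨x, rfl⟩ := CL.Blk.exists_conj_eq_of_isDefectGroup hM hind.2.1 hE hD
    have : D₀.map H.subtype = MulAut.conj x • E := by
      refine le_antisymm hle fun y hy => hcen ⟨hy, Subgroup.mem_centralizer_iff.2 fun w hw => ?_⟩
      have h1 := congrArg Subtype.val (hab.is_comm.comm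
        ⟨_, (CL.Grp.mem_conj_smul_iff x w E).1 (hle hw)⟩ ⟨_, (CL.Grp.mem_conj_smul_iff x y E).1 hy⟩)
      simp only [Subgroup.coe_mul] at h1
      calc w * y = x * (x⁻¹ * w * x * (x⁻¹ * y * x)) * x⁻¹ := by group
        _ = y * w := by rw [h1]; group
    rw [this]
    exact hD

end Cfsg.Agent.S4726
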