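import Cfsg.Statements.S4727
import Cfsg.Agent.Blk.Kernel

set_option autoImplicit false
open Cfsg

namespace Cfsg.Agent.S4727

/-- Let p be a prime, π a set of primes containing p, M a maximal ideal of the algebraic integers containing p, and B a p-block of the finite group G with defect group D; let B₁ be the block of N_G(D) with defect group D that induces B (the Brauer correspondent of B). Suppose every element of O_π'(N_G(D)), the largest normal subgroup of N_G(D) whose order has no prime divisor in π, lies in the kernel of every member of B₁. If y is a p-element whose centralizer C has a normal Hall π'-subgroup (every element of C whose order has no prime divisor in π lies in O_π'(C)), then χ(y x) = χ(y) for every χ ∈ B and every x ∈ C whose order has no prime divisor in π. -/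
theorem result {G : Type*} [Group G] [Finite G] (p : ℕ) [Fact p.Prime] (M : Ideal Cfsg.AlgInt) (hM : Cfsg.IsPModular p M) (π : Set ℕ) (hpπ : p ∈ π) (B : Set (Cfsg.IrrCharacter G)) (hB : Cfsg.IsPBlock M B) (D : Subgroup G) (hBD : Cfsg.IsDefectGroup p M B D) (B₁ : Set (Cfsg.IrrCharacter ↥(Subgroup.normalizer (D : Set G)))) (hB₁ : Cfsg.IsInducedBlock M (Subgroup.normalizer (D : Set G)) B₁ B) (hB₁D : Cfsg.IsDefectGroup p M B₁ (D.subgroupOf (Subgroup.normalizer (D : Set G)))) (hker : ∀ n : ↥(Subgroup.normalizer (D : Set G)), n ∈ Cfsg.piCore {q | q ∉ π} ↥(Subgroup.normalizer (D : Set G)) → n ∈ Cfsg.blockKer B₁) (y : G) (hy : ∃ k : ℕ, orderOf y = p ^ k) (hC : ∀ x : ↥(Subgroup.centralizer ({y} : Set G)), (∀ q : ℕ, q.Prime → q ∣ orderOf x → q ∉ π) → x ∈ Cfsg.piCore {q | q ∉ π} ↥(Subgroup.centralizer ({y} : Set G))) : ∀ χ ∈ B, ∀ x : G, x ∈ Subgroup.centralizer ({y} : Set G) → (∀ q : ℕ, q.Prime → q ∣ orderOf x → q ∉ π) → (χ : G → ℂ) (y * x) = (χ : G → ℂ) y := by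
  haveI := CL.Blk.charP_resField hM
  have hp : p ∉ {q | q ∉ π} := fun h => h hpπ
  intro χ hχ x hx hq
  have hy' := CL.Blk.isPGroup_zpowers_of_orderOf hy
  have hz : Subgroup.centralizer ((Subgroup.zpowers y : Subgroup G) : Set G) =
      Subgroup.centralizer ({y} : Set G) := by
    rw [Subgroup.zpowers_eq_closure, Subgroup.centralizer_closure]
  have hyC : Subgroup.zpowers y ≤ Subgroup.centralizer ({y} : Set G) :=
    Subgroup.zpowers_le.2 (CL.Blk.self_mem_centralizer_singleton y)
  have h1 := CL.Blk.irr_apply_section hM hB hχ hy (y := ⟨x, hx⟩)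
    (fun h => hq p Fact.out (by simpa only [Subgroup.orderOf_mk] using h) hpπ)
  have h2 := CL.Blk.irr_apply_section hM hB hχ hy (y := 1)
    (by rw [orderOf_one]; exact (Fact.out : p.Prime).not_dvd_one)
  rw [Subgroup.coe_one, mul_one] at h2
  rw [h2]
  refine h1.trans (finsum_mem_congr rfl fun ξ hξ => ?_)
  have h3 := CL.Blk.mem_indSet.1 hξ
  have h4 := CL.Blk.Pair.kerIn_pair_of_kerIn_br hp (CL.Blk.Pair.isBlk_eBlk hM hB)
    ((CL.Blk.Pair.isDefectGroup_iff_isDef_top hM hB).1 hBD)
    (CL.Blk.Pair.hat_eq_br_of_isInducedBlock_normalizer hM hB₁ hBD ▸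
      (CL.Blk.Pair.kerIn_piCoreOf_hat_iff hM hp hB₁.1).2 hker)
    (CL.Blk.isPair_hat_of_eq_sup hM hy' (by rw [hz, sup_eq_right.2 hyC]) h3.1)
    ((CL.Blk.isInducedBlock_iff_br_mul_hat hM hy' hyC hz.le
      (hz ▸ Subgroup.centralizer_le_normalizer _) h3.1 hB).1 h3)
  rw [hz] at h4
  rw [(CL.Blk.Pair.kerIn_piCoreOf_hat_iff hM hp h3.1).1 h4 ⟨x, hx⟩
    (hC ⟨x, hx⟩ (by simpa only [Subgroup.orderOf_mk] using hq)) ξ (CL.Blk.tr_mem_blockOf_self hM ξ)]

end Cfsg.Agent.S4727
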