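import Cfsg.Statements.S4728
import Cfsg.Agent.Blk.Kernel

set_option autoImplicit false
open Cfsg

namespace Cfsg.Agent.S4728

/-- Let p be a prime, π a set of primes containing p, M a maximal ideal of the algebraic integers containing p, B a p-block of the finite group G with defect group D, and B₁ the block of N_G(D) with defect group D inducing B. Let D₀ be a p-subgroup, H₀ = D₀·C_G(D₀), and b a block of H₀ inducing B. Write O_π'(X) for the largest normal subgroup of X whose order has no prime divisor in π. Suppose that O_π'(C_G(D₀)) is a normal Hall π'-subgroup of C_G(D₀) (it contains every element of C_G(D₀) whose order has no prime divisor in π) and that every element of it lies in the kernel of every member of b. Then every element of O_π'(N_G(D)) lies in the kernel of every member of B₁. -/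
theorem result {G : Type*} [Group G] [Finite G] (p : ℕ) [Fact p.Prime] (M : Ideal Cfsg.AlgInt) (hM : Cfsg.IsPModular p M) (π : Set ℕ) (hpπ : p ∈ π) (B : Set (Cfsg.IrrCharacter G)) (hB : Cfsg.IsPBlock M B) (D : Subgroup G) (hBD : Cfsg.IsDefectGroup p M B D) (B₁ : Set (Cfsg.IrrCharacter ↥(Subgroup.normalizer (D : Set G)))) (hB₁ : Cfsg.IsInducedBlock M (Subgroup.normalizer (D : Set G)) B₁ B) (hB₁D : Cfsg.IsDefectGroup p M B₁ (D.subgroupOf (Subgroup.normalizer (D : Set G)))) (D₀ : Subgroup G) (hD₀ : IsPGroup p D₀) (H₀ : Subgroup G) (hH₀ : H₀ = D₀ ⊔ Subgroup.centralizer (D₀ : Set G)) (b : Set (Cfsg.IrrCharacter ↥H₀)) (hb : Cfsg.IsInducedBlock M H₀ b B) (hcompl : ∀ x : ↥(Subgroup.centralizer (D₀ : Set G)), (∀ q : ℕ, q.Prime → q ∣ orderOf x → q ∉ π) → x ∈ Cfsg.piCore {q | q ∉ π} ↥(Subgroup.centralizer (D₀ : Set G))) (hkerb : ∀ x : ↥(Subgroup.centralizer (D₀ : Set G)), x ∈ Cfsg.piCore {q | q ∉ π} ↥(Subgroup.centralizer (D₀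 : Set G)) → ∀ θ ∈ b, ∀ h : ↥H₀, (h : G) = (x : G) → (θ : ↥H₀ → ℂ) h = (θ : ↥H₀ → ℂ) 1) : ∀ n : ↥(Subgroup.normalizer (D : Set G)), n ∈ Cfsg.piCore {q | q ∉ π} ↥(Subgroup.normalizer (D : Set G)) → n ∈ Cfsg.blockKer B₁ := by
  haveI := CL.Blk.charP_resField hM
  have hp : p ∉ {q | q ∉ π} := fun h => h hpπ
  have hCH : Subgroup.centralizer (D₀ : Set G) ≤ H₀ := hH₀ ▸ le_sup_right
  have hHN : H₀ ≤ Subgroup.normalizer (D₀ : Set G) := hH₀ ▸ CL.Blk.sup_centralizer_le_normalizer D₀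
  refine (CL.Blk.Pair.kerIn_piCoreOf_hat_iff hM hp hB₁.1).1 ?_
  rw [CL.Blk.Pair.hat_eq_br_of_isInducedBlock_normalizer hM hB₁ hBD]
  refine CL.Blk.Pair.kerIn_br_of_kerIn_pair hp (CL.Blk.Pair.isBlk_eBlk hM hB)
    ((CL.Blk.Pair.isDefectGroup_iff_isDef_top hM hB).1 hBD)
    (CL.Blk.isPair_hat_of_eq_sup hM hD₀ hH₀ hb.1)
    ((CL.Blk.isInducedBlock_iff_br_mul_hat hM hD₀ (hH₀ ▸ le_sup_left) hCH hHN hb.1 hB).1 hb)
    (fun x hx hq => ⟨⟨x, hx⟩, hcompl ⟨x, hx⟩ (by rw [Subgroup.orderOf_mk]; exact hq), rfl⟩) ?_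
  have hle := (CL.Grp.piCoreOf_le {q | q ∉ π} _).trans hCH
  haveI := CL.Grp.normal_subgroupOf_of_le_normalizer' (hHN.trans
    ((CL.Blk.Pair.normalizer_le_normalizer_centralizer D₀).trans
      (CL.Grp.normalizer_le_normalizer_piCoreOf {q | q ∉ π} _)))
  rw [← CL.Blk.Pair.map_subgroupOf_subtype hle, CL.Blk.Pair.kerIn_hat_iff hM
    (by rw [CL.Grp.card_subgroupOf_of_le hle]; exact CL.Blk.Pair.not_dvd_card_piCoreOf hp _) hb.1]
  rintro n ⟨x, hx, hxn⟩ θ hθ
  exact hkerb x hx θ hθ n hxn.symm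

end Cfsg.Agent.S4728
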