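import Cfsg.Statements.S4730
import Cfsg.Agent.Blk.Defect2

set_option autoImplicit false
open Cfsg

namespace Cfsg.Agent.S4730

/-- Let p be a prime, M a maximal ideal of the algebraic integers containing p, and G a finite group with trivial centre, Sylow p-subgroup P of order p^a and centre Z(P) of order p^b. If χ is a faithful irreducible character of G whose degree is a power of p, then the p-block of χ has defect at most a − b; in particular, if P is abelian then χ lies in a block of defect zero. -/
theorem result {G : Type*} [Group G] [Finite G] (p : ℕ) [Fact p.Prime] (M : Ideal Cfsg.AlgInt) (hM : Cfsg.IsPModular p M) (hZ : Subgroup.center G = ⊥) (P : Sylow p G) (a b : ℕ) (ha : Nat.card P = p ^ a) (hb : Nat.card (Subgroup.center ↥(P : Subgroup G)) = p ^ b) (χ : Cfsg.IrrCharacter G) (hfaith : ∀ g : G, (χ : G → ℂ) g = (χ : G → ℂ) 1 → g = 1) (n : ℕ) (hdeg : Cfsg.charDegree (χ : G → ℂ) = p ^ n) : Cfsg.blockDefect p (Cfsg.blockOf M (χ : G → ℂ)) ≤ a - b ∧ (IsMulCommutative ↥(P : Subgroup G) → Cfsg.blockDefect p (Cfsg.blockOf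 M (χ : G → ℂ)) = 0) := by
  have hker : CL.Char.charKer (χ : G → ℂ) = ⊥ :=
    eq_bot_iff.mpr fun g hg => hfaith g (χ.2.mem_charKer.mp hg)
  have hcen := χ.2.charCenter_eq_center hker
  have hle : (Subgroup.center (P : Subgroup G)).map (P : Subgroup G).subtype ≤
      Subgroup.centralizer ((P : Subgroup G) : Set G) := by
    rintro _ ⟨z, hz, rfl⟩ u hu
    exact congrArg Subtype.val (Subgroup.mem_center_iff.mp hz ⟨u, hu⟩)
  have hχ := CL.Blk.tr_mem_blockOf_self hM χ
  have h2 := CL.Blk.factorization_card_le_minExp_of_vanish hM (CL.Blk.tr_isPBlock_blockOf χ) P hle hχ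
    fun z hz hz1 => (CL.Blk.irr_eq_zero_or_mem_charCenter_of_coprime χ (by
      rw [hdeg]
      exact Nat.Coprime.pow_left _ ((Nat.Prime.coprime_iff_not_dvd hM.1).mpr
        (CL.Blk.not_dvd_index_centralizer_of_mem_center_sylow P (hle hz))))).resolve_right
        (by rw [hcen, hZ]; exact hz1)
  rw [CL.Grp.card_map_subtype, hb, Nat.Prime.factorization_pow hM.1, Finsupp.single_eq_same] at h2
  have h3 := CL.Blk.minExp_add_blockDefect (p := p) ⟨χ, hχ⟩
  have h4 : (Nat.card G).factorization p = a := by
    have := P.card_eq_multiplicity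
    exact Nat.pow_right_injective hM.1.two_le (this.symm.trans ha)
  refine ⟨by omega, fun hc => ?_⟩
  have h5 : Subgroup.center (P : Subgroup G) = ⊤ := Subgroup.center_eq_top_iff.mpr hc
  rw [h5, Subgroup.card_top] at hb
  have h6 : a = b := Nat.pow_right_injective hM.1.two_le (ha.symm.trans hb)
  omega

end Cfsg.Agent.S4730
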