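import Cfsg.Statements.S4734
import Cfsg.Agent.Blk.Kernel

set_option autoImplicit false
open Cfsg

namespace Cfsg.Agent.S4734

/-- Let p be a prime, π a set of primes containing p, M a maximal ideal of the algebraic integers containing p, B a p-block of the finite group G with defect group D, and B₁ the block of N_G(D) with defect group D inducing B. Write O_π'(X) for the largest normal subgroup of X whose order has no prime divisor in π, and suppose every element of O_π'(N_G(D)) lies in the kernel of every member of B₁. Let G₀ be a subgroup and B₀ a block of G₀ with defect group D₀ such that C_G(D₀) ≤ G₀ and B₀ induces B. Then every element of O_π'(G₀) lies in the kernel of every member of B₀. -/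
theorem result {G : Type*} [Group G] [Finite G] (p : ℕ) [Fact p.Prime] (M : Ideal Cfsg.AlgInt) (hM : Cfsg.IsPModular p M) (π : Set ℕ) (hpπ : p ∈ π) (B : Set (Cfsg.IrrCharacter G)) (hB : Cfsg.IsPBlock M B) (D : Subgroup G) (hBD : Cfsg.IsDefectGroup p M B D) (B₁ : Set (Cfsg.IrrCharacter ↥(Subgroup.normalizer (D : Set G)))) (hB₁ : Cfsg.IsInducedBlock M (Subgroup.normalizer (D : Set G)) B₁ B) (hB₁D : Cfsg.IsDefectGroup p M B₁ (D.subgroupOf (Subgroup.normalizer (D : Set G)))) (hker : ∀ n : ↥(Subgroup.normalizer (D : Set G)), n ∈ Cfsg.piCore {q | q ∉ π} ↥(Subgroup.normalizer (D : Set G)) → n ∈ Cfsg.blockKer B₁) (G₀ : Subgroup G) (B₀ : Set (Cfsg.IrrCharacter ↥G₀)) (hB₀ : Cfsg.IsInducedBlock M G₀ B₀ B) (D₀ : Subgroup ↥G₀) (hD₀ : Cfsg.IsDefectGroup p M B₀ D₀) (hC : Subgroup.centralizer ((D₀.map G₀.subtype : Subgroup G) : Set G) ≤ G₀) : ∀ x : ↥G₀, x ∈ Cfsg.piCore {q | q ∉ π} ↥G₀ → x ∈ Cfsg.blockKer B₀ := by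
  haveI := CL.Blk.charP_resField hM
  have hp : p ∉ {q | q ∉ π} := fun h => h hpπ
  have hQ := (CL.Blk.Pair.isDefectGroup_iff_isDef hM hB₀.1).1 hD₀
  have hb := CL.Blk.Pair.isBlk_hat hM hB₀.1
  obtain ⟨f, hf, hbf⟩ := CL.Blk.Pair.IsPair.exists_above (N := ⊤) hQ.pgroup
    (CL.Blk.Pair.suppIn_top _) (hb.fix.mono (inf_le_right.trans hC)) (hb.fix.mono hQ.le) hb.idem
    hQ.br_ne
  have h1 := CL.Blk.br_eBlk_mul_br_hat_of_isInducedBlock hM hB₀ hQ.pgroup hQ.le hC
  have h2 := CL.Blk.Pair.kerIn_pair_of_kerIn_br hp (CL.Blk.Pair.isBlk_eBlk hM hB)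
    ((CL.Blk.Pair.isDefectGroup_iff_isDef_top hM hB).1 hBD)
    (CL.Blk.Pair.hat_eq_br_of_isInducedBlock_normalizer hM hB₁ hBD ▸
      (CL.Blk.Pair.kerIn_piCoreOf_hat_iff hM hp hB₁.1).2 hker) hf
    (by rw [← hbf, ← mul_assoc, h1])
  exact (CL.Blk.Pair.kerIn_piCoreOf_hat_iff hM hp hB₀.1).1 (hb.kerIn_of_br
    (CL.Blk.Pair.not_dvd_card_piCoreOf hp _) (CL.Grp.piCoreOf_le _ _)
    (CL.Grp.le_normalizer_piCoreOf _ _) hQ.pgroup hQ.le hf.blk.ne_zero hbf
    (h2.mono (CL.Grp.piCoreOf_inf_le hC)))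

end Cfsg.Agent.S4734
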