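import Cfsg.Statements.S4735
import Cfsg.Agent.Blk.PrincCrit2

set_option autoImplicit false
open Cfsg

namespace Cfsg.Agent.S4735

/-- Let p be a prime, M a maximal ideal of the algebraic integers containing p, G a finite group, H = O_p'(G) and Ḡ = G/H. For x ∈ G write λ(G, x) for the sum of |χ(x)|^2 over the irreducible characters χ in the principal p-block of G. Then λ(G, x) is a positive integer, λ(G, x) = λ(Ḡ, x̄) where x̄ is the image of x, and λ(G, x) ≤ #C_Ḡ(x̄). Moreover λ(G, 1) = [G : H] if and only if the principal block is the only p-block of Ḡ. -/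
theorem result {G : Type*} [Group G] [Finite G] (p : ℕ) [Fact p.Prime] (M : Ideal Cfsg.AlgInt) (hM : Cfsg.IsPModular p M) (x : G) : (∃ n : ℕ, 0 < n ∧ ∑ᶠ χ ∈ Cfsg.principalBlock M G, Complex.normSq ((χ : G → ℂ) x) = n) ∧ ∑ᶠ χ ∈ Cfsg.principalBlock M G, Complex.normSq ((χ : G → ℂ) x) = ∑ᶠ ψ ∈ Cfsg.principalBlock M (G ⧸ Cfsg.pPrimeCore p G), Complex.normSq ((ψ : G ⧸ Cfsg.pPrimeCore p G → ℂ) (QuotientGroup.mk x)) ∧ ∑ᶠ χ ∈ Cfsg.principalBlock M G, Complex.normSq ((χ : G → ℂ) x) ≤ (Nat.card ↥(Subgroup.centralizer ({(QuotientGroup.mk x : G ⧸ Cfsg.pPrimeCore p G)} : Set (G ⧸ Cfsg.pPrimeCore p G))) : ℝ) ∧ ((∑ᶠ χ ∈ Cfsg.principalBlock M G, Cfsg.charDegree (χ : G → ℂ) ^ 2) = (Cfsg.pPrimeCore p G).index ↔ ∀ B : Set (Cfsg.IrrCharacter (G ⧸ Cfsg.pPrimeCore p G)), Cfsg.IsPBlock M B → B = Cfsg.principalBlock M (G ⧸ Cfsg.pPrimeCore p G)) := by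
  classical
  have hk : ¬ p ∣ Nat.card (QuotientGroup.mk' (Cfsg.pPrimeCore p G)).ker := by
    rw [QuotientGroup.ker_mk']; exact CL.Grp.not_dvd_card_pPrimeCore p G
  have hs := QuotientGroup.mk'_surjective (Cfsg.pPrimeCore p G)
  simp only [CL.Blk.finsum_mem_irr_eq_sum]
  have h2 := CL.Blk.sum_principal_comp_of_ker hM _ hs hk (fun χ => Complex.normSq (χ x))
  refine ⟨?_, h2, ?_, ?_⟩
  · have hΘ : Cfsg.IsCharacter G (∑ χ : Cfsg.IrrCharacter G with χ ∈ Cfsg.principalBlock M G,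
        (χ : G → ℂ) * fun g => (starRingEnd ℂ) ((χ : G → ℂ) g)) :=
      CL.Char.isCharacter_sum _ _ fun χ _ => χ.2.isCharacter.mul χ.2.isCharacter.conj
    obtain ⟨z, hz⟩ := CL.Char.genChar_exists_int_of_forall_pow hΘ.isGeneralizedCharacter (g := x)
      fun m hm => by
        simp only [Finset.sum_apply, Pi.mul_apply]
        exact CL.Blk.sum_principal_pow hM hm (fun χ => χ x * (starRingEnd ℂ) (χ x))
    simp only [Finset.sum_apply, Pi.mul_apply, Complex.mul_conj] at hz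
    have hz' : ∑ χ : Cfsg.IrrCharacter G with χ ∈ Cfsg.principalBlock M G,
        Complex.normSq ((χ : G → ℂ) x) = z := by exact_mod_cast hz
    have h1 : (1 : ℝ) ≤ z := by
      rw [← hz']
      refine le_trans (by simp) (Finset.single_le_sum (a := CL.Char.irrOne G)
        (f := fun χ : Cfsg.IrrCharacter G => Complex.normSq ((χ : G → ℂ) x))
        (fun _ _ => Complex.normSq_nonneg _) (by simpa using CL.Blk.irrOne_mem_principal hM))
    have h1' : 1 ≤ z := by exact_mod_cast h1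
    refine ⟨z.toNat, by omega, ?_⟩
    rw [hz']
    exact_mod_cast (Int.toNat_of_nonneg (by omega)).symm
  · rw [h2, ← CL.Char.sum_irr_norm_sq]
    simp only [Complex.normSq_eq_norm_sq]
    exact Finset.sum_le_sum_of_subset_of_nonneg (Finset.filter_subset _ _) fun _ _ _ => by positivity
  · rw [CL.Blk.sum_principal_comp_of_ker hM _ hs hk (fun χ => Cfsg.charDegree χ ^ 2),
      Subgroup.index_eq_card, ← CL.Char.sum_charDegree_sq]
    have e : ∀ ψ : Cfsg.IrrCharacter (G ⧸ Cfsg.pPrimeCore p G),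
        Cfsg.charDegree (fun g => (ψ : G ⧸ Cfsg.pPrimeCore p G → ℂ) (QuotientGroup.mk' _ g)) =
          Cfsg.charDegree (ψ : G ⧸ Cfsg.pPrimeCore p G → ℂ) := fun ψ => by
      simp only [Cfsg.charDegree, map_one]
    simp only [e]
    constructor
    · intro h B hB
      obtain ⟨ψ, hψ⟩ := CL.Blk.pblock_nonempty hM hB
      refine CL.Blk.pblock_eq_of_mem hM hB (CL.Blk.isPBlock_principal M) hψ ?_
      by_contra hn
      refine absurd h (ne_of_lt ?_)
      refine Finset.sum_lt_sum_of_subset (Finset.filter_subset _ _) (Finset.mem_univ ψ)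
        (by simpa using hn) (pow_pos (CL.Blk.charDegree_pos ψ.2) 2) fun _ _ _ => Nat.zero_le _
    · intro h
      rw [Finset.filter_true_of_mem]
      intro ψ _
      rw [← h _ (CL.Blk.isPBlock_blockOf_irr M ψ)]
      exact CL.Blk.self_mem_blockOf hM ψ

end Cfsg.Agent.S4735
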