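import Cfsg.Statements.S4736
import Cfsg.Agent.Blk.FongP2

set_option autoImplicit false
open Cfsg

namespace Cfsg.Agent.S4736

/-- Let p be a prime, M a maximal ideal of the algebraic integers containing p, and G a finite p-solvable group with Sylow p-subgroup P. Then P is abelian if and only if every irreducible character in the principal p-block of G has height zero. -/
theorem result {G : Type*} [Group G] [Finite G] (p : ℕ) [Fact p.Prime] (M : Ideal Cfsg.AlgInt) (hM : Cfsg.IsPModular p M) (hsolv : Cfsg.IsPSolvable p G) (P : Sylow p G) : IsMulCommutative P ↔ ∀ χ ∈ Cfsg.principalBlock M G, Cfsg.blockHeight p (Cfsg.principalBlock M G) (χ : G → ℂ) = 0 := by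
  have hG := CL.Loc.isPConstrained_of_isPSolvable hsolv
  have hmin : CL.Blk.minExp p (principalBlock M G) = 0 :=
    (CL.Blk.blockDefect_eq_full_iff ⟨_, CL.Blk.irrOne_mem_principal hM⟩).1
      (CL.Blk.blockDefect_principal hM)
  constructor
  · intro hP χ hχ
    have h1 := CL.Blk.fong_blockHeight_le hM hsolv (CL.Blk.isPBlock_principal M)
      (CL.Blk.isDefectGroup_principal_sylow hM P) hχ
    have h2 : Subgroup.center (P : Subgroup G) = ⊤ := by
      rw [eq_top_iff]
      intro x _
      exact Subgroup.mem_center_iff.2 fun y => hP.is_comm.comm y x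
    rw [h2, Subgroup.index_top, Nat.factorization_one] at h1
    exact Nat.le_zero.1 h1
  · intro h
    set K := pPrimeCore p G
    have h1 : ∀ χ : G ⧸ K → ℂ, IsIrrCharacter (G ⧸ K) χ → ¬ p ∣ charDegree χ := by
      intro χ hχ
      have h2 := h (CL.Blk.inflIrr K ⟨χ, hχ⟩) (by
        rw [CL.Blk.principalBlock_eq_range_inflIrr hM hG]
        exact ⟨_, rfl⟩)
      rw [CL.Blk.blockHeight_def, hmin, Nat.sub_zero, CL.Blk.charDegree_inflIrr] at h2
      intro hd
      exact (Nat.Prime.factorization_pos_of_dvd Fact.out (CL.Blk.charDegree_ne_zero hχ) hd).ne' h2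
    have h3 := ((CL.Char.ito_normal_abelian_sylow_iff (CL.Loc.isPSolvable_quotient hsolv K)
      (P.mapSurjective (QuotientGroup.mk'_surjective K))).2 h1).2
    refine ⟨⟨fun a b => Subtype.ext ?_⟩⟩
    have h4 := h3 _ ⟨a, a.2, rfl⟩ _ ⟨b, b.2, rfl⟩
    rw [← map_mul, ← map_mul, QuotientGroup.mk'_apply, QuotientGroup.mk'_apply,
      QuotientGroup.eq] at h4
    have h5 : ((a : G) * b)⁻¹ * (b * a) ∈ (P : Subgroup G) ⊓ K :=
      Subgroup.mem_inf.2 ⟨mul_mem (inv_mem (mul_mem a.2 b.2)) (mul_mem b.2 a.2), h4⟩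
    rw [CL.Grp.inf_pPrimeCore_eq_bot P.isPGroup', Subgroup.mem_bot, inv_mul_eq_one] at h5
    exact h5

end Cfsg.Agent.S4736
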