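import Cfsg.Statements.S4959
import Cfsg.Agent.Char.RealVec4

set_option autoImplicit false
open Cfsg

namespace Cfsg.Agent.S4959

/-- Let X be a finite group and V a normal subgroup of X in which every element has order dividing the prime p, whose index in X is prime to p and which is its own centralizer in X; so V is an elementary abelian normal Sylow p-subgroup, and any complement G to V in X is a group of order prime to p acting faithfully on the vector space V by conjugation (the coprime linear setting of the k(GV) problem). Let G be a complement to V in X, let v be in V and let H be the centralizer of v in G. Suppose there is a subgroup U of V normalized by H, on which H acts faithfully, and carrying an H-invariant bi-additive pairing β with values in the integers modulo p that is nondegenerate on U (equivalently: the restriction of the module V to H has a faithful self-dual submodule; such a v is called a real vector for G). Then the number of conjugacy classes of X is at most the order of V (the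 real-vector criterion for the k(GV) problem). The pairing is given as a function on X whose relevant values are those on pairs from U. -/
theorem result {X : Type*} [Group X] [Finite X] (p : ℕ) [Fact p.Prime] (V : Subgroup X) [V.Normal] (hVexp : ∀ v ∈ V, v ^ p = 1) (hidx : ¬ p ∣ V.index) (hself : Subgroup.centralizer (V : Set X) = V) (G : Subgroup X) (hGV : Subgroup.IsComplement' V G) (v : X) (hv : v ∈ V) (U : Subgroup X) (hUV : U ≤ V) (hUinv : ∀ h ∈ G, h * v * h⁻¹ = v → ∀ u ∈ U, h * u * h⁻¹ ∈ U) (hUfaith : ∀ h ∈ G, h * v * h⁻¹ = v → (∀ u ∈ U, h * u * h⁻¹ = u) → h = 1) (β : X → X → ZMod p) (hβl : ∀ u ∈ U, ∀ u' ∈ U, ∀ w ∈ U, β (u * u') w = β u w + β u' w) (hβr : ∀ u ∈ U, ∀ w ∈ U, ∀ w' ∈ U, β u (w * w') = β u w + β u w') (hβinv : ∀ h ∈ G, h * v * h⁻¹ = v → ∀ u ∈ U, ∀ w ∈ U, β (h * u * h⁻¹) (h * w * h⁻¹) = β u w) (hβnd : ∀ u ∈ U, (∀ w ∈ U, β u w = 0) → u = 1) : Nat.card (ConjClasses X) ≤ Nat.card V := by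
  classical
  have hVab : ∀ a ∈ V, ∀ b ∈ V, a * b = b * a := fun a ha b hb => (hself.ge hb) a ha
  let _ := Fintype.ofFinite ↥(G ⊓ Subgroup.centralizer ({v} : Set X))
  have hG : ¬ p ∣ Nat.card G := by rwa [← hGV.symm.index_eq_card]
  have hH : ¬ p ∣ Nat.card ↥(G ⊓ Subgroup.centralizer ({v} : Set X)) := fun h =>
    hG (h.trans (Subgroup.card_dvd_of_le inf_le_left))
  have cv : ∀ h : ↥(G ⊓ Subgroup.centralizer ({v} : Set X)), (h : X) * v * (h : X)⁻¹ = v := fun h =>
    mul_inv_eq_iff_eq_mul.2 (Subgroup.mem_centralizer_singleton_iff.1 h.2.2)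
  let _ : CommGroup U := { (inferInstance : Group U) with
    mul_comm := fun a b => Subtype.ext (hVab _ (hUV a.2) _ (hUV b.2)) }
  have hN : G ⊓ Subgroup.centralizer ({v} : Set X) ≤ Subgroup.normalizer (U : Set X) := fun h hh =>
    Subgroup.mem_normalizer_fintype (hUinv h hh.1 (cv ⟨h, hh⟩))
  obtain ⟨k, γ, hγ, h1, h2⟩ := CL.Char.RV.root_grp (A := U) (fun a => Subtype.ext (hVexp _ (hUV a.2))) hH
    (U.normalizerMonoidHom.comp (Subgroup.inclusion hN)) (fun a b => β a b) (fun a b c => hβl _ a.2 _ b.2 _ c.2)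
    (fun a b c => hβr _ a.2 _ b.2 _ c.2) (fun g a b => hβinv g g.2.1 (cv g) _ a.2 _ b.2)
    fun a e => Subtype.ext (hβnd _ a.2 fun w hw => e ⟨w, hw⟩)
  refine CL.Char.RV.bound hVexp hidx hVab hGV hv hγ (fun h hn e => hn (Subtype.ext
    (hUfaith h h.2.1 (cv h) fun u hu => congrArg Subtype.val (h1 h e ⟨u, hu⟩)))) fun h => ?_
  have e1 := CL.Grp.card_sup_mul_card_inf (H := V ⊓ Subgroup.centralizer ({(h : X)} : Set X)) (K := U)
    fun x hx => Subgroup.mem_normalizer_fintype fun u hu => by rwa [hVab x hx.1 u (hUV hu), mul_inv_cancel_right]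
  have e4 := h2 h
  have e5 : 0 < Nat.card {a // (U.normalizerMonoidHom.comp (Subgroup.inclusion hN)) h a = a} :=
    @Nat.card_pos _ ⟨⟨1, map_one _⟩⟩ _
  have e2 : Nat.card ↥(V ⊓ Subgroup.centralizer ({(h : X)} : Set X) ⊓ U) ≤
      Nat.card {a // (U.normalizerMonoidHom.comp (Subgroup.inclusion hN)) h a = a} :=
    Nat.card_le_card_of_injective (fun x => ⟨⟨x, x.2.2⟩, Subtype.ext
      (mul_inv_eq_iff_eq_mul.2 (Subgroup.mem_centralizer_singleton_iff.1 x.2.1.2).symm)⟩)
      fun x y e => Subtype.ext (congrArg (fun z => (z.1 : X)) e)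
  generalize Nat.card {a // (U.normalizerMonoidHom.comp (Subgroup.inclusion hN)) h a = a} = n at e2 e4 e5
  have e3 := Subgroup.card_le_of_le (sup_le (inf_le_left : V ⊓ Subgroup.centralizer ({(h : X)} : Set X) ≤ V) hUV)
  refine Nat.le_of_mul_le_mul_right ?_ e5
  calc _ = Nat.card ↥(V ⊓ Subgroup.centralizer ({(h : X)} : Set X)) * (k h * n) := by ring
    _ ≤ _ := Nat.mul_le_mul_left _ e4
    _ = _ := e1.symm
    _ ≤ _ := Nat.mul_le_mul e3 e2

end Cfsg.Agent.S4959
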