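import Cfsg.Statements.S4964
import Cfsg.Agent.Blk.Quot
import Cfsg.Agent.Grp.Coprime2

set_option autoImplicit false
open Cfsg

namespace Cfsg.Agent.S4964

/-- Let D be a normal p-subgroup of the finite group G, let D′ be its commutator subgroup (normal in G), and fix a maximal ideal M of the algebraic integers containing p. Then (i) two irreducible characters of G ⧸ D′ lie in the same p-block if and only if their inflations to G do, and (ii) every p-block of G contains the inflation of some irreducible character of G ⧸ D′; so inflation induces a bijection between the p-blocks of G ⧸ D′ and the p-blocks of G. -/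
theorem result {G : Type*} [Group G] [Finite G] (p : ℕ) [Fact p.Prime] (M : Ideal Cfsg.AlgInt) (hM : Cfsg.IsPModular p M) (D : Subgroup G) [D.Normal] (hD : IsPGroup p D) : (∀ χ ψ : Cfsg.IrrCharacter (G ⧸ ⁅D, D⁆), Cfsg.SameBlock M (χ : G ⧸ ⁅D, D⁆ → ℂ) (ψ : G ⧸ ⁅D, D⁆ → ℂ) ↔ Cfsg.SameBlock M ((χ : G ⧸ ⁅D, D⁆ → ℂ) ∘ QuotientGroup.mk) ((ψ : G ⧸ ⁅D, D⁆ → ℂ) ∘ QuotientGroup.mk)) ∧ ∀ B : Set (Cfsg.IrrCharacter G), Cfsg.IsPBlock M B → ∃ χ : Cfsg.IrrCharacter (G ⧸ ⁅D, D⁆), ∃ θ ∈ B, (θ : G → ℂ) = (χ : G ⧸ ⁅D, D⁆ → ℂ) ∘ QuotientGroup.mk := by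
  have hle : ⁅D, D⁆ ≤ D := Subgroup.commutator_le_left D D
  have hD' : IsPGroup p (⁅D, D⁆ : Subgroup G) := hD.to_le hle
  refine ⟨fun χ ψ => ⟨CL.Blk.sameBlock_inflIrr hM,
    CL.Blk.sameBlock_of_inflIrr_of_centralizer hM hD' fun g hg h0 => ?_⟩, fun B hB => ?_⟩
  · have hN : (D.map (QuotientGroup.mk' ⁅D, D⁆)).Normal :=
      Subgroup.Normal.map inferInstance _ (QuotientGroup.mk'_surjective _)
    have h1 : (g : G ⧸ ⁅D, D⁆) ∈ Subgroup.centralizer
        ((D.map (QuotientGroup.mk' ⁅D, D⁆) : Subgroup (G ⧸ ⁅D, D⁆)) : Set (G ⧸ ⁅D, D⁆)) := by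
      by_contra h1
      exact h0 (CL.Blk.cv_coeff_eBlk_eq_zero_of_notMem_centralizer hM
        (CL.Blk.tr_isPBlock_blockOf χ) (hD.map _) h1)
    have h2 : Subgroup.zpowers g ≤ Subgroup.centralizer (D : Set G) := by
      refine CL.Grp.le_centralizer_of_commutator_le_frattini Subgroup.le_normalizer_of_normal ?_ ?_
      · rw [Nat.card_zpowers]
        obtain ⟨k, hk⟩ := IsPGroup.iff_card.1 (hD.to_subgroup (frattini D))
        rw [hk]
        exact Nat.Coprime.pow_right k ((Nat.Prime.coprime_iff_not_dvd hM.1).2 hg).symm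
      · refine le_trans ?_ ((CL.Grp.map_subtype_frattini_le_iff hD).1 le_rfl).1
        rw [Subgroup.commutator_le]
        intro d hd y hy
        rw [← QuotientGroup.eq_one_iff, ← QuotientGroup.mk'_apply, map_commutatorElement,
          commutatorElement_eq_one_iff_mul_comm]
        obtain ⟨n, rfl⟩ := Subgroup.mem_zpowers_iff.1 hy
        rw [map_zpow]
        exact (Subgroup.zpow_mem _ h1 n) _ ⟨d, hd, rfl⟩
    exact Subgroup.centralizer_le hle (h2 (Subgroup.mem_zpowers g))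
  · obtain ⟨χ, hχ⟩ := CL.Blk.preimage_inflIrr_nonempty hM hD' hB
    exact ⟨χ, _, hχ, rfl⟩

end Cfsg.Agent.S4964
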