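import Cfsg.Statements.S4967
import Cfsg.Agent.Char.SelfDualAb

set_option autoImplicit false
open Cfsg

namespace Cfsg.Agent.S4967

/-- Let F be a finite field with r elements and of characteristic p, H a finite abelian group of order prime to p, and V a faithful irreducible representation of H over F of dimension n (faithful: distinct elements act differently; irreducible: the only H-invariant subspaces are 0 and V). Call V self-dual when it carries a nondegenerate H-invariant bilinear form. If n = 1 and V is self-dual then H has order at most 2. If n ≥ 2 then V is self-dual if and only if n is even and the order of H divides r^(n/2) + 1. -/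
theorem result {F : Type*} [Field F] [Fintype F] (p : ℕ) [Fact p.Prime] [CharP F p] {H : Type*} [CommGroup H] [Finite H] (hcop : ¬ p ∣ Nat.card H) {V : Type*} [AddCommGroup V] [Module F V] [FiniteDimensional F V] (ρ : Representation F H V) (hfaith : Function.Injective ρ) (hirr : ∀ U : Submodule F V, (∀ h : H, ∀ u ∈ U, ρ h u ∈ U) → U = ⊥ ∨ U = ⊤) : (Module.finrank F V = 1 → (∃ B : LinearMap.BilinForm F V, B.Nondegenerate ∧ ∀ h : H, ∀ x y : V, B (ρ h x) (ρ h y) = B x y) → Nat.card H ≤ 2) ∧ (2 ≤ Module.finrank F V → ((∃ B : LinearMap.BilinForm F V, B.Nondegenerate ∧ ∀ h : H, ∀ x y : V, B (ρ h x) (ρ h y) = B x y) ↔ (Even (Module.finrank F V) ∧ Nat.card H ∣ Fintype.card F ^ (Module.finrank F V / 2) + 1))) := by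
  by_cases hV : Nontrivial V
  swap
  · rw [not_nontrivial_iff_subsingleton] at hV
    have h0 : Module.finrank F V = 0 := Module.finrank_zero_of_subsingleton
    exact ⟨fun h => by omega, fun h => by omega⟩
  obtain ⟨K, _, _, j, e, hspan, he⟩ := CL.Char.SelfDual.exists_field_model ρ hirr
  have : Finite V := Module.finite_of_finite F
  have : Finite K := Finite.of_equiv V e.symm.toEquiv
  have hj : Function.Injective j := fun a b hab => hfaith (LinearMap.ext fun v => by
    obtain ⟨x, rfl⟩ := e.surjective v
    rw [← he, ← he, hab])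
  have hrank : Module.finrank F K = Module.finrank F V := e.finrank_eq
  have key : (∃ B : LinearMap.BilinForm F V, B.Nondegenerate ∧ ∀ h : H, ∀ x y : V, B (ρ h x) (ρ h y) = B x y) →
      ∃ i < Module.finrank F V, Module.finrank F V ∣ 2 * i ∧ Nat.card H ∣ Fintype.card F ^ i + 1 ∧
        (i = 0 → Module.finrank F V ≤ 1) := by
    rintro ⟨B, hB, hinv⟩
    rw [← hrank]
    refine CL.Char.SelfDual.exists_of_form j hj hspan (B.comp e.toLinearMap e.toLinearMap)
      ⟨fun x hx => e.injective ?_, fun y hy => e.injective ?_⟩ fun h x y => ?_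
    · rw [map_zero]
      refine hB.1 _ fun v => ?_
      obtain ⟨y, rfl⟩ := e.surjective v
      exact hx y
    · rw [map_zero]
      refine hB.2 _ fun v => ?_
      obtain ⟨x, rfl⟩ := e.surjective v
      exact hy x
    · change B (e (j h * x)) (e (j h * y)) = B (e x) (e y)
      rw [he, he, hinv]
  refine ⟨fun h1 hB => ?_, fun h2 => ⟨fun hB => ?_, fun ⟨_, hd⟩ => ?_⟩⟩
  · obtain ⟨i, hi, -, hd, -⟩ := key hB
    have : i = 0 := by omega
    subst this
    exact Nat.le_of_dvd two_pos hd
  · obtain ⟨i, hi, ⟨c, hc⟩, hd, h0⟩ := key hB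
    have hi0 : i ≠ 0 := fun h => by have := h0 h; omega
    have hc1 : c = 1 := by
      rcases c with _ | _ | c
      · omega
      · rfl
      · nlinarith
    subst hc1
    have : Module.finrank F V / 2 = i := by omega
    exact ⟨⟨i, by omega⟩, this ▸ hd⟩
  · obtain ⟨B, hB, hinv⟩ := CL.Char.SelfDual.exists_form_of_dvd (F := F) j hd
    refine ⟨B.comp e.symm.toLinearMap e.symm.toLinearMap,
      ⟨fun x hx => e.symm.injective ?_, fun y hy => e.symm.injective ?_⟩, fun h x y => ?_⟩
    · rw [map_zero]
      refine hB.1 _ fun v => ?_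
      obtain ⟨y, rfl⟩ := e.symm.surjective v
      exact hx y
    · rw [map_zero]
      refine hB.2 _ fun v => ?_
      obtain ⟨x, rfl⟩ := e.symm.surjective v
      exact hy x
    · obtain ⟨x, rfl⟩ := e.surjective x
      obtain ⟨y, rfl⟩ := e.surjective y
      change B (e.symm (ρ h (e x))) (e.symm (ρ h (e y))) = B (e.symm (e x)) (e.symm (e y))
      rw [← he, ← he]
      simp only [LinearEquiv.symm_apply_apply]
      exact hinv h x y

end Cfsg.Agent.S4967
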