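import Cfsg.Statements.S5006
import Cfsg.Agent.Blk.OneBlock

set_option autoImplicit false
open Cfsg

namespace Cfsg.Agent.S5006

/-- All irreducible complex characters of the Mathieu group `M₂₄` lie in a single 2-block: any two of them lie in the same block relative to every maximal ideal of the algebraic integers containing 2. -/
theorem result (M : Ideal Cfsg.AlgInt) (hM : Cfsg.IsPModular 2 M)
    (χ ψ : Cfsg.IrrCharacter ↥Cfsg.M24) : Cfsg.SameBlock M (χ : ↥Cfsg.M24 → ℂ) (ψ : ↥Cfsg.M24 → ℂ) := by
  exact CL.Blk.tr_sameBlock_of_mem hM CL.Blk.tr_isPBlock_principalBlock (CL.Blk.mem_principal_M24 hM χ)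
    (CL.Blk.mem_principal_M24 hM ψ)

end Cfsg.Agent.S5006
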