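import Cfsg.Statements.S5008
import Cfsg.Agent.S0938
import Cfsg.Agent.Blk.TildeInt
import Cfsg.Agent.Blk.Transport
import Cfsg.Agent.Char.Galois
import Cfsg.Agent.Grp.PNilp

set_option autoImplicit false
open Cfsg
open scoped commutatorElement

namespace Cfsg.Agent.S5008

/-- Let `G` be a finite group and `p` a prime dividing the size of no vanishing conjugacy class of `G` (a class of an element on which some irreducible complex character takes the value zero). Then `G` has a normal `p`-complement and abelian Sylow `p`-subgroups. The known proof uses the classification of finite simple groups. -/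
theorem result {G : Type*} [Group G] [Finite G] (p : ℕ) [Fact p.Prime]
    (h : ∀ x : G, (∃ χ : Cfsg.IrrCharacter G, (χ : G → ℂ) x = 0) → ¬ p ∣ (Subgroup.centralizer ({x} : Set G)).index) :
    Cfsg.HasNormalPComplement p G ∧ ∀ P : Sylow p G, IsMulCommutative (P : Subgroup G) := by
  classical
  obtain ⟨M, hM⟩ := CL.Blk.exists_isPModular (p := p) Fact.out
  obtain ⟨K, hKn, hK, hKp, -, -⟩ := Cfsg.Agent.S0938.result p M hM (principalBlock M G)
    CL.Blk.tr_isPBlock_principalBlock (CL.Char.irrOne G) (CL.Blk.tr_irrOne_mem_principalBlock hM)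
  have hlin : ∀ χ ∈ principalBlock M G, (χ : G → ℂ) 1 = 1 := by
    intro χ hχ
    by_contra h1
    obtain ⟨x, hx⟩ := CL.Char.irr_exists_eq_zero χ.2 h1
    have h2 := hχ x
    simp only [centralChar, hx, mul_zero, zero_div, sub_zero, mul_one, div_one] at h2
    exact h x ⟨χ, hx⟩ ((CL.Blk.memLocalIdeal_natCast_iff hM _).1 h2)
  have hcomm : ∀ a b : G, ⁅a, b⁆ ∈ K := by
    intro a b
    have : ⁅a, b⁆ ∈ blockKer (principalBlock M G) := by
      intro χ hχ
      obtain ⟨lam, hlam⟩ := χ.2.isCharacter.exists_monoidHom_of_one (hlin χ hχ)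
      rw [hlam]
      simp [commutatorElement_def, mul_comm, mul_left_comm]
    rw [← hK] at this
    exact this
  have hco : (Nat.card K).Coprime p := ((Nat.Prime.coprime_iff_not_dvd Fact.out).2 hKp).symm
  refine ⟨?_, fun P => ⟨⟨fun a b => ?_⟩⟩⟩
  · letI : CommGroup (G ⧸ K) :=
      { (inferInstance : Group (G ⧸ K)) with
        mul_comm := fun a b => by
          obtain ⟨a, rfl⟩ := QuotientGroup.mk_surjective a
          obtain ⟨b, rfl⟩ := QuotientGroup.mk_surjective b
          rw [← commutatorElement_eq_one_iff_mul_comm]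
          have := (QuotientGroup.eq_one_iff _).2 (hcomm a b)
          simpa [commutatorElement_def] using this }
    exact CL.Grp.hasNormalPComplement_of_quotient_coprime hco
      CL.Grp.hasNormalPComplement_of_isNilpotent
  · have h1 : ⁅(a : G), (b : G)⁆ ∈ (P : Subgroup G) := by
      rw [commutatorElement_def]
      exact mul_mem (mul_mem (mul_mem a.2 b.2) (inv_mem a.2)) (inv_mem b.2)
    have h2 := CL.Grp.eq_one_of_coprime_of_mem P.2 h1
      (hco.coprime_dvd_left (Subgroup.orderOf_dvd_natCard K (hcomm a b)))
    exact Subtype.ext (commutatorElement_eq_one_iff_mul_comm.1 h2)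

end Cfsg.Agent.S5008
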