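import Cfsg.Statements.S5014
import Cfsg.Agent.Chev.RootConj

set_option autoImplicit false
open Cfsg

namespace Cfsg.Agent.S5014

open CL.Chev.Root

/-- Let X = ⟨A, B⟩ be a rank one group with unipotent subgroups A and B and let Ω be the set of conjugates of A under X. Then Ω has at least three members, X acts doubly transitively on Ω by conjugation (any two ordered pairs of distinct members are carried to one another by a single element of X), and A acts regularly on Ω with A removed: for C, D in Ω different from A there is exactly one element of A conjugating C to D. -/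
theorem result {G : Type*} [Group G] {A B : Subgroup G} (h : Cfsg.IsRankOnePair A B) :
    (∃ C₁ ∈ Cfsg.unipotentSubgroups A B, ∃ C₂ ∈ Cfsg.unipotentSubgroups A B, ∃ C₃ ∈ Cfsg.unipotentSubgroups A B,
      C₁ ≠ C₂ ∧ C₁ ≠ C₃ ∧ C₂ ≠ C₃) ∧
    (∀ C₁ ∈ Cfsg.unipotentSubgroups A B, ∀ C₂ ∈ Cfsg.unipotentSubgroups A B, ∀ D₁ ∈ Cfsg.unipotentSubgroups A B,
      ∀ D₂ ∈ Cfsg.unipotentSubgroups A B, C₁ ≠ C₂ → D₁ ≠ D₂ →
        ∃ x ∈ A ⊔ B, Cfsg.conjBy C₁ x = D₁ ∧ Cfsg.conjBy C₂ x = D₂) ∧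
    (∀ C ∈ Cfsg.unipotentSubgroups A B, ∀ D ∈ Cfsg.unipotentSubgroups A B, C ≠ A → D ≠ A →
      ∃! a : G, a ∈ A ∧ Cfsg.conjBy C a = D) := by
  refine ⟨?_, ?_, ?_⟩
  · obtain ⟨a, ha, ha1⟩ := exists_ne_one_of_ne_bot (rk_left_ne_bot h)
    refine ⟨A, left_mem_unip, B, right_mem_unip h, conjBy B a,
      conjBy_mem_unip (right_mem_unip h) (Subgroup.mem_sup_left ha), h.ne,
      (rk_conjBy_right h (conjBy_of_mem ha)).ne, fun he => ha1 (rk_eq_one_of_conjBy_eq h ha he.symm)⟩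
  · intro C₁ h₁ C₂ h₂ D₁ h₃ D₂ h₄ hC hD
    obtain ⟨x, hx, rfl, rfl⟩ := rk_exists_conj_pair h h₁ h₂ hC
    obtain ⟨y, hy, rfl, rfl⟩ := rk_exists_conj_pair h h₃ h₄ hD
    refine ⟨y * x⁻¹, Subgroup.mul_mem _ hy (Subgroup.inv_mem _ hx), ?_, ?_⟩ <;>
      rw [conjBy_conjBy, inv_mul_cancel_right]
  · intro C hC D hD hCA hDA
    obtain ⟨a, ha, rfl⟩ := ((mem_unip_iff h).1 hC).resolve_left hCA
    obtain ⟨a', ha', rfl⟩ := ((mem_unip_iff h).1 hD).resolve_left hDA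
    refine ⟨a' * a⁻¹, ⟨A.mul_mem ha' (A.inv_mem ha), by rw [conjBy_conjBy, inv_mul_cancel_right]⟩, ?_⟩
    rintro y ⟨hy, he⟩
    rw [conjBy_conjBy] at he
    rw [← rk_conjBy_injective h (A.mul_mem hy ha) ha' he, mul_inv_cancel_right]

end Cfsg.Agent.S5014
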