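import Cfsg.Statements.S5015
import Cfsg.Agent.Chev.RootConj

set_option autoImplicit false
open Cfsg

namespace Cfsg.Agent.S5015

open CL.Chev.Root

/-- Let a group Y act doubly transitively on a set Ω with at least three points, and suppose that the stabilizer of a point α contains a nilpotent subgroup A, normalized by that stabilizer, which acts regularly on the points other than α. Then for any y in Y moving α, the subgroups A and y A y⁻¹ are the unipotent subgroups of a rank one group, and the normal closure of A in Y (the subgroup generated by all conjugates of A) is generated by A and y A y⁻¹ alone. -/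
theorem result {Y Ω : Type*} [Group Y] [MulAction Y Ω]
    (h2 : MulAction.IsMultiplyPretransitive Y Ω 2) (hΩ : 3 ≤ ENat.card Ω) (α : Ω) (A : Subgroup Y)
    (hA : A ≤ MulAction.stabilizer Y α) (hAn : ∀ y ∈ MulAction.stabilizer Y α, Cfsg.conjBy A y = A)
    (hnil : Group.IsNilpotent A) (hreg : ∀ β γ : Ω, β ≠ α → γ ≠ α → ∃! a : Y, a ∈ A ∧ a • β = γ)
    (y : Y) (hy : y ∉ MulAction.stabilizer Y α) :
    Cfsg.IsRankOnePair A (Cfsg.conjBy A y) ∧ Subgroup.normalClosure (A : Set Y) = A ⊔ Cfsg.conjBy A y := by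
  classical
  -- the conjugate of `A` by `g` only depends on `g • α`
  have hpt : ∀ g g' : Y, g • α = g' • α → conjBy A g = conjBy A g' := by
    intro g g' he
    rw [conjBy_eq_conjBy_iff]
    refine hAn _ ?_
    rw [MulAction.mem_stabilizer_iff, mul_smul, he, inv_smul_smul]
  -- `A` fixes only `α`
  have hfix : ∀ a ∈ A, ∀ β, β ≠ α → a • β = β → a = 1 := by
    intro a ha β hβ he
    obtain ⟨a₀, -, hu⟩ := hreg β β hβ hβ
    rw [hu a ⟨ha, he⟩, hu 1 ⟨A.one_mem, one_smul _ _⟩]
  have hthird : ∀ β γ : Ω, ∃ δ, δ ≠ β ∧ δ ≠ γ := by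
    intro β γ
    by_contra hc
    push Not at hc
    have hsub : (Set.univ : Set Ω) ⊆ {β, γ} := by
      intro δ _
      by_cases h : δ = β
      · exact Or.inl h
      · exact Or.inr (hc δ h)
    have h1 : ENat.card Ω ≤ 2 := by
      rw [← Set.encard_univ]
      exact (Set.encard_le_encard hsub).trans (by
        refine (Set.encard_insert_le _ _).trans ?_
        rw [Set.encard_singleton]; norm_num)
    have := hΩ.trans h1
    norm_num at this
  -- the main claim, for every pair of conjugates attached to different points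
  have hmove : ∀ g : Y, ∀ β γ : Ω, β ≠ g • α → γ ≠ g • α → ∃ c ∈ conjBy A g, c • β = γ := by
    intro g β γ hβ hγ
    obtain ⟨a, ⟨ha, he⟩, -⟩ := hreg (g⁻¹ • β) (g⁻¹ • γ) (fun h => hβ (by rw [← h, smul_inv_smul]))
      (fun h => hγ (by rw [← h, smul_inv_smul]))
    refine ⟨g * a * g⁻¹, conj_mem_conjBy ha g, ?_⟩
    rw [mul_smul, mul_smul, he, smul_inv_smul]
  have hfix' : ∀ g : Y, ∀ c ∈ conjBy A g, c • (g • α) = g • α ∧ ∀ β, β ≠ g • α → c • β = β → c = 1 := by
    intro g c hc
    obtain ⟨a, ha, rfl⟩ := mem_conjBy_iff_exists.1 hc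
    refine ⟨?_, fun β hβ he => ?_⟩
    · rw [mul_smul, inv_smul_smul, mul_smul, MulAction.mem_stabilizer_iff.1 (hA ha)]
    · have : a = 1 := hfix a ha (g⁻¹ • β) (fun h => hβ (by rw [← h, smul_inv_smul])) (by
        rw [mul_smul, mul_smul] at he
        rw [eq_inv_smul_iff, he])
      rw [this]; group
  have hcond : ∀ g g' : Y, g • α ≠ g' • α → ∀ a ∈ conjBy A g, a ≠ 1 →
      ∃ b ∈ conjBy A g', b ≠ 1 ∧ conjBy (conjBy A g) b = conjBy (conjBy A g') a := by
    intro g g' hne a ha ha1
    have h1 : a • (g' • α) ≠ g' • α := fun he => ha1 ((hfix' g a ha).2 _ hne.symm he)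
    obtain ⟨b, hb, he⟩ := hmove g' (g • α) (a • (g' • α)) hne h1
    refine ⟨b, hb, ?_, ?_⟩
    · rintro rfl
      rw [one_smul] at he
      have h3 := (hfix' g a ha).1
      rw [he] at h3
      exact hne (he.trans (by
        have := (hfix' g a ha).1
        have h4 : a • (g' • α) = a • (g • α) := by rw [this, he]
        rw [← he]
        exact (smul_left_cancel a h4).symm))
    · rw [conjBy_conjBy, conjBy_conjBy]
      exact hpt _ _ (by rw [mul_smul, mul_smul, he])
  have hyα : (1 : Y) • α ≠ y • α := by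
    rw [one_smul]; exact fun h => hy (MulAction.mem_stabilizer_iff.2 h.symm)
  have hpair : IsRankOnePair A (conjBy A y) := by
    refine rk_mk ?_ hnil (isNilpotent_conjBy hnil y) ?_ ?_
    · intro he
      obtain ⟨δ, hδ1, hδ2⟩ := hthird α (y • α)
      rw [one_smul] at hyα
      obtain ⟨a, ⟨ha, hae⟩, -⟩ := hreg (y • α) δ hyα.symm hδ1
      have := (hfix' y a (he ▸ ha)).1
      exact hδ2 (hae.symm.trans this)
    · have := hcond 1 y hyα
      rwa [conjBy_one] at this
    · intro b hb hb1
      obtain ⟨a, ha, ha1, he⟩ := hcond y 1 hyα.symm b hb hb1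
      rw [conjBy_one] at ha he
      exact ⟨a, ha, ha1, he.symm⟩
  refine ⟨hpair, le_antisymm ?_ ?_⟩
  · rw [Subgroup.normalClosure, Subgroup.closure_le]
    intro x hx
    obtain ⟨a, ha, hc⟩ := Group.mem_conjugatesOfSet_iff.1 hx
    obtain ⟨g, rfl⟩ := isConj_iff.1 hc
    have hmem : g * a * g⁻¹ ∈ conjBy A g := conj_mem_conjBy ha g
    by_cases hg : g • α = α
    · rw [hAn g (MulAction.mem_stabilizer_iff.2 hg)] at hmem
      exact Subgroup.mem_sup_left hmem
    · rw [one_smul] at hyα
      obtain ⟨a', ⟨ha', he⟩, -⟩ := hreg (y • α) (g • α) hyα.symm hg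
      rw [hpt g (a' * y) (by rw [mul_smul, he]), ← conjBy_conjBy] at hmem
      exact conjBy_le_of_mem le_sup_right (Subgroup.mem_sup_left ha') hmem
  · refine sup_le Subgroup.le_normalClosure ?_
    intro x hx
    obtain ⟨a, ha, rfl⟩ := mem_conjBy_iff_exists.1 hx
    exact Subgroup.normalClosure_normal.conj_mem _ (Subgroup.le_normalClosure ha) y

end Cfsg.Agent.S5015
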