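import Cfsg.Statements.S5020
import Cfsg.Agent.Chev.RootSpecial

set_option autoImplicit false
open Cfsg

namespace Cfsg.Agent.S5020

/-- Let X be a special rank one group with abelian unipotent subgroups A and B, and H = N(A) ∩ N(B) its diagonal subgroup. Then either A has at most three elements and X is isomorphic to SL₂(2), SL₂(3) or PSL₂(3); or X = X' A with the commutator subgroup X' quasisimple and the commutator subgroup ⁅A, H⁆ having more than three elements. -/
theorem result {X : Type*} [Group X] {A B : Subgroup X} (h : Cfsg.IsRankOneGroup X A B)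
    (hs : Cfsg.IsSpecialRankOnePair A B) (hab : Cfsg.HasAbelianUnipotents A B) :
    (ENat.card A ≤ 3 ∧ (Nonempty (X ≃* Matrix.SpecialLinearGroup (Fin 2) (ZMod 2)) ∨
        Nonempty (X ≃* Matrix.SpecialLinearGroup (Fin 2) (ZMod 3)) ∨
        Nonempty (X ≃* Matrix.ProjectiveSpecialLinearGroup (Fin 2) (ZMod 3)))) ∨
    (commutator X ⊔ A = ⊤ ∧ Cfsg.IsQuasisimple (commutator X) ∧
      3 < ENat.card ↥(⁅A, Cfsg.rankOneDiagonal A B⁆ : Subgroup X)) := by
  open CL.Chev.Root in
  by_cases h3 : 3 < ENat.card A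
  · have h1 : commutator X = ⊤ := by
      have := sp_sup_le_commutator hs hab.1 h3
      rw [h.1] at this
      exact top_le_iff.1 this
    refine Or.inr ⟨by rw [h1, top_sup_eq], ?_, by rwa [sp_comm_diag_eq hs hab.1 h3]⟩
    rw [h1]
    have hq := rkg_isQuasisimple h ⟨h1⟩
    have hT : IsRankOneGroup (⊤ : Subgroup X) (A.subgroupOf ⊤) (B.subgroupOf ⊤) := by
      have := rkg_subgroupOf h.2
      rwa [h.1] at this
    exact rkg_isQuasisimple hT (Group.IsPerfect.top_iff.2 hq.1)
  · refine Or.inl ⟨not_lt.1 h3, ?_⟩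
    have hfin : Finite A := ENat.card_lt_top.1 ((not_lt.1 h3).trans_lt (by decide))
    have hle : Nat.card A ≤ 3 := by
      have := not_lt.1 h3
      rw [ENat.card_eq_coe_natCard] at this
      exact_mod_cast this
    have hgt : 1 < Nat.card A := (Subgroup.one_lt_card_iff_ne_bot A).2 (rk_left_ne_bot h.2)
    obtain ⟨a, ha, ha1⟩ := exists_ne_one_of_ne_bot (rk_left_ne_bot h.2)
    obtain ⟨b, hb, hb1, hp⟩ := rk_exists_right h.2 ha ha1
    have key : ∀ (p : ℕ) [Fact p.Prime], Nat.card A = p →
        ∃ φ : Matrix.SpecialLinearGroup (Fin 2) (ZMod p) →* X, φ.range = ⊤ ∧ φ.ker ≤ Subgroup.center _ := by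
      intro p _ hc
      have hap : a ^ p = 1 := by
        have := pow_card_eq_one' (x := (⟨a, ha⟩ : A))
        rw [hc] at this
        exact congrArg Subtype.val this
      obtain ⟨φ, h1, h2⟩ := sp_exists_sl2 hs ha hb hp hap
      refine ⟨φ, ?_, h2⟩
      have hA : A ≤ φ.range := fun x hx => by
        obtain ⟨n, hn⟩ := mem_zpowers_of_prime_card (g := (⟨a, ha⟩ : A)) (g' := ⟨x, hx⟩) hc
          (fun h => ha1 (congrArg Subtype.val h))
        have : a ^ n = x := congrArg Subtype.val hn
        rw [← this, h1]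
        exact Subgroup.zpow_mem _ (Subgroup.subset_closure (by simp)) _
      rw [eq_top_iff, ← h.1]
      exact sup_le hA (rk_le_of_mem (RankOnePair_symm h.2) hA hb hb1 (h1 ▸ Subgroup.subset_closure (by simp)))
    obtain hc | hc : Nat.card A = 2 ∨ Nat.card A = 3 := by omega
    · obtain ⟨φ, h1, h2⟩ := key 2 hc
      have hinj : Function.Injective φ := by
        rw [← MonoidHom.ker_eq_bot_iff, Subgroup.eq_bot_iff_forall]
        intro z hz
        rcases sl2_center_eq (h2 hz) with h | h
        · exact h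
        · rw [h]; decide
      exact Or.inl ⟨(MulEquiv.ofBijective φ ⟨hinj, MonoidHom.range_eq_top.1 h1⟩).symm⟩
    · obtain ⟨φ, h1, h2⟩ := key 3 hc
      have := sl2_range_equiv φ h2
      rw [h1] at this
      rcases this with ⟨⟨e⟩⟩ | ⟨⟨e⟩⟩
      · exact Or.inr (Or.inl ⟨Subgroup.topEquiv.symm.trans e⟩)
      · exact Or.inr (Or.inr ⟨Subgroup.topEquiv.symm.trans e⟩)

end Cfsg.Agent.S5020
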