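import Cfsg.Statements.S5021
import Cfsg.Agent.Chev.RootSpecial

set_option autoImplicit false
open Cfsg

namespace Cfsg.Agent.S5021

/-- In a special rank one group with abelian unipotent subgroups A and B, either A is an elementary abelian p-group for some prime p, or A is torsion-free and divisible (every element of A has an n-th root in A for every positive n). -/
theorem result {X : Type*} [Group X] {A B : Subgroup X} (h : Cfsg.IsRankOneGroup X A B)
    (hs : Cfsg.IsSpecialRankOnePair A B) (hab : Cfsg.HasAbelianUnipotents A B) :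
    (∃ p : ℕ, p.Prime ∧ Cfsg.IsElementaryAbelian p A) ∨
    ((∀ a ∈ A, a ≠ 1 → ¬ IsOfFinOrder a) ∧ ∀ a ∈ A, ∀ n : ℕ, 0 < n → ∃ c ∈ A, c ^ n = a) := by
  have _ := h
  by_cases hT : ∀ a ∈ A, a ≠ 1 → ¬ IsOfFinOrder a
  · refine Or.inr ⟨hT, fun a ha n hn => ?_⟩
    by_cases ha1 : a = 1
    · exact ⟨1, A.one_mem, by rw [ha1, one_pow]⟩
    · exact CL.Chev.Root.sp_exists_root hs ha fun h => hT a ha ha1 (isOfFinOrder_iff_pow_eq_one.2 ⟨n, hn, h⟩)
  · push Not at hT
    obtain ⟨a, ha, ha1, hfin⟩ := hT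
    have ho : orderOf a ≠ 1 := by simpa using ha1
    have hp := Nat.minFac_prime ho
    refine Or.inl ⟨_, hp, hab.1, fun x hx => ?_⟩
    by_contra hxp
    have hc : orderOf (a ^ (orderOf a / (orderOf a).minFac)) = (orderOf a).minFac :=
      orderOf_pow_orderOf_div hfin.orderOf_pos.ne' (Nat.minFac_dvd _)
    set c := a ^ (orderOf a / (orderOf a).minFac)
    have hcA : c ∈ A := A.pow_mem ha _
    have hxc : Commute x c := CL.Chev.Root.isMulCommutative_iff'.1 hab.1 x hx c hcA
    have h1 := CL.Chev.Root.sp_root_unique hs hx (A.mul_mem hx hcA) (k := (orderOf a).minFac)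
      (by rw [hxc.mul_pow, ← hc, pow_orderOf_eq_one, mul_one]) hxp
    rw [left_eq_mul.1 h1, orderOf_one] at hc
    exact hp.one_lt.ne hc

end Cfsg.Agent.S5021
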