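import Cfsg.Statements.S5023
import Cfsg.Agent.Chev.RootRankOne

set_option autoImplicit false
open Cfsg

namespace Cfsg.Agent.S5023

open CL.Chev.Root

/-- Let X be a rank one group with unipotent subgroups A and B that acts faithfully on an abelian group V (written additively) with A acting quadratically: a' • (a • v − v) = a • v − v for all a, a' in A and v in V. Then A is either torsion-free or an elementary abelian p-group for some prime p. -/
theorem result {X : Type*} [Group X] {A B : Subgroup X} (h : Cfsg.IsRankOneGroup X A B)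
    {V : Type*} [AddCommGroup V] [DistribMulAction X V] (hf : ∀ x : X, (∀ v : V, x • v = v) → x = 1)
    (hq : ∀ a ∈ A, ∀ a' ∈ A, ∀ v : V, a' • (a • v - v) = a • v - v) :
    (∀ a ∈ A, a ≠ 1 → ¬ IsOfFinOrder a) ∨ ∃ p : ℕ, p.Prime ∧ Cfsg.IsElementaryAbelian p A := by
  have hq' : Quad V A := hq
  have hcomm : IsMulCommutative A := by
    refine isMulCommutative_iff'.2 fun a ha a' ha' => ?_
    have : (a' * a)⁻¹ * (a * a') = 1 := by
      refine hf _ fun v => ?_
      rw [mul_smul, inv_smul_eq_iff, mul_smul, mul_smul]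
      have e1 := hq a ha a' ha' v
      have e2 := hq a' ha' a ha v
      rw [smul_sub] at e1 e2
      rw [sub_eq_iff_eq_add.1 e1, sub_eq_iff_eq_add.1 e2]
      abel
    exact (inv_mul_eq_one.1 this).symm
  -- `[V, A]` is not fixed by `X`
  have hnt : ¬ ∀ p ∈ modComm V A, ∀ x : X, x • p = p := by
    intro hc
    refine rk_comm_ne_bot h.2 (comm_bot_iff.2 fun a _ a' _ => ?_)
    have : (a' * a)⁻¹ * (a * a') = 1 := by
      refine hf _ fun v => ?_
      rw [mul_smul, inv_smul_eq_iff, mul_smul, mul_smul]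
      have e1 := Quad.trivial_of_fixed h hc a a' v
      have e2 := Quad.trivial_of_fixed h hc a' a v
      rw [smul_sub] at e1 e2
      rw [sub_eq_iff_eq_add.1 e1, sub_eq_iff_eq_add.1 e2]
      abel
    exact (inv_mul_eq_one.1 this).symm
  by_cases ht : ∀ a ∈ A, a ≠ 1 → ¬ IsOfFinOrder a
  · exact Or.inl ht
  right
  push Not at ht
  obtain ⟨a, ha, ha1, hfin⟩ := ht
  have hn1 : orderOf a ≠ 1 := fun h => ha1 (orderOf_eq_one_iff.1 h)
  obtain ⟨r, hr, hdvd⟩ := Nat.exists_prime_and_dvd hn1
  have hpos : orderOf a ≠ 0 := hfin.orderOf_pos.ne'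
  set a₀ := a ^ (orderOf a / r) with ha₀
  have hord : orderOf a₀ = r := orderOf_pow_orderOf_div hpos hdvd
  have ha₀A : a₀ ∈ A := A.pow_mem ha _
  have ha₀1 : a₀ ≠ 1 := by
    intro h1
    rw [h1, orderOf_one] at hord
    exact hr.one_lt.ne hord
  refine ⟨r, hr, hcomm, fun a' ha' => ?_⟩
  by_contra hne
  apply hnt
  have h1 : ∀ p ∈ modComm V A, ∀ x : X, x • (r • p) = r • p := by
    intro p hp x
    obtain ⟨q, c, hc, e⟩ := hq'.exists_eq_sub h ha₀A ha₀1 hp
    rw [e, nsmul_add, ← hq'.pow_smul ha₀A, ← hord, pow_orderOf_eq_one, one_smul, sub_self, zero_add,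
      smul_comm, hc]
  intro p hp x
  obtain ⟨q, c, hc, e⟩ := hq'.exists_eq_sub h (A.pow_mem ha' r) hne hp
  rw [e, hq'.pow_smul ha', smul_add, hc, h1 _ (sub_mem_modComm ha' q)]

end Cfsg.Agent.S5023
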