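import Cfsg.Statements.S5024
import Cfsg.Agent.Chev.RootSet

set_option autoImplicit false
open Cfsg

namespace Cfsg.Agent.S5024

open CL.Chev.Root

theorem aux {G : Type*} [Group G] {S : Set (Subgroup G)} (hS : Cfsg.IsRootSubgroupSet S)
    {A B C D : Subgroup G} (hA : A ∈ S) (hC : C ∈ S) (h : IsRankOnePair A B) (h' : IsRankOnePair C D)
    (hle : A ⊔ B ≤ C ⊔ D) : A ∈ unipotentSubgroups C D := by
  by_contra hn
  obtain ⟨a, ha, ha1⟩ := rs_exists_ne_one hS hA
  have haY : a ∈ C ⊔ D := hle (Subgroup.mem_sup_left ha)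
  refine ha1 (rk_eq_one_of_commute h ha fun b hb =>
    rk_commute_of_fix h' (fun E hE => ?_) b (hle (Subgroup.mem_sup_right hb)))
  have hES := unip_subset hS hC hE
  by_cases hr : IsRankOnePair E A
  · exfalso
    obtain ⟨e, he, -, heq⟩ := rk_exists_left hr ha ha1
    apply hn
    have : A = conjBy (conjBy E a) e⁻¹ := by rw [heq, conjBy_conjBy_inv]
    rw [this]
    exact conjBy_mem_unip (conjBy_mem_unip hE haY) (Subgroup.inv_mem _ (le_of_mem_unip hE he))
  · exact (rk_eq_of_mem_unip_of_comm h' hE (conjBy_mem_unip hE haY)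
      (comm_conjBy_of_not_rk hS hES hA hr ha)).symm

/-- Let S be a set of abstract root subgroups of G, A and C members of S, B a rank one partner of A in S and D a rank one partner of C in S. If the rank one group ⟨A, B⟩ is contained in ⟨C, D⟩ then the two coincide, and C and D are conjugates of A inside ⟨A, B⟩. -/
theorem result {G : Type*} [Group G] {S : Set (Subgroup G)} (hS : Cfsg.IsRootSubgroupSet S)
    {A B C D : Subgroup G} (hA : A ∈ S) (hC : C ∈ S) (hB : B ∈ Cfsg.rankOnePartners S A) (hD : D ∈ Cfsg.rankOnePartners S C)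
    (hle : A ⊔ B ≤ C ⊔ D) : A ⊔ B = C ⊔ D ∧ C ∈ Cfsg.unipotentSubgroups A B ∧ D ∈ Cfsg.unipotentSubgroups A B := by
  have h1 := aux hS hA hC hB.2 hD.2 hle
  have h2 := aux hS hB.1 hC (RankOnePair_symm hB.2) hD.2 (by rwa [sup_comm])
  refine ⟨rk_sup_eq_of_mem_unip hD.2 h1 h2 hB.2.ne, ?_, ?_⟩
  · rw [rk_unip_eq_of_mem_unip hD.2 h1 h2 hB.2.ne]; exact left_mem_unip
  · rw [rk_unip_eq_of_mem_unip hD.2 h1 h2 hB.2.ne]; exact right_mem_unip hD.2

end Cfsg.Agent.S5024
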