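import Cfsg.Statements.S5026
import Cfsg.Agent.Chev.RootSet

set_option autoImplicit false
open Cfsg

namespace Cfsg.Agent.S5026

open CL.Chev.Root

theorem le_cent_iff {G : Type*} [Group G] (C : Subgroup G) (x : G) :
    C ≤ Subgroup.centralizer (Subgroup.zpowers x : Set G) ↔ ∀ c ∈ C, x * c = c * x := by
  constructor
  · intro h c hc
    exact Subgroup.mem_centralizer_iff.1 (h hc) x (Subgroup.mem_zpowers x)
  · intro h c hc
    rw [Subgroup.mem_centralizer_iff]
    rintro _ ⟨n, rfl⟩
    exact (Commute.zpow_left (h c hc) n)

/-- Let S be a degenerate set of abstract root subgroups of G (a set of abstract transvection groups) and let a, b be commuting non-identity elements of members of S with a b ≠ 1. Then the members of S centralizing a b are exactly those centralizing both a and b. -/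
theorem result {G : Type*} [Group G] {S : Set (Subgroup G)} (hS : Cfsg.IsRootSubgroupSet S) (hdeg : Cfsg.IsDegenerateRootSet S)
    {a b : G} (ha : a ∈ Cfsg.rootElements S) (hb : b ∈ Cfsg.rootElements S) (hab : a * b = b * a) (hab1 : a * b ≠ 1) :
    Cfsg.centralizingMembers S (Subgroup.zpowers (a * b)) =
      Cfsg.centralizingMembers S (Subgroup.zpowers a) ∩ Cfsg.centralizingMembers S (Subgroup.zpowers b) := by
  obtain ⟨ha1, A, hA, ha⟩ := ha
  obtain ⟨hb1, B, hB, hb⟩ := hb
  ext C
  simp only [centralizingMembers, Set.mem_inter_iff, Set.mem_setOf_eq, le_cent_iff]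
  constructor
  · rintro ⟨hC, h⟩
    have key : ∀ c ∈ C, a * c = c * a := by
      by_contra hn
      have hn' : ¬ ∀ c ∈ C, b * c = c * b := by
        intro hc
        refine hn fun c hcC => ?_
        have h1 := h c hcC
        rw [mul_assoc, hc c hcC, ← mul_assoc, ← mul_assoc] at h1
        exact mul_right_cancel h1
      have hAC : IsRankOnePair A C := by
        rcases hS.pair A hA C hC with h1 | h1 | h1
        · exact absurd (comm_bot_iff.1 h1 a ha) hn
        · exact h1
        · exact absurd h1 (hdeg A hA C hC)
      have hBC : IsRankOnePair B C := by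
        rcases hS.pair B hB C hC with h1 | h1 | h1
        · exact absurd (comm_bot_iff.1 h1 b hb) hn'
        · exact h1
        · exact absurd h1 (hdeg B hB C hC)
      have h2 : conjBy C (a * b) = C := conjBy_of_commute h
      have h3 : conjBy C a⁻¹ = conjBy C b := by
        rw [eq_comm, conjBy_eq_conjBy_iff, inv_inv, h2]
      have h4 := mem_unip_of_conjBy_eq hAC hBC (A.inv_mem ha) hb hb1 h3
      by_cases hAB : A = B
      · subst hAB
        exact hab1 (rk_eq_one_of_conjBy_eq hAC (A.mul_mem ha hb) h2)
      · have h5 := rk_of_mem_unip hAC left_mem_unip h4 hAB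
        have h6 := rk_conjBy_self (RankOnePair_symm h5) ha ha1
        refine hb1 (rk_eq_one_of_mem h6 hb ?_)
        have := conj_mem_conjBy hb a
        rwa [hab, mul_inv_cancel_right] at this
    refine ⟨⟨hC, key⟩, hC, fun c hc => ?_⟩
    have h1 := h c hc
    rw [mul_assoc, ← mul_assoc c, ← key c hc, mul_assoc] at h1
    exact mul_left_cancel h1
  · rintro ⟨⟨hC, h1⟩, -, h2⟩
    exact ⟨hC, fun c hc => by rw [mul_assoc, h2 c hc, ← mul_assoc, h1 c hc, mul_assoc]⟩

end Cfsg.Agent.S5026
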