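import Cfsg.Statements.S5027
import Cfsg.Agent.Chev.RootSet

set_option autoImplicit false
open Cfsg

namespace Cfsg.Agent.S5027

open CL.Chev.Root
open scoped commutatorElement

/-- Let S be a set of abstract root subgroups of G such that every member of S has a rank one partner in S (the graph of rank one pairs on S has no isolated vertex). Then the second centre of G equals its centre. -/
theorem result {G : Type*} [Group G] {S : Set (Subgroup G)} (hS : Cfsg.IsRootSubgroupSet S)
    (hF : ∀ A ∈ S, ¬ Cfsg.IsIsolatedIn (Cfsg.FAdj S) S A) : Subgroup.upperCentralSeries G 2 = Subgroup.center G := by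
  refine le_antisymm ?_ ?_
  · intro g hg
    have key : (⨆ A ∈ S, A) ≤ Subgroup.centralizer {g} := by
      refine iSup₂_le fun A hA a ha => ?_
      obtain ⟨D, hD, h⟩ := (ni_iff hA).1 (hF A hA)
      rw [Subgroup.mem_centralizer_singleton_iff]
      by_cases ha1 : a = 1
      · rw [ha1, one_mul, mul_one]
      have h1 : ⁅g, a⁆ ∈ Subgroup.center G := by
        rw [← Subgroup.upperCentralSeries_one]
        exact Subgroup.mem_upperCentralSeries_succ_iff.1 hg a
      by_contra hne
      refine not_mem_of_central hS hA hD h (z := ⁅g, a⁆)
        (fun x _ => (Subgroup.mem_center_iff.1 h1 x).symm)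
        (fun h => hne (commutatorElement_eq_one_iff_mul_comm.1 h).symm) ha ha1 (hS.conj_mem A hA g) ?_
      have : ⁅g, a⁆ * a = g * a * g⁻¹ := by rw [commutatorElement_def]; group
      rw [this]
      exact conj_mem_conjBy ha g
    rw [hS.generates] at key
    rw [Subgroup.mem_center_iff]
    intro x
    exact Subgroup.mem_centralizer_singleton_iff.1 (key (Subgroup.mem_top x))
  · rw [← Subgroup.upperCentralSeries_one]
    exact Subgroup.upperCentralSeries_mono G (by norm_num)

end Cfsg.Agent.S5027
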