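import Cfsg.Statements.S5029
import Cfsg.Agent.Chev.RootLine

set_option autoImplicit false
open Cfsg

namespace Cfsg.Agent.S5029

open CL.Chev.Root
open scoped commutatorElement

/-- Let S be a set of abstract root subgroups of G, A ∈ S having a rank one partner in S, and B ∈ S with C = ⁅A, B⁆ ∈ S. Then the members of S contained in AC are the conjugates of A by elements of B together with C, they partition AC, the members of S inside AC partition AC so that A is a line partner of C, and for every non-identity a ∈ A the map b ↦ a⁻¹ b⁻¹ a b is an isomorphism from B onto C. -/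
theorem result {G : Type*} [Group G] {S : Set (Subgroup G)} (hS : Cfsg.IsRootSubgroupSet S)
    {A B : Subgroup G} (hA : ¬ Cfsg.IsIsolatedIn (Cfsg.FAdj S) S A) (hAS : A ∈ S) (hB : B ∈ S) (hC : ⁅A, B⁆ ∈ S) :
    Cfsg.membersIn S (A ⊔ ⁅A, B⁆) = (fun b : G => Cfsg.conjBy A b) '' (B : Set G) ∪ {⁅A, B⁆} ∧
    Cfsg.IsSubgroupPartition (A ⊔ ⁅A, B⁆) (Cfsg.membersIn S (A ⊔ ⁅A, B⁆)) ∧
    A ∈ Cfsg.linePartners S ⁅A, B⁆ ∧
    ∀ a ∈ A, a ≠ 1 → ∃ φ : ↥B ≃* ↥⁅A, B⁆, ∀ b : ↥B, (φ b : G) = a⁻¹ * (b : G)⁻¹ * a * b := by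
  have h := (ni_iff hAS).1 hA
  refine ⟨?_, h.psi_partition hS hAS hB hC, h.psi_mem_line hS hAS hB hC, fun a ha ha1 => ?_⟩
  · ext E
    constructor
    · rintro ⟨hE, hEL⟩
      rcases h.psi_points hS hAS hB hC hE hEL with h1 | ⟨b, hb, h1⟩
      · exact Or.inr h1
      · exact Or.inl ⟨b, hb, h1.symm⟩
    · rintro (⟨b, hb, rfl⟩ | rfl)
      · exact ⟨hS.conj_mem A hAS b, psi_conjBy_le hAS hb⟩
      · exact ⟨hC, le_sup_right⟩
  · have hai := A.inv_mem ha
    have hai1 := inv_ne_one.2 ha1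
    let f : B →* ↥⁅A, B⁆ := MonoidHom.mk'
      (fun b => ⟨⁅a⁻¹, (b : G)⁻¹⁆, Subgroup.commutator_mem_commutator hai (B.inv_mem b.2)⟩) (by
        intro b b'
        apply Subtype.ext
        simp only [Subgroup.coe_mul]
        rw [← psi_mul_right hS hAS hB hC hai (B.inv_mem b.2) (B.inv_mem b'.2), ← mul_inv_rev,
          rs_comm hS hB _ b.2 _ b'.2])
    have hbij : Function.Bijective f := by
      constructor
      · intro b b' he
        have := h.psi_inj hS hAS hB hC hai hai1 (B.inv_mem b.2) (B.inv_mem b'.2) (congrArg Subtype.val he)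
        exact Subtype.ext (inv_injective this)
      · intro c
        obtain ⟨b, hb, he⟩ := psi_surj_right hS hAS hB hC hai hai1 c.2
        exact ⟨⟨b⁻¹, B.inv_mem hb⟩, Subtype.ext (by simpa [f] using he)⟩
    refine ⟨MulEquiv.ofBijective f hbij, fun b => ?_⟩
    change ⁅a⁻¹, (b : G)⁻¹⁆ = _
    rw [commutatorElement_def, inv_inv, inv_inv]

end Cfsg.Agent.S5029
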