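import Cfsg.Statements.S5030
import Cfsg.Agent.Chev.RootLine

set_option autoImplicit false
open Cfsg

namespace Cfsg.Agent.S5030

open CL.Chev.Root
open scoped commutatorElement

/-- Let S be a set of abstract root subgroups of G and A, B, C ∈ S with ⁅A, B⁆ ∈ S and ⁅B, C⁆ ∈ S, where A and C are different and commute. For a non-identity b ∈ B put X = ⟨A, b⁻¹ C b⟩ and Y = ⟨b⁻¹ A b, C⟩ and R = ⟨A, B, C⟩. Then X and Y are either both abelian or both nilpotent of class exactly two; X and Y commute elementwise; XY is normal in R with R = (XY) B; and R is nilpotent. -/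
theorem result {G : Type*} [Group G] {S : Set (Subgroup G)} (hS : Cfsg.IsRootSubgroupSet S)
    {A B C : Subgroup G} (hA : A ∈ S) (hB : B ∈ S) (hC : C ∈ S) (hAB : ⁅A, B⁆ ∈ S) (hBC : ⁅B, C⁆ ∈ S)
    (hAC : C ∈ Cfsg.commutingPartners S A)
    {b : G} (hb : b ∈ B) (hb1 : b ≠ 1) :
    ((IsMulCommutative ↥(A ⊔ Cfsg.conjBy C b⁻¹) ∧ IsMulCommutative ↥(Cfsg.conjBy A b⁻¹ ⊔ C)) ∨
      ((¬ IsMulCommutative ↥(A ⊔ Cfsg.conjBy C b⁻¹) ∧
          ⁅⁅A ⊔ Cfsg.conjBy C b⁻¹, A ⊔ Cfsg.conjBy C b⁻¹⁆, A ⊔ Cfsg.conjBy C b⁻¹⁆ = ⊥) ∧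
        (¬ IsMulCommutative ↥(Cfsg.conjBy A b⁻¹ ⊔ C) ∧
          ⁅⁅Cfsg.conjBy A b⁻¹ ⊔ C, Cfsg.conjBy A b⁻¹ ⊔ C⁆, Cfsg.conjBy A b⁻¹ ⊔ C⁆ = ⊥))) ∧
    ⁅A ⊔ Cfsg.conjBy C b⁻¹, Cfsg.conjBy A b⁻¹ ⊔ C⁆ = ⊥ ∧
    (∀ r ∈ A ⊔ B ⊔ C, Cfsg.conjBy ((A ⊔ Cfsg.conjBy C b⁻¹) ⊔ (Cfsg.conjBy A b⁻¹ ⊔ C)) r =
      (A ⊔ Cfsg.conjBy C b⁻¹) ⊔ (Cfsg.conjBy A b⁻¹ ⊔ C)) ∧
    ((A ⊔ Cfsg.conjBy C b⁻¹) ⊔ (Cfsg.conjBy A b⁻¹ ⊔ C)) ⊔ B = A ⊔ B ⊔ C ∧
    Group.IsNilpotent ↥(A ⊔ B ⊔ C) := by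
  have hCB := psi_symm hBC
  have hc : ⁅A, C⁆ = ⊥ := hAC.2.2
  have hb' := B.inv_mem hb
  have hb1' := inv_ne_one.2 hb1
  have hsup := tri_sup_eq hS hA hB hC hAB hCB hb' hb1'
  have hC' := hS.conj_mem C hC b⁻¹
  have hA' := hS.conj_mem A hA b⁻¹
  refine ⟨?_, tri_comm hS hA hB hC hAB hCB hc hb', ?_, ?_, tri_isNilpotent hS hA hB hC hAB hCB hc⟩
  · by_cases h : ⁅A, conjBy C b⁻¹⁆ = ⊥
    · left
      have h2 := tri_comm_of_comm hS hA hB hC hCB hc hb' hb1' h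
      exact ⟨(Subgroup.commutator_self_eq_bot_iff).1 (line_comm hS hA hC' h),
        (Subgroup.commutator_self_eq_bot_iff).1 (line_comm hS hA' hC (comm_bot_symm h2))⟩
    · right
      refine ⟨⟨fun hm => h (comm_bot_mono ((Subgroup.commutator_self_eq_bot_iff).2 hm) le_sup_left le_sup_right),
        tri_class_two hS hA hB hC hCB hc hb'⟩, fun hm => h ?_, ?_⟩
      · exact tri_comm_of_comm hS hC hB hA hAB (comm_bot_symm hc) hb' hb1'
          (comm_bot_mono ((Subgroup.commutator_self_eq_bot_iff).2 hm) le_sup_right le_sup_left)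
      · rw [sup_comm]
        exact tri_class_two hS hC hB hA hAB (comm_bot_symm hc) hb'
  · rw [hsup]
    have : A ⊔ B ⊔ C ≤ Subgroup.normalizer (((A ⊔ ⁅A, B⁆) ⊔ (C ⊔ ⁅C, B⁆) : Subgroup G) : Set G) := by
      refine sup_le (sup_le ?_ ?_) ?_
      · exact (le_sup_left.trans le_sup_left).trans Subgroup.le_normalizer
      · intro x hx
        rw [mem_normalizer_iff_conjBy, conjBy_sup, psi_conjBy_line hS hA hB hAB hx,
          psi_conjBy_line hS hC hB hCB hx]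
      · exact (le_sup_left.trans le_sup_right).trans Subgroup.le_normalizer
    exact fun r hr => mem_normalizer_iff_conjBy.1 (this hr)
  · rw [hsup]
    have hAR : A ≤ A ⊔ B ⊔ C := le_sup_left.trans le_sup_left
    have hBR : B ≤ A ⊔ B ⊔ C := le_sup_right.trans le_sup_left
    refine le_antisymm (sup_le (sup_le (sup_le hAR ?_) (sup_le le_sup_right ?_)) hBR) ?_
    · exact (Subgroup.commutator_le_sup A B).trans le_sup_left
    · exact (Subgroup.commutator_le_sup C B).trans (sup_le le_sup_right hBR)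
    · exact sup_le (sup_le ((le_sup_left.trans le_sup_left).trans le_sup_left) le_sup_right)
        ((le_sup_left.trans le_sup_right).trans le_sup_left)

end Cfsg.Agent.S5030
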