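import Cfsg.Statements.S5031
import Cfsg.Agent.Chev.RootClass

set_option autoImplicit false
open Cfsg

namespace Cfsg.Agent.S5031

open CL.Chev.Root

theorem aux {G : Type*} [Group G] {S : Set (Subgroup G)} (hS : Cfsg.IsRootSubgroupSet S)
    {A B E L : Subgroup G} (hA : A ∈ S) (hB : B ∈ S) (hE : E ∈ S) (hL : Covered S L) (hLc : ⁅L, L⁆ = ⊥)
    (hAL : A ≤ L) (hBL : B ≤ L) (hEL : E ≤ L) (hni : NI S A) {a : G} (ha : a ∈ A) (ha1 : a ≠ 1) (haE : a ∈ E ⊔ B)
    (hn : ¬ Relation.ReflTransGen (FAdj S) A B) : Relation.ReflTransGen (FAdj S) A E := by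
  obtain ⟨D, hD, h⟩ := hni
  rcases rs_tri hS hE hD with h1 | h1 | h1
  · exact absurd h1 (hL.comm_ne_bot hS hLc hA hAL hD h hE hEL)
  · exact .head ⟨hA, hD, h⟩ (.single ⟨hD, hE, RankOnePair_symm h1⟩)
  rcases rs_tri hS hB hD with h2 | h2 | h2
  · exact absurd h2 (hL.comm_ne_bot hS hLc hA hAL hD h hB hBL)
  · exact absurd (.head ⟨hA, hD, h⟩ (.single ⟨hD, hB, RankOnePair_symm h2⟩)) hn
  · exact (not_psi_psi hS hD h hE hB (comm_bot_mono hLc hEL hBL) ha ha1 haE h1 h2).elim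

/-- Let S be a set of abstract root subgroups of G and let A, B ∈ S lie in different connected components of the graph of rank one pairs on S, each component having more than one member. Then B is not a line partner of A. -/
theorem result {G : Type*} [Group G] {S : Set (Subgroup G)} (hS : Cfsg.IsRootSubgroupSet S)
    {A B : Subgroup G} (hA : A ∈ S) (hB : B ∈ S)
    (hne : Cfsg.componentOf (Cfsg.FAdj S) S A ≠ Cfsg.componentOf (Cfsg.FAdj S) S B)
    (hA2 : ∃ A' ∈ Cfsg.componentOf (Cfsg.FAdj S) S A, A' ≠ A) (hB2 : ∃ B' ∈ Cfsg.componentOf (Cfsg.FAdj S) S B, B' ≠ B) :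
    B ∉ Cfsg.linePartners S A := by
  intro hl
  have hn : ¬ Relation.ReflTransGen (FAdj S) A B := by
    intro h
    apply hne
    ext E
    exact ⟨fun hE => ⟨hE.1, (fconn_symm h).trans hE.2⟩, fun hE => ⟨hE.1, h.trans hE.2⟩⟩
  obtain ⟨A', hA', hA'1⟩ := hA2
  obtain ⟨B', hB', hB'1⟩ := hB2
  have hAn := ni_of_fconn hA'.2 hA'1.symm
  have hBn := ni_of_fconn hB'.2 hB'1.symm
  have hcov := covered_of_line hA hl
  have hLc := line_comm hS hA hB hl.1.2.2
  obtain ⟨a, ha, ha1⟩ := rs_exists_ne_one hS hA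
  obtain ⟨b, hb, hb1⟩ := rs_exists_ne_one hS hB
  obtain ⟨E, hE, hEL, hab⟩ := hcov (a * b) (Subgroup.mul_mem_sup ha hb)
  have h1 := aux hS hA hB hE hcov hLc le_sup_left le_sup_right hEL hAn ha ha1 (by
    have := Subgroup.mul_mem_sup hab (B.inv_mem hb)
    rwa [mul_inv_cancel_right] at this) hn
  have h2 := aux hS hB hA hE hcov hLc le_sup_right le_sup_left hEL hBn hb hb1 (by
    have := Subgroup.mul_mem_sup (A.inv_mem ha) hab
    rwa [inv_mul_cancel_left, sup_comm] at this) (fun h => hn (fconn_symm h))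
  exact hn (h1.trans (fconn_symm h2))

end Cfsg.Agent.S5031
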