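import Cfsg.Statements.S5032
import Cfsg.Agent.Chev.RootClass

set_option autoImplicit false
open Cfsg

namespace Cfsg.Agent.S5032

open CL.Chev.Root

/-- Let S be a set of abstract root subgroups of G with more than one member. Then the graph of rank one pairs on S is connected if and only if S is a single conjugacy class of G and some member of S has a rank one partner in S. -/
theorem result {G : Type*} [Group G] {S : Set (Subgroup G)} (hS : Cfsg.IsRootSubgroupSet S) (h2 : ∃ A ∈ S, ∃ B ∈ S, A ≠ B) :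
    Cfsg.IsConnectedFamily (Cfsg.FAdj S) S ↔
      (Cfsg.IsConjClassOfSubgroups S ∧ ∃ A ∈ S, ¬ Cfsg.IsIsolatedIn (Cfsg.FAdj S) S A) := by
  constructor
  · intro hc
    have hni := ni_of_connected h2 hc
    obtain ⟨A, hA, -⟩ := h2
    exact ⟨(class_of_connected hS hA hc).2, A, hA, (ni_iff hA).2 (hni A hA)⟩
  · rintro ⟨hcl, A, hA, hni⟩ B hB C hC
    rw [ni_iff hA] at hni
    obtain ⟨g, rfl⟩ := hcl.2 A hA B hB
    obtain ⟨g', rfl⟩ := hcl.2 A hA C hC
    exact (fconn_symm (hni.fconn_conjBy hS hA g)).trans (hni.fconn_conjBy hS hA g')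

end Cfsg.Agent.S5032
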