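import Cfsg.Statements.S5033
import Cfsg.Agent.Chev.RootSpecial
import Cfsg.Agent.Chev.RootClass
import Cfsg.Agent.Loc.Quasisimple

set_option autoImplicit false
open Cfsg

namespace Cfsg.Agent.S5033

open CL.Chev.Root
open scoped commutatorElement

theorem comm_le_of_le_sup {G : Type*} [Group G] {N D E F : Subgroup G} [hN : N.Normal] (hD : D ≤ N ⊔ E)
    (h : ⁅E, F⁆ ≤ N) : ⁅D, F⁆ ≤ N := by
  refine Subgroup.commutator_le.2 fun d hd f hf => ?_
  obtain ⟨n, hn, e, he, rfl⟩ := Subgroup.mem_sup_of_normal_left.1 (hD hd)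
  have : ⁅n * e, f⁆ = n * ⁅e, f⁆ * (f * n⁻¹ * f⁻¹) := by simp only [commutatorElement_def]; group
  rw [this]
  exact N.mul_mem (N.mul_mem hn (h (Subgroup.commutator_mem_commutator he hf))) (hN.conj_mem _ (N.inv_mem hn) f)

theorem conjBy_le_sup {G : Type*} [Group G] {N E : Subgroup G} {f : G} (h : ∀ e ∈ E, ⁅f, e⁆ ∈ N) :
    conjBy E f ≤ N ⊔ E := by
  intro x hx
  obtain ⟨e, he, rfl⟩ := mem_conjBy_iff_exists.1 hx
  have : f * e * f⁻¹ = ⁅f, e⁆ * e := by simp only [commutatorElement_def]; group
  rw [this]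
  exact Subgroup.mul_mem _ (Subgroup.mem_sup_left (h e he)) (Subgroup.mem_sup_right he)

/-- Quasisimplicity criterion for groups generated by abstract root subgroups. Let S be a set of abstract root subgroups of G with more than one member such that: the graph of rank one pairs on S is connected; no two different members of S have the same set of commuting members of S; if S is degenerate then every member of S has more than three elements; and every rank one pair in S is special. Then for every A ∈ S one has G = G' A with A ∩ G' ≠ 1, and the commutator subgroup G' is quasisimple. Moreover G is perfect if S is non-degenerate, or if some rank one pair A, B in S generates a perfect group. -/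
theorem result {G : Type*} [Group G] {S : Set (Subgroup G)} (hS : Cfsg.IsRootSubgroupSet S) (h2 : ∃ A ∈ S, ∃ B ∈ S, A ≠ B)
    (h1 : Cfsg.IsConnectedFamily (Cfsg.FAdj S) S)
    (h2' : ∀ A ∈ S, ∀ C ∈ S, A ≠ C → Cfsg.centralizingMembers S A ≠ Cfsg.centralizingMembers S C)
    (h3 : Cfsg.IsDegenerateRootSet S → ∀ A ∈ S, 3 < ENat.card A)
    (h4 : ∀ A ∈ S, ∀ B ∈ Cfsg.rankOnePartners S A, Cfsg.IsSpecialRankOnePair A B) :
    (∀ A ∈ S, commutator G ⊔ A = ⊤ ∧ A ⊓ commutator G ≠ ⊥) ∧ Cfsg.IsQuasisimple ↥(commutator G) ∧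
    (Cfsg.IsNondegenerateRootSet S → commutator G = ⊤) ∧
    ((∃ A ∈ S, ∃ B ∈ Cfsg.rankOnePartners S A, Group.IsPerfect ↥(A ⊔ B)) → commutator G = ⊤) := by
  have hNI := ni_of_connected h2 h1
  obtain ⟨A₀, hA₀, B₀, hB₀, hne₀⟩ := h2
  have hcl := class_of_connected hS hA₀ h1
  have hcases : (∀ A ∈ S, ∀ B ∈ S, IsRankOnePair A B → A ⊔ B ≤ ⁅A ⊔ B, A ⊔ B⁆) ∨
      ∃ A ∈ S, ∃ B ∈ S, RootCommutatorCase S A B := by
    by_cases hd : IsDegenerateRootSet S
    · exact Or.inl fun A hA B hB h => sp_sup_le_commutator (h4 A hA B ⟨hB, h⟩) (hS.commutative A hA) (h3 hd A hA)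
    · right
      unfold IsDegenerateRootSet at hd
      push Not at hd
      exact hd
  have htop : ∀ N : Subgroup G, (∀ A ∈ S, A ≤ N) → N = ⊤ := fun N hN => by
    rw [eq_top_iff, ← hS.generates]
    exact iSup₂_le hN
  have hperf : commutator G = ⊤ := by
    refine htop _ fun A hA => ?_
    rcases hcases with h | ⟨A₁, -, B₁, -, h⟩
    · obtain ⟨B, hB, hAB⟩ := hNI A hA
      exact le_sup_left.trans ((h A hA B hB hAB).trans (Subgroup.commutator_mono le_top le_top))
    · obtain ⟨g, rfl⟩ := hcl.2.2 _ h.1 A hA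
      rw [conjBy_commutator]
      exact Subgroup.commutator_mono le_top le_top
  have hstar : ∀ (N : Subgroup G) [N.Normal], ∀ E ∈ S, E ≤ N → N = ⊤ := by
    intro N _ E hE hEN
    refine htop N fun A hA => ?_
    obtain ⟨g, rfl⟩ := hcl.2.2 E hE A hA
    rw [← conjBy_normal N g]
    exact conjBy_mono hEN g
  have hK : ∀ (N : Subgroup G) [N.Normal], ∀ E ∈ S, ∀ F ∈ S, ⁅E, F⁆ ≤ N → ⁅E, F⁆ ≠ ⊥ → N = ⊤ := by
    intro N _ E hE F hF hle hne
    rcases rs_tri hS hE hF with h | h | h
    · exact absurd h hne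
    · rcases hcases with hp | hc
      · refine hstar N E hE (le_sup_left.trans ((hp E hE F hF h).trans ?_))
        have hn : ∀ x, conjBy N x = N := conjBy_normal N
        refine comm_sup_le (fun x _ => hn x) ?_ ?_ <;> rw [Subgroup.commutator_comm] <;>
          refine comm_sup_le (fun x _ => hn x) ?_ ?_
        · rw [rs_comm_self hS hE]; exact bot_le
        · exact hle
        · rwa [Subgroup.commutator_comm]
        · rw [rs_comm_self hS hF]; exact bot_le
      · obtain ⟨f, hf, hf1⟩ := rs_exists_ne_one hS hF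
        have hD := hS.conj_mem E hE f
        obtain ⟨P, hP⟩ := exists_line_of_class hcl hNI hc hE
        obtain ⟨F', hF', hDF, -, -⟩ := exists_psi_on_line hS hNI hE hD (rk_conjBy_self h hf hf1) hP
        refine hstar N _ hDF (comm_le_of_le_sup (E := E) (conjBy_le_sup fun e he => ?_) ?_)
        · rw [Subgroup.commutator_comm] at hle
          exact hle (Subgroup.commutator_mem_commutator hf he)
        · rw [hF'.1.2.2]; exact bot_le
    · exact hstar N _ h hle
  have hq : IsQuasisimple G := by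
    refine CL.Loc.isQuasisimple_iff.2 ⟨⟨hperf⟩, ?_, fun N hN => ?_⟩
    · obtain ⟨a, -, ha1⟩ := rs_exists_ne_one hS hA₀
      exact ⟨a, 1, ha1⟩
    by_cases hfix : ∀ n ∈ N, ∀ A ∈ S, conjBy A n = A
    · right
      intro n hn
      rw [Subgroup.mem_center_iff]
      refine rs_induction hS (p := fun g => g * n = n * g) (by simp) (fun E hE e he => ?_)
        fun x y hx hy => by rw [mul_assoc, hy, ← mul_assoc, hx, mul_assoc]
      obtain ⟨D, -, hED⟩ := hNI E hE
      exact (rk_commute_of_fix hED (fun C hC => hfix n hn C (unip_subset hS hE hC)) e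
        (Subgroup.mem_sup_left he)).symm
    · left
      push Not at hfix
      obtain ⟨n, hn, A, hA, hne⟩ := hfix
      have hC := hS.conj_mem A hA n
      have hCA : conjBy A n ≤ N ⊔ A := conjBy_le_sup fun e _ => by
        rw [commutatorElement_def, mul_assoc, mul_assoc, ← mul_assoc e]
        exact N.mul_mem hn (hN.conj_mem _ (N.inv_mem hn) e)
      have hsub : ¬ centralizingMembers S A ⊆ centralizingMembers S (conjBy A n) := fun h =>
        h2' A hA _ hC hne.symm (centMembers_eq_of_subset hS hA hC (hNI _ hC) h)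
      obtain ⟨E, hE1, hE2⟩ := Set.not_subset.1 hsub
      rw [mem_centMembers] at hE1 hE2
      refine hK N _ hC E hE1.1 (comm_le_of_le_sup hCA ?_) fun h => hE2 ⟨hE1.1, comm_bot_symm h⟩
      rw [comm_bot_symm hE1.2]; exact bot_le
  refine ⟨fun A hA => ?_, ?_, fun _ => hperf, fun _ => hperf⟩
  · rw [hperf, top_sup_eq, inf_top_eq]
    exact ⟨rfl, hS.ne_bot A hA⟩
  · rw [hperf]
    exact CL.Loc.isQuasisimple_top_iff.2 hq

end Cfsg.Agent.S5033
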