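import Cfsg.Statements.S5035
import Cfsg.Agent.Chev.RootClass

set_option autoImplicit false
open Cfsg

namespace Cfsg.Agent.S5035

open CL.Chev.Root
open scoped commutatorElement

/-- Let S be a set of abstract root subgroups of G whose graph of rank one pairs is connected, and f a homomorphism from G onto a group H. Then either the images of the members of S form a set of abstract root subgroups of H whose graph of rank one pairs is again connected, or H equals the image of a member of S. -/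
theorem result {G H : Type*} [Group G] [Group H] {S : Set (Subgroup G)} (hS : Cfsg.IsRootSubgroupSet S)
    (hc : Cfsg.IsConnectedFamily (Cfsg.FAdj S) S) (f : G →* H) (hf : Function.Surjective f) :
    (Cfsg.IsRootSubgroupSet ((fun A : Subgroup G => A.map f) '' S) ∧
      Cfsg.IsConnectedFamily (Cfsg.FAdj ((fun A : Subgroup G => A.map f) '' S)) ((fun A : Subgroup G => A.map f) '' S)) ∨
    ∃ A ∈ S, A.map f = ⊤ := by
  have hgen : (⨆ E ∈ (fun A : Subgroup G => A.map f) '' S, E) = ⊤ := by
    rw [iSup_image, eq_top_iff, ← Subgroup.map_top_of_surjective f hf, ← hS.generates, Subgroup.map_iSup]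
    refine iSup_mono fun A => ?_
    rw [Subgroup.map_iSup]
  by_cases hk : ∃ A ∈ S, ∃ a ∈ A, a ≠ 1 ∧ f a = 1
  · right
    obtain ⟨A, hA, hA1⟩ := hk
    refine ⟨A, hA, ?_⟩
    have key : ∀ B, Relation.ReflTransGen (FAdj S) A B → B.map f = A.map f ∧ ∃ a ∈ B, a ≠ 1 ∧ f a = 1 := by
      intro B hB
      induction hB with
      | refl => exact ⟨rfl, hA1⟩
      | tail _ h ih =>
        obtain ⟨e, a, ha, ha1, hfa⟩ := ih
        obtain ⟨d, hd, -, he⟩ := rk_exists_right h.2.2 ha ha1
        obtain ⟨x, -, hx⟩ := rk_exists_conjBy_eq h.2.2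
        refine ⟨?_, x * a * x⁻¹, hx ▸ conj_mem_conjBy ha x, by simpa using ha1, by simp [hfa]⟩
        have := congrArg (Subgroup.map f) he
        rw [map_conjBy, map_conjBy, hfa, conjBy_one, conjBy_eq_iff_eq_conjBy_inv,
          conjBy_of_mem (Subgroup.inv_mem _ (Subgroup.mem_map_of_mem f hd))] at this
        rw [← this, e]
    rw [eq_top_iff, ← hgen]
    refine iSup₂_le ?_
    rintro _ ⟨B, hB, rfl⟩
    exact (key B (hc A hA B hB)).1.le
  left
  push Not at hk
  have hk' : ∀ A ∈ S, ∀ a ∈ A, f a = 1 → a = 1 := fun A hA a ha h => by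
    by_contra h1; exact hk A hA a ha h1 h
  have hcomm : ∀ {A B : Subgroup G}, ⁅A, B⁆ = ⊥ → ⁅A.map f, B.map f⁆ = ⊥ := fun h => by
    rw [← Subgroup.map_commutator, h, Subgroup.map_bot]
  refine ⟨⟨?_, ?_, hgen, ?_, ?_⟩, ?_⟩
  · rintro _ ⟨A, hA, rfl⟩
    exact Subgroup.commutator_self_eq_bot_iff.1 (hcomm (rs_comm_self hS hA))
  · rintro _ ⟨A, hA, rfl⟩ h
    obtain ⟨a, ha, ha1⟩ := rs_exists_ne_one hS hA
    exact ha1 (hk' A hA a ha ((Subgroup.eq_bot_iff_forall _).1 h _ (Subgroup.mem_map_of_mem f ha)))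
  · rintro _ ⟨A, hA, rfl⟩ h
    obtain ⟨g, rfl⟩ := hf h
    exact ⟨_, hS.conj_mem A hA g, map_conjBy f A g⟩
  · rintro _ ⟨A, hA, rfl⟩ _ ⟨B, hB, rfl⟩
    rcases hS.pair A hA B hB with h | h | h
    · exact Or.inl (hcomm h)
    · by_cases he : A.map f = B.map f
      · left
        simp only
        rw [← he]; exact hcomm (rs_comm_self hS hA)
      · exact Or.inr (Or.inl (rk_map h f (hk' A hA) (hk' B hB) he))
    · refine Or.inr (Or.inr ⟨⟨_, h.1, Subgroup.map_commutator _ _ _⟩, ?_, ?_, ?_⟩)
      · simp only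
        rw [← Subgroup.map_commutator, ← Subgroup.map_sup]
        rintro _ ⟨c, hc, rfl⟩ _ ⟨x, hx, rfl⟩
        rw [← map_mul, ← map_mul, h.2.1 c hc x hx]
      · rintro _ ⟨a, ha, rfl⟩ ha1
        simp only
        rw [← Subgroup.map_commutator, ← h.2.2.1 a ha (fun h => ha1 (by rw [h, map_one])),
          MonoidHom.map_closure, Subgroup.coe_map, Set.image_image, Set.image_image]
        simp only [map_mul, map_inv]
      · rintro _ ⟨b, hb, rfl⟩ hb1
        simp only
        rw [← Subgroup.map_commutator, ← h.2.2.2 b hb (fun h => hb1 (by rw [h, map_one])),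
          MonoidHom.map_closure, Subgroup.coe_map, Set.image_image, Set.image_image]
        simp only [map_mul, map_inv]
  · rintro _ ⟨A, hA, rfl⟩ _ ⟨B, hB, rfl⟩
    have := hc A hA B hB
    clear hB
    induction this with
    | refl => exact .refl
    | @tail B C _ h ih =>
      by_cases he : B.map f = C.map f
      · simp only at ih ⊢
        rwa [← he]
      · exact .tail ih ⟨⟨B, h.1, rfl⟩, ⟨C, h.2.1, rfl⟩, rk_map h.2.2 f (hk' B h.1) (hk' C h.2.1) he⟩

end Cfsg.Agent.S5035
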