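import Cfsg.Statements.S5036
import Cfsg.Agent.Chev.RootLine

set_option autoImplicit false
open Cfsg

namespace Cfsg.Agent.S5036

open CL.Chev.Root
open scoped commutatorElement

/-- The centraliser of a conjugate. -/
theorem cent_conj {G : Type*} [Group G] {N B C : Subgroup G} (h : ∀ n ∈ N, (∀ b ∈ B, n * b = b * n) ↔ n ∈ C)
    {x : G} (hx : conjBy N x = N) :
    ∀ n ∈ N, (∀ b ∈ conjBy B x, n * b = b * n) ↔ n ∈ conjBy C x := by
  intro n hn
  have hn' : x⁻¹ * n * x ∈ N := by rw [← hx] at hn; exact mem_conjBy.1 hn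
  rw [mem_conjBy, ← h _ hn']
  constructor
  · intro h1 b hb
    have := h1 _ (conj_mem_conjBy hb x)
    calc x⁻¹ * n * x * b = x⁻¹ * (n * (x * b * x⁻¹)) * x := by group
      _ = x⁻¹ * (x * b * x⁻¹ * n) * x := by rw [this]
      _ = _ := by group
  · intro h1 b hb
    have := h1 _ (mem_conjBy.1 hb)
    calc n * b = x * (x⁻¹ * n * x * (x⁻¹ * b * x)) * x⁻¹ := by group
      _ = x * (x⁻¹ * b * x * (x⁻¹ * n * x)) * x⁻¹ := by rw [this]
      _ = _ := by group

/-- Let S be a set of abstract root subgroups of G, A, B ∈ S with C = ⁅A, B⁆ ∈ S, and D ∈ S with ⁅D, C⁆ = A. Put X = ⟨B, D⟩ and N = AC. Then B, D form a rank one pair; the conjugates of A under X are the conjugates of C under X, namely the conjugates of A by elements of B together with C, equally the conjugates of C by elements of D together with A, and they partition N; and the centralizer of N in X is central in X. -/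
theorem result {G : Type*} [Group G] {S : Set (Subgroup G)} (hS : Cfsg.IsRootSubgroupSet S)
    {A B D : Subgroup G} (hA : A ∈ S) (hB : B ∈ S) (hC : ⁅A, B⁆ ∈ S) (hD : D ∈ S) (hDC : ⁅D, ⁅A, B⁆⁆ = A) :
    Cfsg.IsRankOnePair B D ∧
    {E | ∃ x ∈ B ⊔ D, E = Cfsg.conjBy A x} = {E | ∃ x ∈ B ⊔ D, E = Cfsg.conjBy ⁅A, B⁆ x} ∧
    {E | ∃ x ∈ B ⊔ D, E = Cfsg.conjBy A x} = (fun b : G => Cfsg.conjBy A b) '' (B : Set G) ∪ {⁅A, B⁆} ∧
    {E | ∃ x ∈ B ⊔ D, E = Cfsg.conjBy A x} = (fun d : G => Cfsg.conjBy ⁅A, B⁆ d) '' (D : Set G) ∪ {A} ∧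
    Cfsg.IsSubgroupPartition (A ⊔ ⁅A, B⁆) {E | ∃ x ∈ B ⊔ D, E = Cfsg.conjBy A x} ∧
    ∀ x ∈ (B ⊔ D) ⊓ Subgroup.centralizer ((A ⊔ ⁅A, B⁆ : Subgroup G) : Set G), ∀ y ∈ B ⊔ D, x * y = y * x := by
  have hr := quad_rk hS hA hB hC hD hDC
  set C := ⁅A, B⁆ with hCdef
  have hCD : ⁅C, D⁆ = A := by rw [Subgroup.commutator_comm, hDC]
  have hCDS : ⁅C, D⁆ ∈ S := hCD.symm ▸ hA
  have hAC : ⁅A, C⁆ = ⊥ := psi_comm_left hS hA hB hC
  have hBC : ⁅B, C⁆ = ⊥ := psi_comm_right hS hA hB hC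
  have hDA : ⁅D, A⁆ = ⊥ := by
    have := psi_comm_right hS hC hD hCDS
    rwa [hCD] at this
  have hNB : ∀ b ∈ B, conjBy (A ⊔ C) b = A ⊔ C := fun b hb => psi_conjBy_line hS hA hB hC hb
  have hND : ∀ d ∈ D, conjBy (A ⊔ C) d = A ⊔ C := fun d hd => by
    have := psi_conjBy_line hS hC hD hCDS hd
    rwa [hCD, sup_comm] at this
  have hN : ∀ x ∈ B ⊔ D, conjBy (A ⊔ C) x = A ⊔ C := fun x hx => mem_normalizer_iff_conjBy.1
    ((sup_le (fun b hb => mem_normalizer_iff_conjBy.2 (hNB b hb))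
      (fun d hd => mem_normalizer_iff_conjBy.2 (hND d hd)) :
        B ⊔ D ≤ Subgroup.normalizer ((A ⊔ C : Subgroup G) : Set G)) hx)
  have hcB : ∀ n ∈ A ⊔ C, (∀ b ∈ B, n * b = b * n) ↔ n ∈ C := by
    intro n hn
    refine ⟨fun h => ?_, fun h b hb => (comm_bot_iff.1 hBC b hb n h).symm⟩
    obtain ⟨a, ha, c, hc, rfl⟩ := (mem_sup_of_comm hAC).1 hn
    by_cases ha1 : a = 1
    · rwa [ha1, one_mul]
    · refine absurd (comm_bot_of_elt hS hA hB ha ha1 fun b hb => ?_) (hS.ne_bot _ hC)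
      have := h b hb
      rw [mul_assoc, ← comm_bot_iff.1 hBC b hb c hc, ← mul_assoc, ← mul_assoc] at this
      exact mul_right_cancel this
  have hcD : ∀ n ∈ A ⊔ C, (∀ d ∈ D, n * d = d * n) ↔ n ∈ A := by
    intro n hn
    refine ⟨fun h => ?_, fun h d hd => (comm_bot_iff.1 hDA d hd n h).symm⟩
    obtain ⟨a, ha, c, hc, rfl⟩ := (mem_sup_of_comm hAC).1 hn
    by_cases hc1 : c = 1
    · rwa [hc1, mul_one]
    · refine absurd (comm_bot_of_elt hS hC hD hc hc1 fun d hd => ?_) (hS.ne_bot _ hCDS)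
      have := h d hd
      rw [← mul_assoc d, comm_bot_iff.1 hDA d hd a ha, mul_assoc, mul_assoc] at this
      exact mul_left_cancel this
  -- partners `b`, `d` conjugate `A` and `C` to the same subgroup
  have hpart : ∀ b ∈ B, ∀ d ∈ D, conjBy B d = conjBy D b → conjBy C d = conjBy A b := by
    intro b hb d hd he
    have h1 := cent_conj hcB (hND d hd)
    have h2 := cent_conj hcD (hNB b hb)
    have l1 : conjBy C d ≤ A ⊔ C := by rw [← hND d hd]; exact conjBy_mono le_sup_right d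
    have l2 : conjBy A b ≤ A ⊔ C := by rw [← hNB b hb]; exact conjBy_mono le_sup_left b
    ext n
    constructor
    · intro hn; rw [← h2 n (l1 hn), ← he, h1 n (l1 hn)]; exact hn
    · intro hn; rw [← h1 n (l2 hn), he, h2 n (l2 hn)]; exact hn
  have hAd : ∀ d ∈ D, conjBy A d = A := fun d hd => conjBy_of_commute (comm_bot_iff.1 hDA d hd)
  have hCb : ∀ b ∈ B, conjBy C b = C := fun b hb => conjBy_of_commute (comm_bot_iff.1 hBC b hb)
  have hT : (fun b : G => conjBy A b) '' (B : Set G) ∪ {C} = (fun d : G => conjBy C d) '' (D : Set G) ∪ {A} := by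
    ext E
    constructor
    · rintro (⟨b, hb, rfl⟩ | rfl)
      · by_cases hb1 : b = 1
        · right; simp only [hb1, conjBy_one]; rfl
        · obtain ⟨d, hd, -, he⟩ := rk_exists_right hr hb hb1
          exact Or.inl ⟨d, hd, hpart b hb d hd he⟩
      · exact Or.inl ⟨1, D.one_mem, conjBy_one _⟩
    · rintro (⟨d, hd, rfl⟩ | rfl)
      · by_cases hd1 : d = 1
        · right; simp only [hd1, conjBy_one]; rfl
        · obtain ⟨b, hb, -, he⟩ := rk_exists_left hr hd hd1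
          exact Or.inl ⟨b, hb, (hpart b hb d hd he).symm⟩
      · exact Or.inl ⟨1, B.one_mem, conjBy_one _⟩
  have hinv : ∀ x ∈ B ⊔ D, ∀ E ∈ (fun b : G => conjBy A b) '' (B : Set G) ∪ {C},
      conjBy E x ∈ (fun b : G => conjBy A b) '' (B : Set G) ∪ {C} := by
    refine conjBy_mem_of_sup ?_ ?_
    · rintro b hb E (⟨b', hb', rfl⟩ | rfl)
      · exact Or.inl ⟨b * b', B.mul_mem hb hb', (conjBy_conjBy _ _ _).symm⟩
      · exact Or.inr (hCb b hb)
    · rw [hT]
      rintro d hd E (⟨d', hd', rfl⟩ | rfl)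
      · exact Or.inl ⟨d * d', D.mul_mem hd hd', (conjBy_conjBy _ _ _).symm⟩
      · exact Or.inr (hAd d hd)
  obtain ⟨y, hy, hyAC⟩ : ∃ y ∈ B ⊔ D, conjBy A y = C := by
    obtain ⟨b, hb, hb1⟩ := rs_exists_ne_one hS hB
    obtain ⟨d, hd, -, he⟩ := rk_exists_right hr hb hb1
    exact ⟨d⁻¹ * b, Subgroup.mul_mem _ (Subgroup.mem_sup_right (D.inv_mem hd)) (Subgroup.mem_sup_left hb),
      conjBy_eq_conjBy_iff.1 (hpart b hb d hd he).symm⟩
  have h2 : {E | ∃ x ∈ B ⊔ D, E = conjBy A x} = (fun b : G => conjBy A b) '' (B : Set G) ∪ {C} := by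
    ext E
    constructor
    · rintro ⟨x, hx, rfl⟩
      exact hinv x hx A (Or.inl ⟨1, B.one_mem, conjBy_one _⟩)
    · rintro (⟨b, hb, rfl⟩ | rfl)
      · exact ⟨b, Subgroup.mem_sup_left hb, rfl⟩
      · exact ⟨y, hy, hyAC.symm⟩
  have hBni : NI S B := ⟨D, hD, hr⟩
  refine ⟨hr, ?_, h2, h2.trans hT, ?_, ?_⟩
  · ext E
    constructor
    · rintro ⟨x, hx, rfl⟩
      exact ⟨x * y⁻¹, Subgroup.mul_mem _ hx (Subgroup.inv_mem _ hy), by
        rw [← hyAC, conjBy_conjBy, inv_mul_cancel_right]⟩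
    · rintro ⟨x, hx, rfl⟩
      exact ⟨x * y, Subgroup.mul_mem _ hx hy, by rw [← hyAC, conjBy_conjBy]⟩
  · rw [h2]
    have hAC1 : ∀ b ∈ B, ∀ x ∈ conjBy A b, x ∈ C → x = 1 := by
      intro b hb x hx hxC
      obtain ⟨a, ha, rfl⟩ := mem_conjBy_iff_exists.1 hx
      rw [← hCb b hb] at hxC
      have : a ∈ C := by simpa [mul_assoc] using mem_conjBy.1 hxC
      rw [psi_eq_one_of_mem hS hA hB hC ha this]; group
    refine ⟨?_, fun x hx hx1 => ?_, ?_⟩
    · rintro E (⟨b, hb, rfl⟩ | rfl)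
      · exact psi_conjBy_le hA hb
      · exact le_sup_right
    · obtain ⟨a, ha, c, hc, rfl⟩ := (mem_sup_of_comm hAC).1 hx
      by_cases ha1 : a = 1
      · exact ⟨C, Or.inr rfl, by rwa [ha1, one_mul]⟩
      · obtain ⟨b, hb, he⟩ := psi_exists_conj hS hA hB hC ha ha1 hc
        exact ⟨_, Or.inl ⟨b, hb, rfl⟩, he ▸ conj_mem_conjBy ha b⟩
    · rintro E (⟨b, hb, rfl⟩ | rfl) F (⟨b', hb', rfl⟩ | rfl) hne
      · refine (Subgroup.eq_bot_iff_forall _).2 fun x hx => ?_
        by_contra hx1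
        obtain ⟨a, ha, rfl⟩ := mem_conjBy_iff_exists.1 hx.1
        have ha' := mem_conjBy.1 hx.2
        have ha1 : a ≠ 1 := by rintro rfl; simp at hx1
        have hbb := B.mul_mem (B.inv_mem hb') hb
        have h3 : ⁅b'⁻¹ * b, a⁆ = 1 := by
          refine psi_eq_one_of_mem hS hA hB hC ?_ ?_
          · have : ⁅b'⁻¹ * b, a⁆ = b'⁻¹ * (b * a * b⁻¹) * b' * a⁻¹ := by rw [commutatorElement_def]; group
            rw [this]; exact A.mul_mem ha' (A.inv_mem ha)
          · rw [Subgroup.commutator_comm]; exact Subgroup.commutator_mem_commutator hbb ha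
        by_cases hb1 : b'⁻¹ * b = 1
        · exact hne (by simp only [inv_mul_eq_one.1 hb1])
        · exact ha1 (hBni.psi_eq_one hS hB hA (psi_symm hC) hbb hb1 ha
            (commutatorElement_eq_one_iff_mul_comm.1 h3))
      · exact (Subgroup.eq_bot_iff_forall _).2 fun x hx => hAC1 b hb x hx.1 hx.2
      · exact (Subgroup.eq_bot_iff_forall _).2 fun x hx => hAC1 b' hb' x hx.2 hx.1
      · exact absurd rfl hne
  · have hK : ∀ x ∈ B ⊔ D, conjBy (Subgroup.centralizer ((A ⊔ C : Subgroup G) : Set G)) x =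
        Subgroup.centralizer ((A ⊔ C : Subgroup G) : Set G) := by
      intro x hx
      ext z
      rw [mem_conjBy, Subgroup.mem_centralizer_iff, Subgroup.mem_centralizer_iff]
      constructor
      · intro h n hn
        have hn' : x⁻¹ * n * x ∈ A ⊔ C := by rw [← hN x hx] at hn; exact mem_conjBy.1 hn
        have := h _ hn'
        calc n * z = x * (x⁻¹ * n * x * (x⁻¹ * z * x)) * x⁻¹ := by group
          _ = x * (x⁻¹ * z * x * (x⁻¹ * n * x)) * x⁻¹ := by rw [this]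
          _ = _ := by group
      · intro h n hn
        have hn' : x * n * x⁻¹ ∈ A ⊔ C := by rw [← hN x hx]; exact conj_mem_conjBy hn x
        have := h _ hn'
        calc n * (x⁻¹ * z * x) = x⁻¹ * (x * n * x⁻¹ * z) * x := by group
          _ = x⁻¹ * (z * (x * n * x⁻¹)) * x := by rw [this]
          _ = _ := by group
    rcases rk_normal_dichotomy hr hK with h3 | h3
    · exfalso
      have : ⁅C, D⁆ = ⊥ := by
        refine comm_bot_mono (comm_sup_bot ?_ (comm_bot_symm hBC)) le_rfl h3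
        exact comm_bot_iff.2 fun c hc z hz => Subgroup.mem_centralizer_iff.1 hz c (Subgroup.mem_sup_right hc)
      exact hS.ne_bot _ hCDS this
    · exact fun x hx => h3 x hx.2 hx.1

end Cfsg.Agent.S5036
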