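import Cfsg.Statements.S5038
import Cfsg.Agent.Chev.RootClass

set_option autoImplicit false
open Cfsg

namespace Cfsg.Agent.S5038

open CL.Chev.Root

/-- Let S be a set of abstract root subgroups of G in which every member has a rank one partner, A ∈ S and B a line partner of A. Then the subgroup generated by the members of S normalizing AB permutes the members of S inside AB doubly transitively by conjugation. -/
theorem result {G : Type*} [Group G] {S : Set (Subgroup G)} (hS : Cfsg.IsRootSubgroupSet S)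
    (hF : ∀ A ∈ S, ¬ Cfsg.IsIsolatedIn (Cfsg.FAdj S) S A) {A B : Subgroup G} (hA : A ∈ S) (hB : B ∈ Cfsg.linePartners S A) :
    ∀ C₁ ∈ Cfsg.membersIn S (A ⊔ B), ∀ C₂ ∈ Cfsg.membersIn S (A ⊔ B), ∀ D₁ ∈ Cfsg.membersIn S (A ⊔ B),
      ∀ D₂ ∈ Cfsg.membersIn S (A ⊔ B), C₁ ≠ C₂ → D₁ ≠ D₂ →
        ∃ x ∈ ⨆ E ∈ Cfsg.normalizingMembers S (A ⊔ B), E, Cfsg.conjBy C₁ x = D₁ ∧ Cfsg.conjBy C₂ x = D₂ := by
  have hNI : ∀ E ∈ S, NI S E := fun E hE => (ni_iff hE).1 (hF E hE)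
  have key : ∀ P ∈ membersIn S (A ⊔ B), ∀ P' ∈ membersIn S (A ⊔ B), ∀ Q ∈ membersIn S (A ⊔ B), P ≠ Q → P' ≠ Q →
      ∃ x ∈ ⨆ E ∈ normalizingMembers S (A ⊔ B), E, conjBy (A ⊔ B) x = A ⊔ B ∧ conjBy P x = P' ∧ conjBy Q x = Q := by
    intro P hP P' hP' Q hQ h1 h2
    obtain ⟨E, hE, -, hn, x, hx, e1, e2⟩ := line_exists_conj hS hNI hA hB hP hP' hQ h1 h2
    have hm : E ∈ normalizingMembers S (A ⊔ B) := ⟨hE, fun y hy => mem_normalizer_iff_conjBy.2 (hn y hy)⟩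
    exact ⟨x, (le_iSup₂_of_le (f := fun E (_ : E ∈ normalizingMembers S (A ⊔ B)) => E) E hm le_rfl) hx,
      hn x hx, e1, e2⟩
  intro C₁ h₁ C₂ h₂ D₁ h₃ D₂ h₄ hC hD
  obtain ⟨x, hx, hxL, e1⟩ : ∃ x ∈ ⨆ E ∈ normalizingMembers S (A ⊔ B), E,
      conjBy (A ⊔ B) x = A ⊔ B ∧ conjBy C₁ x = D₁ := by
    by_cases h : C₁ = D₁
    · exact ⟨1, Subgroup.one_mem _, conjBy_one _, by rw [conjBy_one, h]⟩
    · obtain ⟨T, hT, h1, h2⟩ := line_exists_third hS hNI hA hB h₁ h₃ h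
      obtain ⟨x, hx, hxL, e1, -⟩ := key C₁ h₁ D₁ h₃ T hT h1.symm h2.symm
      exact ⟨x, hx, hxL, e1⟩
  have hm : conjBy C₂ x ∈ membersIn S (A ⊔ B) :=
    ⟨hS.conj_mem _ h₂.1 x, by rw [← hxL]; exact conjBy_mono h₂.2 x⟩
  obtain ⟨y, hy, -, e2, e3⟩ := key _ hm D₂ h₄ D₁ h₃ (fun h => hC (conjBy_inj.1 (e1.trans h.symm))) hD.symm
  exact ⟨y * x, Subgroup.mul_mem _ hy hx, by rw [← conjBy_conjBy, e1, e3], by rw [← conjBy_conjBy, e2]⟩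

end Cfsg.Agent.S5038
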