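import Cfsg.Statements.S5039
import Cfsg.Agent.Chev.RootTri

set_option autoImplicit false
universe u
open Cfsg

namespace Cfsg.Agent.S5039

open CL.Chev.Root

/-- Let S be a class of abstract root subgroups of G containing two different commuting members. Suppose that, in case S is degenerate and every element of every member of S has order at most 3, the following holds: for every A ∈ S and every rank one partner B of A there are subgroups A₀ ≤ A and B₀ ≤ B generating an image of SL₂(k) with central kernel, k a field with at least four elements, A₀ and B₀ being the images of the unitriangular subgroups. Then every rank one pair A, B in S is special. -/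
theorem result {G : Type u} [Group G] {S : Set (Subgroup G)} (hS : Cfsg.IsRootSubgroupClass S)
    (hcomm : ∃ A ∈ S, ∃ C ∈ S, A ≠ C ∧ ⁅A, C⁆ = ⊥)
    (hH : Cfsg.IsDegenerateRootSet S → (∀ A ∈ S, ∀ a ∈ A, 0 < orderOf a ∧ orderOf a ≤ 3) →
      ∀ A ∈ S, ∀ B ∈ Cfsg.rankOnePartners S A, ∃ A₀ B₀ : Subgroup G, A₀ ≤ A ∧ B₀ ≤ B ∧
        ∃ (k : Type u) (_ : Field k), 3 < ENat.card k ∧ Cfsg.IsPSL2PairOver k A₀ B₀)
    {A B : Subgroup G} (hA : A ∈ S) (hB : B ∈ Cfsg.rankOnePartners S A) : Cfsg.IsSpecialRankOnePair A B := by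
  by_cases hdeg : IsDegenerateRootSet S
  · refine special_of_degenerate hS hdeg hcomm (fun E hE => ?_) hA hB.1 hB.2
    by_cases ho : ∀ A ∈ S, ∀ a ∈ A, 0 < orderOf a ∧ orderOf a ≤ 3
    · obtain ⟨D, hD, hED⟩ := ni_of_class hS hA hB.1 hB.2 E hE
      obtain ⟨A₀, B₀, hA₀, -, k, _, hk, hp⟩ := hH hdeg ho E hE D ⟨hD, hED⟩
      exact hk.trans_le ((IsPSL2PairOver.card_le hp).trans
        (ENat.card_le_card_of_injective (Subgroup.inclusion_injective hA₀)))
    · push Not at ho
      obtain ⟨F, hF, a, ha, ho⟩ := ho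
      obtain ⟨g, rfl⟩ := hS.2.2 F hF E hE
      rw [← ENat.card_congr (conjByEquiv F g).toEquiv]
      have h4 : ENat.card (Fin 4) ≤ ENat.card F := by
        refine ENat.card_le_card_of_injective (f := fun i : Fin 4 => (⟨a ^ (i : ℕ), F.pow_mem ha _⟩ : F))
          fun i j hij => Fin.ext ?_
        have h1 : a ^ (i : ℕ) = a ^ (j : ℕ) := congrArg Subtype.val hij
        rcases Nat.eq_zero_or_pos (orderOf a) with h0 | h0
        · exact (pow_inj_iff_of_orderOf_eq_zero h0).1 h1
        · have := ho h0
          exact pow_injOn_Iio_orderOf (by simp only [Set.mem_Iio]; omega) (by simp only [Set.mem_Iio]; omega) h1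
      refine lt_of_lt_of_le ?_ h4
      rw [ENat.card_eq_coe_fintype_card, Fintype.card_fin]
      decide
  · have hNI := ni_of_class hS hA hB.1 hB.2
    have hc : ∃ A ∈ S, ∃ B ∈ S, RootCommutatorCase S A B := by
      unfold IsDegenerateRootSet at hdeg
      push Not at hdeg
      exact hdeg
    obtain ⟨P, hP⟩ := exists_line_of_class hS hNI hc hA
    obtain ⟨F, hF, hBF, hk, -⟩ := exists_psi_on_line hS.1 hNI hA hB.1 hB.2 hP
    have e : ⁅⁅B, F⁆, A⁆ = F := by rw [Subgroup.commutator_comm, hk]
    exact quad_special hS.1 hBF hA (e.symm ▸ hF.1.1) hB.1 (by rw [e])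

end Cfsg.Agent.S5039
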