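import Cfsg.Statements.S5040
import Cfsg.Agent.Chev.RootClass

set_option autoImplicit false
open Cfsg

namespace Cfsg.Agent.S5040

open CL.Chev.Root

/-- Let S be a non-degenerate class of abstract root subgroups of G and Δ a weak TI-subset of S. Then the members of Δ commute with one another elementwise. -/
theorem result {G : Type*} [Group G] {S : Set (Subgroup G)} (hS : Cfsg.IsRootSubgroupClass S) (hnd : Cfsg.IsNondegenerateRootSet S)
    {Δ : Set (Subgroup G)} (hΔ : Cfsg.IsWeakTISubset S Δ) : Cfsg.IsAbelianFamily Δ := by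
  have hNI := ni_of_nondeg hS hnd
  obtain ⟨hsub, -, hne, hTI⟩ := hΔ
  let N : Subgroup G :=
    { carrier := {g | (fun A => conjBy A g) '' Δ = Δ}
      one_mem' := by simp only [Set.mem_ofPred_eq, conjBy_one, Set.image_id']
      mul_mem' := by
        intro x y hx hy
        simp only [Set.mem_ofPred_eq] at hx hy ⊢
        conv_rhs => rw [← hx, ← hy, Set.image_image]
        simp only [conjBy_conjBy]
      inv_mem' := by
        intro x hx
        simp only [Set.mem_ofPred_eq] at hx ⊢
        conv_lhs => rw [← hx, Set.image_image]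
        simp only [conjBy_conjBy_inv, Set.image_id'] }
  have hN : ∀ E ∈ S, ∀ A ∈ Δ, ⁅A, E⁆ = ⊥ → E ≤ N := by
    intro E hE A hA hc e he
    by_cases he1 : e = 1
    · rw [he1]; exact N.one_mem
    refine (hTI e ⟨he1, E, hE, he⟩).resolve_right fun hd => ?_
    exact Set.disjoint_left.1 hd ⟨A, hA, conjBy_of_commute fun a ha => (comm_bot_iff.1 hc a ha e he).symm⟩ hA
  have key : ∀ A ∈ Δ, ∀ D ∈ S, IsRankOnePair A D → ¬ D ≤ N := by
    intro A hA D hD h hle
    have := line_sup_rk_eq_top hS hnd (hsub hA) hD h (U := N) (fun C hC => hN C hC.1.1 A hA hC.1.2.2) hle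
    refine hne (Set.Subset.antisymm hsub fun E hE => ?_)
    obtain ⟨g, rfl⟩ := hS.2.2 A (hsub hA) E hE
    have hg : g ∈ N := this ▸ Subgroup.mem_top g
    have hg' : (fun A => conjBy A g) '' Δ = Δ := hg
    rw [← hg']
    exact ⟨A, hA, rfl⟩
  intro A hA B hB
  rcases rs_tri hS.1 (hsub hA) (hsub hB) with h | h | h
  · exact comm_bot_iff.1 h
  · exact absurd (hN B (hsub hB) B hB (rs_comm_self hS.1 (hsub hB))) (key A hA B (hsub hB) h)
  · obtain ⟨D, hD, h1, h2⟩ := exists_rk_comm_of_psi hS.1 hNI (hsub hA) (hsub hB) h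
    exact absurd (hN D hD B hB h2) (key A hA D hD h1)

end Cfsg.Agent.S5040
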