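import Cfsg.Statements.S5042
import Cfsg.Agent.Chev.RootClass

set_option autoImplicit false
open Cfsg

namespace Cfsg.Agent.S5042

open CL.Chev.Root

/-- Let S be a non-degenerate class of abstract root subgroups of G, A ∈ S and B a rank one partner of A. Then G is generated by the line partners of A together with B. -/
theorem result {G : Type*} [Group G] {S : Set (Subgroup G)} (hS : Cfsg.IsRootSubgroupClass S) (hnd : Cfsg.IsNondegenerateRootSet S)
    {A B : Subgroup G} (hA : A ∈ S) (hB : B ∈ Cfsg.rankOnePartners S A) :
    (⨆ C ∈ Cfsg.linePartners S A, C) ⊔ B = ⊤ := by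
  exact line_sup_rk_eq_top hS hnd hA hB.1 hB.2
    (fun C hC => (le_iSup₂_of_le (f := fun C (_ : C ∈ linePartners S A) => C) C hC le_rfl).trans le_sup_left)
    le_sup_right

end Cfsg.Agent.S5042
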