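import Cfsg.Statements.S5043
import Cfsg.Agent.Chev.RootFamLin

set_option autoImplicit false
open Matrix
open Cfsg

namespace Cfsg.Agent.S5043

open CL.Chev.RFam CL.Chev.Root

/-- Let k be a field and n a natural number. In SL_{n+3}(k) (so in every dimension at least 3) the conjugates of the root subgroup of elementary transvections 1 + c E₁₂ (c ∈ k) — that is, the groups of transvections attached to an incident point–hyperplane pair — form a non-degenerate class of abstract k-root subgroups of SL_{n+3}(k) whose graph of rank one pairs is connected. -/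
theorem result (k : Type*) [Field k] (n : ℕ) :
    Cfsg.IsRootSubgroupClass {A : Subgroup (Matrix.SpecialLinearGroup (Fin (n + 3)) k) |
        ∃ g : Matrix.SpecialLinearGroup (Fin (n + 3)) k,
          A = Cfsg.conjBy (Subgroup.closure {t : Matrix.SpecialLinearGroup (Fin (n + 3)) k |
            ∃ c : k, (t : Matrix (Fin (n + 3)) (Fin (n + 3)) k) = Matrix.transvection 0 1 c}) g} ∧
    Cfsg.IsNondegenerateRootSet {A : Subgroup (Matrix.SpecialLinearGroup (Fin (n + 3)) k) |
        ∃ g : Matrix.SpecialLinearGroup (Fin (n + 3)) k,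
          A = Cfsg.conjBy (Subgroup.closure {t : Matrix.SpecialLinearGroup (Fin (n + 3)) k |
            ∃ c : k, (t : Matrix (Fin (n + 3)) (Fin (n + 3)) k) = Matrix.transvection 0 1 c}) g} ∧
    Cfsg.IsKRootSubgroupSet k {A : Subgroup (Matrix.SpecialLinearGroup (Fin (n + 3)) k) |
        ∃ g : Matrix.SpecialLinearGroup (Fin (n + 3)) k,
          A = Cfsg.conjBy (Subgroup.closure {t : Matrix.SpecialLinearGroup (Fin (n + 3)) k |
            ∃ c : k, (t : Matrix (Fin (n + 3)) (Fin (n + 3)) k) = Matrix.transvection 0 1 c}) g} ∧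
    Cfsg.IsConnectedFamily (Cfsg.FAdj {A : Subgroup (Matrix.SpecialLinearGroup (Fin (n + 3)) k) |
        ∃ g : Matrix.SpecialLinearGroup (Fin (n + 3)) k,
          A = Cfsg.conjBy (Subgroup.closure {t : Matrix.SpecialLinearGroup (Fin (n + 3)) k |
            ∃ c : k, (t : Matrix (Fin (n + 3)) (Fin (n + 3)) k) = Matrix.transvection 0 1 c}) g})
      {A : Subgroup (Matrix.SpecialLinearGroup (Fin (n + 3)) k) |
        ∃ g : Matrix.SpecialLinearGroup (Fin (n + 3)) k,
          A = Cfsg.conjBy (Subgroup.closure {t : Matrix.SpecialLinearGroup (Fin (n + 3)) k |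
            ∃ c : k, (t : Matrix (Fin (n + 3)) (Fin (n + 3)) k) = Matrix.transvection 0 1 c}) g} := by
  have h01 : (0 : Fin (n + 3)) ≠ 1 := by simp
  have h12 : (1 : Fin (n + 3)) ≠ 2 := by
    simp [Fin.ext_iff, Nat.mod_eq_of_lt (show 2 < n + 3 by omega)]
  have h02 : (0 : Fin (n + 3)) ≠ 2 := by
    simp [Fin.ext_iff, Nat.mod_eq_of_lt (show 2 < n + 3 by omega)]
  have hc := linFam_class (ι := Fin (n + 3)) (k := k)
  have F := linFam_fam (ι := Fin (n + 3)) (k := k)
  rw [closure_transvection_eq, eq_conjClass hc ⟨_, single_mem_linFam h01, rfl⟩]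
  refine ⟨hc, ⟨?_, ?_, ?_⟩, F.isKRootSet linFam_gen, linFam_connected⟩
  · refine ⟨_, ⟨_, single_mem_linFam h01, rfl⟩, _, ⟨_, single_mem_linFam h02, rfl⟩, fun he => ?_, ?_⟩
    · have h1 := (F.comm_bot_iff' (single_mem_linFam h02) (single_mem_linFam h12)).2 (by
        rw [single_mul_single_of_ne _ _ _ _ h02.symm, single_mul_single_of_ne _ _ _ _ h12.symm])
      rw [← he, F.comm_bot_iff' (single_mem_linFam h01) (single_mem_linFam h12), single_mul_single_same,
        single_mul_single_of_ne _ _ _ _ h02.symm] at h1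
      exact F.ne _ (single_mem_linFam h02) (by rw [← h1, one_mul])
    · rw [F.comm_bot_iff' (single_mem_linFam h01) (single_mem_linFam h02),
        single_mul_single_of_ne _ _ _ _ h01.symm, single_mul_single_of_ne _ _ _ _ h02.symm]
  · obtain ⟨M, hM, h⟩ := linFam_exists_opp (single_mem_linFam (k := k) h01)
    exact ⟨_, ⟨_, single_mem_linFam h01, rfl⟩, _, ⟨_, hM, rfl⟩, (F.psl2_of_opp (single_mem_linFam h01) hM h).2⟩
  · refine ⟨_, ⟨_, single_mem_linFam h01, rfl⟩, _, ⟨_, single_mem_linFam h12, rfl⟩,
      F.commutatorCase (single_mem_linFam h01) (single_mem_linFam h12) ?_ ?_ ?_⟩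
    · rw [single_mul_single_same, single_mul_single_of_ne _ _ _ _ h02.symm]
    · rw [single_mul_single_of_ne _ _ _ _ h02.symm, zero_mul]
    · rw [single_mul_single_same, single_mul_single_of_ne _ _ _ _ h02.symm, sub_zero, one_mul]
      exact single_mem_linFam h02

end Cfsg.Agent.S5043
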