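import Cfsg.Statements.S5045
import Cfsg.Agent.Chev.RootInvClass

set_option autoImplicit false
open Cfsg

namespace Cfsg.Agent.S5045

open CL.Chev.RInv

/-- Let G be a finite group generated by a set D of root involutions, and W the set of members of D whose product with every other member of D has even order or is trivial (the isolated vertices of the odd-order-product graph on D). Then W is conjugation-invariant and generates a normal 2-subgroup of G meeting D in exactly W; the commutator of two members of D lying in different connected components of that graph, each with more than one member, lies in the subgroup generated by W; and for a in such a component, every member of D commuting with a, different from a and with product with a in D, lies in that component or in W. -/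
theorem result {G : Type*} [Group G] [Finite G] {D : Set G} (hD : Cfsg.IsRootInvolutionSet D) :
    (∀ w ∈ {w | Cfsg.IsIsolatedElem (Cfsg.OddAdj D) D w}, ∀ g : G, g * w * g⁻¹ ∈ {w | Cfsg.IsIsolatedElem (Cfsg.OddAdj D) D w}) ∧
    (Subgroup.closure {w | Cfsg.IsIsolatedElem (Cfsg.OddAdj D) D w}).Normal ∧
    IsPGroup 2 ↥(Subgroup.closure {w | Cfsg.IsIsolatedElem (Cfsg.OddAdj D) D w}) ∧
    (Subgroup.closure {w | Cfsg.IsIsolatedElem (Cfsg.OddAdj D) D w} : Set G) ∩ D = {w | Cfsg.IsIsolatedElem (Cfsg.OddAdj D) D w} ∧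
    (∀ a ∈ D, ∀ b ∈ D, (∃ a' ∈ Cfsg.elemComponentOf (Cfsg.OddAdj D) D a, a' ≠ a) →
      (∃ b' ∈ Cfsg.elemComponentOf (Cfsg.OddAdj D) D b, b' ≠ b) →
      Cfsg.elemComponentOf (Cfsg.OddAdj D) D a ≠ Cfsg.elemComponentOf (Cfsg.OddAdj D) D b →
        a * b * a⁻¹ * b⁻¹ ∈ Subgroup.closure {w | Cfsg.IsIsolatedElem (Cfsg.OddAdj D) D w}) ∧
    (∀ a ∈ D, (∃ a' ∈ Cfsg.elemComponentOf (Cfsg.OddAdj D) D a, a' ≠ a) →
      Cfsg.productPartners D a ⊆ Cfsg.elemComponentOf (Cfsg.OddAdj D) D a ∪ {w | Cfsg.IsIsolatedElem (Cfsg.OddAdj D) D w}) := by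
  have h1 : ∀ w ∈ {w | IsIsolatedElem (OddAdj D) D w}, ∀ g : G, g * w * g⁻¹ ∈ {w | IsIsolatedElem (OddAdj D) D w} := by
    intro w hw g
    obtain ⟨hw, h⟩ := isolated_iff.1 hw
    refine isolated_iff.2 ⟨hD.conj_mem w hw g, fun x hx ho => h (g⁻¹ * x * g⁻¹⁻¹) (hD.conj_mem x hx _) ?_⟩
    simpa [mul_assoc] using ho.conj g⁻¹
  have h2 : (Subgroup.closure {w | IsIsolatedElem (OddAdj D) D w}).Normal := ⟨fun n hn g => by
    induction hn using Subgroup.closure_induction with
    | mem x hx => exact Subgroup.subset_closure (h1 x hx g)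
    | one => simp
    | mul x y _ _ hx hy => simpa [mul_assoc] using Subgroup.mul_mem _ hx hy
    | inv x _ hx => simpa [mul_assoc] using Subgroup.inv_mem _ hx⟩
  have h3 : IsPGroup 2 (Subgroup.closure {w | IsIsolatedElem (OddAdj D) D w}) :=
    CL.Grp.isPGroup_of_le_pCore ((Subgroup.closure_le _).2 fun w hw =>
      mem_pCore_of_isolated hD (isolated_iff.1 hw).1 (isolated_iff.1 hw).2)
  have hsymm : ∀ {a b : G}, Relation.ReflTransGen (OddAdj D) a b → Relation.ReflTransGen (OddAdj D) b a := by
    intro a b h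
    induction h with
    | refl => exact .refl
    | tail _ h ih => exact .head ⟨h.2.1, h.1, Opp.symm h.2.2⟩ ih
  have h6 : ∀ a ∈ D, (∃ a' ∈ elemComponentOf (OddAdj D) D a, a' ≠ a) →
      productPartners D a ⊆ elemComponentOf (OddAdj D) D a ∪ {w | IsIsolatedElem (OddAdj D) D w} := by
    rintro a ha ⟨a', ha', hne⟩ e he
    obtain ⟨x, hx⟩ : ∃ x, OddAdj D a x := by
      rcases ha'.2.cases_head with h | ⟨x, h, -⟩
      exacts [absurd h.symm hne, ⟨x, h⟩]
    have hae : Commute a e := Eq.symm he.1.2.1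
    have haeD : a * e ∈ D := hae.eq ▸ he.2
    by_cases hi : ∀ y ∈ D, ¬ Opp e y
    · exact Or.inr (isolated_iff.2 ⟨he.1.1, hi⟩)
    push Not at hi
    obtain ⟨y, hy, hey⟩ := hi
    refine Or.inl ⟨he.1.1, ?_⟩
    rcases opp_mul_or hD ha he.1.1 hx.2.1 hae haeD hx.2.2 with h | h
    · exact .head hx (.single ⟨hx.2.1, he.1.1, h.symm⟩)
    · rcases opp_mul_or hD he.1.1 ha hy hae.symm he.2 hey with h' | h'
      · exact .head ⟨ha, hy, h'⟩ (.single ⟨hy, he.1.1, hey.symm⟩)
      · rw [← hae.eq] at h'
        exact .head hx (.head ⟨hx.2.1, haeD, h.symm⟩ (.head ⟨haeD, hy, h'⟩ (.single ⟨hy, he.1.1, hey.symm⟩)))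
  refine ⟨h1, h2, h3, ?_, fun a ha b hb ha' hb' hne => ?_, h6⟩
  · ext d
    exact ⟨fun h => isolated_iff.2 ⟨h.2, fun x hx => not_opp_of_mem hD h3 h.1 hx⟩,
      fun h => ⟨Subgroup.subset_closure h, (isolated_iff.1 h).1⟩⟩
  · have hcomp : ∀ {a b : G}, Relation.ReflTransGen (OddAdj D) a b →
        elemComponentOf (OddAdj D) D a = elemComponentOf (OddAdj D) D b := fun h =>
      Set.ext fun y => and_congr_right fun _ => ⟨fun h1 => (hsymm h).trans h1, fun h1 => h.trans h1⟩
    have ha2 := sq hD ha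
    have hb2 := sq hD hb
    rw [inv_eq hD ha, inv_eq hD hb]
    rcases tri hD ha hb with h | h | h
    · rw [mul_assoc, mul_self_of_commute ha2 hb2 h]; exact Subgroup.one_mem _
    · exact absurd (hcomp (.single ⟨ha, hb, h⟩)) hne
    · have hz := four_mem hD ha hb h
      have c1 := four_commute_left ha2 hb2 (four_pow h)
      have c2 := four_commute_right ha2 hb2 (four_pow h)
      have m1 : a * b * a * b ∈ productPartners D a := ⟨⟨hz, c1, fun he => four_not_commute ha2 hb2 h (he ▸ c2)⟩, by
        rw [c1.eq]; simpa only [mul_assoc, cancel ha2] using conj_mem hD ha hb⟩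
      have m2 : a * b * a * b ∈ productPartners D b :=
        ⟨⟨hz, c2, fun he => four_not_commute ha2 hb2 h (he ▸ c1).symm⟩, by
          rw [mul_assoc, hb2, mul_one]; exact conj_mem hD hb ha⟩
      rcases h6 a ha ha' m1 with k1 | k1
      · rcases h6 b hb hb' m2 with k2 | k2
        · exact absurd ((hcomp k1.2).trans (hcomp k2.2).symm) hne
        · exact Subgroup.subset_closure k2
      · exact Subgroup.subset_closure k1

end Cfsg.Agent.S5045
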