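import Cfsg.Statements.S5046
import Cfsg.Agent.Chev.RootInvClass

set_option autoImplicit false
open Cfsg

namespace Cfsg.Agent.S5046

open CL.Chev.RInv

/-- Let G be a finite group generated by a set D of root involutions whose odd-order-product graph is connected, and d ∈ D. Then the members e of D with the same commuting members as d are exactly those for which the union of the commuting members of d and the members whose product with d has order 4 equals the corresponding union for e. -/
theorem result {G : Type*} [Group G] [Finite G] {D : Set G} (hD : Cfsg.IsRootInvolutionSet D)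
    (hc : Cfsg.IsConnectedSet (Cfsg.OddAdj D) D) {d : G} (hd : d ∈ D) :
    Cfsg.sameCommutingClass D d =
      {e | e ∈ D ∧ Cfsg.commutingMembers D d ∪ Cfsg.fourPartners D d = Cfsg.commutingMembers D e ∪ Cfsg.fourPartners D e} := by
  have hcl := class_of_oddConnected hD hc
  have key : ∀ e ∈ D, commutingMembers D e ∪ fourPartners D e = D \ oddPartners D e := by
    intro e he
    ext y
    constructor
    · rintro (h | h)
      · exact ⟨h.1, fun ho => (mem_oddPartners.1 ho).2.not_commute (sq hD he) (sq hD h.1) (Eq.symm h.2)⟩
      · exact ⟨h.1, fun ho => (mem_oddPartners.1 ho).2.not_four h.2⟩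
    · rintro ⟨hy, ho⟩
      rcases tri hD he hy with h | h | h
      · exact Or.inl ⟨hy, h.symm⟩
      · exact absurd (mem_oddPartners.2 ⟨hy, h⟩) ho
      · exact Or.inr ⟨hy, h⟩
  ext e
  refine and_congr_right fun he => ?_
  rw [cent_eq_iff hD hcl hd he, key d hd, key e he]
  refine ⟨fun h => by rw [h], fun h => ?_⟩
  rw [← Set.sdiff_sdiff_cancel_left (s := oddPartners D d) (t := D) fun _ h => h.1, h,
    Set.sdiff_sdiff_cancel_left fun _ h => h.1]

end Cfsg.Agent.S5046
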