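import Cfsg.Statements.S5049
import Cfsg.Agent.Chev.RootInvClass

set_option autoImplicit false
open Cfsg

namespace Cfsg.Agent.S5049

open CL.Chev.RInv

/-- Let G be a finite group generated by a set D of odd transpositions (root involutions with no product of order 4), Q = O₂(G), and for a ∈ D let Q_a be the commutator subgroup of Q with a. Then every member of D commuting with a centralizes Q_a; and for b ∈ D with ab of odd order greater than 1, the centralizer of ab in Q is the intersection of the centralizers of a and b in Q. -/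
theorem result {G : Type*} [Group G] [Finite G] {D : Set G} (hD : Cfsg.IsOddTranspositionSet D) {a : G} (ha : a ∈ D) :
    (∀ e ∈ Cfsg.commutingMembers D a, ∀ q ∈ ⁅Cfsg.pCore 2 G, Subgroup.zpowers a⁆, e * q = q * e) ∧
    (∀ b ∈ Cfsg.oddPartners D a,
      Cfsg.pCore 2 G ⊓ Subgroup.centralizer {a * b} = Cfsg.pCore 2 G ⊓ Subgroup.centralizer {a} ⊓ Subgroup.centralizer {b}) := by
  have hQ := CL.Grp.pCore_isPGroup 2 G
  have ha2 := sq hD.1 ha
  have key : ∀ e ∈ D, Commute e a → ∀ q ∈ pCore 2 G, Commute e (q * a * q⁻¹) := by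
    intro e he hc q hq
    rcases tri hD.1 he (hD.1.conj_mem a ha q) with h | h | h
    · exact h
    · refine absurd h.symm ?_
      obtain ⟨k, hk⟩ := exists_pow_of_mem_sup hQ (mul_self_of_commute ha2 (sq hD.1 he) hc.symm)
        (q := q * (a * q⁻¹ * a⁻¹)) (Subgroup.mul_mem _ hq (Subgroup.Normal.conj_mem inferInstance _
          (Subgroup.inv_mem _ hq) a))
      refine not_opp_of_pow (sq hD.1 he) (k := k) ?_
      rw [← hk]; congr 1; group
    · exact absurd h (hD.2 e he _ (hD.1.conj_mem a ha q))
  refine ⟨fun e he q hq => ?_, fun b hb => ?_⟩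
  · have : ⁅pCore 2 G, Subgroup.zpowers a⁆ ≤ Subgroup.centralizer {e} := by
      refine Subgroup.commutator_le.2 fun q hq g hg => Subgroup.mem_centralizer_singleton_iff.2 ?_
      obtain ⟨k, rfl⟩ := hg
      have h1 : Commute e a := he.2
      have h2 := (key e he.1 h1 q hq).zpow_right k
      rw [conj_zpow] at h2
      exact ((h2.mul_right (h1.zpow_right k).inv_right).symm).eq
    exact (Subgroup.mem_centralizer_singleton_iff.1 (this hq)).symm
  · obtain ⟨hb, hab⟩ := mem_oddPartners.1 hb
    have hb2 := sq hD.1 hb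
    ext q
    simp only [Subgroup.mem_inf, Subgroup.mem_centralizer_singleton_iff]
    refine ⟨fun ⟨hq, h⟩ => ?_, fun ⟨⟨hq, h1⟩, h2⟩ => ⟨hq, (Commute.mul_right h1 h2 : Commute q (a * b))⟩⟩
    have k1 := key a ha (Commute.refl a) q hq
    have hqa := hD.1.conj_mem a ha q
    have hu : q * a * q⁻¹ * a = 1 := by
      by_contra hu
      refine not_mem_of_central hD.1 hb hab (mul_self_of_commute (sq hD.1 hqa) ha2 k1.symm) hu
        (k1.symm.mul_left (Commute.refl a)) ?_ (by rwa [mul_assoc, ha2, mul_one])
      have hqb := hD.1.conj_mem b hb q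
      have k2 : Commute b (q * b * q⁻¹) := by
        rcases tri hD.1 hb hqb with h | h | h
        · exact h
        · refine absurd h.symm ?_
          obtain ⟨k, hk⟩ := hQ ⟨q * (b * q⁻¹ * b⁻¹), Subgroup.mul_mem _ hq (Subgroup.Normal.conj_mem inferInstance _
            (Subgroup.inv_mem _ hq) b)⟩
          refine not_opp_of_pow hb2 (k := k) ?_
          have hk' : (q * (b * q⁻¹ * b⁻¹)) ^ 2 ^ k = 1 := congrArg Subtype.val hk
          rw [← hk', inv_eq hD.1 hb]; congr 1; group
        · exact absurd h (hD.2 b hb _ hqb)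
      have e : q * a * q⁻¹ * a = q * b * q⁻¹ * b := by
        calc q * a * q⁻¹ * a = q * a * q⁻¹ * (a * b) * b := by rw [mul_assoc _ (a * b), mul_assoc a b, hb2, mul_one]
          _ = q * a * q⁻¹ * (q * (a * b) * q⁻¹) * b := by rw [h, mul_inv_cancel_right]
          _ = q * (a * a) * b * q⁻¹ * b := by group
          _ = _ := by rw [ha2, mul_one]
      rw [e]
      exact k2.symm.mul_left (Commute.refl b)
    have h1 : q * a = a * q := by
      have := eq_inv_of_mul_eq_one_left hu
      rw [inv_eq hD.1 ha, mul_inv_eq_iff_eq_mul] at this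
      exact this
    refine ⟨⟨hq, h1⟩, ?_⟩
    rw [← mul_assoc, h1, mul_assoc, mul_assoc] at h
    exact mul_left_cancel h

end Cfsg.Agent.S5049
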