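import Cfsg.Statements.S5058
import Cfsg.Agent.Chev.RootFamLin

set_option autoImplicit false
open Matrix
open Cfsg

namespace Cfsg.Agent.S5058

open CL.Chev.RFam CL.Chev.Root

/-- Let F be a finite field of characteristic 2 and n a natural number. Then the transvections of SL_{n+3}(F) (so in every dimension at least 3) (the conjugates of the elementary matrices 1 + c E₁₂, c ≠ 0) form a class of root involutions of SL_{n+3}(F); when F has two elements they form a class of {3,4}⁺-transpositions (every product of odd order has order 1 or 3). -/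
theorem result (F : Type*) [Field F] [Fintype F] [CharP F 2] (n : ℕ) :
    Cfsg.IsRootInvolutionClass {t : Matrix.SpecialLinearGroup (Fin (n + 3)) F | ∃ c : F, c ≠ 0 ∧
        ∃ g : Matrix.SpecialLinearGroup (Fin (n + 3)) F, ((g⁻¹ * t * g : Matrix.SpecialLinearGroup (Fin (n + 3)) F) :
          Matrix (Fin (n + 3)) (Fin (n + 3)) F) = Matrix.transvection 0 1 c} ∧
    (Fintype.card F = 2 → Cfsg.IsThreeFourPlusTranspositionSet {t : Matrix.SpecialLinearGroup (Fin (n + 3)) F | ∃ c : F, c ≠ 0 ∧
        ∃ g : Matrix.SpecialLinearGroup (Fin (n + 3)) F, ((g⁻¹ * t * g : Matrix.SpecialLinearGroup (Fin (n + 3)) F) :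
          Matrix (Fin (n + 3)) (Fin (n + 3)) F) = Matrix.transvection 0 1 c}) := by
  have h01 : (0 : Fin (n + 3)) ≠ 1 := by simp
  have hc := linFam_class (ι := Fin (n + 3)) (k := F)
  have Φ := linFam_fam (ι := Fin (n + 3)) (k := F)
  have he : {t : Matrix.SpecialLinearGroup (Fin (n + 3)) F | ∃ c : F, c ≠ 0 ∧
        ∃ g : Matrix.SpecialLinearGroup (Fin (n + 3)) F, ((g⁻¹ * t * g : Matrix.SpecialLinearGroup (Fin (n + 3)) F) :
          Matrix (Fin (n + 3)) (Fin (n + 3)) F) = Matrix.transvection 0 1 c} =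
      elts SpecialLinearGroup.coeMonoidHom (linFam (Fin (n + 3)) F) := by
    ext t
    constructor
    · rintro ⟨c, hc0, g, hg⟩
      have h1 : g⁻¹ * t * g ∈ elts SpecialLinearGroup.coeMonoidHom (linFam (Fin (n + 3)) F) :=
        ⟨_, smul_mem_linFam (single_mem_linFam h01) hc0, by
          rw [SpecialLinearGroup.coeMonoidHom_apply, hg, smul_single, smul_eq_mul, mul_one]; rfl⟩
      have h2 := (Φ.isRootInvSet (fun _ hN _ hc => smul_mem_linFam hN hc) linFam_gen).conj_mem _ h1 g
      rwa [show g * (g⁻¹ * t * g) * g⁻¹ = t by group] at h2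
    · rintro ⟨N, hN, ht⟩
      rw [← one_smul F N] at ht
      obtain ⟨g, hg⟩ := hc.2.2 _ ⟨_, single_mem_linFam h01, rfl⟩ _ ⟨N, hN, rfl⟩
      have h1 := (Φ.mem_TG' hN).2 ⟨1, ht⟩
      rw [hg, mem_conjBy, Φ.mem_TG' (single_mem_linFam h01)] at h1
      obtain ⟨c, hc'⟩ := h1
      refine ⟨c, fun h => ?_, g, ?_⟩
      · have h2 := (eq_one_iff Φ.inj (Φ.ne _ (single_mem_linFam h01)) hc').2 h
        have h3 : t = 1 := by
          calc t = g * (g⁻¹ * t * g) * g⁻¹ := by group
            _ = 1 := by rw [h2]; group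
        exact one_ne_zero ((eq_one_iff Φ.inj (Φ.ne N hN) ht).1 h3)
      · rw [SpecialLinearGroup.coeMonoidHom_apply, smul_single, smul_eq_mul, mul_one] at hc'
        exact hc'
  rw [he]
  refine ⟨Φ.isRootInvClass (fun _ hN _ hc => smul_mem_linFam hN hc) linFam_gen (fun _ => linFam_exists_opp) hc.2,
    fun h2 => ⟨Φ.isRootInvSet (fun _ hN _ hc => smul_mem_linFam hN hc) linFam_gen, fun a ha b hb h =>
      Φ.threeFour (fun c hc => ?_) ha hb h⟩⟩
  have := FiniteField.pow_card_sub_one_eq_one c hc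
  rwa [h2, pow_one] at this

end Cfsg.Agent.S5058
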