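import Cfsg.Statements.S5067
import Cfsg.Agent.Chev.RootSet

set_option autoImplicit false
open Cfsg

namespace Cfsg.Agent.S5067

theorem aux {P : Type*} [Group P] [Group.IsNilpotent P] (hna : ¬ IsMulCommutative P) {E : Subgroup P}
    (hE : IsMulCommutative ↥E) :
    Group.nilpotencyClass ↥(Subgroup.normalClosure (E : Set P)) < Group.nilpotencyClass P := by
  set L := (⊤ : Subgroup P).lowerCentralSeries
  have hN : Subgroup.normalClosure (E : Set P) ≤ E ⊔ L 1 := by
    have : (E ⊔ L 1).Normal := Subgroup.Normal.of_commutator_le _ le_sup_right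
    exact Subgroup.normalClosure_le_normal (le_sup_left : E ≤ E ⊔ L 1)
  have hK : ∀ x, conjBy (L 2) x = L 2 := fun x => CL.Chev.Root.conjBy_normal _ x
  have h2 : ∀ X : Subgroup P, ⁅X, L 1⁆ ≤ L 2 := fun X => by
    rw [Subgroup.commutator_comm]; exact Subgroup.commutator_mono le_rfl le_top
  have h1 : ⁅E ⊔ L 1, E ⊔ L 1⁆ ≤ L 2 := by
    refine CL.Chev.Root.comm_sup_le (fun x _ => hK x) ?_ (h2 _)
    rw [Subgroup.commutator_comm]
    refine CL.Chev.Root.comm_sup_le (fun x _ => hK x) ?_ (h2 _)
    rw [CL.Chev.Root.comm_bot_iff.2 (CL.Chev.Root.isMulCommutative_iff'.1 hE)]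
    exact bot_le
  have h3 : ∀ i, (Subgroup.normalClosure (E : Set P)).lowerCentralSeries (i + 1) ≤ L (i + 2) := by
    intro i
    induction i with
    | zero => exact (Subgroup.commutator_mono hN hN).trans h1
    | succ i ih => exact Subgroup.commutator_mono ih le_top
  have hc : 2 ≤ Group.nilpotencyClass P := by
    by_contra h
    have : L 1 = ⊥ := Subgroup.lowerCentralSeries_eq_bot_iff_nilpotencyClass_le.2 (by omega)
    exact hna ⟨⟨fun a b => CL.Chev.Root.comm_bot_iff.1 this a (Subgroup.mem_top a) b (Subgroup.mem_top b)⟩⟩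
  obtain ⟨i, hi⟩ : ∃ i, Group.nilpotencyClass P = i + 2 := ⟨_, (Nat.sub_add_cancel hc).symm⟩
  have h4 : L (i + 2) = ⊥ := Subgroup.lowerCentralSeries_eq_bot_iff_nilpotencyClass_le.2 hi.le
  rw [hi, Nat.lt_succ_iff, ← Subgroup.lowerCentralSeries_eq_bot_iff_nilpotencyClass_le, ← Subgroup.map_subtype_inj,
    Subgroup.map_bot, Subgroup.top_subtype_lowerCentralSeries]
  exact le_bot_iff.1 (h4 ▸ h3 i)


/-- Let P be a non-abelian nilpotent p-group (every element of p-power order; P possibly infinite) generated by two abelian subgroups E and F. Then the normal closure of E in P, and likewise that of F, has nilpotency class strictly smaller than that of P. -/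
theorem result {P : Type*} [Group P] {p : ℕ} [Fact p.Prime] (hP : IsPGroup p P) [Group.IsNilpotent P]
    (hna : ¬ IsMulCommutative P) {E F : Subgroup P} (hE : IsMulCommutative ↥E) (hF : IsMulCommutative ↥F) (hgen : E ⊔ F = ⊤) :
    Group.nilpotencyClass ↥(Subgroup.normalClosure (E : Set P)) < Group.nilpotencyClass P ∧
    Group.nilpotencyClass ↥(Subgroup.normalClosure (F : Set P)) < Group.nilpotencyClass P := by
  exact ⟨aux hna hE, aux hna hF⟩

end Cfsg.Agent.S5067
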