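import Cfsg.Statements.S5070
import Cfsg.Agent.Chev.RootFamLin
import Cfsg.Agent.Cls.SpMatrix

set_option autoImplicit false
open Matrix
open Cfsg

namespace Cfsg.Agent.S5070

open CL.Chev.RFam CL.Chev.Root CL.Sp

section

variable {F : Type*} [Field F] {m : ℕ}

/-- The square zero matrices of the symplectic transvections. -/
def spFam (F : Type*) [Field F] (m : ℕ) : Set (Matrix (Fin m ⊕ Fin m) (Fin m ⊕ Fin m) F) :=
  {N | ∃ p : Fin m ⊕ Fin m → F, p ≠ 0 ∧ N = vecMulVec p (Matrix.J (Fin m) F *ᵥ p)}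

theorem dot_eq (p v : Fin m ⊕ Fin m → F) : (Matrix.J (Fin m) F *ᵥ p) ⬝ᵥ v = stdForm (Fin m) F v p := by
  rw [stdForm_apply, dotProduct_comm]

theorem spN_mulVec (p v : Fin m ⊕ Fin m → F) :
    vecMulVec p (Matrix.J (Fin m) F *ᵥ p) *ᵥ v = stdForm (Fin m) F v p • p := by
  rw [vecMulVec_mulVec, dot_eq, op_smul_eq_smul]

theorem exists_form_ne_zero {p : Fin m ⊕ Fin m → F} (hp : p ≠ 0) : ∃ v, stdForm (Fin m) F v p ≠ 0 := by
  by_contra h
  push Not at h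
  exact hp ((stdForm_nondegenerate (Fin m) F).2 p h)

theorem opp_of_ne {p r : Fin m ⊕ Fin m → F} (h : stdForm (Fin m) F r p ≠ 0) :
    Opp F (vecMulVec p (Matrix.J (Fin m) F *ᵥ p)) (vecMulVec r (Matrix.J (Fin m) F *ᵥ r)) := by
  refine ⟨_, mul_ne_zero ?_ ?_, rk1_mul_mul _ _ _ _, by rw [rk1_mul_mul, mul_comm]⟩
  · rwa [dot_eq]
  · rwa [dot_eq, Ne, alt_eq_zero_comm (stdForm_isAlt _ _)]

theorem sp_pair : ∀ N ∈ spFam F m, ∀ M ∈ spFam F m, Opp F N M ∨ N * M = M * N := by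
  rintro _ ⟨p, -, rfl⟩ _ ⟨r, -, rfl⟩
  by_cases h : stdForm (Fin m) F r p = 0
  · right
    rw [rk1_mul, rk1_mul, dot_eq, dot_eq, h, (alt_eq_zero_comm (stdForm_isAlt _ _)).1 h, zero_smul, zero_smul]
  · exact Or.inl (opp_of_ne h)

theorem sp_fam : Fam F (Matrix.symplecticGroup (Fin m) F).subtype (spFam F m) where
  inj := Subtype.val_injective
  sq := by
    rintro _ ⟨p, -, rfl⟩
    rw [rk1_mul, dot_eq, alt_self (stdForm_isAlt _ _), zero_smul]
  ne := by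
    rintro _ ⟨p, hp, rfl⟩ h
    obtain ⟨v, hv⟩ := exists_form_ne_zero hp
    have := spN_mulVec p v
    rw [h, zero_mulVec] at this
    exact smul_ne_zero hv hp this.symm
  ex := by
    rintro _ ⟨p, -, rfl⟩ c
    exact ⟨⟨_, sympTransvection_mem p c⟩, rfl⟩
  conj := by
    rintro _ ⟨p, hp, rfl⟩ g
    refine ⟨spLin (Fin m) F g p, (map_ne_zero_iff _ (spLin (Fin m) F g).injective).2 hp,
      matrix_ext_mulVec fun v => ?_⟩
    rw [← mulVec_mulVec, ← mulVec_mulVec, spN_mulVec, spN_mulVec, mulVec_smul, isom_right (spLin_mem g),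
      ← map_inv]
    rfl
  pair N hN M hM := (sp_pair N hN M hM).imp_right Or.inl

theorem sp_gen : (⨆ A ∈ roots F (Matrix.symplecticGroup (Fin m) F).subtype (spFam F m), A) = ⊤ := by
  refine eq_top_of_sympTransvection_mem _ fun v c => ?_
  by_cases hv : v = 0
  · convert Subgroup.one_mem _
    simp [Cfsg.sympTransvection, hv]
  · refine le_iSup₂_of_le (f := fun A (_ : A ∈ roots F _ (spFam F m)) => A) _ ⟨_, ⟨v, hv, rfl⟩, rfl⟩ le_rfl ?_
    exact (sp_fam.mem_TG' ⟨v, hv, rfl⟩).2 ⟨c, rfl⟩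

theorem sp_connected : IsConnectedFamily (FAdj (roots F (Matrix.symplecticGroup (Fin m) F).subtype (spFam F m)))
    (roots F (Matrix.symplecticGroup (Fin m) F).subtype (spFam F m)) := by
  refine sp_fam.connected_of_opp ?_
  rintro _ ⟨p, hp, rfl⟩ _ ⟨r, hr, rfl⟩
  obtain ⟨u, -, h1, h2⟩ := exists_both_ne_zero ⊤ ((stdForm (Fin m) F).flip p) ((stdForm (Fin m) F).flip r)
    (let ⟨v, hv⟩ := exists_form_ne_zero hp; ⟨v, trivial, hv⟩)
    (let ⟨v, hv⟩ := exists_form_ne_zero hr; ⟨v, trivial, hv⟩)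
  have hu : u ≠ 0 := by rintro rfl; simp at h1
  exact .head ⟨⟨p, hp, rfl⟩, ⟨u, hu, rfl⟩, opp_of_ne h1⟩ (.single ⟨⟨u, hu, rfl⟩, ⟨r, hr, rfl⟩, (opp_of_ne h2).symm⟩)

theorem sp_set_eq : {A : Subgroup ↥(Matrix.symplecticGroup (Fin m) F) | ∃ p : Fin m ⊕ Fin m → F, p ≠ 0 ∧
        A = Subgroup.closure {g : ↥(Matrix.symplecticGroup (Fin m) F) | ∃ c : F, ∀ v : Fin m ⊕ Fin m → F,
          (g : Matrix (Fin m ⊕ Fin m) (Fin m ⊕ Fin m) F) *ᵥ v =
            v + (c * (v ⬝ᵥ (Matrix.J (Fin m) F *ᵥ p))) • p}} =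
    roots F (Matrix.symplecticGroup (Fin m) F).subtype (spFam F m) := by
  have key : ∀ p : Fin m ⊕ Fin m → F, Subgroup.closure {g : ↥(Matrix.symplecticGroup (Fin m) F) |
      ∃ c : F, ∀ v : Fin m ⊕ Fin m → F, (g : Matrix (Fin m ⊕ Fin m) (Fin m ⊕ Fin m) F) *ᵥ v =
        v + (c * (v ⬝ᵥ (Matrix.J (Fin m) F *ᵥ p))) • p} =
      TG F (Matrix.symplecticGroup (Fin m) F).subtype (vecMulVec p (Matrix.J (Fin m) F *ᵥ p)) := by
    intro p
    refine closure_eq_TG fun g => exists_congr fun c => ?_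
    have e : ∀ v, (1 + c • vecMulVec p (Matrix.J (Fin m) F *ᵥ p)) *ᵥ v =
        v + (c * (v ⬝ᵥ (Matrix.J (Fin m) F *ᵥ p))) • p := fun v => by
      rw [add_mulVec, one_mulVec, smul_mulVec, spN_mulVec, smul_smul, stdForm_apply]
    exact ⟨fun h => matrix_ext_mulVec fun v => (h v).trans (e v).symm, fun h v => by
      rw [← e, ← h]; rfl⟩
  ext A
  constructor
  · rintro ⟨p, hp, rfl⟩
    exact ⟨_, ⟨p, hp, rfl⟩, key p⟩
  · rintro ⟨_, ⟨p, hp, rfl⟩, rfl⟩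
    exact ⟨p, hp, (key p).symm⟩

end

/-- Let F be a field, m a natural number and V = F^{2(m+1)} with the standard non-degenerate alternating form f(u, v) = uᵀ J v. For a non-zero vector p let T(p) be the group of symplectic transvections v ↦ v + c f(v, p) p, c ∈ F. Then the subgroups T(p), p ≠ 0, generate the symplectic group Sp_{2(m+1)}(F) and form a degenerate class of abstract F-root subgroups of it (any two of them either commute elementwise or are the unipotent subgroups of a rank one group that is an image of SL₂(F) with central kernel, never the commutator case), and their graph of rank one pairs is connected. -/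
theorem result (F : Type*) [Field F] (m : ℕ) :
    Cfsg.IsRootSubgroupClass {A : Subgroup ↥(Matrix.symplecticGroup (Fin (m + 1)) F) | ∃ p : Fin (m + 1) ⊕ Fin (m + 1) → F, p ≠ 0 ∧
        A = Subgroup.closure {g : ↥(Matrix.symplecticGroup (Fin (m + 1)) F) | ∃ c : F, ∀ v : Fin (m + 1) ⊕ Fin (m + 1) → F,
          (g : Matrix (Fin (m + 1) ⊕ Fin (m + 1)) (Fin (m + 1) ⊕ Fin (m + 1)) F) *ᵥ v =
            v + (c * (v ⬝ᵥ (Matrix.J (Fin (m + 1)) F *ᵥ p))) • p}} ∧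
    Cfsg.IsDegenerateRootSet {A : Subgroup ↥(Matrix.symplecticGroup (Fin (m + 1)) F) | ∃ p : Fin (m + 1) ⊕ Fin (m + 1) → F, p ≠ 0 ∧
        A = Subgroup.closure {g : ↥(Matrix.symplecticGroup (Fin (m + 1)) F) | ∃ c : F, ∀ v : Fin (m + 1) ⊕ Fin (m + 1) → F,
          (g : Matrix (Fin (m + 1) ⊕ Fin (m + 1)) (Fin (m + 1) ⊕ Fin (m + 1)) F) *ᵥ v =
            v + (c * (v ⬝ᵥ (Matrix.J (Fin (m + 1)) F *ᵥ p))) • p}} ∧
    Cfsg.IsKRootSubgroupSet F {A : Subgroup ↥(Matrix.symplecticGroup (Fin (m + 1)) F) | ∃ p : Fin (m + 1) ⊕ Fin (m + 1) → F, p ≠ 0 ∧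
        A = Subgroup.closure {g : ↥(Matrix.symplecticGroup (Fin (m + 1)) F) | ∃ c : F, ∀ v : Fin (m + 1) ⊕ Fin (m + 1) → F,
          (g : Matrix (Fin (m + 1) ⊕ Fin (m + 1)) (Fin (m + 1) ⊕ Fin (m + 1)) F) *ᵥ v =
            v + (c * (v ⬝ᵥ (Matrix.J (Fin (m + 1)) F *ᵥ p))) • p}} ∧
    Cfsg.IsConnectedFamily (Cfsg.FAdj {A : Subgroup ↥(Matrix.symplecticGroup (Fin (m + 1)) F) | ∃ p : Fin (m + 1) ⊕ Fin (m + 1) → F, p ≠ 0 ∧
        A = Subgroup.closure {g : ↥(Matrix.symplecticGroup (Fin (m + 1)) F) | ∃ c : F, ∀ v : Fin (m + 1) ⊕ Fin (m + 1) → F,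
          (g : Matrix (Fin (m + 1) ⊕ Fin (m + 1)) (Fin (m + 1) ⊕ Fin (m + 1)) F) *ᵥ v =
            v + (c * (v ⬝ᵥ (Matrix.J (Fin (m + 1)) F *ᵥ p))) • p}})
      {A : Subgroup ↥(Matrix.symplecticGroup (Fin (m + 1)) F) | ∃ p : Fin (m + 1) ⊕ Fin (m + 1) → F, p ≠ 0 ∧
        A = Subgroup.closure {g : ↥(Matrix.symplecticGroup (Fin (m + 1)) F) | ∃ c : F, ∀ v : Fin (m + 1) ⊕ Fin (m + 1) → F,
          (g : Matrix (Fin (m + 1) ⊕ Fin (m + 1)) (Fin (m + 1) ⊕ Fin (m + 1)) F) *ᵥ v =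
            v + (c * (v ⬝ᵥ (Matrix.J (Fin (m + 1)) F *ᵥ p))) • p}} := by
  rw [sp_set_eq]
  refine ⟨class_of_connected (sp_fam.isRootSet sp_gen) ⟨_, ⟨Pi.single (Sum.inl 0) 1, by simp, rfl⟩, rfl⟩
    sp_connected, sp_fam.isDegenerate sp_gen sp_pair, sp_fam.isKRootSet sp_gen, sp_connected⟩

end Cfsg.Agent.S5070
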