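import Cfsg.Statements.S5071
import Cfsg.Agent.Chev.RootFamLin
import Cfsg.Agent.Cls.UniTv

set_option autoImplicit false
open Matrix
open Cfsg

namespace Cfsg.Agent.S5071

open CL.Chev.RFam CL.Chev.Root CL.Uni

section

variable {F : Type*} [Field F] {q n : ℕ} {σ : F →+* F} {L : Type} [Field L] [Algebra L F] {δ : F}

/-- The square zero matrix of a unitary transvection. -/
def uN (σ : F →+* F) (δ : F) (p : Fin n → F) : Matrix (Fin n) (Fin n) F := vecMulVec p fun i => δ * σ (p i)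

/-- The square zero matrices of the unitary transvections. -/
def uFam (σ : F →+* F) (δ : F) (n : ℕ) : Set (Matrix (Fin n) (Fin n) F) :=
  {N | ∃ p : Fin n → F, p ≠ 0 ∧ stdB σ (Fin n) p p = 0 ∧ N = uN σ δ p}

/-- The representation of the special unitary group by matrices. -/
def uRep (n : ℕ) (F : Type*) [Field F] (q : ℕ) : Cfsg.SU n F q →* Matrix (Fin n) (Fin n) F :=
  SpecialLinearGroup.coeMonoidHom.comp (Cfsg.SU n F q).subtype

theorem dot_eq (p v : Fin n → F) : (fun i => δ * σ (p i)) ⬝ᵥ v = δ * stdB σ (Fin n) p v := by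
  simp only [stdB_apply, dotProduct, Finset.mul_sum, mul_assoc]

theorem uN_mulVec (p v : Fin n → F) : uN σ δ p *ᵥ v = (δ * stdB σ (Fin n) p v) • p := by
  rw [uN, vecMulVec_mulVec, dot_eq, op_smul_eq_smul]

theorem mat_ext {A B : Matrix (Fin n) (Fin n) F} (h : ∀ v, A *ᵥ v = B *ᵥ v) : A = B :=
  Matrix.ext_iff_smul.2 h

theorem smul_eq (c : L) (A : Matrix (Fin n) (Fin n) F) : c • A = algebraMap L F c • A :=
  (algebraMap_smul F c A).symm

theorem one_add_mulVec (c : L) (p v : Fin n → F) :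
    (1 + c • uN σ δ p) *ᵥ v = v + (algebraMap L F c * δ * stdB σ (Fin n) p v) • p := by
  rw [add_mulVec, one_mulVec, smul_eq, smul_mulVec, uN_mulVec, smul_smul, mul_assoc]

variable (hσ : IsBar σ q) (hL : ∀ x : F, σ x = x ↔ ∃ c : L, algebraMap L F c = x) (hδ0 : δ ≠ 0) (hδ : σ δ = -δ)
include hσ hL hδ0 hδ

theorem opp_of_ne {p r : Fin n → F} (h : stdB σ (Fin n) p r ≠ 0) : Opp L (uN σ δ p) (uN σ δ r) := by
  have H := isHerm_stdB hσ (Fin n)
  obtain ⟨a, ha⟩ := (hL ((δ * stdB σ (Fin n) p r) * (δ * stdB σ (Fin n) r p))).1 (by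
    simp only [map_mul, H.symm, hδ]; ring)
  refine ⟨a, ?_, ?_, ?_⟩
  · rintro rfl
    rw [map_zero] at ha
    exact mul_ne_zero (mul_ne_zero hδ0 h) (mul_ne_zero hδ0 (H.flip_ne h)) ha.symm
  · rw [smul_eq, ha, uN, uN, rk1_mul_mul, dot_eq, dot_eq]
  · rw [smul_eq, ha, uN, uN, rk1_mul_mul, dot_eq, dot_eq, mul_comm]

theorem u_pair : ∀ N ∈ uFam σ δ n, ∀ M ∈ uFam σ δ n, Opp L N M ∨ N * M = M * N := by
  rintro _ ⟨p, -, -, rfl⟩ _ ⟨r, -, -, rfl⟩
  by_cases h : stdB σ (Fin n) p r = 0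
  · right
    rw [uN, uN, rk1_mul, rk1_mul, dot_eq, dot_eq, h, (isHerm_stdB hσ (Fin n)).flip_zero h, mul_zero, zero_smul,
      zero_smul]
  · exact Or.inl (opp_of_ne hσ hL hδ0 hδ h)

theorem u_fam : Fam L (uRep n F q) (uFam σ δ n) where
  inj := SpecialLinearGroup.coeMonoidHom_injective.comp Subtype.val_injective
  sq := by
    rintro _ ⟨p, -, h, rfl⟩
    rw [uN, rk1_mul, dot_eq, h, mul_zero, zero_smul]
  ne := by
    rintro _ ⟨p, hp, -, rfl⟩ h
    obtain ⟨v, hv⟩ := (isHerm_stdB hσ (Fin n)).exists_ne_zero hp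
    have := uN_mulVec (σ := σ) (δ := δ) p v
    rw [h, zero_mulVec] at this
    exact smul_ne_zero (mul_ne_zero hδ0 hv) hp this.symm
  ex := by
    rintro _ ⟨p, -, h, rfl⟩ c
    obtain ⟨g, hg, ht⟩ := (isHerm_stdB hσ (Fin n)).exists_tv h (c := algebraMap L F c * δ) (by
      rw [map_mul, hδ, (hL _).2 ⟨c, rfl⟩, mul_neg])
    refine ⟨(suEquiv hσ n).symm ⟨g, hg⟩, mat_ext fun v => ?_⟩
    rw [one_add_mulVec, ← ht v]
    refine (suEquiv_apply hσ ((suEquiv hσ n).symm ⟨g, hg⟩) v).symm.trans ?_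
    rw [MulEquiv.apply_symm_apply]
  conj := by
    rintro _ ⟨p, hp, h, rfl⟩ g
    have hg := SUG_le_UG (suEquiv hσ n g).2
    refine ⟨(suEquiv hσ n g).1 p, (map_ne_zero_iff _ (suEquiv hσ n g).1.injective).2 hp,
      by rw [mem_UG.1 hg, h], mat_ext fun v => ?_⟩
    rw [← mulVec_mulVec, ← mulVec_mulVec, uN_mulVec, uN_mulVec, mulVec_smul, UG_apply_left hg,
      ← Subgroup.coe_inv, ← map_inv]
    rfl
  pair N hN M hM := (u_pair hσ hL hδ0 hδ N hN M hM).imp_right Or.inl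

theorem u_chain : ∀ N ∈ uFam σ δ n, ∀ M ∈ uFam σ δ n,
    Relation.ReflTransGen (fun N M => N ∈ uFam σ δ n ∧ M ∈ uFam σ δ n ∧ Opp L N M) N M := by
  have H := isHerm_stdB hσ (Fin n)
  rintro _ ⟨p, hp, hp0, rfl⟩ _ ⟨r, hr, hr0, rfl⟩
  by_cases h : stdB σ (Fin n) r p = 0
  swap
  · exact .single ⟨⟨p, hp, hp0, rfl⟩, ⟨r, hr, hr0, rfl⟩, (opp_of_ne hσ hL hδ0 hδ h).symm⟩
  obtain ⟨w, h1, h2⟩ : ∃ w, stdB σ (Fin n) p w ≠ 0 ∧ stdB σ (Fin n) r w ≠ 0 := by
    obtain ⟨a, ha⟩ := H.exists_ne_zero hp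
    obtain ⟨b, hb⟩ := H.exists_ne_zero hr
    by_cases h1 : stdB σ (Fin n) r a = 0
    · by_cases h2 : stdB σ (Fin n) p b = 0
      · exact ⟨a + b, by rwa [map_add, h2, add_zero], by rwa [map_add, h1, zero_add]⟩
      · exact ⟨b, h2, hb⟩
    · exact ⟨a, ha, h1⟩
  obtain ⟨c, hc⟩ := H.exists_add_smul_self_eq hp0 h1 (map_zero σ)
  have e1 : stdB σ (Fin n) p (w + c • p) ≠ 0 := by rwa [map_add, map_smul, hp0, smul_zero, add_zero]
  have e2 : stdB σ (Fin n) r (w + c • p) ≠ 0 := by rwa [map_add, map_smul, h, smul_zero, add_zero]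
  have hu : w + c • p ≠ 0 := by intro h0; rw [h0, map_zero] at e1; exact e1 rfl
  exact .head ⟨⟨p, hp, hp0, rfl⟩, ⟨_, hu, hc, rfl⟩, opp_of_ne hσ hL hδ0 hδ e1⟩
    (.single ⟨⟨_, hu, hc, rfl⟩, ⟨r, hr, hr0, rfl⟩, (opp_of_ne hσ hL hδ0 hδ e2).symm⟩)

theorem u_closure {p : Fin n → F} (hp : p ≠ 0) (hp0 : stdB σ (Fin n) p p = 0) :
    Subgroup.closure {g : ↥(Cfsg.SU n F q) |
      (∀ v : Fin n → F, ∃ c : F, ((g : Matrix.SpecialLinearGroup (Fin n) F) : Matrix (Fin n) (Fin n) F) *ᵥ v =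
        v + c • p) ∧
      ∀ v : Fin n → F, Cfsg.hermForm n F q v p = 0 →
        ((g : Matrix.SpecialLinearGroup (Fin n) F) : Matrix (Fin n) (Fin n) F) *ᵥ v = v} =
    TG L (uRep n F q) (uN σ δ p) := by
  have H := isHerm_stdB hσ (Fin n)
  refine closure_eq_TG fun g => ⟨fun ⟨h1, h2⟩ => ?_, fun ⟨c, hc⟩ => ⟨fun v => ?_, fun v hv => ?_⟩⟩
  · obtain ⟨w, hw⟩ := H.exists_eq_one hp
    obtain ⟨c, hc⟩ := h1 w
    have hg := mem_UG.1 (SUG_le_UG (suEquiv hσ n g).2) w w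
    rw [suEquiv_apply, hc] at hg
    simp only [map_add, map_smulₛₗ, LinearMap.add_apply, LinearMap.smul_apply, hw, H.flip_one hw, hp0,
      smul_eq_mul, RingHom.id_apply] at hg
    obtain ⟨c', hc'⟩ := (hL (c / δ)).1 (by
      rw [map_div₀, hδ, show σ c = -c by linear_combination hg, neg_div_neg_eq])
    refine ⟨c', mat_ext fun v => ?_⟩
    have h3 := h2 (v - stdB σ (Fin n) p v • w) (by
      rw [hermForm_eq hσ, map_sub, map_smul, hw, smul_eq_mul, mul_one, sub_self])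
    rw [mulVec_sub, mulVec_smul, hc, sub_eq_iff_eq_add] at h3
    rw [one_add_mulVec, hc', div_mul_cancel₀ _ hδ0]
    refine h3.trans ?_
    module
  · exact ⟨_, (congrArg (· *ᵥ v) hc).trans (one_add_mulVec c p v)⟩
  · refine (congrArg (· *ᵥ v) hc).trans ?_
    rw [hermForm_eq hσ] at hv
    simp only [one_add_mulVec, hv, mul_zero, zero_smul, add_zero]

theorem u_set_eq : {A : Subgroup ↥(Cfsg.SU n F q) | ∃ p : Fin n → F, p ≠ 0 ∧ Cfsg.hermForm n F q p p = 0 ∧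
    A = Subgroup.closure {g : ↥(Cfsg.SU n F q) |
      (∀ v : Fin n → F, ∃ c : F, ((g : Matrix.SpecialLinearGroup (Fin n) F) : Matrix (Fin n) (Fin n) F) *ᵥ v =
        v + c • p) ∧
      ∀ v : Fin n → F, Cfsg.hermForm n F q v p = 0 →
        ((g : Matrix.SpecialLinearGroup (Fin n) F) : Matrix (Fin n) (Fin n) F) *ᵥ v = v}} =
    roots L (uRep n F q) (uFam σ δ n) := by
  ext A
  constructor
  · rintro ⟨p, hp, h0, rfl⟩
    rw [hermForm_eq hσ] at h0
    exact ⟨_, ⟨p, hp, h0, rfl⟩, u_closure hσ hL hδ0 hδ hp h0⟩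
  · rintro ⟨_, ⟨p, hp, h0, rfl⟩, rfl⟩
    exact ⟨p, hp, by rwa [hermForm_eq hσ], (u_closure hσ hL hδ0 hδ hp h0).symm⟩

omit hL hδ0 hδ in
theorem exists_mem_uFam : ∃ N, N ∈ uFam σ δ (n + 2) := by
  obtain ⟨x, hx⟩ := hσ.exists_norm_eq (a := -1) (by simp)
  refine ⟨_, Pi.single 0 1 + Pi.single 1 x, fun h => ?_, ?_, rfl⟩
  · simpa using congrFun h 0
  · simp only [stdB_apply, Fin.sum_univ_succ]
    simp [Fin.ext_iff]
    linear_combination hx

end

theorem exists_small_field {F : Type*} [Field F] {q : ℕ} {σ : F →+* F} (hσ : IsBar σ q) :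
    ∃ (L : Type) (_ : Field L) (_ : Fintype L) (_ : Algebra L F), Fintype.card L = q ∧
      ∀ x : F, σ x = x ↔ ∃ c : L, algebraMap L F c = x := by
  have := hσ.finite
  let e := Shrink.ringEquiv.{0} (IsBar.fixedField σ)
  let ι : Shrink.{0} (IsBar.fixedField σ) →+* F := (IsBar.fixedField σ).subtype.comp e.toRingHom
  have := Finite.of_equiv _ e.symm.toEquiv
  let _ := Fintype.ofFinite (Shrink.{0} (IsBar.fixedField σ))
  refine ⟨Shrink.{0} (IsBar.fixedField σ), inferInstance, inferInstance, ι.toAlgebra, ?_,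
    fun x => ⟨fun hx => ?_, ?_⟩⟩
  · rw [← Nat.card_eq_fintype_card, Nat.card_congr e.toEquiv, hσ.card_fixedField]
  · exact ⟨e.symm ⟨x, hx⟩, congrArg Subtype.val (e.apply_symm_apply _)⟩
  · rintro ⟨c, rfl⟩
    exact (e c).2

/-- Let F be a finite field with q² elements, n a natural number, and h the Hermitian form Σ uᵢ vᵢ^q on F^{n+2}. For a non-zero isotropic vector p let T(p) be the group of unitary transvections with centre ⟨p⟩: the elements of SU_{n+2}(q) moving every vector by a multiple of p and fixing every vector perpendicular to p. Let Σ be the set of these T(p) and G₀ the subgroup they generate. Then, viewed inside G₀, the members of Σ form a degenerate class of abstract k-root subgroups of G₀ for some field k with q elements (any two commute or are the unipotent subgroups of a rank one group that is an image of SL₂(k) with central kernel, never the commutator case), and their graph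 of rank one pairs is connected. -/
theorem result (F : Type*) [Field F] [Fintype F] (q n : ℕ) (hF : Fintype.card F = q ^ 2) :
    Cfsg.IsRootSubgroupClass ((fun A : Subgroup ↥(Cfsg.SU (n + 2) F q) => A.subgroupOf (⨆ B ∈ {A : Subgroup ↥(Cfsg.SU (n + 2) F q) | ∃ p : Fin (n + 2) → F, p ≠ 0 ∧ Cfsg.hermForm (n + 2) F q p p = 0 ∧
          A = Subgroup.closure {g : ↥(Cfsg.SU (n + 2) F q) |
            (∀ v : Fin (n + 2) → F, ∃ c : F, ((g : Matrix.SpecialLinearGroup (Fin (n + 2)) F) : Matrix (Fin (n + 2)) (Fin (n + 2)) F) *ᵥ v = v + c • p) ∧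
            ∀ v : Fin (n + 2) → F, Cfsg.hermForm (n + 2) F q v p = 0 →
              ((g : Matrix.SpecialLinearGroup (Fin (n + 2)) F) : Matrix (Fin (n + 2)) (Fin (n + 2)) F) *ᵥ v = v}}, B)) ''
      {A : Subgroup ↥(Cfsg.SU (n + 2) F q) | ∃ p : Fin (n + 2) → F, p ≠ 0 ∧ Cfsg.hermForm (n + 2) F q p p = 0 ∧
          A = Subgroup.closure {g : ↥(Cfsg.SU (n + 2) F q) |
            (∀ v : Fin (n + 2) → F, ∃ c : F, ((g : Matrix.SpecialLinearGroup (Fin (n + 2)) F) : Matrix (Fin (n + 2)) (Fin (n + 2)) F) *ᵥ v = v + c • p) ∧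
            ∀ v : Fin (n + 2) → F, Cfsg.hermForm (n + 2) F q v p = 0 →
              ((g : Matrix.SpecialLinearGroup (Fin (n + 2)) F) : Matrix (Fin (n + 2)) (Fin (n + 2)) F) *ᵥ v = v}}) ∧
    Cfsg.IsDegenerateRootSet ((fun A : Subgroup ↥(Cfsg.SU (n + 2) F q) => A.subgroupOf (⨆ B ∈ {A : Subgroup ↥(Cfsg.SU (n + 2) F q) | ∃ p : Fin (n + 2) → F, p ≠ 0 ∧ Cfsg.hermForm (n + 2) F q p p = 0 ∧
          A = Subgroup.closure {g : ↥(Cfsg.SU (n + 2) F q) |
            (∀ v : Fin (n + 2) → F, ∃ c : F, ((g : Matrix.SpecialLinearGroup (Fin (n + 2)) F) : Matrix (Fin (n + 2)) (Fin (n + 2)) F) *ᵥ v = v + c • p) ∧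
            ∀ v : Fin (n + 2) → F, Cfsg.hermForm (n + 2) F q v p = 0 →
              ((g : Matrix.SpecialLinearGroup (Fin (n + 2)) F) : Matrix (Fin (n + 2)) (Fin (n + 2)) F) *ᵥ v = v}}, B)) ''
      {A : Subgroup ↥(Cfsg.SU (n + 2) F q) | ∃ p : Fin (n + 2) → F, p ≠ 0 ∧ Cfsg.hermForm (n + 2) F q p p = 0 ∧
          A = Subgroup.closure {g : ↥(Cfsg.SU (n + 2) F q) |
            (∀ v : Fin (n + 2) → F, ∃ c : F, ((g : Matrix.SpecialLinearGroup (Fin (n + 2)) F) : Matrix (Fin (n + 2)) (Fin (n + 2)) F) *ᵥ v = v + c • p) ∧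
            ∀ v : Fin (n + 2) → F, Cfsg.hermForm (n + 2) F q v p = 0 →
              ((g : Matrix.SpecialLinearGroup (Fin (n + 2)) F) : Matrix (Fin (n + 2)) (Fin (n + 2)) F) *ᵥ v = v}}) ∧
    (∃ (L : Type) (_ : Field L) (_ : Fintype L), Fintype.card L = q ∧ Cfsg.IsKRootSubgroupSet L ((fun A : Subgroup ↥(Cfsg.SU (n + 2) F q) => A.subgroupOf (⨆ B ∈ {A : Subgroup ↥(Cfsg.SU (n + 2) F q) | ∃ p : Fin (n + 2) → F, p ≠ 0 ∧ Cfsg.hermForm (n + 2) F q p p = 0 ∧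
          A = Subgroup.closure {g : ↥(Cfsg.SU (n + 2) F q) |
            (∀ v : Fin (n + 2) → F, ∃ c : F, ((g : Matrix.SpecialLinearGroup (Fin (n + 2)) F) : Matrix (Fin (n + 2)) (Fin (n + 2)) F) *ᵥ v = v + c • p) ∧
            ∀ v : Fin (n + 2) → F, Cfsg.hermForm (n + 2) F q v p = 0 →
              ((g : Matrix.SpecialLinearGroup (Fin (n + 2)) F) : Matrix (Fin (n + 2)) (Fin (n + 2)) F) *ᵥ v = v}}, B)) ''
      {A : Subgroup ↥(Cfsg.SU (n + 2) F q) | ∃ p : Fin (n + 2) → F, p ≠ 0 ∧ Cfsg.hermForm (n + 2) F q p p = 0 ∧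
          A = Subgroup.closure {g : ↥(Cfsg.SU (n + 2) F q) |
            (∀ v : Fin (n + 2) → F, ∃ c : F, ((g : Matrix.SpecialLinearGroup (Fin (n + 2)) F) : Matrix (Fin (n + 2)) (Fin (n + 2)) F) *ᵥ v = v + c • p) ∧
            ∀ v : Fin (n + 2) → F, Cfsg.hermForm (n + 2) F q v p = 0 →
              ((g : Matrix.SpecialLinearGroup (Fin (n + 2)) F) : Matrix (Fin (n + 2)) (Fin (n + 2)) F) *ᵥ v = v}})) ∧
    Cfsg.IsConnectedFamily (Cfsg.FAdj ((fun A : Subgroup ↥(Cfsg.SU (n + 2) F q) => A.subgroupOf (⨆ B ∈ {A : Subgroup ↥(Cfsg.SU (n + 2) F q) | ∃ p : Fin (n + 2) → F, p ≠ 0 ∧ Cfsg.hermForm (n + 2) F q p p = 0 ∧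
          A = Subgroup.closure {g : ↥(Cfsg.SU (n + 2) F q) |
            (∀ v : Fin (n + 2) → F, ∃ c : F, ((g : Matrix.SpecialLinearGroup (Fin (n + 2)) F) : Matrix (Fin (n + 2)) (Fin (n + 2)) F) *ᵥ v = v + c • p) ∧
            ∀ v : Fin (n + 2) → F, Cfsg.hermForm (n + 2) F q v p = 0 →
              ((g : Matrix.SpecialLinearGroup (Fin (n + 2)) F) : Matrix (Fin (n + 2)) (Fin (n + 2)) F) *ᵥ v = v}}, B)) ''
      {A : Subgroup ↥(Cfsg.SU (n + 2) F q) | ∃ p : Fin (n + 2) → F, p ≠ 0 ∧ Cfsg.hermForm (n + 2) F q p p = 0 ∧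
          A = Subgroup.closure {g : ↥(Cfsg.SU (n + 2) F q) |
            (∀ v : Fin (n + 2) → F, ∃ c : F, ((g : Matrix.SpecialLinearGroup (Fin (n + 2)) F) : Matrix (Fin (n + 2)) (Fin (n + 2)) F) *ᵥ v = v + c • p) ∧
            ∀ v : Fin (n + 2) → F, Cfsg.hermForm (n + 2) F q v p = 0 →
              ((g : Matrix.SpecialLinearGroup (Fin (n + 2)) F) : Matrix (Fin (n + 2)) (Fin (n + 2)) F) *ᵥ v = v}})) ((fun A : Subgroup ↥(Cfsg.SU (n + 2) F q) => A.subgroupOf (⨆ B ∈ {A : Subgroup ↥(Cfsg.SU (n + 2) F q) | ∃ p : Fin (n + 2) → F, p ≠ 0 ∧ Cfsg.hermForm (n + 2) F q p p = 0 ∧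
          A = Subgroup.closure {g : ↥(Cfsg.SU (n + 2) F q) |
            (∀ v : Fin (n + 2) → F, ∃ c : F, ((g : Matrix.SpecialLinearGroup (Fin (n + 2)) F) : Matrix (Fin (n + 2)) (Fin (n + 2)) F) *ᵥ v = v + c • p) ∧
            ∀ v : Fin (n + 2) → F, Cfsg.hermForm (n + 2) F q v p = 0 →
              ((g : Matrix.SpecialLinearGroup (Fin (n + 2)) F) : Matrix (Fin (n + 2)) (Fin (n + 2)) F) *ᵥ v = v}}, B)) ''
      {A : Subgroup ↥(Cfsg.SU (n + 2) F q) | ∃ p : Fin (n + 2) → F, p ≠ 0 ∧ Cfsg.hermForm (n + 2) F q p p = 0 ∧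
          A = Subgroup.closure {g : ↥(Cfsg.SU (n + 2) F q) |
            (∀ v : Fin (n + 2) → F, ∃ c : F, ((g : Matrix.SpecialLinearGroup (Fin (n + 2)) F) : Matrix (Fin (n + 2)) (Fin (n + 2)) F) *ᵥ v = v + c • p) ∧
            ∀ v : Fin (n + 2) → F, Cfsg.hermForm (n + 2) F q v p = 0 →
              ((g : Matrix.SpecialLinearGroup (Fin (n + 2)) F) : Matrix (Fin (n + 2)) (Fin (n + 2)) F) *ᵥ v = v}}) := by
  have hσ := isBar_bar hF
  obtain ⟨L, _, _, _, hq, hL⟩ := exists_small_field hσ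
  obtain ⟨δ, hδ0, hδ⟩ := hσ.exists_trace_zero
  have Φ := u_fam (n := n + 2) hσ hL hδ0 hδ
  rw [u_set_eq hσ hL hδ0 hδ, Φ.image_subgroupOf]
  have hc := Φ.restrict_sup.connected_of_opp (u_chain hσ hL hδ0 hδ)
  obtain ⟨N, hN⟩ := exists_mem_uFam (n := n) (δ := δ) hσ
  exact ⟨class_of_connected (Φ.restrict_sup.isRootSet Φ.restrict_sup_gen) ⟨_, hN, rfl⟩ hc,
    Φ.restrict_sup.isDegenerate Φ.restrict_sup_gen (u_pair hσ hL hδ0 hδ),
    ⟨L, inferInstance, inferInstance, hq, Φ.restrict_sup.isKRootSet Φ.restrict_sup_gen⟩, hc⟩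

end Cfsg.Agent.S5071
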