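import Cfsg.Statements.S5082
import Cfsg.Agent.Fus.Alperin

set_option autoImplicit false
open Cfsg

namespace Cfsg.Agent.S5082

/-- Alperin–Goldschmidt fusion Theorem for fusion systems: a saturated fusion system F over a finite p-group S is generated by the automorphism groups Aut_F(P) for P = S and for P essential — every fusion system over S whose automorphism groups of these subgroups contain those of F contains every map of F. -/
theorem result {Ω : Type*} [Group Ω] {S : Subgroup Ω} [Finite S] (p : ℕ) [Fact p.Prime] (hS : IsPGroup p S) (F : Cfsg.FusionSystem S) (hF : F.IsSaturated p) (E : Cfsg.FusionSystem S) (hE : ∀ P : Subgroup Ω, (P = S ∨ F.IsEssential p P) → F.autGroup P ≤ E.autGroup P) : F ≤ E := by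
  refine CL.Fus.alperin_subsystem hS hF fun A a hA ha hi => ?_
  obtain ⟨α, hα, e⟩ := ha.exists_aut hi
  exact (CL.Fus.mor_autFun ha.le (hE A hA hα)).congr e

end Cfsg.Agent.S5082
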