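import Cfsg.Statements.S5087
import Cfsg.Agent.Fus.NormalCrit

set_option autoImplicit false
open Cfsg

namespace Cfsg.Agent.S5087

open CL.Fus

theorem map_eq_iff {Ω : Type*} [Group Ω] {P Q : Subgroup Ω} (hQ : Q ≤ P) (α : MulAut P) :
    (Q.subgroupOf P).map α.toMonoidHom = Q.subgroupOf P ↔ img (autFun α) Q = Q := by
  rw [autFun, img_ext_of_le _ hQ, ← Subgroup.map_map]
  constructor
  · intro h
    rw [h, Subgroup.map_subgroupOf_eq_of_le hQ]
  · intro h
    apply Subgroup.map_injective P.subtype_injective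
    rw [h, Subgroup.map_subgroupOf_eq_of_le hQ]

/-- In a saturated fusion system over a finite p-group S, a subgroup Q is normal in the system if and only if every subgroup P that equals S or is essential contains Q and every element of Aut_F(P) maps Q onto itself. -/
theorem result {Ω : Type*} [Group Ω] {S : Subgroup Ω} [Finite S] (p : ℕ) [Fact p.Prime] (hS : IsPGroup p S) (F : Cfsg.FusionSystem S) (hF : F.IsSaturated p) (Q : Subgroup Ω) : F.IsNormal Q ↔ ∀ P : Subgroup Ω, (P = S ∨ F.IsEssential p P) → (Q ≤ P ∧ ∀ α ∈ F.autGroup P, (Q.subgroupOf P).map α.toMonoidHom = Q.subgroupOf P) := by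
  constructor
  · intro h P hP
    have hQP : Q ≤ P := hP.elim (fun e => e ▸ h.1) (IsNormal.le_of_essential hS h)
    have hPS : P ≤ S := hP.elim le_of_eq fun h => h.1.1
    exact ⟨hQP, fun α hα => (map_eq_iff hQP α).2 (IsNormal.img_eq h (mor_autFun hPS hα) hQP)⟩
  · intro h
    refine isNormal_of_essential hS hF (h S (Or.inl rfl)).1 (fun A hA => (h A (Or.inr hA)).1) ?_
    intro A a hA ha hi
    obtain ⟨α, hα, e⟩ := ha.exists_aut hi
    rw [← img_congr fun x hx => e x ((h A hA).1 hx)]
    exact (map_eq_iff (h A hA).1 α).1 ((h A hA).2 α hα)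

end Cfsg.Agent.S5087
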