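import Cfsg.Statements.S5088
import Cfsg.Agent.Fus.NormalCrit

set_option autoImplicit false
open Cfsg

namespace Cfsg.Agent.S5088

open CL.Fus

/-- In a saturated fusion system over a finite p-group, a subgroup Q is normal in the system if and only if there is a chain of subgroups 1 = Q₀ ≤ Q₁ ≤ ⋯ ≤ Qₙ = Q such that each Qᵢ with i ≥ 1 is strongly closed in the system and [Q, Qᵢ] ≤ Qᵢ₋₁. -/
theorem result {Ω : Type*} [Group Ω] {S : Subgroup Ω} [Finite S] (p : ℕ) [Fact p.Prime] (hS : IsPGroup p S) (F : Cfsg.FusionSystem S) (hF : F.IsSaturated p) (Q : Subgroup Ω) : F.IsNormal Q ↔ ∃ (n : ℕ) (Qs : Fin (n + 1) → Subgroup Ω), Qs 0 = ⊥ ∧ Qs (Fin.last n) = Q ∧ Monotone Qs ∧ ∀ i : Fin n, F.StronglyClosed (Qs i.succ) ∧ ⁅Q, Qs i.succ⁆ ≤ Qs (Fin.castSucc i) := by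
  constructor
  · intro h
    obtain ⟨n, hn⟩ := exists_zSer_eq_of_le hS h.1
    refine ⟨n, fun i => zSer Q i, zSer_zero Q, hn, fun i j hij => zSer_mono Q hij, fun i =>
      ⟨IsNormal.stronglyClosed (IsNormal.zSer h _), ?_⟩⟩
    rw [Subgroup.commutator_comm]
    exact commutator_zSer_le Q i
  · rintro ⟨n, Qs, h0, hn, -, h⟩
    have hsc : ∀ i : Fin (n + 1), F.StronglyClosed (Qs i) := by
      intro i
      refine Fin.cases ?_ (fun i => (h i).1) i
      rw [h0]; exact stronglyClosed_bot F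
    refine isNormal_of_chain hS hF (StronglyClosed.weaklyClosed (hn ▸ hsc _)) n
      (fun i => Qs ⟨min i n, by omega⟩) (fun i _ => hsc _) ?_ ?_ ?_
    · simpa using h0
    · simp only [min_self]; exact hn.ge
    · intro i hi
      have := (h ⟨i, hi⟩).2
      rw [Subgroup.commutator_comm] at this
      simp only [min_eq_left hi.le, min_eq_left (show i + 1 ≤ n from hi)]
      exact this

end Cfsg.Agent.S5088
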