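import Cfsg.Statements.S5105
import Cfsg.Agent.Fus.ModelUniq

set_option autoImplicit false
open Cfsg

namespace Cfsg.Agent.S5105

/-- Model Theorem, rigidity: if G is a model of a constrained fusion system over a finite p-group S (through ι : S → G), then every automorphism of G fixing ι(S) elementwise is conjugation by ι(z) for some z in the centre of S. -/
theorem result {Ω : Type*} [Group Ω] {S : Subgroup Ω} [Finite S] (p : ℕ) [Fact p.Prime] (hS : IsPGroup p S) (F : Cfsg.FusionSystem S) (hF : F.IsConstrained p) {G : Type*} [Group G] (ι : S →* G) (hG : F.IsModel p G ι) (ψ : G ≃* G) (hψ : ∀ x : S, ψ (ι x) = ι x) : ∃ z : S, z ∈ Subgroup.center S ∧ ∀ g : G, ψ g = ι z * g * (ι z)⁻¹ := by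
  have := hG.1
  obtain ⟨_, ⟨z, rfl⟩, hz⟩ := CL.Fus.exists_conj_of_fix_sylow (CL.Fus.IsModel.sylIn hG) hG.2.2.2 ψ.toMonoidHom (by
    rintro _ ⟨x, rfl⟩
    exact hψ x)
  refine ⟨z, Subgroup.mem_center_iff.2 fun x => hG.2.1.1 ?_, hz⟩
  have h := (hψ x).symm.trans (hz (ι x))
  rw [map_mul, map_mul]
  exact eq_mul_inv_iff_mul_eq.1 h

end Cfsg.Agent.S5105
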