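import Cfsg.Statements.S5107
import Cfsg.Agent.Fus.NormalCrit
import Cfsg.Agent.Fus.GroupFS

set_option autoImplicit false
open Cfsg

namespace Cfsg.Agent.S5107

open CL.Fus

/-- If a Sylow p-subgroup S of a finite group G has nilpotency class at most two and its centre is strongly closed in S with respect to G, then every map of the fusion system of G on S is conjugation by an element of N_G(S), and S is the largest subgroup normal in that fusion system. -/
theorem result {G : Type*} [Group G] [Finite G] (p : ℕ) [Fact p.Prime] (S : Sylow p G) (hcl : ⁅(S : Subgroup G), (S : Subgroup G)⁆ ≤ (S : Subgroup G) ⊓ Subgroup.centralizer ((S : Subgroup G) : Set G)) (hZ : Cfsg.IsStronglyClosed ((S : Subgroup G) ⊓ Subgroup.centralizer ((S : Subgroup G) : Set G)) (S : Subgroup G)) : (∀ (P : Subgroup G) (φ : P →* G), φ ∈ (Cfsg.groupFusionSystem (S : Subgroup G)).Hom P → ∃ g ∈ Subgroup.normalizer ((S : Subgroup G) : Set G), ∀ x : P, φ x = g * (x : G) * g⁻¹) ∧ (Cfsg.groupFusionSystem (S : Subgroup G)).core = S := by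
  have hS : IsPGroup p (S : Subgroup G) := S.isPGroup'
  have hF : (Cfsg.groupFusionSystem (S : Subgroup G)).IsSaturated p := GS.isSaturated_group (sylIn_top S)
  have hZ' : (Cfsg.groupFusionSystem (S : Subgroup G)).StronglyClosed
      ((S : Subgroup G) ⊓ Subgroup.centralizer ((S : Subgroup G) : Set G)) := by
    refine stronglyClosed_iff.2 ⟨inf_le_left, fun P f hf x hx hxZ => ?_⟩
    obtain ⟨-, h2, a, ha⟩ := mor_group_iff.1 hf
    rw [ha x hx]
    exact hZ.2 x hxZ a (ha x hx ▸ h2 x hx)
  have hn : (Cfsg.groupFusionSystem (S : Subgroup G)).IsNormal (S : Subgroup G) := by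
    refine isNormal_of_chain hS hF (StronglyClosed.weaklyClosed (stronglyClosed_self _)) 2
      (fun i => if i = 0 then ⊥ else if i = 1 then
        (S : Subgroup G) ⊓ Subgroup.centralizer ((S : Subgroup G) : Set G) else S) (fun i _ => ?_) rfl le_rfl ?_
    · split_ifs
      · exact stronglyClosed_bot _
      · exact hZ'
      · exact stronglyClosed_self _
    · intro i hi
      obtain rfl | rfl : i = 0 ∨ i = 1 := by omega
      · refine Subgroup.commutator_le.2 fun x hx y hy => ?_
        exact Subgroup.mem_bot.2 (commutatorElement_eq_one_iff_mul_comm.2 (hx.2 y hy).symm)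
      · exact hcl
  refine ⟨fun P φ hφ => ?_, le_antisymm (core_le _) (IsNormal.le_core hn)⟩
  obtain ⟨g, hg, hi, e⟩ := IsNormal.extend_aut hn (mor_ext hφ).le (mor_ext hφ)
  obtain ⟨-, -, a, ha⟩ := mor_group_iff.1 hg
  refine ⟨a, mem_normalizer_of_img_conj (by rw [← img_congr ha, hi]), fun x => ?_⟩
  rw [← ext_coe, ← e x x.2, ha x ((mor_ext hφ).le x.2)]

end Cfsg.Agent.S5107
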