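import Cfsg.Statements.S5112
import Cfsg.Agent.Fus.NormalCrit
import Cfsg.Agent.S3116
import Cfsg.Agent.Inv.Misc1

set_option autoImplicit false
open Cfsg

namespace Cfsg.Agent.S5112

/-- If S is a dihedral or generalized quaternion 2-group of order at least 16, then in every saturated fusion system over S (at the prime 2) the automorphism group Aut_F(S) consists of the inner automorphisms of S. -/
theorem result {Ω : Type*} [Group Ω] {S : Subgroup Ω} [Finite S] (n : ℕ) (hn : 4 ≤ n) (hshape : Nonempty (S ≃* DihedralGroup (2 ^ (n - 1))) ∨ Nonempty (S ≃* QuaternionGroup (2 ^ (n - 2)))) (F : Cfsg.FusionSystem S) (hF : F.IsSaturated 2) : F.autGroup S = Cfsg.Inn S := by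
  obtain ⟨m, rfl⟩ : ∃ m, n = m + 2 := ⟨n - 2, by omega⟩
  rcases hshape with ⟨⟨e⟩⟩ | ⟨⟨e⟩⟩
  · have hS : IsPGroup 2 S := .of_card (n := m + 2) (by
      rw [Nat.card_congr e.toEquiv, DihedralGroup.nat_card, show m + 2 - 1 = m + 1 from rfl, ← pow_succ'])
    refine CL.Fus.autGroup_top_eq_Inn hS hF ((Cfsg.Agent.S3116.result hS (Or.inl ⟨_, ?_, ⟨e⟩⟩)).to_subgroup _)
    exact Nat.pow_le_pow_right two_pos (by omega : 2 ≤ m + 2 - 1)
  · have hS : IsPGroup 2 S := .of_card (n := m + 2) (by
      rw [Nat.card_congr e.toEquiv, Nat.card_eq_fintype_card, QuaternionGroup.card, Nat.add_sub_cancel, pow_add, mul_comm]; rfl)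
    exact CL.Fus.autGroup_top_eq_Inn hS hF ((CL.Inv.isPGroup_mulAut_of_quaternion (by omega) e).to_subgroup _)

end Cfsg.Agent.S5112
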