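import Cfsg.Statements.S5115
import Cfsg.Agent.Fus.Solvable

set_option autoImplicit false
open Cfsg

namespace Cfsg.Agent.S5115

/-- If the 2-fusion system of a finite group G on a Sylow 2-subgroup S is constrained, then for every subnormal subgroup H of G the 2-fusion system of H on S ∩ H is constrained. -/
theorem result {G : Type*} [Group G] [Finite G] (S : Sylow 2 G) (hF : (Cfsg.groupFusionSystem (S : Subgroup G)).IsConstrained 2) (H : Subgroup G) (hH : H.IsSubnormal) : (Cfsg.groupFusionSystem ((S : Subgroup G).subgroupOf H)).IsConstrained 2 := by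
  have key : CL.Fus.SylIn 2 ((S : Subgroup G) ⊓ H) H ∧
      (Cfsg.fusionSystemOfSubgroup H ((S : Subgroup G) ⊓ H) inf_le_right).IsConstrained 2 := by
    induction hH with
    | top =>
      refine ⟨by rw [inf_top_eq]; exact CL.Fus.sylIn_top S, ?_⟩
      have : ∀ (T : Subgroup G) (h : T ≤ ⊤), T = S → (Cfsg.fusionSystemOfSubgroup ⊤ T h).IsConstrained 2 := by
        rintro _ h rfl
        rwa [← CL.Fus.GS.groupFusionSystem_eq]
      exact this _ _ (inf_top_eq _)
    | step H K hle _ hN ih =>
      have hn : K ≤ Subgroup.normalizer (H : Set G) := (Subgroup.normal_subgroupOf_iff_le_normalizer hle).1 hN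
      have e : (S : Subgroup G) ⊓ H = (S : Subgroup G) ⊓ K ⊓ H := by rw [inf_assoc, inf_eq_right.2 hle]
      have h1 := CL.Fus.isNormalIn_ofSubgroup inf_le_right ih.1 hle hn e inf_le_right
      exact ⟨e ▸ ih.1.inf_of_le hle hn,
        CL.Fus.IsConstrained.of_stronglyClosed ih.1.isPGroup ih.2 h1.1.2.2.2.1 h1.1.1 h1.1.2.2.1⟩
  obtain ⟨θ, -, h⟩ := CL.Fus.exists_fIso_ofSubgroup (inf_le_right : (S : Subgroup G) ⊓ H ≤ H)
  have := h.isConstrained key.2
  rwa [Subgroup.inf_subgroupOf_right] at this

end Cfsg.Agent.S5115
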