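import Cfsg.Statements.S5121
import Cfsg.Agent.Fus.NormalModel

set_option autoImplicit false
open Cfsg

namespace Cfsg.Agent.S5121

/-- Let G be a finite group with Sylow p-subgroup S and C_G(O_p(G)) ≤ O_p(G). For every subgroup T ≤ S and every normal subsystem E over T of the fusion system of G on S there is exactly one normal subgroup H of G containing T as a Sylow p-subgroup whose fusion system on T is E. -/
theorem result {G : Type*} [Group G] [Finite G] (p : ℕ) [Fact p.Prime] (S : Sylow p G) (hG : Subgroup.centralizer ((Cfsg.pCore p G : Subgroup G) : Set G) ≤ Cfsg.pCore p G) (T : Subgroup G) (hTS : T ≤ S) (E : Cfsg.FusionSystem T) (hE : E.IsNormalIn (Cfsg.groupFusionSystem (S : Subgroup G)) p) : ∃ H : Subgroup G, (∃ hTH : T ≤ H, H.Normal ∧ (∃ R : Sylow p H, (R : Subgroup H) = T.subgroupOf H) ∧ ∀ P : Subgroup G, E.Hom P = (Cfsg.fusionSystemOfSubgroup H T hTH).Hom P) ∧ ∀ H' : Subgroup G, (∃ hTH' : T ≤ H', H'.Normal ∧ (∃ R : Sylow p H', (R : Subgroup H')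 = T.subgroupOf H') ∧ ∀ P : Subgroup G, E.Hom P = (Cfsg.fusionSystemOfSubgroup H' T hTH').Hom P) → H' = H := by
  open CL.Fus in
  obtain ⟨H, hn, hT, e⟩ := exists_normal_of_isNormalIn_group (sylIn_top S) hG hE
  refine ⟨H, ⟨hT.le, hn, (sylIn_iff_exists_sylow hT.le).1 hT, fun P => by rw [e]⟩, ?_⟩
  rintro H' ⟨hTH', hn', hR, e'⟩
  have hT' := (sylIn_iff_exists_sylow hTH').2 hR
  have e2 : Cfsg.fusionSystemOfSubgroup H' T hT'.le = Cfsg.fusionSystemOfSubgroup H T hT.le :=
    (fusionSystem_ext e').symm.trans e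
  exact le_antisymm (le_of_ofSubgroup_le hG hT' hT fun P => (congrArg (·.Hom P) e2).le)
    (le_of_ofSubgroup_le hG hT hT' fun P => (congrArg (·.Hom P) e2).ge)

end Cfsg.Agent.S5121
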