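import Cfsg.Statements.S5130
import Cfsg.Agent.Fus.DirFactor

set_option autoImplicit false
open Cfsg

namespace Cfsg.Agent.S5130

/-- Let F be a saturated fusion system over a finite p-group S that is the direct product of two subgroups S₁ and S₂, each strongly closed in F. Let R be the full subsystem of F over S₁ (all maps of F between subgroups of S₁) and R′ the subsystem over S₁ of those maps that extend to the subgroup generated with S₂ fixing S₂ elementwise. Then R and R′ are saturated, R′ is normal in F and in R, and R is weakly normal in F. -/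
theorem result {Ω : Type*} [Group Ω] {S : Subgroup Ω} [Finite S] (p : ℕ) [Fact p.Prime] (hS : IsPGroup p S) (F : Cfsg.FusionSystem S) (hF : F.IsSaturated p) (S₁ S₂ : Subgroup Ω) (hprod : Cfsg.IsInternalDirectProduct S₁ S₂ S) (h₁ : F.StronglyClosed S₁) (h₂ : F.StronglyClosed S₂) (R R' : Cfsg.FusionSystem S₁) (hR : ∀ P : Subgroup Ω, P ≤ S₁ → R.Hom P = F.Hom P) (hR' : ∀ P : Subgroup Ω, P ≤ S₁ → R'.Hom P = F.centralizerHom S₂ P) : R.IsSaturated p ∧ R'.IsSaturated p ∧ R'.IsNormalIn F p ∧ R'.IsNormalIn R p ∧ R.IsWeaklyNormalIn F p := by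
  open CL.Fus in
  obtain ⟨h1, h2, h3⟩ := direct_factors (R := R) (R' := R') hS hF hprod h₁ h₂
    (fun P f => ⟨fun h => ⟨h.le, by unfold Mor at h ⊢; rwa [← hR P (Mor.le h)]⟩,
      fun h => by have := h.2; unfold Mor at this ⊢; rwa [hR P h.1]⟩)
    (fun P f => ⟨fun h => ⟨h.le, (mem_centralizerHom_iff_nMor.1 (hR' P h.le ▸ h.toHom_mem)).congr
        fun x hx => ext_apply _ hx⟩,
      fun h => ⟨h.2.mor.homOn.toHom, (hR' P h.1).symm ▸ mem_centralizerHom_iff_nMor.2
        (h.2.congr fun x hx => (ext_apply h.2.mor.homOn.toHom hx).symm), fun _ => rfl⟩⟩)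
  exact ⟨h1.1, h2.1.1, h2, h3, h1⟩

end Cfsg.Agent.S5130
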