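import Cfsg.Statements.S5139
import Cfsg.Agent.Fus.PIndexGroup

set_option autoImplicit false
open Cfsg

namespace Cfsg.Agent.S5139

/-- Let G be a finite group with Sylow p-subgroup S and O^p(G) the subgroup generated by the elements of order prime to p. Then the p-residual subsystem of the fusion system of G on S — the saturated subsystem of p-power index over the hyperfocal subgroup — is the fusion system of O^p(G) on S ∩ O^p(G): its maps are exactly the conjugation maps by elements of O^p(G) between subgroups of S ∩ O^p(G). -/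
theorem result {G : Type*} [Group G] [Finite G] (p : ℕ) [Fact p.Prime] (S : Sylow p G) (E : Cfsg.FusionSystem ((Cfsg.groupFusionSystem (S : Subgroup G)).hyperfocalSubgroup p)) (hE : (Cfsg.groupFusionSystem (S : Subgroup G)).IsPResidual p E) : ∃ h : (S : Subgroup G) ⊓ Cfsg.pResidual p G ≤ Cfsg.pResidual p G, ∀ P : Subgroup G, E.Hom P = (Cfsg.fusionSystemOfSubgroup (Cfsg.pResidual p G) ((S : Subgroup G) ⊓ Cfsg.pResidual p G) h).Hom P := by
  have h1 : (Cfsg.groupFusionSystem (S : Subgroup G)).hyperfocalSubgroup p = (S : Subgroup G) ⊓ Cfsg.pResidual p G := by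
    rw [CL.Fus.GS.groupFusionSystem_eq, CL.Fus.hyperfocal_ofSubgroup_eq (CL.Fus.sylIn_top S), CL.Even.res_top]
  have h2 : (Cfsg.fusionSystemOfSubgroup (Cfsg.pResidual p G) ((S : Subgroup G) ⊓ Cfsg.pResidual p G)
      inf_le_right).HasPPowerIndexIn (Cfsg.groupFusionSystem (S : Subgroup G)) p := by
    rw [CL.Fus.GS.groupFusionSystem_eq]
    exact CL.Fus.hasPPowerIndexIn_ofSubgroup le_top (CL.Even.res_top).le le_top
  have h3 : CL.Fus.SylIn p ((S : Subgroup G) ⊓ Cfsg.pResidual p G) (Cfsg.pResidual p G) := by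
    have := CL.Fus.sylIn_inf_res (CL.Fus.sylIn_top S)
    rwa [CL.Even.res_top] at this
  refine ⟨inf_le_right, fun P => Set.Subset.antisymm ?_ ?_⟩
  · exact CL.Fus.HasPPowerIndexIn.isSubsystemOf_of_le S.isPGroup' h2 hE.1 hE.2.1 h1.le P
  · exact CL.Fus.HasPPowerIndexIn.isSubsystemOf_of_le S.isPGroup' hE.2 (CL.Fus.GS.isSaturated h3) h2.1 h1.ge P

end Cfsg.Agent.S5139
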