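import Cfsg.Statements.S5143
import Cfsg.Agent.Fus.ProdUniq

set_option autoImplicit false
open Cfsg

namespace Cfsg.Agent.S5143

/-- Let F be a saturated fusion system over a finite p-group S, E a normal subsystem over T, and R a subgroup with T ≤ R ≤ S. Then there is exactly one saturated subsystem D of F over R (exactly one family of map sets) whose p-residual subsystem is that of E: the hyperfocal subgroups of D and E coincide and the p-residual subsystems of D and of E have the same maps. -/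
theorem result {Ω : Type*} [Group Ω] {S : Subgroup Ω} [Finite S] (p : ℕ) [Fact p.Prime] (hS : IsPGroup p S) (F : Cfsg.FusionSystem S) (hF : F.IsSaturated p) {T : Subgroup Ω} (E : Cfsg.FusionSystem T) (hE : E.IsNormalIn F p) (R : Subgroup Ω) (hTR : T ≤ R) (hRS : R ≤ S) : ∃ D : Cfsg.FusionSystem R, (D.IsSaturated p ∧ D.IsSubsystemOf F ∧ D.hyperfocalSubgroup p = E.hyperfocalSubgroup p ∧ ∀ (D₁ : Cfsg.FusionSystem (D.hyperfocalSubgroup p)) (E₁ : Cfsg.FusionSystem (E.hyperfocalSubgroup p)), D.IsPResidual p D₁ → E.IsPResidual p E₁ → ∀ P : Subgroup Ω, D₁.Hom P = E₁.Hom P) ∧ ∀ D' : Cfsg.FusionSystem R, D'.IsSaturated p → D'.IsSubsystemOf F → D'.hyperfocalSubgroup p = E.hyperfocalSubgroup p → (∀ (D₁ : Cfsg.FusionSystem (D'.hyperfocalSubgroup p)) (E₁ : Cfsg.FusionSystem (E.hyperfocalSubgroup p)), D'.IsPResidual p D₁ → E.IsPResidual p E₁ → ∀ P : Subgroup Ω, D₁.Hom P = E₁.Hom P) → ∀ P : Subgroup Ω, D'.Hom P = D.Hom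 P := by
  obtain ⟨D, hD, hDF, hi, -⟩ := CL.Fus.IsNormalIn.exists_product hS hE hTR hRS
  have := CL.Fus.finite_of_le hRS
  have hR := hS.to_le hRS
  have := CL.Fus.finite_of_le hTR
  have e := CL.Fus.HasPPowerIndexIn.hyperfocal_eq hR hi
  have h1 : ∀ (D₁ : Cfsg.FusionSystem (D.hyperfocalSubgroup p)) (E₁ : Cfsg.FusionSystem (E.hyperfocalSubgroup p)),
      D.IsPResidual p D₁ → E.IsPResidual p E₁ → ∀ P : Subgroup Ω, D₁.Hom P = E₁.Hom P := fun D₁ E₁ h₁ h₂ =>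
    CL.Fus.HasPPowerIndexIn.hom_eq hR h₁.1 h₁.2 h₂.1 (CL.Fus.HasPPowerIndexIn.trans hR h₂.2 hi) e.symm
  refine ⟨D, ⟨hD, hDF, e.symm, h1⟩, fun D' hD' hDF' e' h' P => ?_⟩
  obtain ⟨M, hM⟩ := CL.Fus.exists_isPResidual (hR.to_le hTR) hE.1.1
  obtain ⟨D₁, hD₁⟩ := CL.Fus.exists_isPResidual hR hD'
  rw [CL.Fus.IsNormalIn.product_unique hS (CL.Fus.IsPResidual.isNormalIn_of hS hE hM) hD' hDF'
    (CL.Fus.HasPPowerIndexIn.of_hom_eq hD₁.2 e' (h' D₁ M hD₁ hM)) hD hDF (CL.Fus.HasPPowerIndexIn.trans hR hM.2 hi)]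

end Cfsg.Agent.S5143
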