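import Cfsg.Statements.S5147
import Cfsg.Agent.Fus.Solvable
import Cfsg.Agent.S5115

set_option autoImplicit false
open Cfsg

namespace Cfsg.Agent.S5147

/-- Let G be a finite group with Sylow 2-subgroup S whose 2-fusion system on S is constrained, and L a component of G (a subnormal quasisimple subgroup). Then the 2-fusion system of L/Z(L) on the image of S ∩ L is constrained. -/
theorem result {G : Type*} [Group G] [Finite G] (S : Sylow 2 G) (hF : (Cfsg.groupFusionSystem (S : Subgroup G)).IsConstrained 2) (L : Subgroup G) (hL : Cfsg.IsComponent L) : (Cfsg.groupFusionSystem (((S : Subgroup G).subgroupOf L).map (QuotientGroup.mk' (Subgroup.center L)))).IsConstrained 2 := by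
  have h1 := Cfsg.Agent.S5115.result S hF L hL.1
  have h2 : CL.Fus.SylIn 2 ((S : Subgroup G).subgroupOf L) ⊤ := by
    have key : ∀ H : Subgroup G, H.IsSubnormal → CL.Fus.SylIn 2 ((S : Subgroup G) ⊓ H) H := by
      intro H hH
      induction hH with
      | top => rw [inf_top_eq]; exact CL.Fus.sylIn_top S
      | step H K hle _ hN ih =>
        have e : (S : Subgroup G) ⊓ H = (S : Subgroup G) ⊓ K ⊓ H := by rw [inf_assoc, inf_eq_right.2 hle]
        exact e ▸ ih.inf_of_le hle ((Subgroup.normal_subgroupOf_iff_le_normalizer hle).1 hN)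
    have := (CL.Fus.sylIn_subgroupOf_iff inf_le_right le_rfl).2 (key L hL.1)
    rwa [Subgroup.inf_subgroupOf_right, Subgroup.subgroupOf_self] at this
  have h3 := CL.Fus.isFactorSystem_group h2 (QuotientGroup.mk' (Subgroup.center L)) (QuotientGroup.mk'_surjective _)
  refine CL.Fus.IsConstrained.factor_of_central h2.isPGroup h1 ?_ (fun x _ y hy => ?_) h3
  · rw [CL.Fus.GS.groupFusionSystem_eq]
    refine CL.Fus.GS.stronglyClosed_iff.2 ⟨inf_le_left, fun x hx g _ hg => ⟨hg, ?_⟩⟩
    exact (MonoidHom.normal_ker _).conj_mem x hx.2 g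
  · have := hy.2
    rw [QuotientGroup.ker_mk'] at this
    exact (Subgroup.mem_center_iff.1 this x).symm

end Cfsg.Agent.S5147
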