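import Cfsg.Statements.S5160
import Cfsg.Agent.Fus.StrongInv
import Cfsg.Agent.Fus.GroupFS

set_option autoImplicit false
open Cfsg

namespace Cfsg.Agent.S5160

/-- Let G be a finite group with nontrivial Sylow p-subgroup S and F its fusion system on S. Suppose (a) no nontrivial proper subgroup of S is strongly closed in F, and (b) the automorphisms of S induced by G are generated by those induced, for R running over the fully normalized radical centric subgroups of F, by the subgroup of N_G(R) generated by its elements of p-power order. Then F is simple. -/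
theorem result {G : Type*} [Group G] [Finite G] (p : ℕ) [Fact p.Prime] (S : Sylow p G) (hS1 : (S : Subgroup G) ≠ ⊥) (ha : ∀ T : Subgroup G, (Cfsg.groupFusionSystem (S : Subgroup G)).StronglyClosed T → T = ⊥ ∨ T = (S : Subgroup G)) (hb : Cfsg.autInducedBy ⊤ (S : Subgroup G) = ⨆ (R : Subgroup G) (_ : (Cfsg.groupFusionSystem (S : Subgroup G)).IsFullyNormalized R ∧ (Cfsg.groupFusionSystem (S : Subgroup G)).IsRadical p R ∧ (Cfsg.groupFusionSystem (S : Subgroup G)).IsCentric R), Cfsg.autInducedBy (Subgroup.closure {g : G | g ∈ Subgroup.normalizer (R : Set G) ∧ ∃ k : ℕ, orderOf g = p ^ k}) (S : Subgroup G)) : (Cfsg.groupFusionSystem (S : Subgroup G)).IsSimple p := by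
  open CL.Fus in
  have hF := GS.isSaturated_group (p := p) (sylIn_top S)
  have hS := S.isPGroup'
  refine isSimple_of_stronglyClosed hF hS1 ha fun D hD => ?_
  have hinv := IsInvariantIn.strongInv hD.1.2.2
  rw [GS.groupFusionSystem_eq, GS.autGroup_eq le_rfl, hb]
  refine iSup₂_le fun R hR α hα => ?_
  obtain ⟨g, hg, e⟩ := mem_autInducedBy.1 hα
  have hRS : R ≤ S := hR.1.1
  have key : ∃ hN : g ∈ Subgroup.normalizer (R : Set G), conjAut R hN ∈ D.autGroup R := by
    clear e hα
    induction hg using Subgroup.closure_induction with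
    | mem x hx =>
      obtain ⟨hN, k, hk⟩ := hx
      refine ⟨hN, hinv.mem_autGroup_of_pElement hS hF hRS ?_ (k := k) ?_⟩
      · exact (mem_autGroup_iff hRS).2 (mor_group_iff.2 ⟨hRS, fun y hy => hRS (autFun_mem _ hy), x,
          fun y hy => autFun_conjAut hN hy⟩)
      · have : (⟨x, hN⟩ : Subgroup.normalizer (R : Set G)) ^ p ^ k = 1 :=
          Subtype.ext (by rw [← hk]; exact pow_orderOf_eq_one x)
        rw [conjAut, ← map_pow, this, map_one]
    | one => exact ⟨Subgroup.one_mem _, by
        rw [show conjAut R (Subgroup.one_mem _) = 1 from map_one R.normalizerMonoidHom]; exact Subgroup.one_mem _⟩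
    | mul x y _ _ hx hy =>
      obtain ⟨h1, h2⟩ := hx
      obtain ⟨h3, h4⟩ := hy
      exact ⟨Subgroup.mul_mem _ h1 h3, by
        rw [show conjAut R (Subgroup.mul_mem _ h1 h3) = conjAut R h1 * conjAut R h3 from
          map_mul R.normalizerMonoidHom ⟨x, h1⟩ ⟨y, h3⟩]
        exact Subgroup.mul_mem _ h2 h4⟩
    | inv x _ hx =>
      obtain ⟨h1, h2⟩ := hx
      exact ⟨Subgroup.inv_mem _ h1, by
        rw [show conjAut R (Subgroup.inv_mem _ h1) = (conjAut R h1)⁻¹ from
          map_inv R.normalizerMonoidHom ⟨x, h1⟩]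
        exact Subgroup.inv_mem _ h2⟩
  obtain ⟨hN, h1⟩ := key
  have h2 : Mor (Cfsg.groupFusionSystem (S : Subgroup G)) S (autFun α) :=
    mor_group_iff.2 ⟨le_rfl, fun y hy => autFun_mem _ hy, g, e⟩
  refine (mem_autGroup_iff le_rfl).2 (h2.of_centric_restrict hS hF hD.1.1 hD.1.2.2.1 hRS hR.2.2 ?_)
  exact (mor_autFun hRS h1).congr fun x hx => by rw [autFun_conjAut hN hx, e x (hRS hx)]

end Cfsg.Agent.S5160
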