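import Cfsg.Statements.S5164
import Cfsg.Agent.Known.AltAbSylow
import Cfsg.Agent.Known.AltAbelian2

set_option autoImplicit false
open Cfsg

namespace Cfsg.Agent.S5164

/-- For n ≥ 6 and a prime p, a nontrivial Sylow p-subgroup of the alternating group of degree n is abelian if and only if n < p². -/
theorem result (n p : ℕ) (hn : 6 ≤ n) [Fact p.Prime] (S : Sylow p (alternatingGroup (Fin n))) (hS : (S : Subgroup (alternatingGroup (Fin n))) ≠ ⊥) : IsMulCommutative S ↔ n < p ^ 2 := by
  have hS' := CL.Grp.isSylowIn_map_subtype S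
  constructor
  · intro hc
    simpa using CL.Known.lt_of_sylow_alt_comm (by simpa using hn) hS' (CL.Known.map_subtype_isMulCommutative hc)
  · intro hlt
    obtain ⟨P, hP, e⟩ := CL.Known.exists_sylow_inf_alt_eq hS'
    have hc := CL.Known.sylow_perm_comm_of_lt (by simpa using hlt) hP
    constructor
    constructor
    intro a b
    have ha : (a.1 : Equiv.Perm (Fin n)) ∈ P := by
      have : (a.1 : Equiv.Perm (Fin n)) ∈ P ⊓ alternatingGroup (Fin n) := e ▸ ⟨a.1, a.2, rfl⟩
      exact this.1
    have hb : (b.1 : Equiv.Perm (Fin n)) ∈ P := by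
      have : (b.1 : Equiv.Perm (Fin n)) ∈ P ⊓ alternatingGroup (Fin n) := e ▸ ⟨b.1, b.2, rfl⟩
      exact this.1
    have := congrArg Subtype.val (hc.is_comm.comm ⟨_, ha⟩ ⟨_, hb⟩)
    exact Subtype.ext (Subtype.ext this)

end Cfsg.Agent.S5164
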