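import Cfsg.Statements.S5165
import Cfsg.Agent.Fus.SimpleAltOdd

set_option autoImplicit false
open Cfsg

namespace Cfsg.Agent.S5165

/-- For n ≥ 6, a prime p with p² ≤ n, and n congruent to 0 or 1 modulo p, the p-fusion system of the alternating group of degree n on a Sylow p-subgroup is simple. -/
theorem result (n p : ℕ) (hn : 6 ≤ n) [Fact p.Prime] (hnp : p ^ 2 ≤ n) (hb : n % p ≤ 1) (S : Sylow p (alternatingGroup (Fin n))) : (Cfsg.groupFusionSystem (S : Subgroup (alternatingGroup (Fin n)))).IsSimple p := by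
  rcases (Fact.out : p.Prime).eq_two_or_odd' with rfl | ho
  · exact CL.Fus.Alt.simple_two hn S
  · exact CL.Fus.Alt.simple_odd ho hnp hb S

end Cfsg.Agent.S5165
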