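import Cfsg.Statements.S5311
import Cfsg.Agent.Fus.CompLayer

set_option autoImplicit false
open Cfsg

namespace Cfsg.Agent.S5311

/-- The layer of a saturated fusion system F over a finite p-group S is characteristic in F: for every automorphism α of S that is an automorphism of F (α and its inverse are morphisms from F to F) and every layer E of F over T, α carries T onto T and, for every map φ of E with source P, the map induced by α on α(P) (that is, α ∘ φ ∘ α⁻¹) is a map of E. -/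
theorem result {Ω : Type*} [Group Ω] {S : Subgroup Ω} [Finite S] (p : ℕ) [Fact p.Prime] (hS : IsPGroup p S) (F : Cfsg.FusionSystem S) (hF : F.IsSaturated p)
    (α : ↥S ≃* ↥S) (hα : F.IsMorphism F (S.subtype.comp α.toMonoidHom))
    (hα' : F.IsMorphism F (S.subtype.comp α.symm.toMonoidHom))
    {T : Subgroup Ω} (E : Cfsg.FusionSystem T) (hE : E.IsLayerOf F p) :
    Cfsg.FusionSystem.imageAlong (S.subtype.comp α.toMonoidHom) T = T ∧
      ∀ (P : Subgroup Ω) (φ : ↥P →* Ω), φ ∈ E.Hom P →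
        ∀ φ' : ↥(Cfsg.FusionSystem.imageAlong (S.subtype.comp α.toMonoidHom) P) →* Ω,
          Cfsg.FusionSystem.InducedAlong (S.subtype.comp α.toMonoidHom) φ φ' →
            φ' ∈ E.Hom (Cfsg.FusionSystem.imageAlong (S.subtype.comp α.toMonoidHom) P) := by
  have hg := CL.Fus.gIso_of_mulEquiv α
  have h : CL.Fus.FIso F F (CL.Fus.ext (S.subtype.comp α.toMonoidHom)) (CL.Fus.ext (S.subtype.comp α.symm.toMonoidHom)) :=
    ⟨hg, fun P f hf => CL.Fus.IsMorphism.mor hα hf fun x hx => by rw [hg.left x (hf.le hx)],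
      fun P f hf => CL.Fus.IsMorphism.mor hα' hf fun x hx => by rw [hg.right x (hf.le hx)]⟩
  have hT := CL.Fus.IsLayerOf.le hE
  obtain ⟨E', hE'⟩ := h.exists_sub hT E rfl
  have h1 := h.isLayerOf hE' hE
  refine ⟨(CL.Fus.imageAlong_eq_img _ hT).trans (CL.Fus.IsLayerOf.eq h1 hE), fun P φ hφ φ' hφ' => ?_⟩
  have hf := CL.Fus.mor_ext hφ
  obtain ⟨hP, -, -, e⟩ := (CL.Fus.inducedAlong_iff (fun x => (CL.Fus.ext_coe φ x).symm)
    fun x => (CL.Fus.ext_coe φ' x).symm).1 hφ'
  have h2 := (hE'.mor P _ hf).of_subsystem (CL.Fus.IsLayerOf.isSubsystemOf_layer h1 hE)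
  rw [← CL.Fus.imageAlong_eq_img _ hP] at h2
  refine CL.Fus.mem_Hom_iff.2 (h2.congr fun y hy => ?_)
  obtain ⟨x, hx, rfl⟩ := (hg.mem_img hP).1 ((CL.Fus.imageAlong_eq_img _ hP).le hy)
  rw [hg.left x (hP hx), ← e x hx]

end Cfsg.Agent.S5311
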