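import Cfsg.Statements.S5344
import Cfsg.Agent.Cls.SL2Octa

set_option autoImplicit false
open Cfsg

namespace Cfsg.Agent.S5344

/-- In a set of 3-transpositions, let a, b, c be members with a and c different and commuting, while neither a nor c commutes with b (a 3-string). Then there is an injective homomorphism from the symmetric group of degree 4 into the ambient group sending the transpositions (0 1), (1 2), (2 3) to a, b, c; so a, b, c generate a copy of the symmetric group of degree 4 in which they are transpositions. -/
theorem result {G : Type*} [Group G] {D : Set G} (hD : Cfsg.IsThreeTranspositionSet D) {a b c : G} (ha : a ∈ D) (hb : b ∈ D) (hc : c ∈ D) (hac : a ≠ c) (hac' : Commute a c) (hab : ¬ Commute a b) (hbc : ¬ Commute b c) : ∃ φ : Equiv.Perm (Fin 4) →* G, Function.Injective φ ∧ φ (Equiv.swap 0 1) = a ∧ φ (Equiv.swap 1 2) = b ∧ φ (Equiv.swap 2 3) = c := by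
  have sq : ∀ d ∈ D, d * d = 1 := fun d hd => by
    have := pow_orderOf_eq_one d
    rwa [hD.1 d hd, sq] at this
  have cube : ∀ d ∈ D, ∀ e ∈ D, ¬ Commute d e → (d * e) ^ 3 = 1 := fun d hd e he h => by
    rcases hD.2 d hd e he with h2 | h3
    · exfalso
      apply h
      have hd' := sq d hd
      have he' := sq e he
      have h3 : (d * e)⁻¹ = e * d := by
        rw [mul_inv_rev, inv_eq_of_mul_eq_one_right hd', inv_eq_of_mul_eq_one_right he']
      have : d * e = e * d := by
        rw [← h3]
        exact (inv_eq_of_mul_eq_one_right (by rw [← pow_two, h2])).symm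
      exact this
    · exact h3
  obtain ⟨ψ, h1, h2, h3⟩ := CL.SL2.exists_hom_perm_four a b c (sq a ha) (sq b hb) (sq c hc)
    (cube a ha b hb hab) (cube b hb c hc hbc) (by
      rw [hac'.mul_pow, pow_two, pow_two, sq a ha, sq c hc, one_mul])
  refine ⟨ψ, CL.SL2.injective_of_perm_four ψ ?_, h1, h2, h3⟩
  rw [map_mul, h1, h3]
  intro h
  apply hac
  calc a = a * (c * c) := by rw [sq c hc, mul_one]
    _ = c := by rw [← mul_assoc, h, one_mul]

end Cfsg.Agent.S5344
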