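import Cfsg.Statements.S5346
import Cfsg.Agent.Spor.TT4

set_option autoImplicit false
open Cfsg

namespace Cfsg.Agent.S5346

/-- Let D be a conjugation-invariant generating set of 3-transpositions of a finite group G and d a member of D. Then D has width 1 (no two different members of D commute) if and only if G is the product of the subgroup generated by d with the largest normal 3-subgroup of G. -/
theorem result {G : Type*} [Group G] [Finite G] {D : Set G} (hD : Cfsg.IsThreeTranspositionGroup D) {d : G} (hd : d ∈ D) : Cfsg.commutingWidth D = 1 ↔ Subgroup.zpowers d ⊔ Cfsg.pCore 3 G = ⊤ := by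
  haveI : Fact (Nat.Prime 3) := ⟨by norm_num⟩
  rw [CL.TT.commutingWidth_eq_one_iff ⟨d, hd⟩]
  constructor
  · intro h
    exact CL.TT.zpowers_sup_eq_top hD hd fun e he =>
      CL.TT.mul_mem_pCore_three (fun a ha => CL.TT.mul_self hD.1 ha) hD.2.1
        (CL.TT.braid_of_width_one hD.1 h) hd he
  · intro h a ha b hb hc
    have hP := CL.Grp.pCore_isPGroup 3 G
    have key : ∀ x ∈ D, d * x ∈ Cfsg.pCore 3 G := by
      intro x hx
      refine (CL.TT.mem_or_mul_mem (CL.TT.mul_self hD.1 hd) h x).resolve_left fun hx' => ?_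
      obtain ⟨k, hk⟩ := hP ⟨x, hx'⟩
      have hk' : x ^ 3 ^ k = 1 := congrArg Subtype.val hk
      have := orderOf_dvd_of_pow_eq_one hk'
      rw [hD.1.1 x hx] at this
      exact absurd (Nat.prime_two.dvd_of_dvd_pow this) (by norm_num)
    have hab : a * b ∈ Cfsg.pCore 3 G := by
      have : a * b = (d * a)⁻¹ * (d * b) := by rw [mul_inv_rev, CL.TT.inv_eq hD.1 ha]; group
      rw [this]; exact mul_mem (inv_mem (key a ha)) (key b hb)
    exact CL.TT.eq_of_commute_of_braid (CL.TT.mul_self hD.1 ha) (CL.TT.mul_self hD.1 hb) hc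
      (CL.TT.braid_of_mul_mem hD.1 (by norm_num) hP ha hb hab)

end Cfsg.Agent.S5346
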