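import Cfsg.Statements.S5348
import Cfsg.Agent.Spor.TT4

set_option autoImplicit false
open Cfsg

namespace Cfsg.Agent.S5348

/-- Let D be a conjugation-invariant generating set of 3-transpositions of a finite group G and d a member of D. Let V be the set of members of D commuting with exactly the same members of D as d, and W the set of members w of D such that the members of D other than w commuting with w are precisely the members of D other than d commuting with d. Then V = {d} or W = {d}. -/
theorem result {G : Type*} [Group G] [Finite G] {D : Set G} (hD : Cfsg.IsThreeTranspositionGroup D) {d : G} (hd : d ∈ D) : {v : G | v ∈ D ∧ ∀ e ∈ D, Commute v e ↔ Commute d e} = {d} ∨ {w : G | w ∈ D ∧ {y : G | y ∈ D ∧ y ≠ d ∧ Commute d y} = {y : G | y ∈ D ∧ y ≠ w ∧ Commute w y}} = {d} := by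
  by_contra hcon
  push Not at hcon
  obtain ⟨h1, h2⟩ := hcon
  have h1' : ∃ v ∈ CL.TT.Vd D d, v ≠ d := by
    by_contra h
    push Not at h
    exact h1 (Set.eq_singleton_iff_unique_mem.2 ⟨CL.TT.self_mem_Vd hd, h⟩)
  have h2' : ∃ v ∈ CL.TT.Wd D d, v ≠ d := by
    by_contra h
    push Not at h
    exact h2 (Set.eq_singleton_iff_unique_mem.2 ⟨CL.TT.self_mem_Wd hd, h⟩)
  obtain ⟨v, hv, hvd⟩ := h1'
  obtain ⟨w, hw, hwd⟩ := h2'
  have hdv : Commute d v := (hv.2 v hv.1).1 (Commute.refl v)
  have hw' := (CL.TT.mem_Wd_iff.1 hw).2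
  have h3 := (hw' v hv.1).1 ⟨hvd, hdv⟩
  have h4 : Commute d w := (hv.2 w hw.1).1 h3.2.symm
  exact ((hw' w hw.1).1 ⟨hwd, h4⟩).1 rfl

end Cfsg.Agent.S5348
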