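import Cfsg.Statements.S5350
import Cfsg.Agent.Spor.TT6

set_option autoImplicit false
open Cfsg

namespace Cfsg.Agent.S5350

/-- Let D be a conjugacy class of 3-transpositions generating the finite group G, with at least two members, and d a member of D. Then the set of members w of D whose commuting partners in D (other than w) are exactly those of d (other than d) coincides with the set of members of D lying in the coset of d modulo the largest normal 3-subgroup of G, and also with the orbit of d under conjugation by that normal 3-subgroup. -/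
theorem result {G : Type*} [Group G] [Finite G] {D : Set G} (hD : Cfsg.IsThreeTranspositionClass D) (hD2 : ∃ a ∈ D, ∃ b ∈ D, a ≠ b) {d : G} (hd : d ∈ D) : {w : G | w ∈ D ∧ {y : G | y ∈ D ∧ y ≠ d ∧ Commute d y} = {y : G | y ∈ D ∧ y ≠ w ∧ Commute w y}} = {w : G | w ∈ D ∧ d⁻¹ * w ∈ Cfsg.pCore 3 G} ∧ {w : G | w ∈ D ∧ {y : G | y ∈ D ∧ y ≠ d ∧ Commute d y} = {y : G | y ∈ D ∧ y ≠ w ∧ Commute w y}} = {w : G | ∃ g ∈ Cfsg.pCore 3 G, w = g * d * g⁻¹} := by
  have hG := CL.TT.IsClass.isGroup hD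
  have hP := CL.Grp.pCore_isPGroup 3 G
  constructor
  · ext v
    exact ⟨fun hv => ⟨hv.1, by
      rw [CL.TT.inv_eq hD.1 hd]
      exact CL.TT.mul_mem_pCore_three_of_Wd hD.1 hG.2.1 (CL.TT.self_mem_Wd hd) hv⟩,
      fun hv => CL.TT.mem_Wd_of_mem hD.1 hP hd hv.1 hv.2⟩
  · ext v
    refine ⟨fun hv => CL.TT.exists_conj_of_mem_Wd hG hd hv, ?_⟩
    rintro ⟨g, hg, rfl⟩
    exact CL.TT.mem_Wd_of_mem hD.1 hP hd (hG.2.1 g d hd) (CL.TT.inv_mul_conj_mem hg d)

end Cfsg.Agent.S5350
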