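import Cfsg.Statements.S5351
import Cfsg.Agent.Spor.TT6

set_option autoImplicit false
open Cfsg

namespace Cfsg.Agent.S5351

/-- Let D be a conjugacy class of 3-transpositions generating the finite group G, with at least two members. Then for every prime p > 3 the largest normal p-subgroup of G is central, and exactly one of the following holds: the largest normal 2-subgroup of G is not central; the largest normal 3-subgroup of G is not central; the layer of G (the product of its components) is non-trivial. -/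
theorem result {G : Type*} [Group G] [Finite G] {D : Set G} (hD : Cfsg.IsThreeTranspositionClass D) (hD2 : ∃ a ∈ D, ∃ b ∈ D, a ≠ b) : (∀ p : ℕ, p.Prime → 3 < p → Cfsg.pCore p G ≤ Subgroup.center G) ∧ ((¬ Cfsg.pCore 2 G ≤ Subgroup.center G ∧ Cfsg.pCore 3 G ≤ Subgroup.center G ∧ Cfsg.layer G = ⊥) ∨ (Cfsg.pCore 2 G ≤ Subgroup.center G ∧ ¬ Cfsg.pCore 3 G ≤ Subgroup.center G ∧ Cfsg.layer G = ⊥) ∨ (Cfsg.pCore 2 G ≤ Subgroup.center G ∧ Cfsg.pCore 3 G ≤ Subgroup.center G ∧ Cfsg.layer G ≠ ⊥)) := by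
  have hG := CL.TT.IsClass.isGroup hD
  refine ⟨fun p hp h3 => ?_, ?_⟩
  · haveI := Fact.mk hp
    exact CL.TT.pCore_le_center_of_gt hG (by omega) (by omega)
  by_cases hE : Cfsg.layer G = ⊥
  · obtain ⟨d, hd, -⟩ := hD.2.1
    have h := CL.TT.Vd_or_Wd_trivial hd
    rw [← CL.TT.IsClass.pCore_two_le_center_iff hD hD2 hd,
      ← CL.TT.IsClass.pCore_three_le_center_iff hD hD2 hd] at h
    rcases h with h | h
    · exact Or.inr (Or.inl ⟨h, fun h3 => CL.TT.IsClass.layer_ne_bot hD hD2 h h3 hE, hE⟩)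
    · exact Or.inl ⟨fun h2 => CL.TT.IsClass.layer_ne_bot hD hD2 h2 h hE, h, hE⟩
  · exact Or.inr (Or.inr ⟨CL.TT.IsClass.pCore_two_le_center_of_layer hD hE,
      CL.TT.IsClass.pCore_three_le_center_of_layer hD hE, hE⟩)

end Cfsg.Agent.S5351
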