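import Cfsg.Statements.S5354
import Cfsg.Agent.Spor.TT6

set_option autoImplicit false
open Cfsg

namespace Cfsg.Agent.S5354

/-- Let D be a conjugation-invariant generating set of 3-transpositions of the finite group G on which G acts primitively by conjugation, and suppose two different members of D commute (width at least 2). Then G has a quasisimple normal subgroup L of index at most 2 with the generalized Fitting subgroup of G equal to L times the centre, the commuting graph of D is connected, and for d in D the subgroup generated by the members of D commuting with d is a maximal D-subgroup: it is proper, and every subgroup generated by members of D that contains it is either it or G. -/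
theorem result {G : Type*} [Group G] [Finite G] {D : Set G} (hD : Cfsg.IsThreeTranspositionGroup D) (hprim : Cfsg.IsPrimitiveUnderConj D) (hw : ∃ a ∈ D, ∃ b ∈ D, a ≠ b ∧ Commute a b) : (∃ L : Subgroup G, L.Normal ∧ Cfsg.IsQuasisimple L ∧ L.index ≤ 2 ∧ Cfsg.generalizedFittingSubgroup G = L ⊔ Subgroup.center G) ∧ (Cfsg.commutingGraph D).Connected ∧ ∀ d ∈ D, Subgroup.closure {y : G | y ∈ D ∧ Commute d y} ≠ ⊤ ∧ ∀ H : Subgroup G, Cfsg.IsDSubgroup D H → Subgroup.closure {y : G | y ∈ D ∧ Commute d y} ≤ H → H = Subgroup.closure {y : G | y ∈ D ∧ Commute d y} ∨ H = ⊤ := by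
  have hC := CL.TT.Prim.isClass hD hprim
  have hc := CL.TT.Prim.commConn hD hprim hw
  obtain ⟨L, hN, hL, hF⟩ := CL.TT.IsClass.exists_component hC hprim.2.1
    (CL.TT.Prim.pCore_two_le_center hD hprim) (CL.TT.Prim.pCore_three_le_center hD hprim hw)
  obtain ⟨d0, hd0, -⟩ := hC.2.1
  refine ⟨⟨L, hN, hL, CL.TT.index_le_two_of_mul_mem hD hd0 fun e he =>
    CL.TT.IsClass.mul_mem_of_commConn hC hL hc hd0 he, hF⟩, (CL.TT.commConn_iff ⟨d0, hd0⟩).1 hc,
    fun d hd => ⟨fun h => ?_, fun H hH hle => ?_⟩⟩
  · obtain ⟨e, he, hed⟩ := CL.TT.IsClass.exists_not_commute hC hprim.2.1 hd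
    exact hed (CL.TT.commute_of_mem_closure_perp (D := D) (h.ge trivial))
  · by_cases h : ∀ a ∈ D, a ∈ H → Commute d a
    · left
      refine le_antisymm ?_ hle
      rw [← hH]
      exact Subgroup.closure_mono fun a ha => ⟨ha.1, h a ha.1 ha.2⟩
    · right
      push Not at h
      obtain ⟨a, ha, haH, hda⟩ := h
      exact CL.TT.Prim.eq_top_of_perp hD hprim hw hd ha hda
        (fun x hx => hle (Subgroup.subset_closure hx)) haH

end Cfsg.Agent.S5354
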