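import Cfsg.Statements.S5355
import Cfsg.Agent.S5344

set_option autoImplicit false
open Cfsg

namespace Cfsg.Agent.S5355

/-- Let D be a conjugacy class of 3-transpositions generating the finite group G, with at least two members, and d a member of D. Suppose that every member of D commuting with d commutes with exactly the same members of D as d does, and that exactly one member of D other than d commutes with d. Then G is isomorphic to the symmetric group of degree 4. -/
theorem result {G : Type*} [Group G] [Finite G] {D : Set G} (hD : Cfsg.IsThreeTranspositionClass D) (hD2 : ∃ a ∈ D, ∃ b ∈ D, a ≠ b) {d : G} (hd : d ∈ D) (hV : {y : G | y ∈ D ∧ Commute d y} = {v : G | v ∈ D ∧ ∀ e ∈ D, Commute v e ↔ Commute d e}) (hm : {y : G | y ∈ D ∧ Commute d y}.ncard = 2) : Nonempty (G ≃* Equiv.Perm (Fin 4)) := by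
  classical
  obtain ⟨hT, ⟨d₀, -, hd₀⟩, hgen⟩ := hD
  have hconj : ∀ g : G, ∀ y ∈ D, g * y * g⁻¹ ∈ D := fun g y hy => by
    rw [hd₀] at hy ⊢
    exact IsConj.trans hy (isConj_iff.2 ⟨g, rfl⟩)
  have hcl : ∀ y ∈ D, ∃ g : G, g * d * g⁻¹ = y := fun y hy => by
    rw [hd₀] at hy hd
    exact isConj_iff.1 (IsConj.trans (IsConj.symm hd) hy)
  have sq : ∀ y ∈ D, y * y = 1 := fun y hy => by
    have := pow_orderOf_eq_one y
    rwa [hT.1 y hy, pow_two] at this
  -- the partner of each member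
  have hpart : ∀ y ∈ D, ∃ y', (y' ∈ D ∧ y' ≠ y ∧ Commute y y') ∧ ∀ w ∈ D, Commute y w → w = y ∨ w = y' := by
    obtain ⟨a, b, hab, hs⟩ := Set.ncard_eq_two.1 hm
    have h0 : ∃ y', (y' ∈ D ∧ y' ≠ d ∧ Commute d y') ∧ ∀ w ∈ D, Commute d w → w = d ∨ w = y' := by
      have h1 : d ∈ ({a, b} : Set G) := hs ▸ ⟨hd, Commute.refl d⟩
      have ha : a ∈ {y : G | y ∈ D ∧ Commute d y} := hs ▸ Or.inl rfl
      have hb : b ∈ {y : G | y ∈ D ∧ Commute d y} := hs ▸ Or.inr rfl
      have hw : ∀ w ∈ D, Commute d w → w = a ∨ w = b := fun w h1 h2 => by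
        have : w ∈ ({a, b} : Set G) := hs ▸ ⟨h1, h2⟩
        exact this
      rcases h1 with rfl | rfl
      · exact ⟨b, ⟨hb.1, hab.symm, hb.2⟩, hw⟩
      · exact ⟨a, ⟨ha.1, hab, ha.2⟩, fun w h1 h2 => (hw w h1 h2).symm⟩
    obtain ⟨d', ⟨h1, h2, h3⟩, h4⟩ := h0
    intro y hy
    obtain ⟨g, rfl⟩ := hcl y hy
    refine ⟨g * d' * g⁻¹, ⟨hconj g _ h1, fun h => h2 (by simpa using h), h3.map (MulAut.conj g)⟩, fun w hw hc => ?_⟩
    have := h4 (g⁻¹ * w * g⁻¹⁻¹) (hconj _ _ hw) (by simpa [mul_assoc] using hc.map (MulAut.conj g⁻¹))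
    rcases this with h | h
    · left; rw [← h]; group
    · right; rw [← h]; group
  choose! p hp hp' using hpart
  have hpp : ∀ y ∈ D, p (p y) = y := fun y hy =>
    ((hp' (p y) (hp y hy).1 y hy (hp y hy).2.2.symm).resolve_left (hp y hy).2.1.symm).symm
  have hpc : ∀ g : G, ∀ y ∈ D, p (g * y * g⁻¹) = g * p y * g⁻¹ := fun g y hy =>
    ((hp' _ (hconj g y hy) _ (hconj g _ (hp y hy).1) ((hp y hy).2.2.map (MulAut.conj g))).resolve_left
      fun h => (hp y hy).2.1 (by simpa using h)).symm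
  have hloc : ∀ a ∈ D, ∀ b ∈ D, ¬ Commute a b → ∃ ψ : Equiv.Perm (Fin 4) →* G, Function.Injective ψ ∧
      ψ (Equiv.swap 0 1) = a ∧ ψ (Equiv.swap 1 2) = b ∧ ψ (Equiv.swap 2 3) = p a ∧ ψ (Equiv.swap 0 3) = p b := by
    intro a ha b hb hab
    obtain ⟨ψ, hψ, h1, h2, h3⟩ := Cfsg.Agent.S5344.result hT ha hb (hp a ha).1 (hp a ha).2.1.symm (hp a ha).2.2 hab
      (fun h => by
        rcases hp' _ (hp a ha).1 b hb h.symm with e | e
        · exact hab (e ▸ (hp a ha).2.2)
        · rw [hpp a ha] at e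
          exact hab (e ▸ Commute.refl _))
    refine ⟨ψ, hψ, h1, h2, h3, ?_⟩
    have e : (Equiv.swap 0 3 : Equiv.Perm (Fin 4)) = Equiv.swap 1 3 * Equiv.swap 0 1 * (Equiv.swap 1 3)⁻¹ := by decide
    have hm3 : ψ (Equiv.swap 0 3) ∈ D := by
      rw [e, map_mul, map_mul, map_inv, h1]
      exact hconj _ _ ha
    refine (hp' b hb _ hm3 ?_).resolve_left fun h => ?_
    · rw [← h2]
      exact Commute.map (by unfold Commute SemiconjBy; decide) ψ
    · rw [← h2] at h
      exact absurd (hψ h) (by decide)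
  have hz : ∀ a ∈ D, ∀ b ∈ D, ¬ Commute a b → a * (b * p b) * a⁻¹ = a * p a * (b * p b) := by
    intro a ha b hb hab
    obtain ⟨ψ, -, h1, h2, h3, h4⟩ := hloc a ha b hb hab
    rw [← h3, ← h4, ← h1, ← h2]
    simp only [← map_mul, ← map_inv]
    congr 1
    decide
  obtain ⟨e, he, hde⟩ : ∃ e ∈ D, ¬ Commute d e := by
    by_contra hc
    push Not at hc
    have h1 : Subgroup.closure D ≤ Subgroup.centralizer {d} :=
      (Subgroup.closure_le _).2 fun y hy => Subgroup.mem_centralizer_singleton_iff.2 (hc y hy).symm.eq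
    obtain ⟨g, hg⟩ := hcl _ (hp d hd).1
    have h2 := Subgroup.mem_centralizer_singleton_iff.1 (h1 (hgen ▸ Subgroup.mem_top g))
    apply (hp d hd).2.1
    rw [← hg, h2, mul_inv_cancel_right]
  obtain ⟨ψ, hψ, h1, h2, h3, h4⟩ := hloc d hd e he hde
  refine ⟨(MulEquiv.ofBijective ψ ⟨hψ, ?_⟩).symm⟩
  rw [← MonoidHom.range_eq_top, eq_top_iff, ← hgen, Subgroup.closure_le]
  intro x hx
  have hr : ∀ y ∈ D, Commute d y → y ∈ ψ.range := fun y hy h => by
    rcases hp' d hd y hy h with rfl | rfl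
    · exact ⟨_, h1⟩
    · exact ⟨_, h3⟩
  by_cases hxd : Commute d x
  · exact hr x hx hxd
  by_cases hxe : Commute e x
  · rcases hp' e he x hx hxe with rfl | rfl
    · exact ⟨_, h2⟩
    · exact ⟨_, h4⟩
  have hc := hconj x e he
  have hxe' : ¬ Commute x e := fun h => hxe h.symm
  by_cases hcd : Commute d (x * e * x⁻¹)
  · have h5 := hr _ hc hcd
    have h6 : (x * e) ^ 3 = 1 := by
      refine (hT.2 x hx e he).resolve_left fun h => hxe' ?_
      have h7 : (x * e)⁻¹ = e * x := by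
        rw [mul_inv_rev, inv_eq_of_mul_eq_one_right (sq x hx), inv_eq_of_mul_eq_one_right (sq e he)]
      exact (h7.symm.trans (inv_eq_of_mul_eq_one_right (by rw [← pow_two, h]))).symm
    have h8 : x = e * (x * e * x⁻¹) * e := by
      rw [inv_eq_of_mul_eq_one_right (sq x hx)]
      calc x = x * (x * e) ^ 3 := by rw [h6, mul_one]
        _ = (x * x) * (e * (x * e * x) * e) := by simp only [pow_succ, pow_zero, one_mul, mul_assoc]
        _ = _ := by rw [sq x hx, one_mul]
    have he' : e ∈ ψ.range := ⟨_, h2⟩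
    change x ∈ ψ.range
    rw [h8]
    exact mul_mem (mul_mem he' h5) he'
  · exfalso
    have e1 := hz d hd _ hc hcd
    have e2 : x * e * x⁻¹ * p (x * e * x⁻¹) = x * p x * (e * p e) := by
      rw [hpc x e he, ← hz x hx e he hxe']
      group
    rw [e2] at e1
    have e3 : d * (x * p x * (e * p e)) * d⁻¹ = (d * (x * p x) * d⁻¹) * (d * (e * p e) * d⁻¹) := by group
    rw [e3, hz d hd x hx hxd, hz d hd e he hde] at e1
    have e4 : d * p d = 1 := by
      have : d * p d * (x * p x) * (d * p d) * (e * p e) = d * p d * (x * p x) * 1 * (e * p e) := by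
        rw [mul_one, mul_assoc (d * p d * (x * p x)), e1]; group
      exact mul_left_cancel (mul_right_cancel this)
    apply (hp d hd).2.1
    rw [← inv_eq_of_mul_eq_one_right e4, inv_eq_of_mul_eq_one_right (sq d hd)]

end Cfsg.Agent.S5355
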