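import Cfsg.Statements.S5356
import Cfsg.Agent.Spor.TT6

set_option autoImplicit false
open Cfsg

namespace Cfsg.Agent.S5356

/-- Let D be a conjugacy class of 3-transpositions generating the finite group G, with at least two members, and d a member of D such that every member of D commuting with d commutes with exactly the same members of D as d. Then there is a Sylow 3-subgroup P of G normalized by d such that G is generated by d, P and the largest normal 2-subgroup of G. -/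
theorem result {G : Type*} [Group G] [Finite G] {D : Set G} (hD : Cfsg.IsThreeTranspositionClass D) (hD2 : ∃ a ∈ D, ∃ b ∈ D, a ≠ b) {d : G} (hd : d ∈ D) (hV : {y : G | y ∈ D ∧ Commute d y} = {v : G | v ∈ D ∧ ∀ e ∈ D, Commute v e ↔ Commute d e}) : ∃ P : Sylow 3 G, d ∈ Subgroup.normalizer (P : Set G) ∧ Subgroup.zpowers d ⊔ (P : Subgroup G) ⊔ Cfsg.pCore 2 G = ⊤ := by
  classical
  haveI : Fact (Nat.Prime 3) := ⟨by norm_num⟩
  have hG := CL.TT.IsClass.isGroup hD
  have hQ := CL.Grp.pCore_isPGroup 2 G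
  have hmul : ∀ a ∈ D, ∀ b ∈ D, Commute a b → a * b ∈ Cfsg.pCore 2 G := by
    intro a ha b hb hc
    obtain ⟨g, rfl⟩ := CL.TT.IsClass.exists_conj hD hd ha
    refine CL.TT.mul_mem_pCore_two_of_Vd hD.1 hG.2.1 (CL.TT.self_mem_Vd ha) ?_
    rw [← CL.TT.conj_conj_inv g b, CL.TT.conj_mem_Vd_iff hG.2.1]
    refine hV.le ?_
    change _ ∈ CL.TT.perp D d
    rw [← CL.TT.conj_mem_perp_iff hG.2.1 g, CL.TT.conj_conj_inv]
    exact ⟨hb, hc⟩
  obtain ⟨a, ha, had⟩ := CL.TT.IsClass.exists_not_commute hD hD2 hd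
  have hd2 := CL.TT.mul_self hD.1 hd
  have hzp : ∀ s : G, (∃ k : ℕ, s ^ 3 ^ k = 1) → IsPGroup 3 (Subgroup.zpowers s) := by
    rintro s ⟨k, hk⟩ ⟨_, n, rfl⟩
    refine ⟨k, Subtype.ext ?_⟩
    change (s ^ n) ^ (3 ^ k) = 1
    rw [← zpow_natCast, ← zpow_mul, mul_comm, zpow_mul, zpow_natCast, hk, one_zpow]
  have hinv : ∀ e ∈ D, ∀ y ∈ Subgroup.zpowers (d * e), d * y * d⁻¹ ∈ Subgroup.zpowers (d * e) := by
    rintro e he _ ⟨n, rfl⟩
    have : d * (d * e) * d⁻¹ = (d * e)⁻¹ := by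
      rw [← mul_assoc, hd2, one_mul, mul_inv_rev, CL.TT.inv_eq hD.1 he]
    change d * (d * e) ^ n * d⁻¹ ∈ _
    rw [← conj_zpow, this]
    exact zpow_mem (inv_mem (Subgroup.mem_zpowers _)) n
  obtain ⟨R, ⟨hR3, hRa, hRd⟩, hmax⟩ := Set.Finite.exists_maximal
    (s := {R : Subgroup G | IsPGroup 3 R ∧ d * a ∈ R ∧ ∀ y ∈ R, d * y * d⁻¹ ∈ R}) (Set.toFinite _)
    ⟨Subgroup.zpowers (d * a), hzp _ ⟨1, CL.TT.cube hD.1 hd ha fun h => had h.symm⟩,
      Subgroup.mem_zpowers _, hinv a ha⟩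
  have hdN : d ∈ Subgroup.normalizer (R : Set G) := by
    rw [Subgroup.mem_normalizer_iff]
    intro y
    refine ⟨hRd y, fun h => ?_⟩
    have := hRd _ h
    rwa [CL.TT.inv_eq hD.1 hd, CL.TT.conj_conj' hd2] at this
  -- enlarging `R` by an element of its normaliser
  have hext : ∀ s ∈ Subgroup.normalizer (R : Set G), (∃ k : ℕ, s ^ 3 ^ k = 1) →
      d * s * d⁻¹ ∈ R ⊔ Subgroup.zpowers s → s ∈ R := by
    intro s hs h3 hds
    have hle : Subgroup.zpowers s ≤ Subgroup.normalizer (R : Set G) := by rwa [Subgroup.zpowers_le]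
    refine hmax (y := R ⊔ Subgroup.zpowers s) ⟨hR3.to_sup_of_normal_left' (hzp s h3) hle,
      Subgroup.mem_sup_left hRa, ?_⟩ le_sup_left (Subgroup.mem_sup_right (Subgroup.mem_zpowers s))
    have : R ⊔ Subgroup.zpowers s ≤ (R ⊔ Subgroup.zpowers s).comap (MulAut.conj d).toMonoidHom :=
      sup_le (fun y hy => Subgroup.mem_sup_left (hRd y hy)) (by rwa [Subgroup.zpowers_le])
    exact fun y hy => this hy
  obtain ⟨P, hP⟩ := hR3.exists_le_sylow
  have hRP : R = P := by
    by_contra hne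
    haveI := P.isPGroup'.isNilpotent
    have hlt : R.subgroupOf P < ⊤ := by
      rw [lt_top_iff_ne_top, Ne, Subgroup.subgroupOf_eq_top]
      exact fun h => hne (le_antisymm hP h)
    obtain ⟨s, hs, hsR⟩ := SetLike.exists_of_lt (Group.normalizerCondition_of_isNilpotent _ hlt)
    rw [← Subgroup.subgroupOf_normalizer_eq hP] at hs
    have hs' : (s : G) ∈ Subgroup.normalizer (R : Set G) := hs
    have hs3 : ∃ k : ℕ, (s : G) ^ 3 ^ k = 1 := by
      obtain ⟨k, hk⟩ := P.isPGroup' s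
      exact ⟨k, congrArg Subtype.val hk⟩
    have he := hG.2.1 s d hd
    have huN : d * (s * d * (s : G)⁻¹) ∈ Subgroup.normalizer (R : Set G) :=
      mul_mem hdN (mul_mem (mul_mem hs' hdN) (inv_mem hs'))
    have huR : d * (s * d * (s : G)⁻¹) ∈ R := by
      by_cases hc : Commute d (s * d * (s : G)⁻¹)
      · by_cases h1 : d = s * d * (s : G)⁻¹
        · rw [← h1, hd2]; exact one_mem _
        exfalso
        have huQ := hmul d hd _ he hc
        have hdis := IsPGroup.disjoint_of_ne 3 2 (by norm_num) R _ hR3 hQ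
        have h2 : Commute (d * (s * d * (s : G)⁻¹)) (d * a) := by
          rw [← commutatorElement_eq_one_iff_commute, ← Subgroup.mem_bot, ← hdis.eq_bot,
            commutatorElement_def]
          refine Subgroup.mem_inf.2 ⟨mul_mem ((Subgroup.mem_normalizer_iff.1 huN _).1 hRa) (inv_mem hRa), ?_⟩
          rw [mul_assoc, mul_assoc, ← mul_assoc (d * a)]
          exact mul_mem huQ ((inferInstance : (Cfsg.pCore 2 G).Normal).conj_mem _ (inv_mem huQ) _)
        have h3 : Commute (d * (s * d * (s : G)⁻¹)) d := (Commute.refl d).mul_left hc.symm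
        have h4 := h3.mul_right h2
        rw [CL.TT.mul_mul_self hD.1 hd] at h4
        exact had (CL.TT.commute_of_commute_mul hD.1 hd he ha h1 hc h4.symm)
      · exact hext _ huN ⟨1, CL.TT.cube hD.1 hd he hc⟩
          (Subgroup.mem_sup_right (hinv _ he _ (Subgroup.mem_zpowers _)))
    refine hsR (hext s hs' hs3 ?_)
    have : d * s * d⁻¹ = d * (s * d * (s : G)⁻¹) * s := by rw [CL.TT.inv_eq hD.1 hd]; group
    rw [this]
    exact mul_mem (Subgroup.mem_sup_left huR) (Subgroup.mem_sup_right (Subgroup.mem_zpowers _))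
  refine ⟨P, by rw [hRP] at hdN; exact hdN, ?_⟩
  rw [sup_assoc]
  refine CL.TT.zpowers_sup_eq_top hG hd fun e he => ?_
  have hsurj := QuotientGroup.mk'_surjective (Cfsg.pCore 2 G)
  have hI := CL.TT.image_isClass hsurj hD fun x hx h => had (by
    have := CL.TT.IsClass.eq_top_of_mem hD hx ((QuotientGroup.eq_one_iff x).1 h)
    exact CL.TT.commute_of_mem_two_group hD.1 hQ ha hd (this.ge trivial) (this.ge trivial))
  have h1 := CL.TT.mul_mem_pCore_three (fun x hx => CL.TT.mul_self hI.1 hx)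
    (CL.TT.IsClass.isGroup hI).2.1 (CL.TT.braid_of_width_one hI.1 (by
      rintro _ ⟨u, hu, rfl⟩ _ ⟨v, hv, rfl⟩ hc
      have := CL.TT.sq_eq_one_of_commute hI.1 ⟨u, hu, rfl⟩ ⟨v, hv, rfl⟩ hc
      rw [← map_mul, ← map_pow, QuotientGroup.mk'_apply, QuotientGroup.eq_one_iff] at this
      refine QuotientGroup.eq.2 ?_
      rw [CL.TT.inv_eq hD.1 hu]
      by_cases hc' : Commute u v
      · exact hmul u hu v hv hc'
      · exact CL.TT.mul_mem_of_sq_of_cube this (by rw [CL.TT.cube hD.1 hu hv hc']; exact one_mem _)))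
    ⟨d, hd, rfl⟩ ⟨e, he, rfl⟩
  have h2 := CL.Grp.pCore_le_sylow (P.mapSurjective hsurj) h1
  rw [← map_mul, Sylow.coe_mapSurjective] at h2
  have h3 : d * e ∈ ((P : Subgroup G).map (QuotientGroup.mk' (Cfsg.pCore 2 G))).comap
    (QuotientGroup.mk' (Cfsg.pCore 2 G)) := h2
  rwa [Subgroup.comap_map_eq, QuotientGroup.ker_mk'] at h3

end Cfsg.Agent.S5356
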