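import Cfsg.Statements.S5358
import Cfsg.Agent.Spor.TTClassic

set_option autoImplicit false
open scoped MatrixGroups
open Cfsg

namespace Cfsg.Agent.S5358

/-- Let Q be a non-degenerate quadratic form on the n-dimensional coordinate space over the field with three elements and u, v vectors of the same non-zero norm Q(u) = Q(v) spanning different lines (v ≠ u and v ≠ −u). Then the reflection matrices of u and v commute if and only if u and v are orthogonal for the polar form of Q. -/
theorem result (n : ℕ) (Q : QuadraticForm (ZMod 3) (Fin n → ZMod 3)) (hQ : (QuadraticMap.polarBilin Q).Nondegenerate) (u v : Fin n → ZMod 3) (hu : Q u ≠ 0) (huv : Q u = Q v) (h1 : v ≠ u) (h2 : v ≠ -u) : Commute (Cfsg.reflectionMatrix (⇑Q) u) (Cfsg.reflectionMatrix (⇑Q) v) ↔ QuadraticMap.polar (⇑Q) u v = 0 := by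
  have e1 := CL.Cls.isomEquiv_symm_refl_coe Q u
  have e2 := CL.Cls.isomEquiv_symm_refl_coe Q v
  have key : Commute (Cfsg.reflectionMatrix (⇑Q) u) (Cfsg.reflectionMatrix (⇑Q) v) ↔
      Commute (CL.Cls.refl Q u) (CL.Cls.refl Q v) := by
    rw [← e1, ← e2]
    constructor
    · intro h
      have h3 : Commute ((CL.Cls.isomEquiv Q).symm (CL.Cls.refl Q u)) ((CL.Cls.isomEquiv Q).symm (CL.Cls.refl Q v)) :=
        Subtype.ext (Units.ext h)
      simpa using h3.map (CL.Cls.isomEquiv Q)
    · intro h
      exact congrArg (fun g : Cfsg.isometryGroup (ZMod 3) ⇑Q => (g : GL (Fin n) (ZMod 3)).val)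
        (h.map (CL.Cls.isomEquiv Q).symm)
  rw [key]
  refine ⟨fun h => ?_, CL.TTC.refl_commute⟩
  rcases CL.TTC.zmod_three_sq ((Q u)⁻¹ * QuadraticMap.polar Q u v) with h3 | h3
  · simpa [hu] using h3
  · obtain ⟨a, ha⟩ := CL.TTC.exists_smul_of_refl_eq hQ (huv ▸ hu) (CL.TT.eq_of_commute_of_braid
      (CL.Cls.refl_mul_self u) (CL.Cls.refl_mul_self v) h (CL.TTC.refl_braid huv h3)).symm
    have h4 : ∀ a : ZMod 3, a = 0 ∨ a = 1 ∨ a = -1 := by decide
    rcases h4 a with rfl | rfl | rfl
    · exact absurd (by rw [huv, ha]; simp) hu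
    · exact absurd (by simpa using ha) h1
    · exact absurd (by simpa using ha) h2

end Cfsg.Agent.S5358
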