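import Cfsg.Statements.S5361
import Cfsg.Agent.Spor.TT6

set_option autoImplicit false
open Cfsg

namespace Cfsg.Agent.S5361

/-- Let D be a conjugacy class of 3-transpositions generating the finite group G, and suppose the centre of G is trivial and some two different members of D commute. Then the following are equivalent: (1) the commutator subgroup of G is simple (possibly of prime order); (2) G acts primitively on D by conjugation; (3) the largest normal 2-subgroup and the largest normal 3-subgroup of G are trivial and the commuting graph of D is connected. -/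
theorem result {G : Type*} [Group G] [Finite G] {D : Set G} (hD : Cfsg.IsThreeTranspositionClass D) (hZ : Subgroup.center G = ⊥) (hw : ∃ a ∈ D, ∃ b ∈ D, a ≠ b ∧ Commute a b) : (IsSimpleGroup (commutator G) ↔ Cfsg.IsPrimitiveUnderConj D) ∧ (Cfsg.IsPrimitiveUnderConj D ↔ (Cfsg.pCore 2 G = ⊥ ∧ Cfsg.pCore 3 G = ⊥ ∧ (Cfsg.commutingGraph D).Connected)) := by
  have hG := CL.TT.IsClass.isGroup hD
  obtain ⟨a, ha, b, hb, hab, hc⟩ := id hw
  have hD2 : ∃ a ∈ D, ∃ b ∈ D, a ≠ b := ⟨a, ha, b, hb, hab⟩
  refine ⟨⟨fun hs => CL.TT.IsClass.prim_of_simple hD hs ?_,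
    fun hp => CL.TT.Prim.isSimpleGroup_commutator hG hp hw hZ⟩, fun hp => ⟨?_, ?_, ?_⟩,
    fun h => CL.TT.IsClass.prim_of_commConn hD hD2 (by rw [h.1]; exact bot_le)
      (by rw [h.2.1]; exact bot_le) ((CL.TT.commConn_iff ⟨a, ha⟩).2 h.2.2)⟩
  · by_contra hcon
    push Not at hcon
    have hm := CL.TT.IsClass.mul_mem_commutator hD ha hb
    have h2 := CL.TT.sq_eq_one_of_commute hD.1 ha hb hc
    rw [pow_two] at h2
    have hn : (Subgroup.zpowers (⟨a * b, hm⟩ : commutator G)).Normal :=
      ⟨fun n hn g => by rwa [hcon g n, mul_inv_cancel_right]⟩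
    have h1 : a * b ≠ 1 := fun h =>
      hab ((eq_inv_of_mul_eq_one_left h).trans (CL.TT.inv_eq hD.1 hb))
    rcases hs.eq_bot_or_eq_top_of_normal _ hn with h | h
    · exact h1 (congrArg Subtype.val (Subgroup.zpowers_eq_bot.1 h))
    · apply hab
      refine CL.TT.IsClass.eq_of_mul_mem_center hD hD2 ha hb (Subgroup.mem_center_iff.2 fun g => ?_)
      have h3 := (inferInstance : (commutator G).Normal).conj_mem _ hm g
      rcases CL.TT.mem_zpowers_invol (d := (⟨a * b, hm⟩ : commutator G)) (Subtype.ext h2)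
        (h.ge trivial : (⟨_, h3⟩ : commutator G) ∈ _) with h4 | h4
      · exact absurd (by simpa using congrArg Subtype.val h4) h1
      · exact (CL.TT.commute_of_conj_eq (congrArg Subtype.val h4)).eq
  · rw [eq_bot_iff, ← hZ]; exact CL.TT.Prim.pCore_two_le_center hG hp
  · rw [eq_bot_iff, ← hZ]; exact CL.TT.Prim.pCore_three_le_center hG hp hw
  · exact (CL.TT.commConn_iff ⟨a, ha⟩).1 (CL.TT.Prim.commConn hG hp hw)

end Cfsg.Agent.S5361
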