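import Cfsg.Statements.S5363
import Cfsg.Agent.Spor.TT4

set_option autoImplicit false
open Cfsg

namespace Cfsg.Agent.S5363

/-- Let D be a conjugation-invariant set of involutions of a finite group G. Then every product of two members of D has odd order or order 2 if and only if, for every a in D and every b in D different from a and commuting with a, the members of D commuting with a b are exactly those commuting with both a and b. -/
theorem result {G : Type*} [Group G] [Finite G] {D : Set G} (hinv : ∀ d ∈ D, orderOf d = 2) (hconj : ∀ g : G, ∀ d ∈ D, g * d * g⁻¹ ∈ D) : (∀ a ∈ D, ∀ b ∈ D, Odd (orderOf (a * b)) ∨ orderOf (a * b) = 2) ↔ ∀ a ∈ D, ∀ b ∈ D, b ≠ a → Commute a b → {y : G | y ∈ D ∧ Commute (a * b) y} = {y : G | y ∈ D ∧ Commute a y} ∩ {y : G | y ∈ D ∧ Commute b y} := by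
  have h2 : ∀ d ∈ D, d * d = 1 := fun d hd => by
    have := pow_orderOf_eq_one d; rwa [hinv d hd, pow_two] at this
  have hi : ∀ d ∈ D, d⁻¹ = d := fun d hd => inv_eq_of_mul_eq_one_right (h2 d hd)
  constructor
  · intro h a ha b hb hba hc
    have key : ∀ a ∈ D, ∀ b ∈ D, b ≠ a → Commute a b → ∀ y ∈ D, Commute (a * b) y → Commute a y := by
      intro a ha b hb hba hc y hy hcy
      have hz : (a * b) * (a * b) = 1 := by
        rw [← pow_two, hc.mul_pow, pow_two, pow_two, h2 a ha, h2 b hb, one_mul]
      have hz1 : a * b ≠ 1 := fun h' => hba (by rw [← hi a ha, eq_inv_of_mul_eq_one_right h'])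
      have hodd : ∀ n, Odd n → (a * b) ^ n = a * b := by
        rintro _ ⟨k, rfl⟩
        rw [pow_succ, pow_mul, pow_two, hz, one_pow, one_mul]
      have hyb : y * b = (y * a) * (a * b) := by rw [mul_assoc, ← mul_assoc a, h2 a ha, one_mul]
      have hcc : Commute (y * a) (a * b) := hcy.symm.mul_left ((Commute.refl a).mul_right hc)
      have hsq : (y * a) ^ 2 = 1 → Commute a y := fun h' =>
        (CL.TT.commute_of_sq (h2 y hy) (h2 a ha) h').symm
      rcases h y hy a ha with h1 | h1
      · rcases h y hy b hb with h3 | h3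
        · exfalso
          apply hz1
          have e1 : (y * b) ^ (orderOf (y * a) * orderOf (y * b)) = 1 := by
            rw [mul_comm, pow_mul, pow_orderOf_eq_one, one_pow]
          rw [hyb, hcc.mul_pow, ← hyb, pow_mul, pow_orderOf_eq_one, one_pow, one_mul,
            hodd _ (h1.mul h3)] at e1
          exact e1
        · apply hsq
          have e1 := pow_orderOf_eq_one (y * b)
          rwa [h3, hyb, hcc.mul_pow, pow_two (a * b), hz, mul_one] at e1
      · apply hsq
        rw [← h1, pow_orderOf_eq_one]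
    ext y
    constructor
    · rintro ⟨hy, hcy⟩
      exact ⟨⟨hy, key a ha b hb hba hc y hy hcy⟩,
        ⟨hy, key b hb a ha hba.symm hc.symm y hy (by rwa [← hc.eq])⟩⟩
    · rintro ⟨⟨hy, h1⟩, -, h3⟩
      exact ⟨hy, h1.mul_left h3⟩
  · intro h a ha b hb
    rcases Nat.even_or_odd (orderOf (a * b)) with ⟨m, hm⟩ | ho
    swap
    · exact Or.inl ho
    right
    have hpos := orderOf_pos (a * b)
    have hinva : ∀ k : ℕ, a * ((a * b) ^ k)⁻¹ = (a * b) ^ k * a := by
      intro k
      have : a * (a * b)⁻¹ * a⁻¹ = a * b := by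
        rw [mul_inv_rev, hi a ha, hi b hb, mul_assoc, mul_assoc, h2 a ha, mul_one]
      rw [← inv_pow, ← mul_inv_eq_iff_eq_mul, ← conj_pow, this]
    have hinvb : ∀ k : ℕ, b * ((a * b) ^ k)⁻¹ = (a * b) ^ k * b := by
      intro k
      have : b * (a * b)⁻¹ * b⁻¹ = a * b := by
        rw [mul_inv_rev, hi a ha, hi b hb, ← mul_assoc, h2 b hb, one_mul]
      rw [← inv_pow, ← mul_inv_eq_iff_eq_mul, ← conj_pow, this]
    have hz : (a * b) ^ m * (a * b) ^ m = 1 := by rw [← pow_add, ← hm, pow_orderOf_eq_one]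
    have hzi : ((a * b) ^ m)⁻¹ = (a * b) ^ m := inv_eq_of_mul_eq_one_right hz
    have hz1 : (a * b) ^ m ≠ 1 := pow_ne_one_of_lt_orderOf (by omega) (by omega)
    have hca : Commute a ((a * b) ^ m) := by have := hinva m; rwa [hzi] at this
    have hcb : Commute b ((a * b) ^ m) := by have := hinvb m; rwa [hzi] at this
    have hc : (a * b) ^ m * a ∈ D := by
      rcases Nat.even_or_odd m with ⟨k, hk⟩ | ⟨k, hk⟩
      · have := hconj ((a * b) ^ k) a ha
        rwa [mul_assoc, hinva, ← mul_assoc, ← pow_add, ← hk] at this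
      · have := hconj ((a * b) ^ (k + 1)) b hb
        rwa [mul_assoc, hinvb, ← mul_assoc, ← pow_add, show k + 1 + (k + 1) = m + 1 by omega,
          pow_succ, mul_assoc, mul_assoc, h2 b hb, mul_one] at this
    have h3 := h a ha _ hc (fun h' => hz1 (by simpa using h')) (hca.mul_right (Commute.refl a))
    have h4 : a * ((a * b) ^ m * a) = (a * b) ^ m := by
      rw [← mul_assoc, hca.eq, mul_assoc, h2 a ha, mul_one]
    rw [h4] at h3
    have h5 : Commute a b := (h3.le (⟨hb, hcb.symm⟩ : b ∈ {y : G | y ∈ D ∧ Commute ((a * b) ^ m) y})).1.2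
    have h6 : (a * b) ^ 2 = 1 := by rw [h5.mul_pow, pow_two, pow_two, h2 a ha, h2 b hb, one_mul]
    have := Nat.le_of_dvd two_pos (orderOf_dvd_of_pow_eq_one h6)
    omega

end Cfsg.Agent.S5363
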