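import Cfsg.Statements.S5364
import Cfsg.Agent.Spor.TT4

set_option autoImplicit false
open Cfsg

namespace Cfsg.Agent.S5364

/-- Let D be a conjugation-invariant set of involutions of a finite group G and t an involution in the centre of G such that d t does not lie in D for any d in D. If the images of the members of D in G modulo the subgroup generated by t satisfy the 3-transposition order conditions (each has order 2 and any two have product of order at most 3), then so do the members of D. -/
theorem result {G : Type*} [Group G] [Finite G] {D : Set G} (hinv : ∀ d ∈ D, orderOf d = 2) (hconj : ∀ g : G, ∀ d ∈ D, g * d * g⁻¹ ∈ D) (t : G) (ht : orderOf t = 2) (htZ : t ∈ Subgroup.center G) (hDt : ∀ d ∈ D, d * t ∉ D) [(Subgroup.zpowers t).Normal] (himg : Cfsg.IsThreeTranspositionSet ((QuotientGroup.mk : G → G ⧸ Subgroup.zpowers t) '' D)) : Cfsg.IsThreeTranspositionSet D := by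
  have h2 : ∀ d ∈ D, d * d = 1 := fun d hd => by
    have := pow_orderOf_eq_one d; rwa [hinv d hd, pow_two] at this
  have hi : ∀ d ∈ D, d⁻¹ = d := fun d hd => inv_eq_of_mul_eq_one_right (h2 d hd)
  have ht2 : t * t = 1 := by have := pow_orderOf_eq_one t; rwa [ht, pow_two] at this
  have hcl : ∀ a ∈ D, ∀ b ∈ D, a * b * a ∈ D := fun a ha b hb => by
    have := hconj a b hb; rwa [hi a ha] at this
  refine ⟨hinv, fun a ha b hb => ?_⟩
  rcases himg.2 _ ⟨a, ha, rfl⟩ _ ⟨b, hb, rfl⟩ with h | h
  · rw [← QuotientGroup.mk_mul, ← QuotientGroup.mk_pow, QuotientGroup.eq_one_iff] at h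
    rcases CL.TT.mem_zpowers_invol ht2 h with h | h
    · exact Or.inl h
    · exfalso
      apply hDt b hb
      have : b * t = b * a * b * a * b := by rw [← h, pow_two]; simp only [mul_assoc]
      have h3 := hcl b hb _ (hcl a ha b hb)
      rw [this]; simpa only [mul_assoc] using h3
  · rw [← QuotientGroup.mk_mul, ← QuotientGroup.mk_pow, QuotientGroup.eq_one_iff] at h
    rcases CL.TT.mem_zpowers_invol ht2 h with h | h
    · exact Or.inr h
    · exfalso
      apply hDt _ (hcl a ha b hb)
      have : a * b * a * t = b * a * b := by
        rw [← h]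
        calc a * b * a * (a * b) ^ 3 = a * (b * (a * a) * b) * a * b * a * b := by
              simp only [pow_succ, pow_zero, one_mul, mul_assoc]
          _ = b * a * b := by rw [h2 a ha, mul_one, h2 b hb, mul_one, h2 a ha, one_mul]
      rw [this]; exact hcl b hb a ha

end Cfsg.Agent.S5364
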