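import Cfsg.Statements.S5366
import Cfsg.Agent.Spor.FischerSp

set_option autoImplicit false
open Cfsg

namespace Cfsg.Agent.S5366

/-- Let L be a nondegenerate Fischer space on the point type X (every point on a line). Then for every point x the map t(x) — sending a point collinear with x to the third point of their common line and fixing every other point — is a permutation of X of order 2 and an automorphism of the line system; and the set of all t(x) satisfies the 3-transposition order conditions in the permutation group of X (any two have product of order at most 3). -/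
theorem result {X : Type*} (L : Set (Set X)) (hL : Cfsg.IsFischerSpace L) (hnd : Cfsg.LineSystem.IsNondegenerate L) : (∀ x : X, ∃ σ : Equiv.Perm X, ⇑σ = Cfsg.LineSystem.lineMap L x ∧ orderOf σ = 2 ∧ Cfsg.LineSystem.IsIso L L σ) ∧ Cfsg.IsThreeTranspositionSet {σ : Equiv.Perm X | ∃ x : X, ⇑σ = Cfsg.LineSystem.lineMap L x} := by
  let t : X → Equiv.Perm X := fun x => (CL.FSp.lineMap_invol hL x).toPerm
  have ht : ∀ x y, t x y = Cfsg.LineSystem.lineMap L x y := fun _ _ => rfl
  have h2 : ∀ x, t x * t x = 1 := fun x => Equiv.ext fun y => CL.FSp.lineMap_invol hL x y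
  have ho : ∀ x, orderOf (t x) = 2 := fun x => by
    refine orderOf_eq_prime (by rw [pow_two, h2]) fun e => ?_
    obtain ⟨l, hl, hx⟩ := hnd x
    obtain ⟨y, hy, hyx⟩ := Set.exists_ne_of_one_lt_ncard (s := l) (by rw [hL.2.1 l hl]; norm_num) x
    obtain ⟨z, hzx, hzy, rfl⟩ := CL.FSp.exists_third hL hl hx hy hyx.symm
    have := CL.FSp.lineMap_eq hL hyx.symm hzx hzy hl
    rw [← ht, e] at this
    exact hzy this.symm
  have hc : ∀ x y, t x * t y * t x = t (t x y) := fun x y => Equiv.ext fun w => by
    have := CL.FSp.lineMap_iso hL (CL.FSp.isIso_lineMap hL x) y (t x w)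
    have h3 : t x (t x w) = w := CL.FSp.lineMap_invol hL x w
    exact this.trans (congrArg (Cfsg.LineSystem.lineMap L (t x y)) h3)
  have hm : ∀ σ : Equiv.Perm X, (∃ x : X, ⇑σ = Cfsg.LineSystem.lineMap L x) → ∃ x, σ = t x :=
    fun σ ⟨x, hx⟩ => ⟨x, Equiv.ext fun y => congrFun hx y⟩
  refine ⟨fun x => ⟨t x, rfl, ho x, CL.FSp.isIso_lineMap hL x⟩, fun σ hσ => ?_, fun σ hσ τ hτ => ?_⟩
  · obtain ⟨x, rfl⟩ := hm σ hσ
    exact ho x
  · obtain ⟨x, rfl⟩ := hm σ hσ
    obtain ⟨y, rfl⟩ := hm τ hτ
    by_cases h : t x y = y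
    · left
      have := hc x y
      rw [h] at this
      calc (t x * t y) ^ 2 = t x * t y * t x * t y := by rw [pow_two, ← mul_assoc]
        _ = 1 := by rw [this, h2]
    · right
      refine CL.TT.cube_of_braid (h2 x) (h2 y) ?_
      rw [hc, hc, ht, ht, CL.FSp.lineMap_comm hL h]

end Cfsg.Agent.S5366
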