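import Cfsg.Statements.S5382
import Cfsg.Agent.Spor.J23J2
import Cfsg.Agent.Spor.J2Loc

set_option autoImplicit false
open Cfsg

namespace Cfsg.Agent.S5382

/-- Let G be a finite group of Hall–Janko type: it has more than one class of involutions and an involution z whose centralizer C has generalized Fitting subgroup Q extraspecial of order 32 with C/Q isomorphic to the commutator subgroup of the isometry group of the elliptic quadratic form in dimension 4 over the field with two elements (the alternating group of degree 5), with z not weakly closed in Q. Then for every involution t not conjugate to z, the centralizer of t is isomorphic to the direct product of an elementary abelian group of order 4 and the alternating group of degree 5, and the normalizer of the largest normal 2-subgroup of that centralizer is isomorphic to the direct product of the alternating groups of degrees 4 and 5. -/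
theorem result {G : Type*} [Group G] [Finite G] (z : G) (hz : orderOf z = 2) (Q : Subgroup (Subgroup.centralizer ({z} : Set G))) [Q.Normal] (hF : Cfsg.generalizedFittingSubgroup (Subgroup.centralizer ({z} : Set G)) = Q) (hQ : Cfsg.IsExtraspecial 2 Q) (hcard : Nat.card Q = 2 ^ 5) (e : (Subgroup.centralizer ({z} : Set G)) ⧸ Q ≃* Cfsg.Omega (ZMod 2) (Cfsg.quadFormMinus 1 (ZMod 2) 1 1)) (hnwc : ∃ g : G, (∃ hq : g * z * g⁻¹ ∈ Subgroup.centralizer ({z} : Set G), (⟨g * z * g⁻¹, hq⟩ : Subgroup.centralizer ({z} : Set G)) ∈ Q) ∧ g * z * g⁻¹ ≠ z) (hcl : ∃ x y : G, orderOf x = 2 ∧ orderOf y = 2 ∧ ¬ IsConj x y) (t : G) (ht : orderOf t = 2) (htz : ¬ IsConj t z) : Nonempty (↥(Subgroup.centralizer ({t} : Set G)) ≃* (Multiplicative (ZMod 2) × Multiplicative (ZMod 2)) × alternatingGroup (Fin 5)) ∧ Nonempty (↥(Subgroup.normalizer (((Cfsg.pCore 2 ↥(Subgroup.centralizer ({t} : Set G))).map (Subgroup.subtype (Subgroup.centralizer ({t} : Set G))) : Subgroup G) : Set G)) ≃* alternatingGroup (Fin 4) × alternatingGroup (Fin 5)) := by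
  obtain ⟨X, w, rfl, hw, hr⟩ := CL.J23.two_of_fstar hz Q hF hQ hcard e hnwc hcl
  obtain ⟨ρ, h⟩ := CL.J2L.exists_good (CL.J23.isoJ2_of_two hw hr)
  have key : ∀ t : G, orderOf t = 2 → ¬ IsConj t X.z → IsConj t X.k := fun t ht htz => by
    have h1 := X.H.card_mul_index
    rw [X.card_H, h.card] at h1
    obtain ⟨c, hc⟩ := CL.Inv.SE.exists_fixed_of_odd (Ω := G ⧸ X.H) (CL.Inv.SE.mul_self_of_inv ht)
      (by rw [← Subgroup.index, show X.H.index = 315 by omega]; decide)
    obtain ⟨g, rfl⟩ := QuotientGroup.mk_surjective c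
    obtain ⟨x, -, e | e⟩ := hw.inv_two ((CL.Inv.SE.smul_mk_eq_iff _ _ _).1 hc)
      (by rw [show g⁻¹ * t * g * (g⁻¹ * t * g) = g⁻¹ * (t * t) * g by group, CL.Inv.SE.mul_self_of_inv ht]; group)
      (fun e => CL.Inv.SE.ne_one_of_inv ht (by rw [← mul_right_inj g⁻¹, ← mul_left_inj g, e]; group))
    · exact absurd (isConj_iff.2 ⟨x * g⁻¹, e ▸ by group⟩) htz
    · exact isConj_iff.2 ⟨x * g⁻¹, e ▸ by group⟩
  refine h.two ((key _ h.k_order fun e => ?_).trans (key t ht htz).symm)
  have := h.k_cent
  rw [CL.Spor.card_centralizer_eq_of_isConj e, show Nat.card _ = 1920 from X.card_H] at this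
  omega

end Cfsg.Agent.S5382
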