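import Cfsg.Statements.S5386
import Cfsg.Agent.Spor.Co1X
import Cfsg.Agent.Spor.Co1RMain

set_option autoImplicit false
open Cfsg

namespace Cfsg.Agent.S5386

/-- Let G be a finite group of Conway type (involution z with generalized Fitting subgroup Q of its centralizer C extraspecial of order 2^9, C/Q the commutator subgroup of the isometry group of the hyperbolic quadratic form in dimension 8 over the field with two elements, z not weakly closed in Q). Then G has a subgroup V of order 7 whose centralizer is isomorphic to the direct product of a cyclic group of order 7 and the alternating group of degree 7, and a subgroup W of order 3 whose normalizer is isomorphic to the direct product of the symmetric group of degree 3 and the alternating group of degree 9. -/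
theorem result {G : Type*} [Group G] [Finite G] (z : G) (hz : orderOf z = 2) (Q : Subgroup (Subgroup.centralizer ({z} : Set G))) [Q.Normal] (hF : Cfsg.generalizedFittingSubgroup (Subgroup.centralizer ({z} : Set G)) = Q) (hQ : Cfsg.IsExtraspecial 2 Q) (hcard : Nat.card Q = 2 ^ 9) (e : (Subgroup.centralizer ({z} : Set G)) ⧸ Q ≃* Cfsg.Omega (ZMod 2) (Cfsg.quadFormPlus 4 (ZMod 2))) (hnwc : ∃ g : G, (∃ hq : g * z * g⁻¹ ∈ Subgroup.centralizer ({z} : Set G), (⟨g * z * g⁻¹, hq⟩ : Subgroup.centralizer ({z} : Set G)) ∈ Q) ∧ g * z * g⁻¹ ≠ z) : (∃ V : Subgroup G, Nat.card V = 7 ∧ Nonempty (↥(Subgroup.centralizer (V : Set G)) ≃* Multiplicative (ZMod 7) × alternatingGroup (Fin 7))) ∧ ∃ W : Subgroup G, Nat.card W = 3 ∧ Nonempty (↥(Subgroup.normalizer (W : Set G)) ≃* Equiv.Perm (Fin 3) × alternatingGroup (Fin 9)) := by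
  obtain ⟨f, -⟩ := CL.CoR.rec1 z hz Q hF hQ hcard e hnwc
  obtain ⟨h1, ⟨e1⟩⟩ := CL.Spor.CoX.local7
  obtain ⟨e2⟩ := CL.Spor.CoX.local3
  refine ⟨⟨_, (Subgroup.card_map_of_injective (f := f.symm.toMonoidHom) f.symm.injective).trans h1, ⟨?_⟩⟩,
    _, (Subgroup.card_map_of_injective (f := f.symm.toMonoidHom) f.symm.injective).trans CL.Spor.MonN.ord3B, ⟨?_⟩⟩
  · exact ((MulEquiv.subgroupCongr (CL.Spor.CoF.map_cent f.symm _).symm).trans (f.symm.subgroupMap _).symm).trans e1
  · exact ((MulEquiv.subgroupCongr (Subgroup.map_equiv_normalizer_eq _ f.symm).symm).trans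
      (f.symm.subgroupMap _).symm).trans e2

end Cfsg.Agent.S5386
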