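import Cfsg.Statements.S5387
import Cfsg.Agent.S2088
import Cfsg.Agent.Comp.StemUniq

set_option autoImplicit false
open Cfsg

namespace Cfsg.Agent.S5387

/-- Up to isomorphism there is at most one quasisimple group whose centre is elementary abelian of order 4 and whose central quotient is isomorphic to the projective special linear group of dimension 3 over the field with four elements: any two such groups are isomorphic. -/
theorem result {L₁ L₂ : Type*} [Group L₁] [Finite L₁] [Group L₂] [Finite L₂] (F : Type) [Field F] [Fintype F] (hF : Fintype.card F = 4) (h₁ : Cfsg.IsQuasisimple L₁) (h₂ : Cfsg.IsQuasisimple L₂) (hc₁ : Nat.card (Subgroup.center L₁) = 4) (hc₂ : Nat.card (Subgroup.center L₂) = 4) (he₁ : ∀ x ∈ Subgroup.center L₁, x * x = 1) (he₂ : ∀ x ∈ Subgroup.center L₂, x * x = 1) (e₁ : L₁ ⧸ Subgroup.center L₁ ≃* Matrix.ProjectiveSpecialLinearGroup (Fin 3) F) (e₂ : L₂ ⧸ Subgroup.center L₂ ≃* Matrix.ProjectiveSpecialLinearGroup (Fin 3) F) : Nonempty (L₁ ≃* L₂) := by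
  have hc : 4 * Nat.card (powMonoidHom 2 : Multiplicative (ZMod 3 × ZMod 4 × ZMod 4) →* _).range =
      Nat.card (Multiplicative (ZMod 3 × ZMod 4 × ZMod 4)) := by
    have : Nat.card (powMonoidHom 2 : Multiplicative (ZMod 3 × ZMod 4 × ZMod 4) →* _).range =
        Fintype.card {x : Multiplicative (ZMod 3 × ZMod 4 × ZMod 4) // ∃ y, y ^ 2 = x} := by
      rw [← Nat.card_eq_fintype_card]; rfl
    rw [this, Nat.card_eq_fintype_card]; decide +kernel
  exact CL.Schur.equiv_of_center_pow (Cfsg.Agent.S2088.result hF) 2 h₁.1 h₂.1 e₁ e₂ (fun x hx => (pow_two x).trans (he₁ x hx))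
    (fun x hx => (pow_two x).trans (he₂ x hx)) (hc₁ ▸ hc) (hc₂ ▸ hc)

end Cfsg.Agent.S5387
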