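import Cfsg.Statements.S5396
import Cfsg.Agent.Grp.ExtraTwo

set_option autoImplicit false
open Cfsg

namespace Cfsg.Agent.S5396

/-- For every n ≥ 1 there exist finite extraspecial 2-groups of order 2^(2n+1) whose 2-rank (the largest rank of an elementary abelian subgroup) is n, and ones whose 2-rank is n + 1 (so for each such order there are two non-isomorphic extraspecial 2-groups, told apart by their 2-rank). -/
theorem result (n : ℕ) (hn : 1 ≤ n) : ∀ r ∈ ({n, n + 1} : Set ℕ), ∃ (E : Type) (_ : Group E) (_ : Finite E), Cfsg.IsExtraspecial 2 E ∧ Nat.card E = 2 ^ (2 * n + 1) ∧ sSup {k : ℕ | ∃ A : Subgroup E, Cfsg.IsElementaryAbelian 2 A ∧ Nat.card A = 2 ^ k} = r := by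
  intro r hr
  rcases hr with rfl | rfl
  · obtain ⟨E, _, _, hE, hc, ht⟩ := CL.Grp.exists_extraspecial_two r hn false
    refine ⟨E, inferInstance, inferInstance, hE, hc, IsGreatest.csSup_eq ⟨?_, ?_⟩⟩
    · obtain ⟨A, h1, h2, -⟩ := CL.Grp.extra2_exists_elementaryAbelian hE hc
      exact ⟨A, h1, h2⟩
    · rintro k ⟨A, h1, h2⟩
      have := (CL.Grp.extra_pRankLE_iff hE hc).mpr (by simpa using ht) A h1.1 h1.2
      rwa [h2, Nat.pow_le_pow_iff_right (by norm_num)] at this
  · obtain ⟨E, _, _, hE, hc, ht⟩ := CL.Grp.exists_extraspecial_two n hn true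
    refine ⟨E, inferInstance, inferInstance, hE, hc, IsGreatest.csSup_eq ⟨ht.mpr rfl, ?_⟩⟩
    rintro k ⟨A, h1, h2⟩
    have := CL.Grp.extra_pRankLE hE hc A h1.1 h1.2
    rwa [h2, Nat.pow_le_pow_iff_right (by norm_num)] at this

end Cfsg.Agent.S5396
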