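import Cfsg.Statements.S5397
import Cfsg.Agent.Spor.Co1RMain

set_option autoImplicit false
open Cfsg

namespace Cfsg.Agent.S5397

/-- Let G be a finite group of Conway type (involution z with generalized Fitting subgroup Q of its centralizer C extraspecial of order 2^9, C/Q the commutator subgroup of the isometry group of the hyperbolic quadratic form in dimension 8 over the field with two elements, z not weakly closed in Q). Then G has an elementary abelian subgroup A of order 2^11 containing z whose normalizer N is a split extension of A with N/A isomorphic to the automorphism group of the length-24 code built from the squares modulo 23, and N has exactly two orbits on the non-identity elements of A. -/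
theorem result {G : Type*} [Group G] [Finite G] (z : G) (hz : orderOf z = 2) (Q : Subgroup (Subgroup.centralizer ({z} : Set G))) [Q.Normal] (hF : Cfsg.generalizedFittingSubgroup (Subgroup.centralizer ({z} : Set G)) = Q) (hQ : Cfsg.IsExtraspecial 2 Q) (hcard : Nat.card Q = 2 ^ 9) (e : (Subgroup.centralizer ({z} : Set G)) ⧸ Q ≃* Cfsg.Omega (ZMod 2) (Cfsg.quadFormPlus 4 (ZMod 2))) (hnwc : ∃ g : G, (∃ hq : g * z * g⁻¹ ∈ Subgroup.centralizer ({z} : Set G), (⟨g * z * g⁻¹, hq⟩ : Subgroup.centralizer ({z} : Set G)) ∈ Q) ∧ g * z * g⁻¹ ≠ z) : ∃ A : Subgroup G, Cfsg.IsElementaryAbelian 2 A ∧ Nat.card A = 2 ^ 11 ∧ z ∈ A ∧ ∃ _ : (A.subgroupOf (Subgroup.normalizer (A : Set G))).Normal, Nonempty (↥(Subgroup.normalizer (A : Set G)) ⧸ A.subgroupOf (Subgroup.normalizer (A : Set G)) ≃* ↥Cfsg.M24) ∧ (∃ K : Subgroup ↥(Subgroup.normalizer (A : Set G)), (A.subgroupOf (Subgroup.normalizer (A : Set G))).IsComplement' K) ∧ ∃ a ∈ A, ∃ b ∈ A, a ≠ 1 ∧ b ≠ 1 ∧ (∀ n ∈ Subgroup.normalizer (A : Set G), n * a * n⁻¹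 ≠ b) ∧ ∀ c ∈ A, c ≠ 1 → ∃ n ∈ Subgroup.normalizer (A : Set G), n * c * n⁻¹ = a ∨ n * c * n⁻¹ = b := by
  exact CL.CoR.s5397_of CL.CoR.rec1 z hz Q hF hQ hcard e hnwc

end Cfsg.Agent.S5397
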