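import Cfsg.Statements.S5398
import Cfsg.Agent.Spor.Fi22R2

set_option autoImplicit false
open Cfsg

namespace Cfsg.Agent.S5398

/-- Let G be a finite group with trivial centre generated by a conjugation-invariant set D of 3-transpositions on which it acts primitively, such that for some d in D the subgroup generated by the members of D other than d commuting with d has central largest normal 2- and 3-subgroups, and suppose G with D is of type M(22). Then G has exactly 3 conjugacy classes of involutions: every involution is a product of m distinct pairwise commuting members of D for some m between 1 and 3; for each such m these products form one non-empty conjugacy class; and the value of m is determined by the involution. -/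
theorem result {G : Type*} [Group G] [Finite G] {D : Set G} (hD : Cfsg.IsThreeTranspositionGroup D) (hprim : Cfsg.IsPrimitiveUnderConj D) (d : G) (hd : d ∈ D) (h3 : Cfsg.pCore 3 ↥(Subgroup.closure {y : G | y ∈ D ∧ y ≠ d ∧ Commute d y}) ≤ Subgroup.center ↥(Subgroup.closure {y : G | y ∈ D ∧ y ≠ d ∧ Commute d y})) (h2 : Cfsg.pCore 2 ↥(Subgroup.closure {y : G | y ∈ D ∧ y ≠ d ∧ Commute d y}) ≤ Subgroup.center ↥(Subgroup.closure {y : G | y ∈ D ∧ y ≠ d ∧ Commute d y})) (ht : Cfsg.IsOfTypeM22 G D) : (∀ x : G, orderOf x = 2 → ∃ m : ℕ, 1 ≤ m ∧ m ≤ 3 ∧ (∃ l : List G, l.Nodup ∧ l.length = m ∧ (∀ a ∈ l, a ∈ D) ∧ (∀ a ∈ l, ∀ b ∈ l, Commute a b) ∧ l.prod = x)) ∧ (∀ m : ℕ, 1 ≤ m → m ≤ 3 → (∃ x : G, orderOf x = 2 ∧ (∃ l : List G, l.Nodup ∧ l.length = m ∧ (∀ a ∈ l, a ∈ D) ∧ (∀ a ∈ l, ∀ b ∈ l, Commute a b) ∧ l.prod = x)) ∧ ∀ x y : G, (∃ l : List G, l.Nodup ∧ l.length = m ∧ (∀ a ∈ l, a ∈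 D) ∧ (∀ a ∈ l, ∀ b ∈ l, Commute a b) ∧ l.prod = x) → (∃ l : List G, l.Nodup ∧ l.length = m ∧ (∀ a ∈ l, a ∈ D) ∧ (∀ a ∈ l, ∀ b ∈ l, Commute a b) ∧ l.prod = y) → IsConj x y) ∧ ∀ (m m' : ℕ) (x : G), 1 ≤ m → m ≤ 3 → 1 ≤ m' → m' ≤ 3 → (∃ l : List G, l.Nodup ∧ l.length = m ∧ (∀ a ∈ l, a ∈ D) ∧ (∀ a ∈ l, ∀ b ∈ l, Commute a b) ∧ l.prod = x) → (∃ l : List G, l.Nodup ∧ l.length = m' ∧ (∀ a ∈ l, a ∈ D) ∧ (∀ a ∈ l, ∀ b ∈ l, Commute a b) ∧ l.prod = x) → m = m' := by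
  obtain ⟨e, gs, M⟩ := CL.F22.exists_mod hD ht
  refine ⟨fun x hx => ?_, fun m h1 h3 => ⟨?_, fun x y ⟨l, hl⟩ ⟨l', hl'⟩ => ?_⟩,
    fun m m' x h1 h3 h1' h3' ⟨l, hl⟩ ⟨l', hl'⟩ => ?_⟩
  · rcases M.cls' (x := x) (by rw [← hx, pow_orderOf_eq_one]) with ⟨rfl, -⟩ | ⟨h, -⟩ | ⟨⟨a, b, p, rfl⟩, -⟩ |
      ⟨⟨a, b, c, p, rfl⟩, -⟩
    · simp at hx
    · exact ⟨1, le_rfl, by norm_num, _, CL.Fi.isProd_one.2 ⟨h, rfl⟩⟩
    · exact ⟨2, by norm_num, by norm_num, _, p.isProd⟩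
    · exact ⟨3, by norm_num, le_rfl, _, p.isProd⟩
  · interval_cases m
    · exact ⟨_, hD.1.1 _ M.pac.hx, _, CL.Fi.isProd_one.2 ⟨M.pac.hx, rfl⟩⟩
    · exact ⟨_, M.pac.orderOf hD.1, _, M.pac.isProd⟩
    · exact ⟨_, M.orderOf_three hD.1 M.pace, _, M.pace.isProd⟩
  · have a := M.isProd_nf hD.1 h1 h3 hl
    have b := M.isProd_nf hD.1 h1 h3 hl'
    exact M.isConj_of_nfix a.1 b.1 (a.2.trans b.2.symm)
  · have a := (M.isProd_nf hD.1 h1 h3 hl).2.symm.trans (M.isProd_nf hD.1 h1' h3' hl').2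
    interval_cases m <;> interval_cases m' <;> simp at a ⊢


end Cfsg.Agent.S5398
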