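import Cfsg.Statements.S5405
import Cfsg.Agent.Cls.H1Orth

set_option autoImplicit false
open scoped MatrixGroups
open Cfsg

namespace Cfsg.Agent.S5405

open CL.Cls CL.H1O QuadraticMap

/-- A bit of a number. -/
def bit (n i : ℕ) : ZMod 2 := if n.testBit i then 1 else 0
/-- The vector with a given code, dimension four. -/
def vA (n : ℕ) : (Fin 1 ⊕ Fin 1) ⊕ Fin 2 → ZMod 2 :=
  Sum.elim (Sum.elim (fun i => bit n i) fun i => bit n (1 + i)) fun i => bit n (2 + i)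
/-- The vector with a given code, dimension six. -/
def vB (n : ℕ) : (Fin 2 ⊕ Fin 2) ⊕ Fin 2 → ZMod 2 :=
  Sum.elim (Sum.elim (fun i => bit n i) fun i => bit n (2 + i)) fun i => bit n (4 + i)
/-- The vector with a given code, dimension eight. -/
def vC (n : ℕ) : Fin 4 ⊕ Fin 4 → ZMod 2 := Sum.elim (fun i => bit n i) fun i => bit n (4 + i)

theorem ndA : (polarBilin (qfMinus 1 (ZMod 2) 1 1)).Nondegenerate := nondeg_qfMinus_of_disc _ _ (by decide)
theorem ndB : (polarBilin (qfMinus 2 (ZMod 2) 1 1)).Nondegenerate := nondeg_qfMinus_of_disc _ _ (by decide)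

theorem genA : Subgroup.closure {g : OG (qfMinus 1 (ZMod 2) 1 1) | ∃ v, qfMinus 1 (ZMod 2) 1 1 v ≠ 0 ∧
    g = refl (qfMinus 1 (ZMod 2) 1 1) v} = ⊤ := by
  have h1 : ∀ v, refl (qfMinus 1 (ZMod 2) 1 1) v ∈ Subgroup.closure {g : OG (qfMinus 1 (ZMod 2) 1 1) |
      ∃ v, qfMinus 1 (ZMod 2) 1 1 v ≠ 0 ∧ g = refl (qfMinus 1 (ZMod 2) 1 1) v} := fun v => by
    by_cases hv : qfMinus 1 (ZMod 2) 1 1 v = 0
    · rw [refl_of_singular hv]; exact one_mem _
    · exact Subgroup.subset_closure ⟨v, hv, rfl⟩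
  refine eq_top_of_refl_eich ndA _ h1 fun u v => ?_
  by_cases hv : qfMinus 1 (ZMod 2) 1 1 v = 0
  swap
  · exact eich_mem_of_refl_of_nonsingular (W := ⊤) (fun v _ => h1 v) trivial trivial hv
  by_cases h : qfMinus 1 (ZMod 2) 1 1 u = 0 ∧ polar (qfMinus 1 (ZMod 2) 1 1) u v = 0
  swap
  · rw [eich_of_not h]; exact one_mem _
  have h3 : ∀ u v, qfMinus 1 (ZMod 2) 1 1 v ≠ 0 ∨ qfMinus 1 (ZMod 2) 1 1 u ≠ 0 ∨
      polar (qfMinus 1 (ZMod 2) 1 1) u v ≠ 0 ∨ u = 0 ∨ v = 0 ∨ v = u := by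
    unfold polar; decide +kernel
  rcases (((h3 u v).resolve_left fun e => e hv).resolve_left fun e => e h.1).resolve_left
    fun e => e h.2 with rfl | rfl | rfl
  · rw [eich_zero_left]; exact one_mem _
  · rw [eich_zero_right]; exact one_mem _
  · have := eich_smul_self (Q := qfMinus 1 (ZMod 2) 1 1) v 1
    rw [one_smul] at this
    rw [this]; exact one_mem _

theorem cocA (D : OG (qfMinus 1 (ZMod 2) 1 1) → (Fin 1 ⊕ Fin 1) ⊕ Fin 2 → ZMod 2) (hD : Coc D) :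
    ∃ v, ∀ g ∈ commutator (OG (qfMinus 1 (ZMod 2) 1 1)), D g = g.1 v - v := by
  have h1 := (hD.base ndA (a := vA 3) (b := vA 5) (by decide +kernel) (by decide +kernel)
      (by unfold polar; decide +kernel))
  have h2 := hD.step ndA (a := vA 3) (b := vA 5) (c := vA 8) (w := vA 4) h1
    (by unfold polar; decide +kernel)
  have h3 := hD.step ndA (a := vA 5) (b := vA 8) (c := vA 4) (w := vA 11) h2
    (by unfold polar; decide +kernel)
  exact hD.fin vA (k := [4, 8, 5, 3]) h3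
    [(5, 3, 6), (8, 5, 13), (4, 8, 12), (8, 6, 14), (4, 13, 9), (4, 14, 10)]
    (by decide +kernel) (by decide +kernel) genA

theorem cocB (D : OG (qfMinus 2 (ZMod 2) 1 1) → (Fin 2 ⊕ Fin 2) ⊕ Fin 2 → ZMod 2) (hD : Coc D) :
    ∃ v, ∀ g ∈ commutator (OG (qfMinus 2 (ZMod 2) 1 1)), D g = g.1 v - v := by
  have h1 := (hD.base ndB (a := vB 5) (b := vB 11) (by decide +kernel) (by decide +kernel)
      (by unfold polar; decide +kernel))
  have h2 := hD.step ndB (a := vB 5) (b := vB 11) (c := vB 18) (w := vB 10) h1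
    (by unfold polar; decide +kernel)
  have h3 := hD.step ndB (a := vB 11) (b := vB 18) (c := vB 10) (w := vB 7) h2
    (by unfold polar; decide +kernel)
  have h4 := hD.step ndB (a := vB 18) (b := vB 10) (c := vB 7) (w := vB 42) h3
    (by unfold polar; decide +kernel)
  have h5 := hD.step ndB (a := vB 11) (b := vB 18) (c := vB 32) (w := vB 16) h4
    (by unfold polar; decide +kernel)
  exact hD.fin vB (k := [32, 7, 10, 18, 11, 5]) h5
    [(11, 5, 14), (18, 11, 25), (10, 18, 24), (32, 18, 50), (7, 10, 13), (18, 14, 28), (10, 25, 19), (32, 25, 57), (7, 24, 31), (32, 24, 56), (10, 28, 22), (32, 28, 60), (7, 19, 20), (32, 19, 51), (32, 31, 63), (7, 22, 17), (32, 22, 54), (32, 20, 52), (18, 51, 33), (32, 17, 49), (18, 54, 36), (18, 52, 38), (18, 49, 35), (11, 36, 47), (10, 38, 44), (11, 35, 40), (10, 35, 41), (10, 40, 34), (18, 34, 48), (32, 48, 16)]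
    (by decide +kernel) (by decide +kernel) (closure_refl_eq_top ndB (Or.inr (by simp)))

theorem cocC (D : OG (qfPlus 4 (ZMod 2)) → Fin 4 ⊕ Fin 4 → ZMod 2) (hD : Coc D) :
    ∃ v, ∀ g ∈ commutator (OG (qfPlus 4 (ZMod 2))), D g = g.1 v - v := by
  have h1 := (hD.base nondeg_qfPlus (a := vC 17) (b := vC 35) (by decide +kernel) (by decide +kernel)
      (by unfold polar; decide +kernel))
  have h2 := hD.step nondeg_qfPlus (a := vC 17) (b := vC 35) (c := vC 21) (w := vC 64) h1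
    (by unfold polar; decide +kernel)
  have h3 := hD.step nondeg_qfPlus (a := vC 35) (b := vC 21) (c := vC 68) (w := vC 4) h2
    (by unfold polar; decide +kernel)
  have h4 := hD.step nondeg_qfPlus (a := vC 21) (b := vC 68) (c := vC 23) (w := vC 34) h3
    (by unfold polar; decide +kernel)
  have h5 := hD.step nondeg_qfPlus (a := vC 68) (b := vC 23) (c := vC 34) (w := vC 19) h4
    (by unfold polar; decide +kernel)
  have h6 := hD.step nondeg_qfPlus (a := vC 23) (b := vC 34) (c := vC 27) (w := vC 128) h5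
    (by unfold polar; decide +kernel)
  have h7 := hD.step nondeg_qfPlus (a := vC 35) (b := vC 21) (c := vC 238) (w := vC 8) h6
    (by unfold polar; decide +kernel)
  exact hD.fin vC (k := [238, 27, 34, 23, 68, 21, 35, 17]) h7
    [(35, 17, 50), (21, 35, 54), (68, 21, 81), (238, 21, 251), (23, 68, 83), (34, 23, 53), (27, 34, 57), (21, 50, 39), (68, 54, 114), (238, 54, 216), (23, 81, 70), (238, 81, 191), (34, 83, 113), (27, 53, 46), (68, 39, 99), (238, 39, 201), (23, 114, 101), (238, 114, 156), (34, 70, 100), (238, 70, 168), (27, 113, 106), (23, 99, 116), (238, 99, 141), (34, 101, 71), (238, 101, 139), (21, 156, 137), (27, 100, 127), (238, 100, 138), (34, 116, 86), (238, 116, 154), (21, 141, 152), (27, 71, 92), (238, 71, 169), (21, 139, 158), (238, 127, 145), (27, 86, 77), (238, 86, 184), (21, 154, 143), (35, 152, 187), (238, 92, 178), (21, 169, 188), (68, 158, 218), (238, 77, 163), (21, 184, 173),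 (35, 143, 172), (68, 143, 203), (21, 178, 167), (68, 188, 248), (21, 163, 182), (35, 173, 142), (68, 173, 233), (68, 172, 232), (68, 167, 227), (23, 248, 239), (35, 182, 149), (68, 182, 242), (68, 142, 202), (23, 233, 254), (21, 232, 253), (23, 227, 244), (68, 149, 209), (23, 242, 229), (21, 202, 223), (23, 202, 221), (238, 253, 19), (34, 244, 214), (21, 209, 196), (23, 209, 198), (34, 229, 199), (23, 223, 200), (238, 223, 49), (23, 196, 211), (238, 196, 42), (34, 198, 228), (68, 200, 140), (238, 200, 38), (68, 211, 151), (34, 211, 241), (238, 211, 61), (238, 140, 98), (34, 151, 181), (238, 151, 121), (238, 241, 31), (21, 98, 119), (23, 181, 162), (238, 181, 91), (21, 121, 108), (35, 119, 84), (238, 162, 76), (21, 91, 78), (35, 108, 79), (17, 84, 69), (21, 76, 89), (35, 78, 109), (17, 79, 94), (35, 89, 122), (68, 89, 29), (17, 109, 124), (17, 122, 107), (68, 122, 62), (68, 107, 47), (21, 62, 43),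 (21, 47, 58), (238, 43, 197), (35, 58, 25), (238, 58, 212), (238, 25, 247), (21, 247, 226), (68, 226, 166), (23, 166, 177), (34, 177, 147), (27, 147, 136)]
    (by decide +kernel) (by decide +kernel) (closure_refl_eq_top nondeg_qfPlus (Or.inr (by simp)))

/-- Vanishing of first cohomology on the natural module for three small orthogonal groups over the field with two elements: for the commutator subgroup of the isometry group of the elliptic quadratic form in dimension 4, of the elliptic form in dimension 6, and of the hyperbolic form in dimension 8, every crossed homomorphism into the natural module (a map f with f(gh) = f(g) + g·f(h)) is principal (of the form g ↦ g·v − v). -/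
theorem result : (∀ f : ↥(Cfsg.Omega (ZMod 2) (Cfsg.quadFormMinus 1 (ZMod 2) 1 1)) → ((Fin 1 ⊕ Fin 1) ⊕ Fin 2 → ZMod 2), (∀ g h : ↥(Cfsg.Omega (ZMod 2) (Cfsg.quadFormMinus 1 (ZMod 2) 1 1)), f (g * h) = f g + Matrix.mulVec (((g : ↥(Cfsg.isometryGroup (ZMod 2) (Cfsg.quadFormMinus 1 (ZMod 2) 1 1))) : GL ((Fin 1 ⊕ Fin 1) ⊕ Fin 2) (ZMod 2)) : Matrix ((Fin 1 ⊕ Fin 1) ⊕ Fin 2) ((Fin 1 ⊕ Fin 1) ⊕ Fin 2) (ZMod 2)) (f h)) → ∃ v : (Fin 1 ⊕ Fin 1) ⊕ Fin 2 → ZMod 2, ∀ g : ↥(Cfsg.Omega (ZMod 2) (Cfsg.quadFormMinus 1 (ZMod 2) 1 1)), f g = Matrix.mulVec (((g : ↥(Cfsg.isometryGroup (ZMod 2) (Cfsg.quadFormMinus 1 (ZMod 2) 1 1))) : GL ((Fin 1 ⊕ Fin 1) ⊕ Fin 2) (ZMod 2)) : Matrix ((Fin 1 ⊕ Fin 1) ⊕ Fin 2) ((Fin 1 ⊕ Fin 1) ⊕ Fin 2) (ZMod 2)) v - v) ∧ (∀ f : ↥(Cfsg.Omega (ZMod 2) (Cfsg.quadFormMinus 2 (ZMod 2) 1 1)) → ((Fin 2 ⊕ Fin 2) ⊕ Fin 2 → ZMod 2), (∀ g h : ↥(Cfsg.Omega (ZMod 2) (Cfsg.quadFormMinus 2 (ZMod 2) 1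 1)), f (g * h) = f g + Matrix.mulVec (((g : ↥(Cfsg.isometryGroup (ZMod 2) (Cfsg.quadFormMinus 2 (ZMod 2) 1 1))) : GL ((Fin 2 ⊕ Fin 2) ⊕ Fin 2) (ZMod 2)) : Matrix ((Fin 2 ⊕ Fin 2) ⊕ Fin 2) ((Fin 2 ⊕ Fin 2) ⊕ Fin 2) (ZMod 2)) (f h)) → ∃ v : (Fin 2 ⊕ Fin 2) ⊕ Fin 2 → ZMod 2, ∀ g : ↥(Cfsg.Omega (ZMod 2) (Cfsg.quadFormMinus 2 (ZMod 2) 1 1)), f g = Matrix.mulVec (((g : ↥(Cfsg.isometryGroup (ZMod 2) (Cfsg.quadFormMinus 2 (ZMod 2) 1 1))) : GL ((Fin 2 ⊕ Fin 2) ⊕ Fin 2) (ZMod 2)) : Matrix ((Fin 2 ⊕ Fin 2) ⊕ Fin 2) ((Fin 2 ⊕ Fin 2) ⊕ Fin 2) (ZMod 2)) v - v) ∧ (∀ f : ↥(Cfsg.Omega (ZMod 2) (Cfsg.quadFormPlus 4 (ZMod 2))) → (Fin 4 ⊕ Fin 4 → ZMod 2), (∀ g h : ↥(Cfsg.Omega (ZMod 2) (Cfsg.quadFormPlus 4 (ZMod 2))), f (g * h) = f g + Matrix.mulVec (((g : ↥(Cfsg.isometryGroup (ZMod 2) (Cfsg.quadFormPlus 4 (ZMod 2)))) : GL (Fin 4 ⊕ Fin 4) (ZMod 2)) : Matrix (Fin 4 ⊕ Fin 4) (Fin 4 ⊕ Fin 4) (ZMod 2)) (f h)) → ∃ v : Fin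 4 ⊕ Fin 4 → ZMod 2, ∀ g : ↥(Cfsg.Omega (ZMod 2) (Cfsg.quadFormPlus 4 (ZMod 2))), f g = Matrix.mulVec (((g : ↥(Cfsg.isometryGroup (ZMod 2) (Cfsg.quadFormPlus 4 (ZMod 2)))) : GL (Fin 4 ⊕ Fin 4) (ZMod 2)) : Matrix (Fin 4 ⊕ Fin 4) (Fin 4 ⊕ Fin 4) (ZMod 2)) v - v) := by
  exact ⟨of_coc (qfMinus 1 (ZMod 2) 1 1) cocA, of_coc (qfMinus 2 (ZMod 2) 1 1) cocB,
    of_coc (qfPlus 4 (ZMod 2)) cocC⟩

end Cfsg.Agent.S5405
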