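import Cfsg.Statements.S5408
import Cfsg.Agent.Spor.MonA

set_option autoImplicit false
open Cfsg

namespace Cfsg.Agent.S5408

/-- Let G be a finite group of Monster type at the involution z with Q the extraspecial normal subgroup of order 2^25 of C = C_G(z) (so C/Q is identified with the first Conway group with Q modulo its centre the Leech lattice modulo 2, and z is not weakly closed in Q). Then Q is of plus type: it contains an elementary abelian subgroup of order 2^13. -/
theorem result {G : Type*} [Group G] [Finite G] (z : G) (Q : Subgroup (Subgroup.centralizer ({z} : Set G))) [Q.Normal] (hM : Cfsg.IsOfMonsterType z Q) : ∃ E : Subgroup Q, Cfsg.IsElementaryAbelian 2 E ∧ Nat.card E = 2 ^ 13 := by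
  obtain ⟨hS, e, ψ, hψ⟩ := hM
  obtain ⟨E, h1, ⟨h2, h3⟩, h4⟩ := (CL.Spor.Mon.mt_of hS hψ).plus_type
  let f : Q →* G := (Subgroup.centralizer ({z} : Set G)).subtype.comp Q.subtype
  have hf : Function.Injective f := Subtype.val_injective.comp Subtype.val_injective
  refine ⟨E.comap f, ⟨⟨⟨fun a b => Subtype.ext (hf ?_)⟩⟩, fun a ha => hf ?_⟩, ?_⟩
  · have := congrArg (fun x : E => (x : G)) (h2.is_comm.comm (⟨f a, a.2⟩ : E) ⟨f b, b.2⟩)
    exact this
  · rw [map_pow, map_one]; exact h3 _ ha
  · rw [← h4, ← Subgroup.card_map_of_injective hf, Subgroup.map_comap_eq_self]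
    intro x hx
    obtain ⟨y, hy, rfl⟩ := h1 hx
    exact ⟨⟨y, hy⟩, rfl⟩

end Cfsg.Agent.S5408
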