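import Cfsg.Statements.S5415
import Cfsg.Agent.Spor.MonE

set_option autoImplicit false
open Cfsg

namespace Cfsg.Agent.S5415

/-- Let G be a finite group of Monster type at the involution z with Q the extraspecial normal subgroup of order 2^25 of C = C_G(z) (so C/Q is identified with the first Conway group with Q modulo its centre the Leech lattice modulo 2, and z is not weakly closed in Q). Let s be a conjugate of z in Q other than z and let Y be a subgroup of order 3 of the joint centralizer L of z and s that is 3-central in L (Y lies in the centre of some Sylow 3-subgroup of L). Then the centralizer of Y modulo Y is a group of large Fischer type (an involution whose centralizer D has generalized Fitting subgroup R extraspecial of order 2^13 and normal subgroups R ≤ N ≤ M with N/R of order 3, M/N the projective special unitary group of dimension 4 over the field with nine elements and M of index 2 in D; the involution not weakly closed in R). -/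
theorem result {G : Type*} [Group G] [Finite G] (z : G) (Q : Subgroup (Subgroup.centralizer ({z} : Set G))) [Q.Normal] (hM : Cfsg.IsOfMonsterType z Q) (s : G) (hsQ : ∃ hsc : s ∈ Subgroup.centralizer ({z} : Set G), (⟨s, hsc⟩ : Subgroup.centralizer ({z} : Set G)) ∈ Q) (hs : IsConj z s) (hs1 : s ≠ z) (Y : Subgroup G) (hY : Y ≤ Subgroup.centralizer ({z, s} : Set G)) (hY3 : Nat.card Y = 3) (hc : ∃ P : Sylow 3 ↥(Subgroup.centralizer ({z, s} : Set G)), Y.subgroupOf (Subgroup.centralizer ({z, s} : Set G)) ≤ (Subgroup.center ↥(P : Subgroup ↥(Subgroup.centralizer ({z, s} : Set G)))).map (P : Subgroup ↥(Subgroup.centralizer ({z, s} : Set G))).subtype) [hn : (Y.subgroupOf (Subgroup.centralizer (Y : Set G))).Normal] : Cfsg.IsOfLargeFischerType (↥(Subgroup.centralizer (Y : Set G)) ⧸ Y.subgroupOf (Subgroup.centralizer (Y : Set G))) := by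
  obtain ⟨hS, e, ψ, hψ⟩ := hM
  exact (CL.Spor.Mon.mt_of hS hψ).fischer (CL.Spor.Mon.mem_map_iff.2 hsQ) hs hs1 hY hY3 hc

end Cfsg.Agent.S5415
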