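import Cfsg.Statements.S5419
import Cfsg.Agent.Spor.GrFin
import Cfsg.Agent.Spor.Gr6

set_option autoImplicit false
open Cfsg

namespace Cfsg.Agent.S5419

/-- There is a finite simple group of Monster type: a non-abelian finite simple group with an involution z whose centralizer C has generalized Fitting subgroup Q extraspecial of order 2^25, with an identification of C/Q with the first Conway group under which Q modulo its centre is the Leech lattice modulo 2 as a module, and with some conjugate of z other than z lying in Q. -/
theorem result : ∃ (G : Type) (_ : Group G) (_ : Finite G), IsSimpleGroup G ∧ ¬ IsMulCommutative G ∧ Cfsg.IsGroupOfMonsterType G := by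
  exact CL.Gr.s5419_of CL.Gr.theta_exists
    ⟨CL.Gr.rhoSpec _, CL.Gr.surjSpec _, CL.Gr.titsSpec _, CL.Gr.tauSpec _⟩

end Cfsg.Agent.S5419
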