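import Cfsg.Statements.S5420
import Cfsg.Agent.Even.XS2

set_option autoImplicit false
open Cfsg

namespace Cfsg.Agent.S5420

/-- Let Q be an extraspecial 2-subgroup of the finite group G whose centralizer in G is its centre Z and which is normal in the centralizer of Z. If Z lies in the largest normal 2-subgroup of G, then Q is a large extraspecial 2-subgroup of G: it normalizes no non-trivial subgroup of G of odd order. -/
theorem result {G : Type*} [Group G] [Finite G] (Q : Subgroup G) (hL1 : Cfsg.IsExtraspecial 2 ↥Q) (hL2 : Subgroup.centralizer (Q : Set G) = ((Subgroup.center ↥Q).map Q.subtype)) (hL3 : Subgroup.centralizer (((Subgroup.center ↥Q).map Q.subtype) : Set G) ≤ Subgroup.normalizer (Q : Set G)) (hZ : ((Subgroup.center ↥Q).map Q.subtype) ≤ Cfsg.pCore 2 G) : Cfsg.IsLargeExtraspecial Q := by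
  obtain ⟨z, hz⟩ := CL.Even.extra_exists_center_eq hL1
  have h := CL.Even.xe_of_center hL1 hL2 hL3 hz
  refine h.isLarge fun K hK hQK => h.eq_bot_of_le_cent hK hQK fun x hx => ?_
  have hzO : z ∈ Cfsg.pCore 2 G := hZ (hz ▸ Subgroup.mem_zpowers z)
  refine CL.Even.mem_cent_singleton.mpr (commutatorElement_eq_one_iff_mul_comm.mp
    (Subgroup.disjoint_def.mp (CL.Even.disjoint_of_odd_of_isPGroup_two hK CL.Even.pCore_isP) ?_
      (mul_mem (Subgroup.Normal.conj_mem inferInstance z hzO x) (inv_mem hzO))))
  rw [← commutatorElement_inv]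
  exact K.inv_mem (K.mul_mem (CL.Even.conj_mem (hQK h.mem) hx) (K.inv_mem hx))

end Cfsg.Agent.S5420
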