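import Cfsg.Statements.S5423
import Cfsg.Agent.Even.XPar

set_option autoImplicit false
open Cfsg

namespace Cfsg.Agent.S5423

open CL.Even CL.Grp CL.Loc Matrix in

/-- Let G be a finite group that is the split extension of an elementary abelian normal subgroup U of order 2^(n+1), n ≥ 1, by its full automorphism group: U has a complement M in G whose conjugation action on U is faithful and realizes every automorphism of U. Let Z be a subgroup of U of order 2 and Q the largest normal 2-subgroup of the centralizer C of Z. Then Q is extraspecial of order 2^(2n+1) with an elementary abelian subgroup of order 2^(n+1) (plus type), Q is a large extraspecial 2-subgroup of G, and C is the split extension of Q by the general linear group of degree n over the field with two elements. -/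
theorem result {G : Type*} [Group G] [Finite G] (n : ℕ) (hn : 1 ≤ n) (U M : Subgroup G) [U.Normal] (hU : Cfsg.IsElementaryAbelian 2 U) (hUcard : Nat.card ↥U = 2 ^ (n + 1)) (hUM : U ⊓ M = ⊥) (hUM' : U ⊔ M = ⊤) (hfaith : ∀ m ∈ M, (∀ u ∈ U, m * u * m⁻¹ = u) → m = 1) (hfull : ∀ φ : ↥U ≃* ↥U, ∃ m ∈ M, ∀ u : ↥U, ((φ u : ↥U) : G) = m * u * m⁻¹) (Z : Subgroup G) (hZU : Z ≤ U) (hZ : Nat.card ↥Z = 2) (Q : Subgroup G) (hQ : Q = (Cfsg.pCore 2 ↥(Subgroup.centralizer (Z : Set G))).map (Subgroup.centralizer (Z : Set G)).subtype) : Cfsg.IsExtraspecial 2 ↥Q ∧ Nat.card ↥Q = 2 ^ (2 * n + 1) ∧ (∃ E : Subgroup G, E ≤ Q ∧ Cfsg.IsElementaryAbelian 2 E ∧ Nat.card ↥E = 2 ^ (n + 1)) ∧ Cfsg.IsLargeExtraspecial Q ∧ ∃ K : Subgroup G, K ≤ Subgroup.centralizer (Z : Set G) ∧ Q ⊓ K = ⊥ ∧ Q ⊔ K = Subgroup.centralizer (Z : Set G) ∧ Nonempty (↥K ≃* Matrix.GeneralLinearGroup (Fin n) (ZMod 2)) := by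
  obtain ⟨n, rfl⟩ : ∃ m, n = m + 1 := ⟨n - 1, by omega⟩
  obtain ⟨z, hzZ, hz1⟩ := Z.bot_or_exists_ne_one.resolve_left fun h => by simp [h] at hZ
  have hzU := hZU hzZ
  have ho : orderOf z = 2 := ea_orderOf hU hzU hz1
  obtain rfl : Subgroup.zpowers z = Z := Subgroup.eq_of_le_of_card_ge (Subgroup.zpowers_le.mpr hzZ)
    (by rw [hZ, Nat.card_zpowers, ho])
  rw [cent_zpowers] at hQ ⊢
  have hd : Module.finrank (ZMod 2) (EAMod hU) = n + 1 + 1 :=
    (Nat.pow_right_injective le_rfl (hUcard.symm.trans (EAMod.card_eq_pow_finrank hU))).symm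
  obtain ⟨e, he⟩ : ∃ e : EAMod hU ≃ₗ[ZMod 2] (Fin (n + 1 + 1) → ZMod 2),
      e (EAMod.mk hU z hzU) = Pi.single 0 1 := by
    obtain ⟨f, hf⟩ := not_forall.mp (mt (Module.forall_dual_apply_eq_zero_iff (ZMod 2)
      (EAMod.mk hU z hzU)).mp fun h => hz1 ((EAMod.val_eq_one hU).mpr h))
    obtain ⟨s, b, i, hi, -⟩ := exists_basis_of_pairing_ne_zero hf
    let σ := b.indexEquiv (Module.finBasisOfFinrankEq _ _ hd)
    refine ⟨(b.reindex (σ.trans (Equiv.swap (σ i) 0))).equivFun, ?_⟩
    rw [hi, show b i = b.reindex (σ.trans (Equiv.swap (σ i) 0)) 0 by simp]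
    ext j
    simp [-Module.Basis.coe_reindex, Pi.single_apply, eq_comm]
  let ρ : G →* (EAMod hU ≃ₗ[ZMod 2] EAMod hU) :=
    (conjRep hU).comp ((MonoidHom.id G).codRestrict _ fun g => by simp [Subgroup.normalizer_eq_top])
  have hρ : ∀ g x, (ρ g x).val = g * x.val * g⁻¹ := fun _ _ => rfl
  let R : G → Matrix (Fin (n + 1 + 1)) (Fin (n + 1 + 1)) (ZMod 2) := fun g =>
    LinearMap.toMatrix' (e.conj (ρ g).toLinearMap)
  have hR : ∀ g x, R g *ᵥ e x = e (ρ g x) := fun g x => by
    simp [R, LinearMap.toMatrix'_mulVec]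
  have hRe : ∀ {A B : Matrix (Fin (n + 1 + 1)) (Fin (n + 1 + 1)) (ZMod 2)},
      (∀ x, A *ᵥ e x = B *ᵥ e x) → A = B := fun h =>
    ext_iff_mulVec.mpr fun w => by simpa using h (e.symm w)
  have hRm : ∀ g h, R (g * h) = R g * R h := fun g h => hRe fun x => by
    rw [← mulVec_mulVec, hR, hR, hR, map_mul]; rfl
  have hR1 : ∀ g ∈ U, R g = 1 := fun g hg => hRe fun x => by
    rw [hR, one_mulVec, e.injective.eq_iff, ← EAMod.val_inj, hρ, ea_mul_comm hU hg x.val_mem,
      mul_inv_cancel_right]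
  have hfull' : ∀ A B : Matrix (Fin (n + 1 + 1)) (Fin (n + 1 + 1)) (ZMod 2),
      A * B = 1 → ∃ m ∈ M, R m = A := fun A B h => by
    let T : EAMod hU ≃ₗ[ZMod 2] EAMod hU :=
      e.trans ((toLin'OfInv (mul_eq_one_comm.mp h) h).trans e.symm)
    obtain ⟨m, hm, h1⟩ := hfull ⟨⟨fun x => Additive.toMul (T (Additive.ofMul x)),
      fun x => Additive.toMul (T.symm (Additive.ofMul x)), T.left_inv, T.right_inv⟩,
      fun x y => T.map_add (Additive.ofMul x) (Additive.ofMul y)⟩
    refine ⟨m, hm, hRe fun x => ?_⟩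
    rw [hR, show ρ m x = T x from EAMod.val_injective hU (h1 (Additive.toMul x)).symm]
    exact e.apply_symm_apply _
  have hdec : ∀ g : G, ∃ x : EAMod hU, x.val⁻¹ * g ∈ M := fun g => by
    obtain ⟨a, ha, m, hm, rfl⟩ := (mem_sup_of_ge_normalizer (A := U) (B := M)
      (by simp [Subgroup.normalizer_eq_top])).mp (hUM' ▸ Subgroup.mem_top g)
    exact ⟨EAMod.mk hU a ha, by simpa [EAMod.val_mk] using hm⟩
  choose β hβ using hdec
  have hβ' : ∀ g (x : EAMod hU), x.val⁻¹ * g ∈ M → β g = x := fun g x hx => by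
    have : x.val⁻¹ * (β g).val ∈ U ⊓ M := ⟨U.mul_mem (U.inv_mem x.val_mem) (β g).val_mem, by
      simpa [mul_assoc] using M.mul_mem hx (M.inv_mem (hβ g))⟩
    rw [hUM, Subgroup.mem_bot, inv_mul_eq_one] at this
    exact EAMod.val_injective hU this.symm
  have hβm : ∀ g h, e (β (g * h)) = e (β g) + R g *ᵥ e (β h) := fun g h => by
    rw [hR, ← map_add, hβ' (g * h) (β g + ρ g (β h))]
    have h1 := ea_mul_comm hU (β g).val_mem (ρ g (β h)).val_mem
    rw [EAMod.val_add, h1, hρ]
    simpa [mul_assoc] using mul_mem (hβ g) (hβ h)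
  have hC : ∀ g, g ∈ Subgroup.centralizer {z} ↔ R g *ᵥ Pi.single 0 1 = Pi.single 0 1 := fun g => by
    rw [← he, hR, e.injective.eq_iff, ← EAMod.val_inj, hρ, mem_cent_singleton, mul_inv_eq_iff_eq_mul]
    rfl
  have hC0 : ∀ g ∈ Subgroup.centralizer {z}, R g 0 0 = 1 := fun g hg => by
    simpa using congrFun ((hC g).mp hg) 0
  have hC1 : ∀ g ∈ Subgroup.centralizer {z}, ∀ i : Fin (n + 1), R g i.succ 0 = 0 := fun g hg i => by
    simpa using congrFun ((hC g).mp hg) i.succ
  have hβz : e (β z) = Pi.single 0 1 := by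
    rw [hβ' z (EAMod.mk hU z hzU) (by simp [EAMod.val_mk]), he]
  let blk : (Fin (n + 1) → ZMod 2) → Matrix (Fin (n + 1)) (Fin (n + 1)) (ZMod 2) →
      Matrix (Fin (n + 1 + 1)) (Fin (n + 1 + 1)) (ZMod 2) := fun u A =>
    of (Fin.cons (Fin.cons 1 u) fun i => Fin.cons 0 (A i))
  let P : ParCoord z (n + 1) := ⟨fun g => e (β g) 0, fun g j => R g 0 j.succ,
    fun g i => e (β g) i.succ, fun g => of fun i j => R g i.succ j.succ,
    fun {g h} hg hh => by
      rw [hβm, Pi.add_apply, mulVec, dotProduct, Fin.sum_univ_succ, hC0 g hg, one_mul, ← add_assoc (e (β g) 0)]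
      rfl,
    fun {g h} hg hh => funext fun j => by
      rw [hRm, mul_apply, Fin.sum_univ_succ, hC0 g hg, one_mul]; rfl,
    fun {g h} hg hh => funext fun i => by
      rw [hβm, Pi.add_apply, mulVec, dotProduct, Fin.sum_univ_succ, hC1 g hg, zero_mul, zero_add]; rfl,
    fun {g h} hg hh => Matrix.ext fun i j => by
      rw [hRm, of_apply, mul_apply, Fin.sum_univ_succ, hC1 g hg, zero_mul, zero_add]; rfl,
    Matrix.ext fun i j => by simp [hR1 1 (one_mem _), one_apply],
    fun {g} hg h1 h2 h3 h4 => by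
      have h5 : β g = 0 := e.injective (funext fun i => by
        rw [map_zero]; exact Fin.cases h1 (congrFun h3) i)
      have h6 : R g = 1 := Matrix.ext fun i j => by
        refine Fin.cases ?_ (fun i => ?_) i <;> refine Fin.cases ?_ (fun j => ?_) j
        · simp [hC0 g hg]
        · simpa [one_apply, (Fin.succ_ne_zero _).symm] using congrFun h2 j
        · simp [hC1 g hg]
        · simpa [one_apply] using congrFun₂ h4 i j
      refine hfaith g (by simpa [h5, EAMod.val_zero] using hβ g) fun u hu => ?_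
      have := hR g (EAMod.mk hU u hu)
      rw [h6, one_mulVec, e.injective.eq_iff, ← EAMod.val_inj] at this
      exact this.symm,
    fun c u v A => by
      obtain ⟨m, hm, h1⟩ := hfull' (blk u A) (blk (u ᵥ* A⁻¹.1) A⁻¹.1) (Matrix.ext fun i j => by
        refine Fin.cases ?_ (fun i => ?_) i <;> refine Fin.cases ?_ (fun j => ?_) j <;>
          rw [mul_apply, Fin.sum_univ_succ]
        · simp [blk]
        · exact (congrArg (· + _) (one_mul _)).trans (zmod2_add_self _)
        · simp [blk]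
        · simpa [blk, one_apply, mul_apply] using congrFun₂ A.mul_inv i j)
      have h2 : R ((e.symm (Fin.cons c v)).val * m) = blk u A := by
        rw [hRm, hR1 _ (EAMod.val_mem hU _), one_mul, h1]
      have h3 := hβ' ((e.symm (Fin.cons c v)).val * m) (e.symm (Fin.cons c v)) (by simpa using hm)
      refine ⟨_, (hC _).mpr (funext fun i => ?_), by rw [h3]; simp, by rw [h2]; rfl,
        by rw [h3]; simp, by rw [h2]; rfl⟩
      rw [h2]
      refine Fin.cases ?_ (fun i => ?_) i <;> simp [blk],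
    funext fun j => by simp [hR1 z hzU, one_apply, (Fin.succ_ne_zero _).symm],
    funext fun i => by simp [hβz], Matrix.ext fun i j => by simp [hR1 z hzU, one_apply]⟩
  obtain ⟨m, -, hm⟩ := hfull' (transvection 1 0 1) (transvection 1 0 1) (by
    rw [transvection_mul_transvection_same _ _ one_ne_zero]; exact transvection_zero _ _)
  have hmU : m * z * m⁻¹ ∈ U := (ρ m (EAMod.mk hU z hzU)).val_mem
  refine P.main (by omega) ho (g := m) (P.mem_Q.mpr ⟨mem_cent_singleton.mpr (ea_mul_comm hU hmU hzU),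
    Matrix.ext fun i j => by simp [P, hR1 _ hmU, one_apply]⟩) (fun h => ?_) hQ
  simpa [hm, transvection] using hC1 m (mem_cent_singleton.mpr (mul_inv_eq_iff_eq_mul.mp h)) 0

end Cfsg.Agent.S5423
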