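import Cfsg.Statements.S5424
import Cfsg.Agent.Even.XPar

set_option autoImplicit false
open Cfsg

namespace Cfsg.Agent.S5424

open CL.Even CL.Grp Matrix in

/-- Let G be the special linear group of degree n + 2 over the field with two elements, n ≥ 2, let z be a transvection, and let Q be the largest normal 2-subgroup of the centralizer C of z. Then Q is extraspecial of order 2^(2n+1) with an elementary abelian subgroup of order 2^(n+1) (plus type), Q is a large extraspecial 2-subgroup of G, and C is the split extension of Q by the special linear group of degree n over the field with two elements. -/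
theorem result (n : ℕ) (hn : 2 ≤ n) (z : Matrix.SpecialLinearGroup (Fin (n + 2)) (ZMod 2)) (hz : (z : Matrix (Fin (n + 2)) (Fin (n + 2)) (ZMod 2)) = Matrix.transvection 0 1 1) (Q : Subgroup (Matrix.SpecialLinearGroup (Fin (n + 2)) (ZMod 2))) (hQ : Q = (Cfsg.pCore 2 ↥(Subgroup.centralizer ({z} : Set (Matrix.SpecialLinearGroup (Fin (n + 2)) (ZMod 2))))).map (Subgroup.centralizer ({z} : Set (Matrix.SpecialLinearGroup (Fin (n + 2)) (ZMod 2)))).subtype) : Cfsg.IsExtraspecial 2 ↥Q ∧ Nat.card ↥Q = 2 ^ (2 * n + 1) ∧ (∃ E : Subgroup (Matrix.SpecialLinearGroup (Fin (n + 2)) (ZMod 2)), E ≤ Q ∧ Cfsg.IsElementaryAbelian 2 E ∧ Nat.card ↥E = 2 ^ (n + 1)) ∧ Cfsg.IsLargeExtraspecial Q ∧ ∃ K : Subgroup (Matrix.SpecialLinearGroup (Fin (n + 2)) (ZMod 2)), K ≤ Subgroup.centralizer ({z} : Set (Matrix.SpecialLinearGroup (Fin (n + 2)) (ZMod 2))) ∧ Q ⊓ K = ⊥ ∧ Q ⊔ K = Subgroup.centralizer ({z} : Set (Matrix.SpecialLinearGroup (Fin (n + 2)) (ZMod 2))) ∧ Nonempty (↥K ≃* Matrix.SpecialLinearGroup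 (Fin n) (ZMod 2)) := by
  obtain ⟨m, rfl⟩ : ∃ m, n = m + 1 := ⟨n - 1, by omega⟩
  have hdet : ∀ {k : ℕ} (M N : Matrix (Fin k) (Fin k) (ZMod 2)), M * N = 1 → M.det = 1 :=
    fun M N h => zmod2_eq_one_of_ne_zero (isUnit_det_of_right_inverse h).ne_zero
  have hz' : z.1 = parMat 1 0 0 1 := by
    rw [hz]
    ext i j
    refine Fin.cases ?_ (fun i => Fin.cases ?_ (fun i => ?_) i) i <;>
      refine Fin.cases ?_ (fun j => Fin.cases ?_ (fun j => ?_) j) j <;>
      simp [parMat, transvection, one_apply, single_apply, (Fin.succ_ne_zero _).symm,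
        Fin.succ_succ_ne_one, (Fin.succ_succ_ne_one _).symm]
  have hC : ∀ g ∈ Subgroup.centralizer {z}, g.1 = parMat (g 0 (Fin.succ 0))
      (fun j => g 0 j.succ.succ) (fun i => g i.succ.succ (Fin.succ 0))
      (of fun i j => g i.succ.succ j.succ.succ) := fun g hg => by
    have h1 : g.1 * transvection 0 1 1 = transvection 0 1 1 * g.1 := by
      have := mem_cent_singleton.mp hg
      rw [← hz]; exact congrArg Subtype.val this
    have h2 : ∀ i, i ≠ 0 → g i 0 = 0 := fun i hi => by
      simpa [transvection_mul_apply_of_ne _ _ _ _ hi] using congrFun₂ h1 i 1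
    have h3 : ∀ j, j ≠ 1 → g 1 j = 0 := fun j hj => by
      simpa [mul_transvection_apply_of_ne _ _ _ _ hj] using congrFun₂ h1 0 j
    have h4 : g 0 0 = g 1 1 := by simpa using congrFun₂ h1 0 1
    have h5 : g 0 0 = 1 := zmod2_eq_one_of_ne_zero fun h5 => by
      have := g.det_coe
      rw [det_eq_zero_of_column_eq_zero 0 fun i => by
        by_cases hi : i = 0
        exacts [hi ▸ h5, h2 i hi]] at this
      exact zero_ne_one this
    ext i j
    refine Fin.cases ?_ (fun i => Fin.cases ?_ (fun i => ?_) i) i <;>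
      refine Fin.cases ?_ (fun j => Fin.cases ?_ (fun j => ?_) j) j <;>
      simp [parMat, h2, h3, ← h4, h5, Fin.succ_succ_ne_one]
  have hmul := fun {g h} hg hh => parMat_inj ((hC (g * h) (mul_mem hg hh)).symm.trans
    ((congrArg₂ (· * ·) (hC g hg) (hC h hh)).trans (parMat_mul ..)))
  have hzz := parMat_inj ((hC z (mem_cent_singleton.mpr rfl)).symm.trans hz')
  let P : ParCoord z (m + 1) := ⟨fun g => g 0 (Fin.succ 0), fun g j => g 0 j.succ.succ,
    fun g i => g i.succ.succ (Fin.succ 0), fun g => of fun i j => g i.succ.succ j.succ.succ,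
    fun hg hh => (hmul hg hh).1, fun hg hh => (hmul hg hh).2.1, fun hg hh => (hmul hg hh).2.2.1,
    fun hg hh => (hmul hg hh).2.2.2, (parMat_inj ((hC 1 (one_mem _)).symm.trans parMat_one.symm)).2.2.2,
    fun {g} hg h1 h2 h3 h4 => Subtype.ext (by rw [hC g hg, h1, h2, h3, h4]; exact parMat_one),
    fun c u v A => ⟨⟨parMat c u v A, hdet _ (parMat (c + u ⬝ᵥ (A⁻¹.1 *ᵥ v)) (u ᵥ* A⁻¹.1)
        (A⁻¹.1 *ᵥ v) A⁻¹.1) (by
          rw [parMat_mul, mulVec_mulVec, Units.mul_inv, one_mulVec, add_self_zmod2, add_self_zmod2,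
            ← add_assoc c, zmod2_add_self, zero_add, zmod2_add_self, parMat_one])⟩,
      mem_cent_singleton.mpr (Subtype.ext (by
        change parMat c u v A * z.1 = z.1 * parMat c u v A
        simp [hz', parMat_mul, add_comm])), rfl, rfl, rfl, rfl⟩,
    hzz.2.1, hzz.2.2.1, hzz.2.2.2⟩
  have ho : orderOf z = 2 := orderOf_eq_prime (Subtype.ext (by
    change z.1 ^ 2 = 1
    simp [hz', pow_two, parMat_mul, zmod2_add_self, parMat_one])) fun h => by
      have := parMat_inj (hz'.symm.trans ((congrArg Subtype.val h).trans parMat_one.symm))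
      exact one_ne_zero this.1
  have h21 : (Fin.succ (Fin.succ 0) : Fin (m + 1 + 2)) ≠ 1 := Fin.succ_succ_ne_one _
  have hT' : transvection (1 : Fin (m + 1 + 2)) (Fin.succ (Fin.succ 0)) (1 : ZMod 2) *
      transvection 1 (Fin.succ (Fin.succ 0)) 1 = 1 := by
    rw [transvection_mul_transvection_same _ _ h21.symm]; exact transvection_zero _ _
  let g : SpecialLinearGroup (Fin (m + 1 + 2)) (ZMod 2) := ⟨_, hdet _ _ hT'⟩
  have hg : g * z * g⁻¹ = ⟨parMat 1 (Pi.single 0 1) 0 1, hdet _ (parMat 1 (Pi.single 0 1) 0 1) (by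
      simp [parMat_mul, zmod2_add_self, add_self_zmod2, parMat_one])⟩ := by
    refine mul_inv_eq_iff_eq_mul.mpr (Subtype.ext ?_)
    change transvection _ _ _ * z.1 = parMat _ _ _ _ * transvection _ _ _
    have h1 : parMat (1 : ZMod 2) (Pi.single (0 : Fin (m + 1)) 1) 0 1 =
        transvection 0 1 1 + single 0 (Fin.succ (Fin.succ 0)) 1 := by
      ext i j
      refine Fin.cases ?_ (fun i => Fin.cases ?_ (fun i => ?_) i) i <;>
        refine Fin.cases ?_ (fun j => Fin.cases ?_ (fun j => ?_) j) j <;>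
        simp [-Fin.succ_zero_eq_one, -Fin.succ_zero_eq_one', -Fin.succ_one_eq_two, parMat, transvection,
          one_apply, single_apply, Pi.single_apply, ← Fin.succ_zero_eq_one, (Fin.succ_ne_zero _).symm,
          eq_comm]
    rw [hz, h1]
    simp only [transvection, mul_add, add_mul, one_mul, mul_one, single_mul_single_same,
      single_mul_single_of_ne _ _ _ _ h21, single_mul_single_of_ne _ _ _ _ (Fin.succ_ne_zero _), add_zero]
    rw [add_comm (single 1 _ _), ← add_assoc, add_assoc (1 + single 0 1 1), add_self_zmod2, add_zero]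
    exact add_right_comm _ _ _
  obtain ⟨h1, h2, h3, h4, K, h5, h6, h7, ⟨e⟩⟩ := P.main (by omega) ho (g := g) (hg ▸ P.mem_Q.mpr
    ⟨mem_cent_singleton.mpr (Subtype.ext (by
      change parMat _ _ _ _ * z.1 = z.1 * parMat _ _ _ _
      simp [hz', parMat_mul])), rfl⟩) (fun h => by
      have := (parMat_inj ((congrArg Subtype.val (hg.symm.trans h)).trans hz')).2.1
      simpa using congrFun this 0) hQ
  exact ⟨h1, h2, h3, h4, K, h5, h6, h7, ⟨e.trans (MulEquiv.ofBijective SpecialLinearGroup.toGL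
    ⟨SpecialLinearGroup.toGL_injective, fun A => ⟨⟨A, hdet _ _ A.mul_inv⟩, Units.ext rfl⟩⟩).symm⟩⟩

end Cfsg.Agent.S5424
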