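import Cfsg.Statements.S5427
import Cfsg.Agent.Even.XS4

set_option autoImplicit false
open Cfsg

namespace Cfsg.Agent.S5427

/-- Let z be an involution of the finite group G whose centralizer C has generalized Fitting subgroup Q, an extraspecial 2-group of width at least 2 (order 2^(2w+1), w ≥ 2). Let K be a subgroup of G such that the subgroup U generated by the K-conjugates of z is abelian and C is generated by the C-conjugates of U. Suppose that either some K-conjugate of z other than z lies in Q, or some element u of U ∩ Q outside the subgroup generated by z has z in the largest normal 2-subgroup of its centralizer. Then G is simple and Q is a large extraspecial 2-subgroup of G. -/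
theorem result {G : Type*} [Group G] [Finite G] (z : G) (hz : orderOf z = 2) (Q : Subgroup G) (hQC : Q ≤ Subgroup.centralizer ({z} : Set G)) (hF : (Cfsg.generalizedFittingSubgroup ↥(Subgroup.centralizer ({z} : Set G))).map (Subgroup.centralizer ({z} : Set G)).subtype = Q) (hQ : Cfsg.IsExtraspecial 2 ↥Q) (w : ℕ) (hw : 2 ≤ w) (hcard : Nat.card ↥Q = 2 ^ (2 * w + 1)) (K U : Subgroup G) (hU : U = Subgroup.closure {x : G | ∃ k ∈ K, x = k * z * k⁻¹}) (hUab : IsMulCommutative ↥U) (hgen : Subgroup.closure {x : G | ∃ c ∈ Subgroup.centralizer ({z} : Set G), ∃ u ∈ U, x = c * u * c⁻¹} = Subgroup.centralizer ({z} : Set G)) (h3 : (∃ k ∈ K, k * z * k⁻¹ ∈ Q ∧ k * z * k⁻¹ ≠ z) ∨ ∃ u ∈ U ⊓ Q, u ∉ Subgroup.zpowers z ∧ (∃ hz' : z ∈ Subgroup.centralizer ({u} : Set G), (⟨z, hz'⟩ : ↥(Subgroup.centralizer ({u} : Set G))) ∈ Cfsg.pCore 2 ↥(Subgroup.centralizer ({u} : Set G)))) : IsSimpleGroup G ∧ Cfsg.IsLargeExtraspecial Q := by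
  have h := CL.Even.xe_of_fstar hz hF hQ
  have hQO : Q = Cfsg.pCoreOf 2 (Subgroup.centralizer ({z} : Set G)) :=
    le_antisymm h.le_core ((Subgroup.map_mono (CL.Loc.pCore_le_fstar 2)).trans hF.le)
  have hK : ∀ K : Subgroup G, Odd (Nat.card K) → Q ≤ Subgroup.normalizer (K : Set G) → K = ⊥ := by
    rcases h3 with ⟨k, -, h1, h2⟩ | ⟨u, hu, h1, h2, h3⟩
    · exact fun K => h.large_of_conj_mem h1 h2
    · refine fun K => h.large_of_mem_core hu.2 ?_ (by rw [h.cent_eq]; exact h1) ⟨_, h3, rfl⟩
      have : ∀ x ∈ U, x ^ 2 = 1 := fun x hx => by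
        have hx' := hx
        rw [hU] at hx'
        induction hx' using Subgroup.closure_induction with
        | mem x hx' =>
          obtain ⟨k, -, rfl⟩ := hx'
          rw [pow_two, (h.toXS.conj k).mul_self]
        | one => simp
        | mul x y h1 h2 h3 h4 =>
          rw [← hU] at h1 h2
          rw [(show Commute x y from congrArg Subtype.val
            (hUab.is_comm.comm ⟨x, h1⟩ ⟨y, h2⟩)).mul_pow, h3 h1, h4 h2, one_mul]
        | inv x h1 h2 => rw [inv_pow, h2 (hU.ge h1), inv_one]
      exact this u hu.1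
  refine ⟨?_, h.isLarge hK⟩
  have hN : (Subgroup.normalClosure ({z} : Set G)).Normal := inferInstance
  have hUM : U ≤ Subgroup.normalClosure ({z} : Set G) := by
    rw [hU, Subgroup.closure_le]
    rintro x ⟨k, -, hx⟩
    rw [hx]
    exact hN.conj_mem z (Subgroup.subset_normalClosure (Set.mem_singleton z)) k
  have hC : Subgroup.centralizer ({z} : Set G) ≤ Subgroup.normalClosure ({z} : Set G) := by
    refine hgen.ge.trans ?_
    rw [Subgroup.closure_le]
    rintro x ⟨c, -, u, hu, hx⟩
    rw [hx]
    exact hN.conj_mem u (hUM hu) c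
  have htop : Subgroup.normalClosure ({z} : Set G) = ⊤ := by
    rw [← h.sup_cent_eq_top (h.le.trans hC), sup_eq_left.mpr hC]
  rcases h.large_structure hK htop.symm with h1 | h1 | h1
  · exact absurd (Subgroup.le_centralizer_iff_isMulCommutative.mp (le_top.trans
      ((Subgroup.le_centralizer_iff_isMulCommutative.mpr h1.1).trans (CL.Even.cent_mono le_top))))
      (CL.Grp.extra_not_isMulCommutative hQ)
  · have := h1.2.1
    exact Subgroup.topEquiv.symm.isSimpleGroup
  · obtain ⟨-, _, _, -, -, -, -, -, -, _, -, -, -, h1⟩ := h1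
    exact absurd hQO h1

end Cfsg.Agent.S5427
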