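import Cfsg.Statements.S5428
import Cfsg.Agent.Even.XS3
import Cfsg.Agent.Grp.Coprime2

set_option autoImplicit false
open Cfsg

open scoped commutatorElement

namespace Cfsg.Agent.S5428

open Subgroup CL.Grp CL.Even


/-- Let z be an involution of the finite group G whose centralizer C has generalized Fitting subgroup Q extraspecial (as a 2-group), let A be a subgroup of C of odd order, and let R be the centralizer of A in Q; suppose R has order at least 32, the largest normal subgroup of odd order of the centralizer of the subgroup generated by A and R lies in A, the order of that centralizer is not divisible by 4, and g is an element of G with g z g⁻¹ in R but outside the centre Z of Q. Let M be the subgroup generated by A and the centralizer of A (A is normal in it). Then: the centralizer in M of the subgroup generated by R and A, joined with A, equals the subgroup generated by A and Z; the image of R in M/A is a large extraspecial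 2-subgroup of M/A; and g z g⁻¹ is conjugate to z inside the subgroup generated by R and the centralizer of A in g Q g⁻¹. -/
theorem result {G : Type*} [Group G] [Finite G] (z : G) (hz : orderOf z = 2) (Q : Subgroup G) (hQC : Q ≤ Subgroup.centralizer ({z} : Set G)) (hF : (Cfsg.generalizedFittingSubgroup ↥(Subgroup.centralizer ({z} : Set G))).map (Subgroup.centralizer ({z} : Set G)).subtype = Q) (hQ : Cfsg.IsExtraspecial 2 ↥Q) (A : Subgroup G) (hA : A ≤ Subgroup.centralizer ({z} : Set G)) (hAodd : Odd (Nat.card ↥A)) (R : Subgroup G) (hR : R = Q ⊓ Subgroup.centralizer (A : Set G)) (hR32 : 32 ≤ Nat.card ↥R) (hO : (Cfsg.oddCore ↥(Subgroup.centralizer ((A ⊔ R : Subgroup G) : Set G))).map (Subgroup.centralizer ((A ⊔ R : Subgroup G) : Set G)).subtype ≤ A) (h4 : ¬ 4 ∣ Nat.card ↥(Subgroup.centralizer ((A ⊔ R : Subgroup G) : Set G))) (g : G) (hgR : g * z * g⁻¹ ∈ R) (hgZ : g * z * g⁻¹ ∉ ((Subgroup.center ↥Q).map Q.subtype)) (M : Subgroup G) (hM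 : M = Subgroup.centralizer (A : Set G) ⊔ A) [hn : (A.subgroupOf M).Normal] : (M ⊓ Subgroup.centralizer ((R ⊔ A : Subgroup G) : Set G)) ⊔ A = A ⊔ ((Subgroup.center ↥Q).map Q.subtype) ∧ Cfsg.IsLargeExtraspecial ((R.subgroupOf M).map (QuotientGroup.mk' (A.subgroupOf M))) ∧ ∃ x ∈ R ⊔ ((Q).map (MulAut.conj g).toMonoidHom ⊓ Subgroup.centralizer (A : Set G)), x * (g * z * g⁻¹) * x⁻¹ = z := by
  have h := xe_of_fstar hz hF hQ
  have h' := h.conj g
  rw [h.center_map] at hgZ ⊢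
  set t := g * z * g⁻¹ with ht
  have hRQ : R ≤ Q := hR ▸ inf_le_left
  have hRA : R ≤ 𝒞(A) := hR ▸ inf_le_right
  have htz : t ≠ z := fun h1 => hgZ (h1 ▸ mem_zpowers z)
  have hzA : z ∈ 𝒞(A) := fun a ha => mem_cent_singleton.mp (hA ha)
  have hzR : z ∈ R := hR ▸ ⟨h.mem, hzA⟩
  obtain ⟨hRe, hRz⟩ := (hR ▸ h.coprime_decomp (hA.trans h.norm) hAodd).2.2.2.resolve_left
    fun h1 => hgZ (h1 ▸ hgR)
  have hzP := h.mem_cj_of_conj_mem (hRQ hgR)
  obtain ⟨-, hRt⟩ := (h'.coprime_decomp ((le_cent_singleton (hRA hgR)).trans h'.norm)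
    hAodd).2.2.2.resolve_left fun h1 => (h'.mem_Z.mp (h1.le ⟨hzP, hzA⟩)).elim h.ne_one htz.symm
  obtain ⟨x, hx, hxz, hxt⟩ : ∃ x ∈ R ⊔ cj g Q ⊓ 𝒞(A), x * z * x⁻¹ = t ∧ x * t * x⁻¹ = z := by
    obtain ⟨a, ha, hat⟩ : ∃ a ∈ R, a * t ≠ t * a := by
      by_contra! h1
      exact hgZ (hRz.le ⟨hgR, h1⟩)
    obtain ⟨b, hb, hbz⟩ : ∃ b ∈ cj g Q ⊓ 𝒞(A), b * z ≠ z * b := by
      by_contra! h1
      exact (h'.mem_Z.mp (hRt.le ⟨⟨hzP, hzA⟩, h1⟩)).elim h.ne_one htz.symm
    refine ⟨a * b * a, mul_mem (mul_mem (mem_sup_left ha) (mem_sup_right hb)) (mem_sup_left ha),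
      XS.swap_of_conj h.mul_self h'.mul_self (h.comm (hRQ hgR)).symm (h.comm (hRQ ha)) ?_
        (h'.comm hb.1) ?_⟩
    · rw [← (h.mem_Z.mp (h.comm_mem (hRQ ha) (hRQ hgR))).resolve_left
        (mt commutatorElement_eq_one_iff_mul_comm.mp hat), commutatorElement_def, inv_mul_cancel_right]
    · rw [← (h'.mem_Z.mp (h'.comm_mem hb.1 hzP)).resolve_left
        (mt commutatorElement_eq_one_iff_mul_comm.mp hbz), commutatorElement_def, inv_mul_cancel_right]
  -- the centralizer of `A R`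
  have hD : 𝒞(A ⊔ R) ≤ A ⊔ zpowers z := by
    have hzD : z ∈ 𝒞(A ⊔ R) := by rw [cent_sup]; exact ⟨hzA, (hRz.ge (mem_zpowers z)).2⟩
    have hd : 2 ∣ Nat.card 𝒞(A ⊔ R) := hz ▸ Subgroup.orderOf_dvd_natCard _ hzD
    have hS : IsSylowIn 2 (zpowers z) 𝒞(A ⊔ R) := ⟨zpowers_le.mpr hzD, h.isPGroup.to_le h.Z_le,
      fun ⟨k, hk⟩ => h4 ⟨k, by
        rw [card_eq_relIndex_mul_card (zpowers_le.mpr hzD), hk, Nat.card_zpowers, hz]; ring⟩⟩
    have hcyc : IsCyclic (hS.toSylow : Subgroup 𝒞(A ⊔ R)) :=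
      isCyclic_of_surjective _ (subgroupOfEquivOfLe hS.le).symm.surjective
    have hc := hcyc.isComplement' ((Nat.minFac_eq_two_iff _).mpr hd)
    intro d hd
    obtain ⟨⟨k, s⟩, e⟩ := (hc.existsUnique ⟨d, hd⟩).exists
    rw [← show (k.1 : G) * s.1 = d from congrArg Subtype.val e]
    exact mul_mem_sup (hO ⟨k, le_pPrimeCore_of_not_dvd (MonoidHom.not_dvd_card_ker_transferSylow _ _)
      k.2, rfl⟩) s.2
  have hRM : R ≤ M := hM ▸ hRA.trans le_sup_left
  have hAM : A ≤ M := hM ▸ le_sup_right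
  have hdec : ∀ m ∈ M, ∃ c ∈ 𝒞(A), ∃ a ∈ A, c * a = m := fun m hm =>
    (mem_sup_nr (cent_le_norm A)).mp (hM ▸ hm)
  refine ⟨le_antisymm (sup_le (inf_le_right.trans (sup_comm R A ▸ hD)) le_sup_left)
    (sup_le le_sup_right (le_sup_of_le_left (zpowers_le.mpr ⟨hRM hzR, ?_⟩))), ?_, x, hx, hxt⟩
  · rw [cent_sup]; exact ⟨(hRz.ge (mem_zpowers z)).2, hzA⟩
  set π := QuotientGroup.mk' (A.subgroupOf M)
  have hcop : ∀ U : Subgroup G, U ≤ R →
      (Nat.card (U.subgroupOf M)).Coprime (Nat.card (A.subgroupOf M)) := fun U hU => by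
    rw [card_subgroupOf_of_le (hU.trans hRM), card_subgroupOf_of_le hAM]
    exact (coprime_of_odd_of_isPGroup_two hAodd (h.isPGroup.to_le (hU.trans hRQ))).symm
  have hsol : ∀ U : Subgroup G, U ≤ R → Group.IsSolvable (U.subgroupOf M) := fun U hU =>
    have : Group.IsNilpotent (U.subgroupOf M) :=
      ((h.isPGroup.to_le (hU.trans hRQ)).comap_subtype (K := M)).isNilpotent
    inferInstance
  have hinj : ∀ y : M, (y : G) ∈ R → π y = 1 → y = 1 := fun y hy h1 => Subtype.ext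
    (disjoint_def.mp (disjoint_of_odd_of_isPGroup_two hAodd (h.isPGroup.to_le hRQ))
      ((QuotientGroup.eq_one_iff y).mp h1) hy)
  have hE : XE (π ⟨z, hRM hzR⟩) ((R.subgroupOf M).map π) := by
    refine xe_of (extra_of_mulEquiv hRe ((subgroupOfEquivOfLe hRM).symm.trans
      (MulEquiv.ofBijective (π.subgroupMap _) ⟨(injective_iff_map_eq_one _).mpr fun y hy =>
        Subtype.ext (hinj y y.2 (congrArg Subtype.val hy)), π.subgroupMap_surjective _⟩)))
      (orderOf_eq_prime (by rw [← map_pow, show (⟨z, hRM hzR⟩ : M) ^ 2 = 1 from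
        Subtype.ext ((pow_two z).trans h.mul_self), map_one])
        fun h1 => h.ne_one (congrArg Subtype.val (hinj _ hzR h1))) ?_ ?_ ?_
    · rintro _ ⟨y, hy, rfl⟩
      rw [← map_mul, ← map_mul]
      exact congrArg π (Subtype.ext (h.comm (hRQ hy)))
    · rw [centralizer_map_mk'_eq (hcop R le_rfl) (Or.inl (hsol R le_rfl))]
      rintro _ ⟨m, hm, rfl⟩
      obtain ⟨c, hc, a, ha, e⟩ := hdec m m.2
      have hc' : c ∈ 𝒞(A ⊔ R) := by
        rw [cent_sup]
        refine ⟨hc, (mul_mem_cancel_right (le_centralizer_iff.mp hRA ha)).mp fun y hy => ?_⟩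
        rw [e]; exact congrArg Subtype.val (hm ⟨y, hRM hy⟩ hy)
      obtain ⟨a', ha', s, hs, e'⟩ := (mem_sup_nl (N := A) ((zpowers_le.mpr hzA).trans
        (cent_le_norm A))).mp (mul_mem (hD hc') (mem_sup_left ha))
      refine ⟨⟨s, hRM (zpowers_le.mpr hzR hs)⟩, zpowers_le.mpr hzR hs, ?_⟩
      rw [show m = ⟨a', hAM ha'⟩ * ⟨s, hRM (zpowers_le.mpr hzR hs)⟩ from
        Subtype.ext (e.symm.trans e'.symm), map_mul π, show π ⟨a', hAM ha'⟩ = 1 from
        (QuotientGroup.eq_one_iff _).mpr ha', one_mul]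
    · have h1 : zpowers (π ⟨z, hRM hzR⟩) = ((zpowers z).subgroupOf M).map π := by
        rw [← MonoidHom.map_zpowers]; congr 1
        exact Subgroup.ext fun y => ⟨fun ⟨k, hk⟩ => ⟨k, congrArg Subtype.val hk⟩,
          fun ⟨k, hk⟩ => ⟨k, Subtype.ext hk⟩⟩
      rw [← cent_zpowers, h1, centralizer_map_mk'_eq (hcop _ (zpowers_le.mpr hzR))
        (Or.inl (hsol _ (zpowers_le.mpr hzR)))]
      refine (map_mono fun m hm => ?_).trans (le_normalizer_map π)
      have h2 : (m : G) ∈ 𝒩(R) := by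
        rw [hR]
        refine le_norm_inf (L := centralizer ({z} : Set G) ⊓ M) (inf_le_left.trans h.norm)
          (inf_le_right.trans (le_norm_cent (hM ▸ sup_le (cent_le_norm A) le_normalizer))) ⟨?_, m.2⟩
        exact mem_cent_singleton.mpr (congrArg Subtype.val (hm ⟨z, hRM hzR⟩ (mem_zpowers z))).symm
      exact mem_normalizer_iff.mpr fun y => mem_normalizer_iff.mp h2 y
  have hxM : x ∈ M := sup_le hRM (hM ▸ inf_le_right.trans le_sup_left) hx
  have h5 : π ⟨x, hxM⟩ * π ⟨z, hRM hzR⟩ * (π ⟨x, hxM⟩)⁻¹ = π ⟨t, hRM hgR⟩ := by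
    rw [← map_inv, ← map_mul, ← map_mul]; exact congrArg π (Subtype.ext hxz)
  refine hE.isLarge fun K => hE.large_of_conj_mem (g := π ⟨x, hxM⟩) (h5 ▸ ⟨_, hgR, rfl⟩) fun h6 => ?_
  rw [h5, ← mul_inv_eq_one, ← map_inv, ← map_mul] at h6
  exact htz (mul_inv_eq_one.mp (congrArg Subtype.val (hinj _ (R.mul_mem hgR (R.inv_mem hzR)) h6)))

end Cfsg.Agent.S5428
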