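import Cfsg.Statements.S5429
import Cfsg.Agent.Even.XS3

set_option autoImplicit false
open Cfsg

open scoped commutatorElement

namespace Cfsg.Agent.S5429

open Subgroup CL.Grp CL.Even


/-- Let z be an involution of the finite group G with centralizer C whose generalized Fitting subgroup Q is extraspecial of width at least 3 (order 2^(2w+1), w ≥ 3); let g be an element of G with g z g⁻¹ in Q but outside the centre Z of Q, and t an involution lying in both Q and g Q g⁻¹ that is not conjugate to z; write P for the centralizer of t in Q and suppose that the elements of C acting trivially by conjugation on P modulo the subgroup generated by t and z are exactly the elements of Q. Then the image of P in the centralizer of t modulo the subgroup generated by t is a large extraspecial 2-subgroup there, and g z g⁻¹ is conjugate to z inside the subgroup generated by P and the centralizer of t in g Q g⁻¹. -/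
theorem result {G : Type*} [Group G] [Finite G] (z : G) (hz : orderOf z = 2) (Q : Subgroup G) (hQC : Q ≤ Subgroup.centralizer ({z} : Set G)) (hF : (Cfsg.generalizedFittingSubgroup ↥(Subgroup.centralizer ({z} : Set G))).map (Subgroup.centralizer ({z} : Set G)).subtype = Q) (hQ : Cfsg.IsExtraspecial 2 ↥Q) (w : ℕ) (hw : 3 ≤ w) (hcard : Nat.card ↥Q = 2 ^ (2 * w + 1)) (g : G) (hgQ : g * z * g⁻¹ ∈ Q) (hgZ : g * z * g⁻¹ ∉ ((Subgroup.center ↥Q).map Q.subtype)) (t : G) (ht : orderOf t = 2) (htQ : t ∈ Q ⊓ (Q).map (MulAut.conj g).toMonoidHom) (htz : ¬ IsConj z t) (P : Subgroup G) (hP : P = Q ⊓ Subgroup.centralizer ({t} : Set G)) (hCP : ∀ c ∈ Subgroup.centralizer ({z} : Set G), (∀ x ∈ P, ∃ y ∈ Subgroup.closure ({t, z} : Set G), c * x * c⁻¹ = x * y) ↔ c ∈ Q) [hn : ((Subgroup.zpowers t).subgroupOf (Subgroup.centralizer ({t} : Set G))).Normal] : Cfsg.IsLargeExtraspecial ((P.subgroupOf (Subgroup.centralizer ({t} : Set G))).map (QuotientGroup.mk'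 ((Subgroup.zpowers t).subgroupOf (Subgroup.centralizer ({t} : Set G))))) ∧ ∃ x ∈ P ⊔ ((Q).map (MulAut.conj g).toMonoidHom ⊓ Subgroup.centralizer ({t} : Set G)), x * (g * z * g⁻¹) * x⁻¹ = z := by
  have h := xe_of_fstar hz hF hQ
  have h' := h.conj g
  rw [h.center_map] at hgZ
  set s := g * z * g⁻¹ with hs
  have ht2 := mul_self_of_orderOf_two ht
  have ht1 : t ≠ 1 := fun h1 => by simpa [h1] using ht
  have hsz : s ≠ z := fun h1 => hgZ (h1 ▸ mem_zpowers z)
  have hzs : IsConj z s := isConj_iff.mpr ⟨g, rfl⟩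
  have hzP := h.mem_cj_of_conj_mem hgQ
  -- general facts on `C_Q(t)`
  have key : ∀ {z : G} {Q : Subgroup G}, XE z Q → t ∈ Q → ¬ IsConj z t → ¬ IsConj z (z * t) ∧
      ∀ s ∈ Q, IsConj z s → s ≠ z → ∃ a ∈ Q ⊓ centralizer ({t} : Set G), a * s * a⁻¹ = z * s := by
    intro z Q h htQ htz
    obtain ⟨a, ha, hat⟩ := h.exists_conj_eq_mul htQ (h.not_mem_cent htQ (by rw [pow_two, ht2]) ht1
      fun h1 => htz (h1 ▸ IsConj.refl _))
    have h1 : ¬ IsConj z (z * t) := fun h1 => htz (h1.trans (isConj_iff.mpr ⟨a, hat⟩).symm)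
    refine ⟨h1, fun s hs hzs hsz => ?_⟩
    obtain ⟨b, hb, hbs⟩ : ∃ b ∈ Q ⊓ centralizer ({t} : Set G), b * s ≠ s * b := by
      by_contra! h2
      rcases (mem_closure_pair_two h.mul_self ht2 (h.comm htQ).symm).mp
        (h.cent_inf_cent_le htQ (by rw [pow_two, ht2]) h2) with rfl | rfl | rfl | rfl
      exacts [h.ne_one (isConj_one_left.mp hzs), hsz rfl, htz hzs, h1 hzs]
    refine ⟨b, hb, ?_⟩
    rw [← (h.mem_Z.mp (h.comm_mem hb.1 hs)).resolve_left
      (mt commutatorElement_eq_one_iff_mul_comm.mp hbs), commutatorElement_def, inv_mul_cancel_right]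
  obtain ⟨hzt, h1⟩ := key h htQ.1 htz
  obtain ⟨a, ha, has⟩ := h1 s hgQ hzs hsz
  obtain ⟨b, hb, hbz⟩ := (key h' htQ.2 fun h2 => htz (hzs.trans h2)).2 z hzP hzs.symm hsz.symm
  obtain ⟨hxz, hxs⟩ := XS.swap_of_conj h.mul_self h'.mul_self (h.comm hgQ).symm (h.comm ha.1) has
    (h'.comm hb.1) hbz
  rw [← hP] at ha
  have hx : a * b * a ∈ P ⊔ cj g Q ⊓ centralizer ({t} : Set G) :=
    mul_mem (mul_mem (mem_sup_left ha) (mem_sup_right hb)) (mem_sup_left ha)
  refine ⟨?_, _, hx, hxs⟩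
  set C := centralizer ({t} : Set G) with hC
  set π := QuotientGroup.mk' ((zpowers t).subgroupOf C)
  have hπ : ∀ y : C, π y = 1 ↔ (y : G) = 1 ∨ y = t := fun y =>
    (QuotientGroup.eq_one_iff y).trans (mem_zpowers_two ht)
  have hPQ : P ≤ Q := hP ▸ inf_le_left
  have hPC : P ≤ C := hP ▸ inf_le_right
  have hzP' : z ∈ P := hP ▸ ⟨h.mem, mem_cent_singleton.mpr (h.comm htQ.1).symm⟩
  have hsP : s ∈ P := hP ▸ ⟨hgQ, mem_cent_singleton.mpr (h'.comm htQ.2).symm⟩
  have htz' : t ≠ z := fun h2 => htz (h2 ▸ IsConj.refl _)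
  have hz1 : π ⟨z, hPC hzP'⟩ ≠ 1 := fun h2 => ((hπ _).mp h2).elim h.ne_one htz'.symm
  have hcz : ∀ c : C, π c * π ⟨z, hPC hzP'⟩ = π ⟨z, hPC hzP'⟩ * π c →
      (c : G) ∈ centralizer ({z} : Set G) := fun c hc => by
    rw [← commutatorElement_eq_one_iff_mul_comm, ← map_commutatorElement, hπ] at hc
    refine mem_cent_singleton.mpr (commutatorElement_eq_one_iff_mul_comm.mp
      (hc.resolve_right fun h2 => hzt (isConj_iff.mpr ⟨c, ?_⟩)))
    rw [← h.comm htQ.1, ← h2]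
    exact (inv_mul_cancel_right _ z).symm
  have hcent : 𝒞((P.subgroupOf C).map π) ≤ zpowers (π ⟨z, hPC hzP'⟩) := by
    intro c hc
    obtain ⟨c, rfl⟩ := QuotientGroup.mk'_surjective _ c
    have h2 : ∀ y ∈ P, ⁅(c : G), y⁆ = 1 ∨ ⁅(c : G), y⁆ = t := fun y hy =>
      (hπ ⁅c, ⟨y, hPC hy⟩⁆).mp (by
        rw [map_commutatorElement, commutatorElement_eq_one_iff_mul_comm]
        exact (hc _ ⟨⟨y, hPC hy⟩, hy, rfl⟩).symm)
    have h3 : (c : G) ∈ Q := (hCP c (hcz c (hc _ ⟨⟨z, hPC hzP'⟩, hzP', rfl⟩).symm)).mp fun y hy => by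
      rcases h2 y hy with h3 | h3
      · exact ⟨1, one_mem _, by
          rw [commutatorElement_eq_one_iff_mul_comm.mp h3, mul_inv_cancel_right, mul_one]⟩
      · exact ⟨t, subset_closure (by simp), by
          rw [mem_cent_singleton.mp (hPC hy), ← h3, commutatorElement_def, inv_mul_cancel_right]⟩
    have h4 : (c : G) ∈ 𝒞(P) := fun y hy => (commutatorElement_eq_one_iff_mul_comm.mp
      ((h2 y hy).resolve_right fun h4 =>
        (h.mem_Z.mp (h4 ▸ h.comm_mem h3 (hPQ hy))).elim ht1 htz')).symm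
    rcases (mem_closure_pair_two h.mul_self ht2 (h.comm htQ.1).symm).mp
      (h.cent_inf_cent_le htQ.1 (by rw [pow_two, ht2]) (hP ▸ h4)) with h5 | h5 | h5 | h5
    · rw [(hπ c).mpr (Or.inl h5)]; exact one_mem _
    · rw [show c = ⟨z, hPC hzP'⟩ from Subtype.ext h5]; exact mem_zpowers _
    · rw [(hπ c).mpr (Or.inr h5)]; exact one_mem _
    · rw [show c = ⟨z, hPC hzP'⟩ * ⟨t, mem_cent_singleton.mpr rfl⟩ from Subtype.ext h5, map_mul,
        (hπ ⟨t, _⟩).mpr (Or.inr rfl), mul_one]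
      exact mem_zpowers _
  have hz2 : orderOf (π ⟨z, hPC hzP'⟩) = 2 := orderOf_eq_prime (by
    rw [← map_pow, hπ]; exact Or.inl ((pow_two z).trans h.mul_self)) hz1
  have hzc : π ⟨z, hPC hzP'⟩ ∈ 𝒞((P.subgroupOf C).map π) := by
    rintro _ ⟨y, hy, rfl⟩
    rw [← map_mul, ← map_mul]
    exact congrArg π (Subtype.ext (h.comm (hPQ hy)))
  have hzm : π ⟨z, hPC hzP'⟩ ∈ (P.subgroupOf C).map π := ⟨_, hzP', rfl⟩
  have h5 : π ⟨_, sup_le hPC inf_le_right hx⟩ * π ⟨z, hPC hzP'⟩ *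
      (π ⟨_, sup_le hPC inf_le_right hx⟩)⁻¹ = π ⟨s, hPC hsP⟩ := by
    rw [← map_inv, ← map_mul, ← map_mul]; exact congrArg π (Subtype.ext hxz)
  have h6 : π ⟨s, hPC hsP⟩ ≠ π ⟨z, hPC hzP'⟩ := fun h6 => by
    rw [← mul_inv_eq_one, ← map_inv, ← map_mul, hπ] at h6
    rcases h6 with h6 | h6
    · exact hsz (mul_inv_eq_one.mp h6)
    · exact hzt (by rw [← h.comm htQ.1, ← h6]; simpa using hzs)
  have hE : XE (π ⟨z, hPC hzP'⟩) ((P.subgroupOf C).map π) := by
    refine xe_of (isExtraspecial_subgroup_of ((h.isPGroup.to_le hPQ).comap_subtype.map π) ?_ ?_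
      fun h7 => ?_) hz2 hzc (hcent.trans (zpowers_le.mpr hzm)) fun c hc => ?_
    · rw [le_antisymm (inf_le_right.trans hcent) (zpowers_le.mpr ⟨hzm, hzc⟩), Nat.card_zpowers, hz2]
    · refine commutator_le.mpr ?_
      rintro _ ⟨x, hx, rfl⟩ _ ⟨y, hy, rfl⟩
      rw [← map_commutatorElement]
      rcases h.mem_Z.mp (h.comm_mem (hPQ hx) (hPQ hy)) with h7 | h7
      · rw [(hπ _).mpr (Or.inl h7)]; exact one_mem _
      · rw [show ⁅x, y⁆ = ⟨z, hPC hzP'⟩ from Subtype.ext h7]; exact hzc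
    · rcases (mem_zpowers_two hz2).mp (hcent (le_centralizer_iff_isMulCommutative.mpr h7
        ⟨⟨s, hPC hsP⟩, hsP, rfl⟩)) with h8 | h8
      · exact ((hπ _).mp h8).elim h'.ne_one fun h9 => htz (h9 ▸ hzs)
      · exact h6 h8
    · obtain ⟨c, rfl⟩ := QuotientGroup.mk'_surjective _ c
      have h8 : (c : G) ∈ 𝒩(P) := by
        rw [hP]
        exact le_norm_inf (L := centralizer ({z} : Set G) ⊓ C) (inf_le_left.trans h.norm)
          (le_norm_of_le inf_le_right) ⟨hcz c (mem_cent_singleton.mp hc), c.2⟩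
      exact le_normalizer_map π ⟨c, mem_normalizer_iff.mpr fun y => mem_normalizer_iff.mp h8 y, rfl⟩
  exact hE.isLarge fun K => hE.large_of_conj_mem (h5 ▸ ⟨_, hsP, rfl⟩) (h5 ▸ h6)

end Cfsg.Agent.S5429
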