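import Cfsg.Statements.S5431
import Cfsg.Agent.Even.XS3

set_option autoImplicit false
open Cfsg

open scoped commutatorElement

namespace Cfsg.Agent.S5431

/-- Let Q be a large extraspecial 2-subgroup of the finite group G (extraspecial; centralizer equal to its centre; normal in the centralizer of its centre; normalizing no non-trivial subgroup of odd order) with centre generated by z, an involution, of width w ≥ 2 (order 2^(2w+1)); let g be an element outside the centralizer H of z with g z g⁻¹ in Q; write V for the subgroup generated by z and g z g⁻¹, X for the subgroup generated by Q and g Q g⁻¹, R for the subgroup generated by the centralizer of z in g Q g⁻¹ and the centralizer of g z g⁻¹ in Q, and E for the intersection of Q and g Q g⁻¹. Then V is the centre of R, E lies in the second centre of R, R is nilpotent of class at most 3, E and R/E are elementary abelian, R/E is the direct product of the images of the centralizer of g z g⁻¹ in Q and of the centralizer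 of z in g Q g⁻¹ (R is their product and they meet in E), and the commutator subgroup of X and E lies in V. -/
theorem result {G : Type*} [Group G] [Finite G] (Q : Subgroup G) (hQ : Cfsg.IsLargeExtraspecial Q) (z : G) (hz : ((Subgroup.center ↥Q).map Q.subtype) = Subgroup.zpowers z) (hz2 : orderOf z = 2) (w : ℕ) (hw : 2 ≤ w) (hcard : Nat.card ↥Q = 2 ^ (2 * w + 1)) (g : G) (hgH : g ∉ Subgroup.centralizer ({z} : Set G)) (hgQ : g * z * g⁻¹ ∈ Q) (V X R E : Subgroup G) (hV : V = Subgroup.closure ({z, g * z * g⁻¹} : Set G)) (hX : X = Q ⊔ (Q).map (MulAut.conj g).toMonoidHom) (hR : R = ((Q).map (MulAut.conj g).toMonoidHom ⊓ Subgroup.centralizer ({z} : Set G)) ⊔ (Q ⊓ Subgroup.centralizer ({g * z * g⁻¹} : Set G))) (hE : E = Q ⊓ (Q).map (MulAut.conj g).toMonoidHom) : (Subgroup.center ↥R).map R.subtype = V ∧ E ≤ (Subgroup.upperCentralSeries ↥R 2).map R.subtype ∧ Subgroup.upperCentralSeries ↥R 3 = ⊤ ∧ Cfsg.IsElementaryAbelian 2 E ∧ (∀ x ∈ R, ∀ y ∈ R, x * y * x⁻¹ * y⁻¹ ∈ E ∧ x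 ^ 2 ∈ E) ∧ ((Q).map (MulAut.conj g).toMonoidHom ⊓ Subgroup.centralizer ({z} : Set G)) ⊓ (Q ⊓ Subgroup.centralizer ({g * z * g⁻¹} : Set G)) = E ∧ ⁅X, E⁆ ≤ V := by
  have h := CL.Even.xe_of_isLarge hQ hz
  have h' := h.conj g
  have hne : g * z * g⁻¹ ≠ z := fun h2 =>
    hgH (CL.Even.mem_cent_singleton.mpr (mul_inv_eq_iff_eq_mul.mp h2))
  obtain ⟨h1, -, -, h4, -, h5⟩ := h.sup_conj_structure hgQ hne hV hX hR
  have hzP := h.mem_cj_of_conj_mem hgQ
  set t := g * z * g⁻¹
  set P := Q.map (MulAut.conj g).toMonoidHom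
  have hzV : Subgroup.zpowers z ≤ V := Subgroup.zpowers_le.mpr (hV ▸ Subgroup.subset_closure (by simp))
  have htV : Subgroup.zpowers t ≤ V := Subgroup.zpowers_le.mpr (hV ▸ Subgroup.subset_closure (by simp))
  have hVE : V ≤ E := hV ▸ hE ▸ (Subgroup.closure_le _).mpr (by
    rintro y (rfl | rfl)
    exacts [⟨h.mem, hzP⟩, ⟨hgQ, h'.mem⟩])
  have hE1 : (P ⊓ Subgroup.centralizer ({z} : Set G)) ⊓ (Q ⊓ Subgroup.centralizer ({t} : Set G)) = E :=
    hE ▸ le_antisymm (le_inf (inf_le_right.trans inf_le_left) (inf_le_left.trans inf_le_left))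
      (le_inf (le_inf inf_le_right (inf_le_left.trans h.le)) (le_inf inf_le_left (inf_le_right.trans h'.le)))
  have hER : E ≤ R := hR ▸ hE1 ▸ inf_le_left.trans le_sup_left
  have hXV : X ≤ Subgroup.normalizer (V : Set G) := h4 ▸ le_sup_left
  have hXE : ⁅X, E⁆ ≤ V := hX ▸ CL.Even.commutator_sup_le' (le_sup_left.trans (hX ▸ hXV))
    (le_sup_right.trans (hX ▸ hXV))
    (Subgroup.commutator_le.mpr fun x hx y hy => hzV (h.comm_mem hx (hE ▸ hy).1))
    (Subgroup.commutator_le.mpr fun x hx y hy => htV (h'.comm_mem hx (hE ▸ hy).2))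
  have hRX : R ≤ X := h1 ▸ inf_le_left
  have hRC : R ≤ Subgroup.centralizer (V : Set G) := h1 ▸ inf_le_right
  have hZR : (Subgroup.center ↥R).map R.subtype = V := by
    rw [CL.Grp.map_subtype_center_eq]
    refine le_antisymm (inf_le_right.trans ((CL.Even.cent_mono (hR ▸ le_sup_right)).trans
      (hV ▸ h.cent_inf_cent_le hgQ (by rw [pow_two, h'.mul_self]))))
      (le_inf (hVE.trans hER) (Subgroup.le_centralizer_iff.mp hRC))
  have hZ2 : ∀ x : R, (x : G) ∈ E → x ∈ Subgroup.upperCentralSeries R 2 := fun x hx => by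
    rw [Subgroup.mem_upperCentralSeries_succ_iff, Subgroup.upperCentralSeries_one]
    intro y
    have : (y : G) * x * (y : G)⁻¹ * (x : G)⁻¹ ∈ V :=
      hXE (Subgroup.commutator_mem_commutator (hRX y.2) hx)
    obtain ⟨w, hw, e⟩ := hZR.ge (V.inv_mem this)
    have e' : ⁅x, y⁆ = w := Subtype.ext (Eq.trans (by simp [commutatorElement_def, mul_assoc]) e.symm)
    exact e' ▸ hw
  have hone : ∀ x ∈ Subgroup.zpowers z, x ∈ Subgroup.zpowers t → x = 1 := fun x hx hx' => by
    rcases h.mem_Z.mp hx with h2 | rfl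
    · exact h2
    · exact (h'.mem_Z.mp hx').resolve_right hne.symm
  have hEn : R ≤ Subgroup.normalizer (E : Set G) := hRC.trans (hE ▸ CL.Even.le_norm_inf
    (h5.trans inf_le_left) (h5.trans inf_le_right))
  have hPQ : ⁅P ⊓ Subgroup.centralizer ({z} : Set G), Q ⊓ Subgroup.centralizer ({t} : Set G)⁆ ≤ E :=
    hE ▸ le_inf ((Subgroup.commutator_mono le_rfl inf_le_left).trans
      (CL.Even.commutator_le_of_le_norm' (inf_le_right.trans h.norm)))
      ((Subgroup.commutator_mono inf_le_left le_rfl).trans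
      (CL.Even.commutator_le_of_le_norm (inf_le_right.trans h'.norm)))
  have hRR : ⁅R, R⁆ ≤ E := by
    have hl : P ⊓ Subgroup.centralizer ({z} : Set G) ≤ Subgroup.normalizer (E : Set G) :=
      (hR ▸ le_sup_left : _ ≤ R).trans hEn
    have hr : Q ⊓ Subgroup.centralizer ({t} : Set G) ≤ Subgroup.normalizer (E : Set G) :=
      (hR ▸ le_sup_right : _ ≤ R).trans hEn
    rw [hR]
    refine CL.Even.commutator_sup_le' hl hr (CL.Even.commutator_sup_le hl hr ?_ hPQ)
      (CL.Even.commutator_sup_le hl hr (by rw [Subgroup.commutator_comm]; exact hPQ) ?_)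
    · exact Subgroup.commutator_le.mpr fun x hx y hy => hVE (htV (h'.comm_mem hx.1 hy.1))
    · exact Subgroup.commutator_le.mpr fun x hx y hy => hVE (hzV (h.comm_mem hx.1 hy.1))
  refine ⟨hZR, fun x hx => ⟨⟨x, hER hx⟩, hZ2 _ hx, rfl⟩, eq_top_iff.mpr fun x _ => ?_,
    ⟨⟨⟨fun x y => Subtype.ext (commutatorElement_eq_one_iff_mul_comm.mp (hone _
      (h.comm_mem (hE.le x.2).1 (hE.le y.2).1) (h'.comm_mem (hE.le x.2).2 (hE.le y.2).2)))⟩⟩,
      fun x hx => hone _ (h.sq x (hE ▸ hx).1) (h'.sq x (hE ▸ hx).2)⟩,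
    fun x hx y hy => ⟨hRR (Subgroup.commutator_mem_commutator hx hy), ?_⟩, hE1, hXE⟩
  · exact Subgroup.mem_upperCentralSeries_succ_iff.mpr fun y =>
      hZ2 _ (hRR (Subgroup.commutator_mem_commutator x.2 y.2))
  · obtain ⟨a, ha, b, hb, rfl⟩ := (CL.Even.mem_sup_nr (H := P ⊓ Subgroup.centralizer ({z} : Set G))
      (N := Q ⊓ Subgroup.centralizer ({t} : Set G)) (CL.Even.le_norm_inf (inf_le_right.trans h.norm)
        (CL.Even.le_norm_of_le (inf_le_left.trans h'.le)))).mp (hR ▸ hx)
    have haR : a ∈ R := hR ▸ Subgroup.mem_sup_left ha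
    have hbR : b ∈ R := hR ▸ Subgroup.mem_sup_right hb
    have : (a * b) ^ 2 = a ^ 2 * ⁅a⁻¹, b⁆ * b ^ 2 := by
      simp only [commutatorElement_def, pow_two]; group
    rw [this]
    exact mul_mem (mul_mem (hVE (htV (h'.sq a ha.1)))
      (hRR (Subgroup.commutator_mem_commutator (inv_mem haR) hbR))) (hVE (hzV (h.sq b hb.1)))

end Cfsg.Agent.S5431
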