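import Cfsg.Statements.S5435
import Cfsg.Agent.Even.XTr1
import Cfsg.Agent.Cls.SL2Dihedral
import Cfsg.Agent.Grp.PGroupFrattini
import Cfsg.Agent.Grp.Frattini
import Cfsg.Agent.Grp.Cores

set_option autoImplicit false
open Cfsg

namespace Cfsg.Agent.S5435

open Subgroup CL.Even CL.Grp in
theorem exists_fixed {G : Type*} [Group G] [Finite G] (hres : pResidual 2 G = ⊤) {z u : G}
    {K R : Subgroup G} (hK : IT z K) (hR : IsPGroup 2 R) (hRz : R ≤ centralizer ({z} : Set G))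
    (hRu : R ≤ centralizer ({u} : Set G)) (hu : u ∈ centralizer ({z} : Set G)) (huK : u ∉ K)
    (hu2 : u * u = 1) : ∃ g : G, g * z * g⁻¹ ≠ z ∧ R ≤ centralizer ({g * z * g⁻¹} : Set G) := by
  classical
  have := Fintype.ofFinite G
  have ho : orderOf u = 2 := orderOf_eq_prime (by rw [pow_two, hu2]) fun h1 => huK (h1 ▸ one_mem _)
  have hev := hK.even_card hres ⟨1, ho⟩ fun t _ ht => by
    rw [orderOf_eq_one_iff.mp (show orderOf t = 1 by have := orderOf_pos t; omega)]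
    exact one_mem _
  have hc : ∀ r : R, (r : G)⁻¹ * u * r = u := fun r => by
    rw [mul_assoc, ← mem_cent_singleton.mp (hRu r.2), inv_mul_cancel_left]
  let inst : MulAction R {y // OutK z K u y} :=
    { smul := fun r y => ⟨r * y * (r : G)⁻¹, by
        obtain ⟨g, h1, h2, h3⟩ := y.2
        refine ⟨r * g, by rw [← h1]; group, mem_cent_conj_iff.mpr (by rwa [hc]), fun h4 => h3 ?_⟩
        rwa [cj_mul, mem_cj, hc] at h4⟩
      one_smul := fun y => Subtype.ext (show ((1 : R) : G) * y * ((1 : R) : G)⁻¹ = y by simp)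
      mul_smul := fun r s y => Subtype.ext (show ((r * s : R) : G) * y * ((r * s : R) : G)⁻¹ =
        r * (s * y * (s : G)⁻¹) * (r : G)⁻¹ by simp [mul_assoc]) }
  obtain ⟨⟨y, g, rfl, h1⟩, h2, h3⟩ := hR.exists_fixed_point_of_prime_dvd_card_of_fixed_point
    {y // OutK z K u y} (by rw [Nat.card_eq_fintype_card, Fintype.card_subtype]; exact hev.two_dvd)
    (a := ⟨z, 1, by simp, hu, by rwa [cj_one]⟩) fun r => Subtype.ext
      (show (r : G) * z * (r : G)⁻¹ = z by rw [mem_cent_singleton.mp (hRz r.2), mul_inv_cancel_right])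
  exact ⟨g, fun h4 => h3 (Subtype.ext h4.symm), fun r hr => mem_cent_singleton.mpr
    (mul_inv_eq_iff_eq_mul.mp (congrArg Subtype.val (h2 ⟨r, hr⟩)))⟩

open Subgroup CL.Even CL.Grp in

/-- Let L be a finite non-abelian simple group with an involution z whose centralizer R is a Sylow 2-subgroup of L whose Frattini subgroup is the subgroup generated by z. Then R is dihedral of order 8. -/
theorem result {L : Type*} [Group L] [Finite L] [IsSimpleGroup L] (hL : ¬ IsMulCommutative L) (z : L) (hz : orderOf z = 2) (R : Sylow 2 L) (hR : (R : Subgroup L) = Subgroup.centralizer ({z} : Set L)) (hΦ : (frattini ↥(R : Subgroup L)).map (R : Subgroup L).subtype = Subgroup.zpowers z) : Nonempty (↥(R : Subgroup L) ≃* DihedralGroup 4) := by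
  have hres : pResidual 2 L = ⊤ := (IsSimpleGroup.eq_bot_or_eq_top_of_normal _ inferInstance).resolve_left
    fun h1 => hL (by
      have := (pResidual_eq_bot_iff.mp h1).isNilpotent
      exact ⟨⟨(IsSimpleGroup.comm_iff_isSolvable.mpr inferInstance)⟩⟩)
  have hP := R.isPGroup'
  generalize (R : Subgroup L) = P at hR hΦ hP
  have hmem : ∀ x : P, (x : L) ∈ zpowers z ↔ x ∈ frattini P := fun x => by
    rw [← hΦ]; exact ⟨fun ⟨b, hb, e⟩ => Subtype.ext e ▸ hb, fun h1 => ⟨_, h1, rfl⟩⟩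
  have hK : ∀ u ∈ P, u ∉ zpowers z → ∃ K, IT z K ∧ u ∉ K := fun u hu h1 => by
    rw [hmem ⟨u, hu⟩, mem_frattini_iff] at h1
    push Not at h1
    obtain ⟨M, hM, h2⟩ := h1
    refine ⟨M.map P.subtype, it_of_relIndex (hR ▸ map_subtype_le _) ?_,
      fun ⟨b, hb, e⟩ => h2 ((show b = ⟨u, hu⟩ from Subtype.ext e) ▸ hb)⟩
    rw [← hR, relIndex, ← index_eq_of_isCoatom_pGroup hP hM, subgroupOf,
      comap_map_eq_self_of_injective P.subtype_injective]
  have hcj : ∀ g : L, cj g P = centralizer ({g * z * g⁻¹} : Set L) := fun g =>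
    Subgroup.ext fun x => by rw [mem_cj, hR, mem_cent_conj_iff]
  have h : XS z P := ⟨hz, hR ▸ mem_cent_singleton.mpr rfl, hR.le, hR ▸ le_normalizer,
    fun x hx => (hmem (⟨x, hx⟩ ^ 2)).mpr (pow_mem_frattini hP _), fun u hu huc hu2 => by
      by_contra h1
      obtain ⟨K, hK, huK⟩ := hK u hu h1
      obtain ⟨g, h2, h3⟩ := exists_fixed hres hK hP hR.le (le_cent_singleton huc) (hR ▸ hu) huK
        (pow_two u ▸ hu2)
      have h4 : cj g P = P := (eq_of_le_of_card_ge (hcj g ▸ h3)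
        (Nat.card_congr ((MulAut.conj g).subgroupMap P).toEquiv).ge).symm
      have h5 := conj_mem (normalizer_le_normalizer_map_subtype (frattini P) (cj_eq_iff_mem.mp h4))
        (hΦ ▸ mem_zpowers z)
      rw [hΦ, mem_zpowers_two hz] at h5
      exact h5.elim (fun h6 => by simp [conj_eq_one_iff.mp h6] at hz) h2,
    fun c hc _ => hR ▸ hc⟩
  have : Nontrivial P := ⟨⟨z, h.mem⟩, 1, fun h1 => h.ne_one (congrArg Subtype.val h1)⟩
  obtain ⟨u, -, hu⟩ := SetLike.not_le_iff_exists.mp (mt top_le_iff.mp (frattini_ne_top P))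
  obtain ⟨K, hK, huK⟩ := hK u u.2 (mt (hmem u).mp hu)
  obtain ⟨s, hs, hsK, h2, hmin⟩ := hK.exists_min (hR ▸ u.2) huK
  obtain ⟨g, T⟩ := h.exists_rigid hres hK hs hsK h2 hmin
  have h' := h.conj g
  rw [hcj] at h'
  set y := g * z * g⁻¹
  have hy : y ∈ P := hR ▸ mem_cent_singleton.mpr (mem_cent_singleton.mp T.zc).symm
  have hA : ∀ a ∈ P, a ∈ centralizer ({y} : Set L) → a * a = 1 := fun a ha ha' =>
    (h.mem_Z.mp (pow_two a ▸ h.sq a ha)).resolve_right fun h3 =>
      (h'.mem_Z.mp (pow_two a ▸ h'.sq a ha')).elim (fun h4 => h.ne_one (h3.symm.trans h4))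
        fun h4 => T.ne (h4.symm.trans h3)
  have hyc := mem_cent_singleton.mpr (rfl : y * y = y * y)
  have hZ : ∀ a ∈ P, a ∈ centralizer (P : Set L) → a = 1 ∨ a = z := fun a ha ha' =>
    h.mem_Z.mp (h.cent a ha ha' (pow_two a ▸ hA a ha (mem_cent_singleton.mpr (ha' y hy).symm)))
  have hA' : ∀ a ∈ P, a ∈ centralizer ({y} : Set L) → (a = 1 ∨ a = z) ∨ a * y = 1 ∨ a * y = z :=
    fun a ha ha' => (h.mem_cent_or hy ha fun b hb hb' => by
      have h3 := mem_cent_singleton.mpr hb'.symm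
      rw [← inv_eq_of_mul_eq_one_right (hA _ (mul_mem ha hb) (mul_mem ha' h3)), mul_inv_rev,
        inv_eq_of_mul_eq_one_right (hA a ha ha'), inv_eq_of_mul_eq_one_right (hA b hb h3)]).imp
      (hZ a ha) (hZ _ (mul_mem ha hy))
  obtain ⟨r, hr, hry⟩ := h.exists_conj_eq_mul hy
    (h.not_mem_cent hy (pow_two y ▸ h'.mul_self) h'.ne_one T.ne)
  have hr' : r ∉ centralizer ({y} : Set L) := fun h3 => h.ne_one (by
    rwa [mem_cent_singleton.mp h3, mul_inv_cancel_right, right_eq_mul] at hry)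
  obtain ⟨a, ha, ha', ha2, hay⟩ : ∃ a ∈ P, a ∉ centralizer ({y} : Set L) ∧ a * a = z ∧
      a * y * a⁻¹ = z * y := by
    rcases h.mem_Z.mp (pow_two r ▸ h.sq r hr) with h3 | h3
    · refine ⟨r * y, mul_mem hr hy, fun h4 => hr' ((mul_mem_cancel_right hyc).mp h4), ?_, ?_⟩
      · calc r * y * (r * y) = r * y * r⁻¹ * (r * r) * y := by group
          _ = z := by rw [hry, h3, mul_one, mul_assoc, h'.mul_self, mul_one]
      · rw [← hry]; group
    · exact ⟨r, hr, hr', h3, hry⟩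
  have ha4 : orderOf a = 2 ^ 2 := orderOf_eq_prime_pow (by rw [pow_one, pow_two, ha2]; exact h.ne_one)
    (by rw [pow_two, pow_mul, pow_two, pow_two, ha2, h.mul_self])
  have hza : z ∈ zpowers a := ha2 ▸ mul_mem (mem_zpowers a) (mem_zpowers a)
  have h1a : ∀ x, x = 1 ∨ x = z → x ∈ zpowers a := by rintro x (rfl | rfl); exacts [one_mem _, hza]
  have hinv : y * a * y⁻¹ = a⁻¹ := by
    calc y * a * y⁻¹ = a⁻¹ * (a * y * a⁻¹) * (a * a) * y⁻¹ := by group
      _ = a⁻¹ * (y * (z * z)) * y⁻¹ := by rw [hay, ha2, ← h.comm hy, mul_assoc a⁻¹, mul_assoc y]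
      _ = a⁻¹ * (y * a * y⁻¹ * a) * (y * a * y⁻¹ * a)⁻¹ * (y * y⁻¹) := by rw [h.mul_self]; group
      _ = a⁻¹ := by group
  refine CL.SL2.nonempty_dihedral (n := 4) (⟨a, ha⟩ : P) ⟨y, hy⟩ (by rw [orderOf_mk, ha4]; rfl)
    (Subtype.ext h'.mul_self) (Subtype.ext hinv) (fun ⟨k, hk⟩ => ha' (mem_cent_singleton.mpr ?_))
    fun x => ?_
  · rw [← show a ^ k = y from congrArg Subtype.val hk]
    exact (Commute.refl a).zpow_right k
  suffices (x : L) ∈ zpowers a ∨ y * x ∈ zpowers a from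
    this.imp (fun ⟨k, hk⟩ => ⟨k, Subtype.ext hk⟩) fun ⟨k, hk⟩ => ⟨k, Subtype.ext hk⟩
  by_cases hx : (x : L) ∈ centralizer ({y} : Set L)
  · exact (hA' x x.2 hx).imp (h1a _) fun h3 => mem_cent_singleton.mp hx ▸ h1a _ h3
  have h3 := h.mul_mem_cent hy x.2 ha hx ha'
  refine (hA' _ (mul_mem x.2 ha) h3).imp
    (fun h4 => (mul_mem_cancel_right (mem_zpowers a)).mp (h1a _ h4)) fun h4 => ?_
  rw [mem_cent_singleton.mp h3, ← mul_assoc] at h4
  exact (mul_mem_cancel_right (mem_zpowers a)).mp (h1a _ h4)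

end Cfsg.Agent.S5435
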