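import Cfsg.Statements.S5436
import Cfsg.Agent.Even.XS4

set_option autoImplicit false
open Cfsg

namespace Cfsg.Agent.S5436

/-- Let z be an involution of the finite group G with centralizer H whose generalized Fitting subgroup Q is extraspecial of width at least 2 (order 2^(2w+1), w ≥ 2); suppose some conjugate of z other than z lies in Q, H/Q is a non-abelian simple group, H acts irreducibly by conjugation on Q modulo the subgroup generated by z (the only H-invariant subgroups of Q containing z are that subgroup and Q), and Q is not the subgroup generated by the conjugates of z lying in H. Then G is simple. -/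
theorem result {G : Type*} [Group G] [Finite G] (z : G) (hz : orderOf z = 2) (Q : Subgroup (Subgroup.centralizer ({z} : Set G))) [Q.Normal] (hF : Cfsg.generalizedFittingSubgroup ↥(Subgroup.centralizer ({z} : Set G)) = Q) (hQ : Cfsg.IsExtraspecial 2 ↥Q) (w : ℕ) (hw : 2 ≤ w) (hcard : Nat.card ↥Q = 2 ^ (2 * w + 1)) (hnwc : ∃ g : G, (∃ hq : g * z * g⁻¹ ∈ Subgroup.centralizer ({z} : Set G), (⟨g * z * g⁻¹, hq⟩ : Subgroup.centralizer ({z} : Set G)) ∈ Q) ∧ g * z * g⁻¹ ≠ z) (hsimp : IsSimpleGroup (↥(Subgroup.centralizer ({z} : Set G)) ⧸ Q)) (hna : ¬ IsMulCommutative (↥(Subgroup.centralizer ({z} : Set G)) ⧸ Q)) (hirr : ∀ W : Subgroup (Subgroup.centralizer ({z} : Set G)), W.Normal → W ≤ Q → (W = Q ∨ ∀ x ∈ W, (x : G) ∈ Subgroup.zpowers z)) (hwcl : Subgroup.closure {x : Subgroup.centralizer ({z} : Set G) | IsConj z (x : G)} ≠ Q) : IsSimpleGroup G := by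
  have hQ' : Cfsg.IsExtraspecial 2 (Q.map (Subgroup.centralizer ({z} : Set G)).subtype) :=
    CL.Grp.extra_of_mulEquiv hQ (Q.equivMapOfInjective _ (Subgroup.subtype_injective _))
  have hF' : CL.Loc.fstarOf (Subgroup.centralizer ({z} : Set G)) = Q.map (Subgroup.subtype _) := congrArg _ hF
  have h := CL.Even.xe_of_fstar hz hF' hQ'
  have hQO : Q.map (Subgroup.subtype _) = Cfsg.pCoreOf 2 (Subgroup.centralizer ({z} : Set G)) :=
    le_antisymm h.le_core ((Subgroup.map_mono (CL.Loc.pCore_le_fstar 2)).trans hF'.le)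
  obtain ⟨g, ⟨hq, hg⟩, hne⟩ := hnwc
  have hK : ∀ K : Subgroup G, Odd (Nat.card K) →
      Q.map (Subgroup.subtype _) ≤ Subgroup.normalizer (K : Set G) → K = ⊥ :=
    fun K => h.large_of_conj_mem ⟨_, hg, rfl⟩ hne
  set W := Subgroup.closure {x : Subgroup.centralizer ({z} : Set G) | IsConj z (x : G)} with hW
  have hWn : W.Normal := ⟨fun x hx c => by
    induction hx using Subgroup.closure_induction with
    | mem x hx => exact Subgroup.subset_closure (IsConj.trans hx (isConj_iff.2 ⟨c, rfl⟩))
    | one => simp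
    | mul x y _ _ h1 h2 => simpa [mul_assoc] using W.mul_mem h1 h2
    | inv x _ h1 => simpa [mul_assoc] using W.inv_mem h1⟩
  have hQW : Q ≤ W := by
    refine inf_eq_right.1 ((hirr (W ⊓ Q) inferInstance inf_le_right).resolve_right fun h1 => ?_)
    rcases h.mem_Z.1 (h1 ⟨_, hq⟩ ⟨Subgroup.subset_closure (isConj_iff.2 ⟨g, rfl⟩), hg⟩) with e | e
    · exact (h.toXS.conj g).ne_one e
    · exact hne e
  have hWt : W = ⊤ := by
    have h1 := Subgroup.comap_map_eq_self (f := QuotientGroup.mk' Q) (H := W) (by rwa [QuotientGroup.ker_mk'])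
    rcases (hWn.map _ (QuotientGroup.mk'_surjective Q)).eq_bot_or_eq_top with e | e
    · rw [e, MonoidHom.comap_bot, QuotientGroup.ker_mk'] at h1
      exact absurd h1.symm hwcl
    · rw [← h1, e, Subgroup.comap_top]
  have hN : (Subgroup.normalClosure ({z} : Set G)).Normal := inferInstance
  have hC : Subgroup.centralizer ({z} : Set G) ≤ Subgroup.normalClosure ({z} : Set G) := fun x hx => by
    have : W ≤ (Subgroup.normalClosure ({z} : Set G)).comap (Subgroup.subtype _) := by
      rw [hW, Subgroup.closure_le]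
      intro y hy
      obtain ⟨k, hk⟩ := isConj_iff.1 hy
      exact Subgroup.mem_comap.2 (show (y : G) ∈ _ from hk ▸ hN.conj_mem z
        (Subgroup.subset_normalClosure (Set.mem_singleton z)) k)
    exact this (hWt ▸ Subgroup.mem_top (⟨x, hx⟩ : Subgroup.centralizer ({z} : Set G)))
  have htop : Subgroup.normalClosure ({z} : Set G) = ⊤ := by
    rw [← h.sup_cent_eq_top (h.le.trans hC), sup_eq_left.mpr hC]
  rcases h.large_structure hK htop.symm with h1 | h1 | h1
  · exact absurd (Subgroup.le_centralizer_iff_isMulCommutative.mp (le_top.trans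
      ((Subgroup.le_centralizer_iff_isMulCommutative.mpr h1.1).trans (CL.Even.cent_mono le_top))))
      (CL.Grp.extra_not_isMulCommutative hQ')
  · have := h1.2.1
    exact Subgroup.topEquiv.symm.isSimpleGroup
  · obtain ⟨-, _, _, -, -, -, -, -, -, _, -, -, -, h1⟩ := h1
    exact absurd hQO h1

end Cfsg.Agent.S5436
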