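import Cfsg.Statements.S5437
import Cfsg.Agent.Grp.SylowIn

set_option autoImplicit false
open Cfsg

namespace Cfsg.Agent.S5437

/-- Let I be a set of involutions of the finite group G closed under conjugation, and H a subgroup of G. The following are equivalent: (1) for every member x of I lying in H, the conjugates of x lying in H form a single H-class and the centralizer of x lies in H; (2) for every g outside H, no member of I lies in both H and g H g⁻¹; (3) every member of I lying in H fixes exactly one coset in the action of G on the cosets of H. -/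
theorem result {G : Type*} [Group G] [Finite G] (I : Set G) (hI : ∀ x ∈ I, orderOf x = 2) (hIc : ∀ g : G, ∀ x ∈ I, g * x * g⁻¹ ∈ I) (H : Subgroup G) : ((∀ x ∈ I, x ∈ H → (∀ g : G, g * x * g⁻¹ ∈ H → ∃ h ∈ H, h * x * h⁻¹ = g * x * g⁻¹) ∧ Subgroup.centralizer ({x} : Set G) ≤ H) ↔ (∀ g : G, g ∉ H → ∀ x ∈ I, ¬ (x ∈ H ∧ x ∈ (H : Subgroup G).map (MulAut.conj g).toMonoidHom))) ∧ ((∀ g : G, g ∉ H → ∀ x ∈ I, ¬ (x ∈ H ∧ x ∈ (H : Subgroup G).map (MulAut.conj g).toMonoidHom)) ↔ ∀ x ∈ I, x ∈ H → ∃! c : G ⧸ H, x • c = c) := by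
  have hm : ∀ (g x : G), x ∈ (H : Subgroup G).map (MulAut.conj g).toMonoidHom ↔ g⁻¹ * x * g ∈ H :=
    fun g x => CL.Grp.mem_conj_smul_iff g x H
  have hc : ∀ (x g : G), x • (g : G ⧸ H) = g ↔ g⁻¹ * x * g ∈ H := fun x g => by
    rw [MulAction.Quotient.smul_mk, eq_comm, QuotientGroup.eq, smul_eq_mul, mul_assoc]
  refine ⟨⟨fun h g hg x hx hh => hg ?_, fun h x hx hxH => ⟨fun g hg => ⟨g, ?_, rfl⟩, fun c hc => ?_⟩⟩,
    ⟨fun h x hx hxH => ⟨((1 : G) : G ⧸ H), (hc x 1).2 (by simpa using hxH), fun c hcc => ?_⟩,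
      fun h g hg x hx hh => hg ?_⟩⟩
  · obtain ⟨k, hk, e⟩ := (h x hx hh.1).1 g⁻¹ (by simpa using (hm g x).1 hh.2)
    have h1 : g * k ∈ H := (h x hx hh.1).2 (Subgroup.mem_centralizer_singleton_iff.2 (by
      calc g * k * x = g * (k * x * k⁻¹) * k := by group
        _ = x * (g * k) := by rw [e]; group))
    simpa using H.mul_mem h1 (H.inv_mem hk)
  · by_contra hgH
    exact h g hgH _ (hIc g x hx) ⟨hg, (hm _ _).2 (by simpa [mul_assoc] using hxH)⟩
  · by_contra hcH
    refine h c hcH x hx ⟨hxH, (hm _ _).2 ?_⟩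
    rwa [mul_assoc, ← Subgroup.mem_centralizer_singleton_iff.1 hc, inv_mul_cancel_left]
  · obtain ⟨g, rfl⟩ := QuotientGroup.mk_surjective c
    rw [eq_comm, QuotientGroup.eq, inv_one, one_mul]
    by_contra hg
    exact h g hg x hx ⟨hxH, (hm g x).2 ((hc x g).1 hcc)⟩
  · have h1 := (h x hx hh.1).unique ((hc x 1).2 (by simpa using hh.1)) ((hc x g).2 ((hm g x).1 hh.2))
    rwa [QuotientGroup.eq, inv_one, one_mul] at h1

end Cfsg.Agent.S5437
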