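import Cfsg.Statements.S5438
import Cfsg.Agent.Grp.SylowIn

set_option autoImplicit false
open Cfsg

namespace Cfsg.Agent.S5438

/-- Let z be a 2-central involution of the finite group G (an involution central in some Sylow 2-subgroup) and H a subgroup containing z such that the coset H is the only coset of H fixed by z (in the action of G on the cosets of H). Then H has odd index in G, and for every 2-element x of H the conjugates of x lying in H form a single H-class. -/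
theorem result {G : Type*} [Group G] [Finite G] (z : G) (hz : Cfsg.IsTwoCentralInvolution z) (H : Subgroup G) (hzH : z ∈ H) (hfix : ∀ g : G, g⁻¹ * z * g ∈ H → g ∈ H) : Odd H.index ∧ ∀ x ∈ H, (∃ k : ℕ, orderOf x = 2 ^ k) → ∀ g : G, g * x * g⁻¹ ∈ H → ∃ h ∈ H, h * x * h⁻¹ = g * x * g⁻¹ := by
  have : Fact (Nat.Prime 2) := ⟨Nat.prime_two⟩
  obtain ⟨hz2, S, hzS, hS⟩ := hz
  have hC : ∀ c : G, c * z = z * c → c ∈ H := fun c hc =>
    hfix c (by rwa [mul_assoc, ← hc, inv_mul_cancel_left])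
  have hSH : (S : Subgroup G) ≤ H := fun x hx => hC x (hS x hx)
  have hSy := CL.Grp.isSylowIn_of_le S hSH
  have hodd : Odd H.index := by
    have := (CL.Grp.isSylowIn_top S).not_dvd_relIndex_of_le hSH le_top
    rw [Subgroup.relIndex_top_right] at this
    exact Nat.odd_iff.2 (Nat.two_dvd_ne_zero.1 this)
  refine ⟨hodd, fun x hx ⟨k, hk⟩ g hg => ?_⟩
  -- a 2-subgroup containing a conjugate `a z a⁻¹` lies in `a H a⁻¹`
  have key : ∀ (T : Subgroup G), IsPGroup 2 T → ∀ a : G, a * z * a⁻¹ ∈ T → ∀ t ∈ T, a⁻¹ * t * a ∈ H := by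
    intro T hT a ha t ht
    obtain ⟨b, hb⟩ := CL.Grp.exists_conj_le_sylow S hT
    have hb' := (CL.Grp.conj_smul_le_iff _ _ _).1 hb
    have h1 : (b * a)⁻¹ ∈ H := hfix _ (by
      have := hSH (hb' _ ha)
      convert this using 1; group)
    have h2 := H.mul_mem (H.mul_mem h1 (hSH (hb' t ht))) (H.inv_mem h1)
    convert h2 using 1; group
  have cent : ∀ y ∈ H, orderOf y = 2 ^ k → ∃ h ∈ H, h * z * h⁻¹ ∈ Subgroup.centralizer ({y} : Set G) := by
    intro y hy hyk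
    obtain ⟨h, hh, hle⟩ := hSy.exists_conj_le (U := Subgroup.zpowers y)
      (IsPGroup.of_card (n := k) (by rw [Nat.card_zpowers, hyk])) (Subgroup.zpowers_le_of_mem hy)
    have h1 := hS _ ((CL.Grp.conj_smul_le_iff _ _ _).1 hle y (Subgroup.mem_zpowers y))
    refine ⟨h⁻¹, H.inv_mem hh, Subgroup.mem_centralizer_singleton_iff.2 ?_⟩
    calc h⁻¹ * z * h⁻¹⁻¹ * y = h⁻¹ * (z * (h * y * h⁻¹)) * h := by group
      _ = y * (h⁻¹ * z * h⁻¹⁻¹) := by rw [← h1]; group
  have two : ∀ a : G, IsPGroup 2 (Subgroup.zpowers (a * z * a⁻¹)) := fun a =>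
    IsPGroup.of_card (n := 1) (by
      rw [Nat.card_zpowers, pow_one, ← hz2]
      exact (MulAut.conj a).orderOf_eq z)
  obtain ⟨h, hh, hhc⟩ := cent x hx hk
  obtain ⟨h', hh', hhc'⟩ := cent _ hg (by rw [← hk]; exact (MulAut.conj g).orderOf_eq x)
  have hc2 : (g⁻¹ * h') * z * (g⁻¹ * h')⁻¹ ∈ Subgroup.centralizer ({x} : Set G) := by
    rw [Subgroup.mem_centralizer_singleton_iff] at hhc' ⊢
    calc (g⁻¹ * h') * z * (g⁻¹ * h')⁻¹ * x = g⁻¹ * (h' * z * h'⁻¹ * (g * x * g⁻¹)) * g := by group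
      _ = x * ((g⁻¹ * h') * z * (g⁻¹ * h')⁻¹) := by rw [hhc']; group
  obtain ⟨T, hT, hzT⟩ := CL.Grp.exists_isSylowIn_ge (two h) (Subgroup.zpowers_le_of_mem hhc)
  obtain ⟨u, hu, hle⟩ := hT.exists_conj_le (two _) (Subgroup.zpowers_le_of_mem hc2)
  have h1 := (CL.Grp.conj_smul_le_iff _ _ _).1 hle _ (Subgroup.mem_zpowers _)
  have h2 := key T hT.isPGroup h (hzT (Subgroup.mem_zpowers _)) _ h1
  have h3 : (h⁻¹ * u * g⁻¹ * h')⁻¹ ∈ H := hfix _ (by convert h2 using 1; group)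
  have h4 : g * u⁻¹ ∈ H := by
    have := H.mul_mem (H.mul_mem hh' h3) (H.inv_mem hh)
    convert this using 1; group
  refine ⟨_, h4, ?_⟩
  have h5 := Subgroup.mem_centralizer_singleton_iff.1 hu
  calc g * u⁻¹ * x * (g * u⁻¹)⁻¹ = g * u⁻¹ * (x * u) * g⁻¹ := by group
    _ = g * x * g⁻¹ := by rw [← h5]; group

end Cfsg.Agent.S5438
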