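import Cfsg.Statements.S5440
import Cfsg.Agent.Spor.F24C

set_option autoImplicit false
open Cfsg

namespace Cfsg.Agent.S5440

/-- Let G be a finite group of large Fischer type at the involution z: the generalized Fitting subgroup Q of H = C_G(z) is extraspecial of order 2^13, H has normal subgroups Q ≤ H₁ ≤ H₂ with H₁/Q of order 3, H₂/H₁ the projective special unitary group of dimension 4 over the field with nine elements and H₂ of index 2 in H, and some conjugate of z other than z lies in Q. Then H has exactly two orbits, under conjugation, on the involutions of Q other than z. -/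
theorem result {G : Type*} [Group G] [Finite G] (z : G) (Q : Subgroup (Subgroup.centralizer ({z} : Set G))) [Q.Normal] (hF : Cfsg.IsOfLargeFischerTypeAt z Q) : ∃ s t : Subgroup.centralizer ({z} : Set G), s ∈ Q ∧ t ∈ Q ∧ orderOf s = 2 ∧ orderOf t = 2 ∧ (s : G) ≠ z ∧ (t : G) ≠ z ∧ (¬ ∃ h : Subgroup.centralizer ({z} : Set G), h * s * h⁻¹ = t) ∧ ∀ x : Subgroup.centralizer ({z} : Set G), x ∈ Q → orderOf x = 2 → (x : G) ≠ z → (∃ h : Subgroup.centralizer ({z} : Set G), h * s * h⁻¹ = x) ∨ ∃ h : Subgroup.centralizer ({z} : Set G), h * t * h⁻¹ = x := by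
  obtain ⟨V, _, _, q, π, e, gs, h, X, M, -⟩ := CL.F24.exists_model hF
  have mem : ∀ {c : Subgroup.centralizer ({z} : Set G)}, c ∈ Q → (c : G) ∈ Q.map (Subgroup.centralizer ({z} : Set G)).subtype :=
    fun hc => ⟨_, hc, rfl⟩
  have ex : ∀ a < 4096, a ≠ 0 → CL.F24.qb a = false → ∃ s ∈ Q, π s = e a ∧ π s ≠ 0 ∧ orderOf s = 2 ∧ (s : G) ≠ z :=
    fun a ha h0 hq => by
      obtain ⟨_, ⟨s, hs, rfl⟩, h1⟩ := X.π_surj (e a)
      have h2 : π s ≠ 0 := fun h => h0 ((M.eq_zero_iff ha).mp (h1.symm.trans h))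
      refine ⟨s, hs, h1, h2, orderOf_eq_prime (Subtype.ext ?_) (fun h => h2 (by rw [h]; exact X.π_one)),
        fun h => h2 (by rw [h]; exact X.π_z)⟩
      rw [pow_two]
      exact (X.q_eq_zero (mem hs)).mp ((congrArg q h1).trans (by rw [M.qe a ha, hq]; rfl))
  obtain ⟨s, hs, s1, -, s2, s3⟩ := ex 85 (by norm_num) (by norm_num) (by decide +kernel)
  obtain ⟨t, ht, t1, -, t2, t3⟩ := ex 5 (by norm_num) (by norm_num) (by decide +kernel)
  refine ⟨s, t, hs, ht, s2, t2, s3, t3, fun ⟨c, hc⟩ => ?_, fun x hx h2 hz => ?_⟩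
  · have h1 := M.smul_OT (QuotientGroup.mk' Q c⁻¹) ((M.mem_mset_iff (a := 5) (by norm_num)).mpr (by decide +kernel))
    rw [← t1, ← X.π_conj _ (mem ht), ← hc] at h1
    refine M.not_OT_OZ h1 ?_
    simp only [Subgroup.coe_mul, Subgroup.coe_inv, inv_inv, mul_assoc, inv_mul_cancel_left, inv_mul_cancel, mul_one, s1]
    exact (M.mem_mset_iff (by norm_num)).mpr (by decide +kernel)
  · have h0 : π x ≠ 0 := fun h => ((X.π_eq_zero (mem hx)).mp h).elim
      (fun h => by rw [show x = 1 from Subtype.ext h, orderOf_one] at h2; omega) hz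
    have hq : q (π x) = 0 := (X.q_eq_zero (mem hx)).mpr
      (by rw [← pow_two, ← Subgroup.coe_pow, ← h2, pow_orderOf_eq_one]; rfl)
    rcases M.OT_or_OZ h0 hq with h1 | h1
    · obtain ⟨γ, -, hγ⟩ := M.exists_T h1
      obtain ⟨c, -, hc⟩ := X.exists_conj (mem ht) (mem hx) h0 (t1 ▸ hγ)
      exact Or.inr ⟨c, Subtype.ext hc⟩
    · obtain ⟨γ, -, hγ⟩ := M.exists_Z h1
      obtain ⟨c, -, hc⟩ := X.exists_conj (mem hs) (mem hx) h0 (s1 ▸ hγ)
      exact Or.inl ⟨c, Subtype.ext hc⟩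

end Cfsg.Agent.S5440
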