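import Cfsg.Statements.S5441
import Cfsg.Agent.Spor.F24C

set_option autoImplicit false
open Cfsg

namespace Cfsg.Agent.S5441

/-- Let G be a finite group of large Fischer type at the involution z: the generalized Fitting subgroup Q of H = C_G(z) is extraspecial of order 2^13, H has normal subgroups Q ≤ H₁ ≤ H₂ with H₁/Q of order 3, H₂/H₁ the projective special unitary group of dimension 4 over the field with nine elements and H₂ of index 2 in H, and some conjugate of z other than z lies in Q. Then the conjugates of z lying in Q and different from z form a single orbit under conjugation by H. -/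
theorem result {G : Type*} [Group G] [Finite G] (z : G) (Q : Subgroup (Subgroup.centralizer ({z} : Set G))) [Q.Normal] (hF : Cfsg.IsOfLargeFischerTypeAt z Q) (s t : G) (hsQ : ∃ hsc : s ∈ Subgroup.centralizer ({z} : Set G), (⟨s, hsc⟩ : Subgroup.centralizer ({z} : Set G)) ∈ Q) (htQ : ∃ htc : t ∈ Subgroup.centralizer ({z} : Set G), (⟨t, htc⟩ : Subgroup.centralizer ({z} : Set G)) ∈ Q) (hs : IsConj z s) (ht : IsConj z t) (hs1 : s ≠ z) (ht1 : t ≠ z) : ∃ h ∈ Subgroup.centralizer ({z} : Set G), h * s * h⁻¹ = t := by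
  obtain ⟨V, _, _, q, π, e, gs, h, X, M, -⟩ := CL.F24.exists_model hF
  obtain ⟨g, rfl⟩ := isConj_iff.mp hs
  obtain ⟨k, rfl⟩ := isConj_iff.mp ht
  have h1 : g * z * g⁻¹ ∈ Q.map (Subgroup.centralizer ({z} : Set G)).subtype := ⟨_, hsQ.2, rfl⟩
  have h2 : k * z * k⁻¹ ∈ Q.map (Subgroup.centralizer ({z} : Set G)).subtype := ⟨_, htQ.2, rfl⟩
  obtain ⟨a, -, ha⟩ := M.exists_Z (X.mem_OZ M h1 hs1)
  obtain ⟨b, -, hb⟩ := M.exists_Z (X.mem_OZ M h2 ht1)
  obtain ⟨c, -, hc⟩ := X.exists_conj h1 h2 (X.π_ne h2 ht1) (γ := b * a⁻¹) (by rw [← ha, mul_smul, inv_smul_smul, hb])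
  exact ⟨c, c.2, hc⟩

end Cfsg.Agent.S5441
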