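import Cfsg.Statements.S5442
import Cfsg.Agent.Spor.F24C

set_option autoImplicit false
open Cfsg

namespace Cfsg.Agent.S5442

/-- Let G be a finite group of large Fischer type at the involution z: the generalized Fitting subgroup Q of H = C_G(z) is extraspecial of order 2^13, H has normal subgroups Q ≤ H₁ ≤ H₂ with H₁/Q of order 3, H₂/H₁ the projective special unitary group of dimension 4 over the field with nine elements and H₂ of index 2 in H, and some conjugate of z other than z lies in Q. Let s = g z g⁻¹ be a conjugate of z lying in Q and different from z. Then the intersection of Q and g Q g⁻¹ (as subgroups of G) is elementary abelian of order 2^7; and in H/Q, writing X for the image of the centralizer of s in H and E for the image of the intersection of g Q g⁻¹ with H, E is a normal subgroup of X, elementary abelian of order 32, with X/E isomorphic to the alternating group of degree 6. -/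
theorem result {G : Type*} [Group G] [Finite G] (z : G) (Q : Subgroup (Subgroup.centralizer ({z} : Set G))) [Q.Normal] (hF : Cfsg.IsOfLargeFischerTypeAt z Q) (s : G) (hsQ : ∃ hsc : s ∈ Subgroup.centralizer ({z} : Set G), (⟨s, hsc⟩ : Subgroup.centralizer ({z} : Set G)) ∈ Q) (hs : IsConj z s) (hs1 : s ≠ z) (g : G) (hg : g * z * g⁻¹ = s) (X E : Subgroup ((Subgroup.centralizer ({z} : Set G)) ⧸ Q)) (hX : X = ((Subgroup.centralizer ({z} : Set G) ⊓ Subgroup.centralizer ({s} : Set G)).subgroupOf (Subgroup.centralizer ({z} : Set G))).map (QuotientGroup.mk' Q)) (hE : E = ((((Q.map (Subgroup.centralizer ({z} : Set G)).subtype)).map (MulAut.conj g).toMonoidHom ⊓ Subgroup.centralizer ({z} : Set G)).subgroupOf (Subgroup.centralizer ({z} : Set G))).map (QuotientGroup.mk' Q)) : Cfsg.IsElementaryAbelian 2 ((Q.map (Subgroup.centralizer ({z} : Set G)).subtype) ⊓ ((Q.map (Subgroup.centralizer ({z} : Set G)).subtype)).map (MulAut.conj g).toMonoidHom) ∧ Nat.card ↥((Q.map (Subgroup.centralizer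 ({z} : Set G)).subtype) ⊓ ((Q.map (Subgroup.centralizer ({z} : Set G)).subtype)).map (MulAut.conj g).toMonoidHom) = 2 ^ 7 ∧ E ≤ X ∧ (∀ x ∈ X, ∀ y ∈ E, x * y * x⁻¹ ∈ E) ∧ Cfsg.IsElementaryAbelian 2 E ∧ Nat.card E = 32 ∧ ∃ _ : (E.subgroupOf X).Normal, Nonempty (↥X ⧸ E.subgroupOf X ≃* alternatingGroup (Fin 6)) := by
  obtain ⟨V, _, _, q, π, e, gs, h, Y, M, -⟩ := CL.F24.exists_model hF
  subst hg
  have h1 : g * z * g⁻¹ ∈ Q.map (Subgroup.centralizer ({z} : Set G)).subtype := ⟨_, hsQ.2, rfl⟩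
  rw [Subgroup.inf_subgroupOf_left] at hX
  rw [Subgroup.inf_subgroupOf_right] at hE
  replace hX := hX.trans (Y.im_cent h1 (Y.π_ne h1 hs1))
  subst hX hE
  obtain ⟨β, b1, b2⟩ := M.exists_β (Y.mem_OZ M h1 hs1)
  have hle := Y.im_le h1 hs1
  have hn := Y.le_norm_im h1 hs1
  have h2 := Subgroup.eq_of_le_of_card_ge (CL.F24.two_le_ker β b1.ge Y.im_two hn)
    (by rw [b2, Nat.card_congr (Subgroup.subgroupOfEquivOfLe hle).toEquiv]; exact Y.le_card_im h1 hs1)
  have h3 := b2
  rw [← h2, Nat.card_congr (Subgroup.subgroupOfEquivOfLe hle).toEquiv] at h3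
  have h4 := (Y.card_pair h1 hs1).1
  rw [h3] at h4
  have := Subgroup.normal_subgroupOf_of_le_normalizer hn
  have Z := Y.toXE.conj g
  have k : ∀ c : Subgroup.centralizer ({z} : Set G), (c : G) ∈ Subgroup.zpowers (g * z * g⁻¹) →
      QuotientGroup.mk' Q c = 1 := fun c hc => (Y.ρ_eq_one c).mpr (Subgroup.zpowers_le.mpr h1 hc)
  refine ⟨⟨⟨⟨fun a b => Subtype.ext (Y.inf_comm' hs1 a.2 b.2)⟩⟩, fun a ha => Y.inf_sq hs1 ha⟩, by omega, hle,
    fun x hx y hy => CL.Even.conj_mem (hn hx) hy, ⟨⟨⟨?_⟩⟩, ?_⟩, h3, this,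
    ⟨(QuotientGroup.quotientMulEquivOfEq h2).trans ((QuotientGroup.quotientKerEquivRange β).trans
      (MulEquiv.subgroupCongr b1))⟩⟩
  · rintro ⟨_, a, ha, rfl⟩ ⟨_, b, hb, rfl⟩
    refine Subtype.ext (commutatorElement_eq_one_iff_mul_comm.mp ?_)
    rw [← map_commutatorElement]
    exact k _ (Z.comm_mem ha hb)
  · rintro _ ⟨a, ha, rfl⟩
    rw [← map_pow]
    exact k _ (Z.sq a ha)

end Cfsg.Agent.S5442
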