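import Cfsg.Statements.S5443
import Cfsg.Agent.Spor.F24T
import Cfsg.Agent.Spor.F24O6

set_option autoImplicit false
open Cfsg

namespace Cfsg.Agent.S5443

/-- Let G be a finite group of large Fischer type at the involution z: the generalized Fitting subgroup Q of H = C_G(z) is extraspecial of order 2^13, H has normal subgroups Q ≤ H₁ ≤ H₂ with H₁/Q of order 3, H₂/H₁ the projective special unitary group of dimension 4 over the field with nine elements and H₂ of index 2 in H, and some conjugate of z other than z lies in Q. Let t be an involution of Q not conjugate to z in G, and S the set of elements of H conjugating t to t or to t z (the stabilizer of the image of t in Q modulo its centre). Then the image of S in H/Q is isomorphic to the full isometry group of the elliptic quadratic form in dimension 6 over the field with two elements. -/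
theorem result {G : Type*} [Group G] [Finite G] (z : G) (Q : Subgroup (Subgroup.centralizer ({z} : Set G))) [Q.Normal] (hF : Cfsg.IsOfLargeFischerTypeAt z Q) (t : Subgroup.centralizer ({z} : Set G)) (htQ : t ∈ Q) (ht2 : orderOf t = 2) (ht : ¬ IsConj z (t : G)) (S : Subgroup (Subgroup.centralizer ({z} : Set G))) (hS : ∀ h : Subgroup.centralizer ({z} : Set G), h ∈ S ↔ (h * t * h⁻¹ = t ∨ ((h * t * h⁻¹ : Subgroup.centralizer ({z} : Set G)) : G) = t * z)) : Nonempty (↥(S.map (QuotientGroup.mk' Q)) ≃* Cfsg.isometryGroup (ZMod 2) (Cfsg.quadFormMinus 2 (ZMod 2) 1 1)) := by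
  obtain ⟨V, _, _, q, π, x, σ, e, gs, h, g, C⟩ := CL.F24.exists_cx hF
  have h1 : (t : G) ∈ Q.map (Subgroup.centralizer ({z} : Set G)).subtype := ⟨_, htQ, rfl⟩
  have h2 := C.T_of_not_conj h1 (congrArg Subtype.val (CL.Even.mul_self_of_orderOf_two ht2))
    (fun e => by rw [show t = 1 from Subtype.ext e, orderOf_one] at ht2; exact absurd ht2 (by decide)) ht
  obtain ⟨γ, -, hγ⟩ := C.M.exists_T h2
  have h3 : S.map (QuotientGroup.mk' Q) = MulAction.stabilizer _ (π t) := by
    have k : ∀ c, c ∈ S ↔ QuotientGroup.mk' Q c ∈ MulAction.stabilizer _ (π t) := fun c => by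
      rw [hS, MulAction.mem_stabilizer_iff, ← C.π_conj c h1, C.π_eq_iff (C.conj_mem c.2 h1) h1, Subtype.ext_iff]
      rfl
    refine le_antisymm (Subgroup.map_le_iff_le_comap.mpr fun c hc => (k c).mp hc) fun a ha => ?_
    obtain ⟨c, rfl⟩ := C.ρ_surj a
    exact ⟨c, (k c).mpr ha, rfl⟩
  obtain ⟨ι⟩ := C.M.stab_T_iso
  exact ⟨(MulEquiv.subgroupCongr h3).trans ((MulAction.stabilizerEquivStabilizer hγ.symm).symm.trans ι)⟩

end Cfsg.Agent.S5443
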