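import Cfsg.Statements.S5444
import Cfsg.Agent.Spor.F24B

set_option autoImplicit false
open Cfsg

namespace Cfsg.Agent.S5444

open CL.Even


/-- Let G be a finite group of large Fischer type at the involution z: the generalized Fitting subgroup Q of H = C_G(z) is extraspecial of order 2^13, H has normal subgroups Q ≤ H₁ ≤ H₂ with H₁/Q of order 3, H₂/H₁ the projective special unitary group of dimension 4 over the field with nine elements and H₂ of index 2 in H, and some conjugate of z other than z lies in Q. Let T be a Sylow 2-subgroup of H. Then T has exactly one elementary abelian subgroup A of largest order; A has order 2^11, it meets Q in a subgroup of order 2^7, and its image in H/Q has order 16. -/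
theorem result {G : Type*} [Group G] [Finite G] (z : G) (Q : Subgroup (Subgroup.centralizer ({z} : Set G))) [Q.Normal] (hF : Cfsg.IsOfLargeFischerTypeAt z Q) (T : Sylow 2 ↥(Subgroup.centralizer ({z} : Set G))) : ∃ A : Subgroup ↥(T : Subgroup (Subgroup.centralizer ({z} : Set G))), Cfsg.maxElementaryAbelianSubgroups 2 ↥(T : Subgroup (Subgroup.centralizer ({z} : Set G))) = {A} ∧ Nat.card A = 2 ^ 11 ∧ Nat.card ↥(A.map (T : Subgroup (Subgroup.centralizer ({z} : Set G))).subtype ⊓ Q) = 2 ^ 7 ∧ Nat.card ↥((A.map (T : Subgroup (Subgroup.centralizer ({z} : Set G))).subtype).map (QuotientGroup.mk' Q)) = 16 := by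
  obtain ⟨V, _, _, q, π, x, σ, e, gs, h, g, C⟩ := CL.F24.exists_cx hF
  obtain ⟨c, hc⟩ := CL.Grp.exists_conj_le_sylow T (U := C.A.subgroupOf _) (CL.Loc.ea_isPGroup C.A_ea).comap_subtype
  change cj c _ ≤ _ at hc
  have h0 := (Subgroup.centralizer ({z} : Set G)).subtype_injective
  have h1 := Subgroup.map_subgroupOf_eq_of_le hc
  have h2 : (cj c (C.A.subgroupOf _)).map (Subgroup.centralizer ({z} : Set G)).subtype = cj (c : G) C.A := by
    conv_rhs => rw [← Subgroup.map_subgroupOf_eq_of_le C.A_le]
    rw [Subgroup.map_map, Subgroup.map_map]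
    rfl
  have h3 : cj c (C.A.subgroupOf _) = (cj (c : G) C.A).subgroupOf _ := by
    rw [← h2, Subgroup.subgroupOf, Subgroup.subgroupOf, Subgroup.comap_map_eq_self_of_injective h0]
  have h4 := C.max_eq T.isPGroup' (f := (Subgroup.subtype _).comp (Subgroup.subtype _))
    (h0.comp (Subgroup.subtype_injective _)) (by rw [← Subgroup.map_map, h1]; exact h2)
  refine ⟨_, h4, ?_, ?_, ?_⟩
  · rw [Nat.card_congr (Subgroup.subgroupOfEquivOfLe hc).toEquiv, card_cj,
      Nat.card_congr (Subgroup.subgroupOfEquivOfLe C.A_le).toEquiv, C.card_A]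
    rfl
  · rw [h1, ← Subgroup.card_map_of_injective h0, Subgroup.map_inf _ _ _ h0, h2,
      ← (cj_inf _ _ _).trans (congrArg _ (cj_eq (C.norm c.2))), card_cj, inf_comm, C.inf_A, C.card_pre, C.M.card_W]
    rfl
  · rw [h1, h3, show Subgroup.map _ _ = _ from CL.F24.im_cj _ c C.A, card_cj, C.im_A, C.M.card_A]

end Cfsg.Agent.S5444
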