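import Cfsg.Statements.S5445
import Cfsg.Agent.Spor.F24R

set_option autoImplicit false
open Cfsg

namespace Cfsg.Agent.S5445

open CL.Even

/-- Let G be a finite group of large Fischer type at the involution z: the generalized Fitting subgroup Q of H = C_G(z) is extraspecial of order 2^13, H has normal subgroups Q ≤ H₁ ≤ H₂ with H₁/Q of order 3, H₂/H₁ the projective special unitary group of dimension 4 over the field with nine elements and H₂ of index 2 in H, and some conjugate of z other than z lies in Q. Then G has an elementary abelian subgroup V of order 8 containing z whose normalizer L has the following structure: the largest normal 2-subgroup R of L is special of order 2^15 with centre V, and L/R is isomorphic to the direct product of SL(3, 2) and the alternating group of degree 6. -/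
theorem result {G : Type*} [Group G] [Finite G] (z : G) (Q : Subgroup (Subgroup.centralizer ({z} : Set G))) [Q.Normal] (hF : Cfsg.IsOfLargeFischerTypeAt z Q) : ∃ V : Subgroup G, Cfsg.IsElementaryAbelian 2 V ∧ Nat.card V = 8 ∧ z ∈ V ∧ ∃ R : Subgroup G, R = (Cfsg.pCore 2 ↥(Subgroup.normalizer (V : Set G))).map (Subgroup.normalizer (V : Set G)).subtype ∧ Cfsg.IsSpecial 2 ↥R ∧ Nat.card R = 2 ^ 15 ∧ (Subgroup.center ↥R).map R.subtype = V ∧ ∃ _ : (R.subgroupOf (Subgroup.normalizer (V : Set G))).Normal, Nonempty (↥(Subgroup.normalizer (V : Set G)) ⧸ R.subgroupOf (Subgroup.normalizer (V : Set G)) ≃* Matrix.SpecialLinearGroup (Fin 3) (ZMod 2) × ↥(alternatingGroup (Fin 6))) := by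
  obtain ⟨V, _, _, q, π, x, σ, e, gs, h, g, C⟩ := CL.F24.exists_cx hF
  obtain ⟨h1, h2, Φ, h3, h4⟩ := C.struct_V
  have : (C.R.subgroupOf 𝒩(C.V3)).Normal := h4 ▸ Φ.normal_ker
  exact ⟨C.V3, C.V3_ea, C.card_V3, C.z_mem_pre _, C.R, h1.symm, h2, C.card_R,
    (CL.PG.map_center_eq _).trans C.center_R, this,
    ⟨(QuotientGroup.quotientMulEquivOfEq h4).trans (QuotientGroup.quotientKerEquivOfSurjective Φ h3)⟩⟩

end Cfsg.Agent.S5445
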