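import Cfsg.Statements.S5447
import Cfsg.Agent.Spor.F24N

set_option autoImplicit false
open Cfsg

namespace Cfsg.Agent.S5447

open CL.Even


/-- Let G be a finite group of large Fischer type at the involution z: the generalized Fitting subgroup Q of H = C_G(z) is extraspecial of order 2^13, H has normal subgroups Q ≤ H₁ ≤ H₂ with H₁/Q of order 3, H₂/H₁ the projective special unitary group of dimension 4 over the field with nine elements and H₂ of index 2 in H, and some conjugate of z other than z lies in Q. Let T be a Sylow 2-subgroup of G, A its Thompson subgroup and M = N_G(A) its normalizer. Then M controls fusion in A (elements of A conjugate in G are conjugate in M), and M has exactly two orbits on the non-identity elements of A: those conjugate to z in G and those not. -/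
theorem result {G : Type*} [Group G] [Finite G] (z : G) (Q : Subgroup (Subgroup.centralizer ({z} : Set G))) [Q.Normal] (hF : Cfsg.IsOfLargeFischerTypeAt z Q) (T : Sylow 2 G) (A M : Subgroup G) (hA : A = Cfsg.thompsonSubgroupOf 2 (T : Subgroup G)) (hM : M = Subgroup.normalizer (A : Set G)) : (∀ a ∈ A, ∀ g : G, g * a * g⁻¹ ∈ A → ∃ m ∈ M, m * a * m⁻¹ = g * a * g⁻¹) ∧ (∃ a ∈ A, a ≠ 1 ∧ IsConj z a) ∧ (∃ a ∈ A, a ≠ 1 ∧ ¬ IsConj z a) ∧ ∀ a ∈ A, ∀ b ∈ A, a ≠ 1 → b ≠ 1 → (IsConj z a ↔ IsConj z b) → ∃ m ∈ M, m * a * m⁻¹ = b := by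
  obtain ⟨V, _, _, q, π, x, σ, e, gs, h, g, C⟩ := CL.F24.exists_cx hF
  obtain ⟨k, hk⟩ := C.thompson_eq T
  obtain rfl := hA.trans hk
  subst hM
  have h1 := fun a ha m => C.fusion (B := cj k C.A) (a := a) (m := m) (CL.Loc.ea_map C.A_ea _)
    (by rw [card_cj, C.card_A]) ha
  have h2 : ∀ a : G, IsConj (k⁻¹ * a * k) a := fun a => isConj_iff.mpr ⟨k, by group⟩
  have h3 : ∀ a ∈ cj k C.A, a ≠ 1 → ¬ IsConj z a → IsConj (σ (e 5)) a := fun a ha h4 h5 =>
    (C.conj_T (mem_cj.mp ha) (fun h => h4 (isConj_one_right.mp (h ▸ h2 a))) fun h => h5 (h.trans (h2 a))).trans (h2 a)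
  refine ⟨h1, ⟨_, conj_mem_cj k C.z_mem_A, by simpa using C.ne_one, isConj_iff.mpr ⟨k, rfl⟩⟩,
    ⟨_, conj_mem_cj k C.σ5_mem.1, by simpa using C.σ5_mem.2.1,
      fun h => C.σ5_mem.2.2 (h.trans (isConj_iff.mpr ⟨k, rfl⟩).symm)⟩, fun a ha b hb a1 b1 h4 => ?_⟩
  obtain ⟨m, rfl⟩ : ∃ m, m * a * m⁻¹ = b := isConj_iff.mp (by
    by_cases h5 : IsConj z a
    exacts [h5.symm.trans (h4.mp h5), (h3 a ha a1 h5).symm.trans (h3 b hb b1 (mt h4.mpr h5))])
  exact h1 a ha m hb

end Cfsg.Agent.S5447
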