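import Cfsg.Statements.S5448
import Cfsg.Agent.Spor.F24P

set_option autoImplicit false
open scoped Pointwise
open Cfsg

namespace Cfsg.Agent.S5448

open CL.Even

/-- Let G be a finite group of large Fischer type at the involution z: the generalized Fitting subgroup Q of H = C_G(z) is extraspecial of order 2^13, H has normal subgroups Q ≤ H₁ ≤ H₂ with H₁/Q of order 3, H₂/H₁ the projective special unitary group of dimension 4 over the field with nine elements and H₂ of index 2 in H, and some conjugate of z other than z lies in Q. Let T be a Sylow 2-subgroup of G, A its Thompson subgroup, M = N_G(A) its normalizer, and t an involution of A not conjugate to z in G. Then the centralizer of t in M, modulo A, is isomorphic to the setwise stabilizer of a two-element subset of the 24 points in the Mathieu group of degree 24 (the automorphism group of the smaller Mathieu group on 22 points). -/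
theorem result {G : Type*} [Group G] [Finite G] (z : G) (Q : Subgroup (Subgroup.centralizer ({z} : Set G))) [Q.Normal] (hF : Cfsg.IsOfLargeFischerTypeAt z Q) (T : Sylow 2 G) (A M : Subgroup G) (hA : A = Cfsg.thompsonSubgroupOf 2 (T : Subgroup G)) (hM : M = Subgroup.normalizer (A : Set G)) (t : G) (htA : t ∈ A) (ht2 : orderOf t = 2) (ht : ¬ IsConj z t) : ∃ _ : (A.subgroupOf (M ⊓ Subgroup.centralizer ({t} : Set G))).Normal, Nonempty (↥(M ⊓ Subgroup.centralizer ({t} : Set G)) ⧸ A.subgroupOf (M ⊓ Subgroup.centralizer ({t} : Set G)) ≃* ↥(Cfsg.M24 ⊓ MulAction.stabilizer (Equiv.Perm Cfsg.GolayPt) ({none, some 0} : Set Cfsg.GolayPt))) := by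
  obtain ⟨V, _, _, q, π, x, σ, e, gs, h, g, C⟩ := CL.F24.exists_cx hF
  obtain ⟨k, hk⟩ := C.thompson_eq T
  obtain rfl := hA.trans hk
  subst hM
  obtain ⟨f, hf, μ, h1, h2, h3⟩ := C.exists_mu k
  obtain ⟨s, h4, rfl⟩ := hf.exists_duad htA (fun h => by simp [h] at ht2) ht
  have h5 : ({none, some 0} : Finset GolayPt).card = 2 := Finset.card_pair (by simp)
  have h6 : Even s.card := by rw [h4]; decide
  obtain ⟨y, h7⟩ : ∃ y : M24, y • s = {none, some 0} := by
    obtain ⟨P, y, a1, a2⟩ := CL.J4.exists_vcols_eq (CL.J4.vc_lt s) (CL.J4.vc_lt {none, some 0})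
      (by rw [CL.J4.wt_vc h6 (by omega), CL.J4.wt_vc (by rw [h5]; decide) (by omega), h4, h5])
    exact ⟨y, CL.J4.eq_of_vc_eq (by rwa [Finset.card_smul_finset]) h5 (CL.J4.vcols_vc a1 h6 ▸ a2)⟩
  have h8 : ∀ m : 𝒩(cj k C.A), (m : G) ∈ Subgroup.centralizer {f (CL.J4.vc s)} ↔ ((y * μ m * y⁻¹ : M24) : Equiv.Perm GolayPt) ∈
      MulAction.stabilizer (Equiv.Perm GolayPt) ({none, some 0} : Set GolayPt) := fun m => by
    rw [Subgroup.mem_centralizer_singleton_iff, ← mul_inv_eq_iff_eq_mul, h3 m s h6, MulAction.mem_stabilizer_iff,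
      ← Finset.coe_pair, ← Finset.coe_smul_finset, Finset.coe_inj, ← Subgroup.smul_def, ← h7, mul_smul, inv_smul_smul,
      mul_smul, smul_left_cancel_iff]
    exact ⟨fun h => CL.J4.eq_of_vc_eq (by rwa [Finset.card_smul_finset]) h4 (hf.inj (CL.J4.vc_lt _) (CL.J4.vc_lt _) h),
      fun h => by rw [h]⟩
  let ν := (M24.subtype.comp ((MulAut.conj y).toMonoidHom.comp (μ.comp (Subgroup.inclusion
    (inf_le_left (b := Subgroup.centralizer {f (CL.J4.vc s)})))))).codRestrict (M24 ⊓ MulAction.stabilizer _ _)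
    fun m => ⟨SetLike.coe_mem _, (h8 _).mp m.2.2⟩
  have h9 : (cj k C.A).subgroupOf _ = ν.ker := Subgroup.ext fun m => (h2 ⟨m, m.2.1⟩).symm.trans
    (conj_eq_one_iff (a := y).symm.trans (Subtype.ext_iff.trans (Subtype.ext_iff (a1 := ν m) (a2 := 1)).symm))
  have : ((cj k C.A).subgroupOf (𝒩(cj k C.A) ⊓ Subgroup.centralizer {f (CL.J4.vc s)})).Normal := h9 ▸ ν.normal_ker
  refine ⟨this, ⟨(QuotientGroup.quotientMulEquivOfEq h9).trans
    (QuotientGroup.quotientKerEquivOfSurjective ν fun u => ?_)⟩⟩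
  obtain ⟨m, hm⟩ := h1 (y⁻¹ * ⟨u, u.2.1⟩ * y)
  have h10 : ((y * μ m * y⁻¹ : M24) : Equiv.Perm GolayPt) = u := by rw [hm]; simp [mul_assoc]
  exact ⟨⟨m, m.2, (h8 m).mpr (h10 ▸ u.2.2)⟩, Subtype.ext h10⟩

end Cfsg.Agent.S5448
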