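import Cfsg.Statements.S5451
import Cfsg.Agent.Spor.F24K

set_option autoImplicit false
open Cfsg

namespace Cfsg.Agent.S5451

open CL.Even


/-- Let G be a finite group of large Fischer type at the involution z: the generalized Fitting subgroup Q of H = C_G(z) is extraspecial of order 2^13, H has normal subgroups Q ≤ H₁ ≤ H₂ with H₁/Q of order 3, H₂/H₁ the projective special unitary group of dimension 4 over the field with nine elements and H₂ of index 2 in H, and some conjugate of z other than z lies in Q. Let X be a subgroup of H of order 3 whose product with Q is normal in H (X maps onto the normal subgroup of order 3 of H/Q). Then the centralizer of X in H is quasisimple with cyclic centre of order 6 and central quotient isomorphic to the projective special unitary group of dimension 4 over the field with nine elements. -/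
theorem result {G : Type*} [Group G] [Finite G] (z : G) (Q : Subgroup (Subgroup.centralizer ({z} : Set G))) [Q.Normal] (hF : Cfsg.IsOfLargeFischerTypeAt z Q) (X : Subgroup (Subgroup.centralizer ({z} : Set G))) (hX : Nat.card X = 3) (hXQ : (X ⊔ Q).Normal) : Cfsg.IsQuasisimple ↥(Subgroup.centralizer ((X : Subgroup (Subgroup.centralizer ({z} : Set G))) : Set (Subgroup.centralizer ({z} : Set G)))) ∧ IsCyclic ↥(Subgroup.center ↥(Subgroup.centralizer ((X : Subgroup (Subgroup.centralizer ({z} : Set G))) : Set (Subgroup.centralizer ({z} : Set G))))) ∧ Nat.card ↥(Subgroup.center ↥(Subgroup.centralizer ((X : Subgroup (Subgroup.centralizer ({z} : Set G))) : Set (Subgroup.centralizer ({z} : Set G))))) = 6 ∧ ∃ (K : Type) (_ : Field K) (_ : Fintype K), Fintype.card K = 9 ∧ Nonempty (↥(Subgroup.centralizer ((X : Subgroup (Subgroup.centralizer ({z} : Set G))) : Set (Subgroup.centralizer ({z} : Set G)))) ⧸ Subgroup.center ↥(Subgroup.centralizer ((X : Subgroup (Subgroup.centralizer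 ({z} : Set G))) : Set (Subgroup.centralizer ({z} : Set G)))) ≃* Cfsg.PSU 4 K 3) := by
  obtain ⟨V, _, _, q, π, e, gs, h, Y, M, hg, K, _, _, hK, φ, hφ, hk⟩ := CL.F24.exists_model hF
  have : Fact (Nat.Prime 3) := ⟨Nat.prime_three⟩
  have := CL.Uni.isSimpleGroup_PSU (q := 3) hK (n := 4) (by norm_num) (by norm_num)
  have hS : ¬ IsMulCommutative (PSU 4 K 3) := fun h =>
    absurd (CL.F24.card_U43 hK ▸ Group.is_simple_iff_prime_card.mp this : Nat.Prime 3265920) (by norm_num)
  have k : ∀ y ∈ X, y ≠ 1 → y ^ 3 = 1 ∧ Subgroup.zpowers y = X := fun y hy h1 => by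
    have h2 : y ^ 3 = 1 := hX ▸ congrArg Subtype.val (pow_card_eq_one' (x := (⟨y, hy⟩ : X)))
    exact ⟨h2, Subgroup.eq_of_le_of_card_ge (Subgroup.zpowers_le.mpr hy)
      (by rw [hX, Nat.card_zpowers, orderOf_eq_prime h2 h1])⟩
  obtain ⟨y, hy, y1⟩ := X.bot_or_exists_ne_one.resolve_left fun h => by simp [h] at hX
  obtain ⟨y3, rfl⟩ := k y hy y1
  have h1 : QuotientGroup.mk' Q y ∈ CL.F24.LL gs := by
    have := pow_mem (Subgroup.sq_mem_of_index_two M.index_LL (QuotientGroup.mk' Q y)) 2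
    rwa [← pow_mul, ← map_pow, pow_succ, y3, one_mul] at this
  have h2 : (Subgroup.zpowers (φ ⟨_, h1⟩)).Normal := ⟨by
    rintro _ ⟨n, rfl⟩ s
    obtain ⟨⟨γ, hγ⟩, rfl⟩ := hφ s
    have := (hXQ.map _ (QuotientGroup.mk'_surjective Q)).conj_mem _
      (Subgroup.mem_map_of_mem _ (Subgroup.mem_sup_left (Subgroup.zpow_mem_zpowers y n))) γ
    rw [Subgroup.map_sup, QuotientGroup.map_mk'_self, sup_bot_eq, MonoidHom.map_zpowers] at this
    obtain ⟨m, hm⟩ := this
    exact ⟨m, by simpa using congrArg φ (show (⟨_, h1⟩ : CL.F24.LL gs) ^ m = ⟨γ, hγ⟩ * ⟨_, h1⟩ ^ n * ⟨γ, hγ⟩⁻¹ from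
      Subtype.ext hm)⟩⟩
  have h3 := (hk _).mp (Subgroup.zpowers_eq_bot.mp (h2.eq_bot_or_eq_top.resolve_right fun h =>
    hS (isCyclic_iff_exists_zpowers_eq_top.mpr ⟨_, h⟩).isMulCommutative))
  have h4 : QuotientGroup.mk' Q y ≠ 1 := fun h => y1 (Subtype.ext (eq_one_of_coprime_of_mem Y.isPGroup
    (by rw [Subgroup.orderOf_coe, orderOf_eq_prime y3 y1]; norm_num) ((Y.ρ_eq_one y).mp h)))
  obtain ⟨n, hn⟩ := (Subgroup.eq_of_le_of_card_ge (Subgroup.zpowers_le.mpr h3) (by
    rw [Nat.card_zpowers, Nat.card_zpowers, orderOf_eq_prime M.x3 M.x_ne_one,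
      orderOf_eq_prime (p := 3) (by rw [← map_pow, y3, map_one]) h4])).ge (Subgroup.mem_zpowers _)
  have h5 : QuotientGroup.mk' Q (y ^ n) = CL.F24.wd gs [0] := (map_zpow _ _ _).trans hn
  obtain ⟨h6, h7⟩ := k (y ^ n) ⟨n, rfl⟩ fun h => M.x_ne_one (by rw [← h5, h, map_one])
  obtain ⟨σ, g, C⟩ := Y.exists_cx M hg h6 h5
  obtain ⟨a1, ⟨t, a2, a3⟩, ⟨ι⟩⟩ := C.cent_x hS φ hφ hk (K := Subgroup.centralizer (Subgroup.zpowers y))
    (by rw [← h7, Subgroup.zpowers_eq_closure, Subgroup.centralizer_closure])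
  exact ⟨⟨a1, ι.isSimpleGroup⟩, a3 ▸ inferInstance, by rw [a3, Nat.card_zpowers, a2], K, _, _, hK, ⟨ι⟩⟩

end Cfsg.Agent.S5451
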