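import Cfsg.Statements.S5459
import Cfsg.Agent.Spor.TT2
import Cfsg.Agent.Loc.Quasisimple

set_option autoImplicit false
open Cfsg

namespace Cfsg.Agent.S5459

/-- Let G be a finite group with a quasisimple normal subgroup L and an involution d such that G is generated by L and d, the centre of L has odd order, and d inverts every element of the centre of L. If the commuting graph on the conjugacy class of the image of d in G modulo the centre of L is connected, then the commuting graph on the conjugacy class of d is connected. -/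
theorem result {G : Type*} [Group G] [Finite G] (L : Subgroup G) [L.Normal] (hL : Cfsg.IsQuasisimple ↥L) (d : G) (hd : orderOf d = 2) (hgen : L ⊔ Subgroup.zpowers d = ⊤) (hodd : Odd (Nat.card ↥(Subgroup.center ↥L))) (hinv : ∀ c ∈ (Subgroup.center ↥L).map L.subtype, d * c * d⁻¹ = c⁻¹) [hn : ((Subgroup.center ↥L).map L.subtype).Normal] (hconn : (Cfsg.commutingGraph (conjugatesOf (QuotientGroup.mk d : G ⧸ (Subgroup.center ↥L).map L.subtype))).Connected) : (Cfsg.commutingGraph (conjugatesOf d)).Connected := by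
  set Z := (Subgroup.center ↥L).map L.subtype with hZ
  have hc : ∀ g, ∀ a ∈ conjugatesOf d, g * a * g⁻¹ ∈ conjugatesOf d := fun g a ha =>
    IsConj.trans ha (isConj_iff.2 ⟨g, rfl⟩)
  have hd2 : d * d = 1 := by rw [← pow_two, ← hd, pow_orderOf_eq_one]
  have h2 : ∀ a ∈ conjugatesOf d, a * a = 1 := fun a ha => by
    obtain ⟨g, rfl⟩ := isConj_iff.1 ha
    rw [conj_mul, hd2, mul_one, mul_inv_cancel]
  have hZL : ∀ z ∈ Z, ∀ y ∈ L, y * z = z * y := by
    rintro _ ⟨z, hz, rfl⟩ y hy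
    exact congrArg Subtype.val (Subgroup.mem_center_iff.1 hz ⟨y, hy⟩)
  have hZle : Z ≤ L := Subgroup.map_subtype_le _
  have hinv' : ∀ a ∈ conjugatesOf d, ∀ z ∈ Z, a * z * a⁻¹ = z⁻¹ := fun a ha z hz => by
    obtain ⟨g, rfl⟩ := isConj_iff.1 ha
    have h3 : g⁻¹ * z * g⁻¹⁻¹ ∈ Z := hn.conj_mem z hz _
    calc _ = g * (d * (g⁻¹ * z * g⁻¹⁻¹) * d⁻¹) * g⁻¹ := by group
      _ = _ := by rw [hinv _ h3]; group
  have hsq : ∀ z ∈ Z, ∃ w ∈ Z, w * w = z := fun z hz => by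
    obtain ⟨k, hk⟩ := hodd
    rw [← Subgroup.card_map_of_injective L.subtype_injective] at hk
    have h3 : z ^ (2 * k + 1) = 1 := by
      have := congrArg Subtype.val (pow_card_eq_one' (x := (⟨z, hz⟩ : Z)))
      rwa [hk] at this
    exact ⟨z ^ (k + 1), Z.pow_mem hz _, by
      rw [← pow_add, show k + 1 + (k + 1) = 2 * k + 1 + 1 by ring, pow_succ, h3, one_mul]⟩
  have hmul : ∀ a ∈ conjugatesOf d, ∀ z ∈ Z, ∃ w ∈ Z, w⁻¹ * a * w⁻¹⁻¹ = a * z := fun a ha z hz => by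
    obtain ⟨w, hw, rfl⟩ := hsq z hz
    exact ⟨w, hw, by rw [inv_inv, ← hinv' a ha w hw]; group⟩
  have hne : (conjugatesOf d).Nonempty := ⟨d, IsConj.refl d⟩
  replace hconn := (CL.TT.commConn_iff (D := conjugatesOf (d : G ⧸ Z)) ⟨d, IsConj.refl _⟩).2 hconn
  -- the component of `d`
  let H : Subgroup G :=
    { carrier := {g | ∀ S ⊆ conjugatesOf d, (∀ a ∈ S, ∀ b ∈ conjugatesOf d, Commute a b → b ∈ S) →
        ∀ k : G, (k * d * k⁻¹ ∈ S ↔ k * g * d * (k * g)⁻¹ ∈ S)}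
      one_mem' := fun S _ _ k => by rw [mul_one]
      mul_mem' := fun {a b} ha hb S h1 h2 k => by rw [ha S h1 h2 k, hb S h1 h2 (k * a), mul_assoc k a b]
      inv_mem' := fun {a} ha S h1 h2 k => by rw [ha S h1 h2 (k * a⁻¹), inv_mul_cancel_right] }
  have hHZ : ∀ g : G, ∃ z ∈ Z, g * z ∈ H := by
    let T : Set (G ⧸ Z) := {q | ∃ g ∈ H, q = ((g * d * g⁻¹ : G) : G ⧸ Z)}
    have hT := hconn T ?_ ⟨_, 1, H.one_mem, rfl⟩ ?_
    · intro g
      have : ((g * d * g⁻¹ : G) : G ⧸ Z) ∈ T := hT ▸ isConj_iff.2 ⟨g, rfl⟩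
      obtain ⟨h, hh, e⟩ := this
      obtain ⟨w, hw, e'⟩ := hmul _ (hc g d (IsConj.refl d)) _ (QuotientGroup.eq.1 e)
      rw [mul_inv_cancel_left] at e'
      refine ⟨g⁻¹ * w⁻¹ * g⁻¹⁻¹, hn.conj_mem _ (Z.inv_mem hw) _, fun S h1 h2 k => ?_⟩
      rw [hh S h1 h2 k, show k * h * d * (k * h)⁻¹ = k * (h * d * h⁻¹) * k⁻¹ by group, ← e']
      group
    · rintro _ ⟨g, -, rfl⟩
      exact isConj_iff.2 ⟨g, rfl⟩
    · rintro _ ⟨g, hg, rfl⟩ q hq hcomm
      obtain ⟨k, rfl⟩ := isConj_iff.1 hq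
      obtain ⟨k, rfl⟩ := QuotientGroup.mk_surjective k
      have ha := hc g d (IsConj.refl d)
      have hb := hc k d (IsConj.refl d)
      set a := g * d * g⁻¹ with hadef
      set b := k * d * k⁻¹ with hbdef
      have h3 : a * b * (a * b) ∈ Z := by
        rw [← QuotientGroup.eq_one_iff]
        have h4 : (a : G ⧸ Z) * b = b * a := hcomm.eq
        rw [QuotientGroup.mk_mul, QuotientGroup.mk_mul]
        nth_rw 1 [h4]
        rw [mul_assoc, ← mul_assoc (a : G ⧸ Z), ← QuotientGroup.mk_mul, h2 a ha]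
        simp [← QuotientGroup.mk_mul, h2 b hb]
      obtain ⟨w, hw, e⟩ := hsq _ (Z.inv_mem h3)
      obtain ⟨v, hv, e'⟩ := hmul b hb w hw
      have hb' : b * w ∈ conjugatesOf d := e' ▸ hc _ b hb
      have h4 : a * b * w * (a * b)⁻¹ = w := by
        rw [show a * b * w * (a * b)⁻¹ = a * (b * w * b⁻¹) * a⁻¹ by group, hinv' b hb w hw,
          hinv' a ha _ (Z.inv_mem hw), inv_inv]
      have h5 : Commute a (b * w) := CL.TT.commute_of_sq (h2 a ha) (h2 _ hb') (by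
        calc (a * (b * w)) ^ 2 = a * b * w * (a * b)⁻¹ * (a * b * (a * b)) * w := by rw [pow_two]; group
          _ = 1 := by rw [h4, ← inv_inv (a * b * (a * b)), ← e]; group)
      refine ⟨v⁻¹ * k, fun S h1 h2 j => ?_, ?_⟩
      · have h6 : j * (v⁻¹ * k) * d * (j * (v⁻¹ * k))⁻¹ = j * (b * w) * j⁻¹ := by rw [← e', hbdef]; group
        have h7 : j * g * d * (j * g)⁻¹ = j * a * j⁻¹ := by rw [hadef]; group
        have h8 := (CL.TT.commute_conj_iff j _ _).2 h5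
        rw [hg S h1 h2 j, h6, h7]
        exact ⟨fun h => h2 _ h _ (hc j _ hb') h8, fun h => h2 _ h _ (hc j _ ha) h8.symm⟩
      · rw [show v⁻¹ * k * d * (v⁻¹ * k)⁻¹ = v⁻¹ * b * v⁻¹⁻¹ by rw [hbdef]; group, e', QuotientGroup.mk_mul_of_mem b hw]
        rfl
  have hLH : L ≤ H := by
    have h3 : ⁅L, L⁆ = L := (CL.Loc.isQuasisimple_subgroup_iff.1 hL).1
    refine h3.ge.trans (Subgroup.commutator_le.2 fun a ha b hb => ?_)
    obtain ⟨z, hz, h4⟩ := hHZ a
    obtain ⟨w, hw, h5⟩ := hHZ b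
    have : a * b * a⁻¹ * b⁻¹ = a * z * (b * w) * (a * z)⁻¹ * (b * w)⁻¹ := by
      have h6 := hZL z hz _ (L.mul_mem hb (hZle hw))
      have h7 := hZL w hw _ (L.inv_mem ha)
      calc _ = a * (b * (a⁻¹ * w) * w⁻¹) * b⁻¹ := by group
        _ = a * (b * w * z) * z⁻¹ * a⁻¹ * (b * w)⁻¹ := by rw [h7]; group
        _ = _ := by rw [h6]; group
    rw [commutatorElement_def, this]
    exact H.mul_mem (H.mul_mem (H.mul_mem h4 h5) (H.inv_mem h4)) (H.inv_mem h5)
  have hH : ∀ g, g ∈ H := fun g => by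
    obtain ⟨z, hz, h⟩ := hHZ g
    exact (H.mul_mem_cancel_right (hLH (hZle hz))).1 h
  rw [← CL.TT.commConn_iff hne]
  rintro S hS ⟨s, hs⟩ hcl
  refine hS.antisymm fun b hb => ?_
  obtain ⟨k, rfl⟩ := isConj_iff.1 (hS hs)
  obtain ⟨g, rfl⟩ := isConj_iff.1 hb
  simpa using (hH (k⁻¹ * g) S hS hcl k).1 hs

end Cfsg.Agent.S5459
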