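import Cfsg.Statements.S5516
import Cfsg.Agent.Cls.OThree3

set_option autoImplicit false
open Cfsg

namespace Cfsg.Agent.S5516

open CL.Cls


/-- PΩ⁺(8, 3) (the commutator subgroup of the isometry group of the hyperbolic quadratic form in dimension 8 over the field with three elements, modulo its centre) has exactly 13 conjugacy classes of subgroups of order 3; and a finite group G whose generalized Fitting subgroup L is isomorphic to PΩ⁺(8, 3) with G/L the symmetric group of degree 3 has exactly 7 orbits, under conjugation, on the subgroups of L of order 3. -/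
theorem result {G : Type*} [Group G] [Finite G] (L : Subgroup G) (hL : L = Cfsg.generalizedFittingSubgroup G) (hF : Nonempty (↥L ≃* Cfsg.POmega (ZMod 3) (Cfsg.quadFormPlus 4 (ZMod 3)))) [hn : L.Normal] (hq : Nonempty (G ⧸ L ≃* Equiv.Perm (Fin 3))) : (∃ Y : Fin 13 → Subgroup (Cfsg.POmega (ZMod 3) (Cfsg.quadFormPlus 4 (ZMod 3))), (∀ i, Nat.card (Y i) = 3) ∧ (∀ i j, (∃ g : Cfsg.POmega (ZMod 3) (Cfsg.quadFormPlus 4 (ZMod 3)), (Y i).map (MulAut.conj g).toMonoidHom = Y j) → i = j) ∧ (∀ X : Subgroup (Cfsg.POmega (ZMod 3) (Cfsg.quadFormPlus 4 (ZMod 3))), Nat.card X = 3 → ∃ i, ∃ g : Cfsg.POmega (ZMod 3) (Cfsg.quadFormPlus 4 (ZMod 3)), X.map (MulAut.conj g).toMonoidHom = Y i)) ∧ ∃ Y : Fin 7 → Subgroup G, (∀ i, Y i ≤ L ∧ Nat.card (Y i) = 3) ∧ (∀ i j, (∃ g : G, (Y i).map (MulAut.conj g).toMonoidHom = Y j) → i = j) ∧ ∀ X : Subgroup G, X ≤ L → Nat.card X = 3 → ∃ i, ∃ g : G, X.map (MulAut.conj g).toMonoidHom = Y i := by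
  obtain ⟨e⟩ := hF
  obtain ⟨r, hr⟩ := exists_cl3_plus_four
  obtain ⟨ψ, -, h1, h2, h3⟩ := exists_hom_of_fstar hL (e.trans (pomegaEquiv (qfPlus 4 (ZMod 3)))) hq
  obtain ⟨r', hr'⟩ := exists_cl3_tri h2 h3
  exact ⟨hr.subgroups_inn (pomegaEquiv (qfPlus 4 (ZMod 3))), hr'.subgroups _ ψ h1⟩

end Cfsg.Agent.S5516
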