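import Cfsg.Statements.S5517
import Cfsg.Agent.Spor.T22O7
import Cfsg.Agent.Spor.T22P3

set_option autoImplicit false
open Cfsg

namespace Cfsg.Agent.S5517

/-- Let G be a finite group with trivial centre generated by a conjugation-invariant set D of 3-transpositions on which it acts primitively, such that for some d in D the subgroup generated by the members of D other than d commuting with d has central largest normal 2- and 3-subgroups, and suppose G with D is of type M(22). Then G has a subgroup L generated by the members of D it contains and isomorphic to Ω(7, 3) (the commutator subgroup of the isometry group of a non-degenerate 7-dimensional quadratic form over the field with three elements, modulo its centre), and every Sylow 3-subgroup of L is a Sylow 3-subgroup of G. -/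
theorem result {G : Type*} [Group G] [Finite G] {D : Set G} (hD : Cfsg.IsThreeTranspositionGroup D) (hprim : Cfsg.IsPrimitiveUnderConj D) (d₀ : G) (hd₀ : d₀ ∈ D) (h3 : Cfsg.pCore 3 ↥(Subgroup.closure {y : G | y ∈ D ∧ y ≠ d₀ ∧ Commute d₀ y}) ≤ Subgroup.center ↥(Subgroup.closure {y : G | y ∈ D ∧ y ≠ d₀ ∧ Commute d₀ y})) (h2 : Cfsg.pCore 2 ↥(Subgroup.closure {y : G | y ∈ D ∧ y ≠ d₀ ∧ Commute d₀ y}) ≤ Subgroup.center ↥(Subgroup.closure {y : G | y ∈ D ∧ y ≠ d₀ ∧ Commute d₀ y})) (h22 : Cfsg.IsOfTypeM22 G D) : ∃ L : Subgroup G, Cfsg.IsDSubgroup D L ∧ Nonempty (↥L ≃* Cfsg.POmega (ZMod 3) (Cfsg.quadFormOdd 3 (ZMod 3))) ∧ ∀ P : Sylow 3 ↥L, ∃ P' : Sylow 3 G, (P : Subgroup ↥L).map L.subtype = (P' : Subgroup G) := by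
  obtain ⟨e, gs0, m0⟩ := CL.T22.exists_model hD h22
  have m := CL.T22.o7md m0
  generalize CL.PG.ext gs0 CL.T22.o7ws = gs at m
  have hT : CL.PG.mapL Prod.snd CL.T22.o7t_T = [[2], [4], [6], [8], [10], [12], [14], [16]] := by decide +kernel
  refine ⟨CL.PG.subW gs [[2], [4], [6], [8], [10], [12], [14], [16]], ?_, ?_, fun S => ?_⟩
  · have h := (CL.T22.o7t m).closure_inter m.t
    rw [hT] at h
    exact h
  · obtain ⟨f⟩ := CL.T22.o7iso m.c
    obtain ⟨g⟩ := CL.Std.O73.iso (F := ZMod 3) (ZMod.card 3)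
    exact ⟨f.trans g⟩
  · have h1 : Nat.card (S.toSubgroup.map (Subgroup.subtype _)) = 3 ^ 9 := by
      rw [Subgroup.card_map_of_injective (Subgroup.subtype_injective _), Sylow.card_eq_multiplicity,
        CL.T22.o7L_card m.c, CL.PG.fact_eq (k := 9) (m := 232960) Nat.prime_three (by norm_num) (by norm_num)]
    rw [← CL.T22.fact3, ← m.t.card] at h1
    exact ⟨Sylow.ofCard _ h1, rfl⟩

end Cfsg.Agent.S5517
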