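import Cfsg.Statements.S5519
import Cfsg.Agent.Spor.Fi22R3

set_option autoImplicit false
open Cfsg

namespace Cfsg.Agent.S5519

/-- Let G be a finite group with trivial centre generated by a conjugation-invariant set D of 3-transpositions on which it acts primitively, such that for some d in D the subgroup generated by the members of D other than d commuting with d has central largest normal 2- and 3-subgroups, and suppose G with D is of type M(22). Let d₁, d₂ be distinct commuting members of D and C the centralizer of their product. Then the generalized Fitting subgroup of C is the direct product of a group of order 2 and an extraspecial 2-group of order 2^9, and C modulo it is isomorphic to the full isometry group of the elliptic quadratic form in dimension 6 over the field with two elements. -/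
theorem result {G : Type*} [Group G] [Finite G] {D : Set G} (hD : Cfsg.IsThreeTranspositionGroup D) (hprim : Cfsg.IsPrimitiveUnderConj D) (d₀ : G) (hd₀ : d₀ ∈ D) (h3 : Cfsg.pCore 3 ↥(Subgroup.closure {y : G | y ∈ D ∧ y ≠ d₀ ∧ Commute d₀ y}) ≤ Subgroup.center ↥(Subgroup.closure {y : G | y ∈ D ∧ y ≠ d₀ ∧ Commute d₀ y})) (h2 : Cfsg.pCore 2 ↥(Subgroup.closure {y : G | y ∈ D ∧ y ≠ d₀ ∧ Commute d₀ y}) ≤ Subgroup.center ↥(Subgroup.closure {y : G | y ∈ D ∧ y ≠ d₀ ∧ Commute d₀ y})) (h22 : Cfsg.IsOfTypeM22 G D) (d₁ d₂ : G) (h₁ : d₁ ∈ D) (h₂ : d₂ ∈ D) (hne : d₁ ≠ d₂) (hc : Commute d₁ d₂) (C : Subgroup G) (hC : C = Subgroup.centralizer ({d₁ * d₂} : Set G)) [hn : (Cfsg.generalizedFittingSubgroup ↥C).Normal] : (∃ (E : Type) (_ : Group E) (_ : Finite E), Cfsg.IsExtraspecial 2 E ∧ Nat.card E = 2 ^ 9 ∧ Nonempty (↥(Cfsg.generalizedFittingSubgroup ↥C) ≃* Multiplicative (ZMod 2) × E)) ∧ Nonempty (↥C ⧸ Cfsg.generalizedFittingSubgroup ↥C ≃* Cfsg.isometryGroup (ZMod 2) (Cfsg.quadFormMinus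 2 (ZMod 2) 1 1)) := by
  obtain ⟨e, gs, M⟩ := CL.F22.exists_mod hD h22
  obtain ⟨e', gs', M', rfl, rfl⟩ := M.wlog2 h₁ h₂ hne hc
  obtain ⟨xs, X⟩ := M'.le
  subst hC
  refine ⟨?_, (X.quo2.congr (CL.Std.O6m2.iso (ZMod.card 2))).equiv_of_map X.fstar2⟩
  let ψ : Shrink.{0} (CL.PG.subW xs CL.F22.LF) ≃* CL.PG.subW xs CL.F22.LF := Shrink.mulEquiv
  exact ⟨_, inferInstance, Finite.of_equiv _ ψ.toEquiv.symm, CL.PG.isExtraspecial_congr ψ.symm (CL.F22.eextra X.f.ctx),
    (Nat.card_congr ψ.toEquiv).trans (CL.F22.eF_card X.f.ctx),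
    ⟨((CL.PG.equiv_of_map X.fstar2).some.trans X.prod2.some).trans ((MulEquiv.refl _).prodCongr ψ.symm)⟩⟩


end Cfsg.Agent.S5519
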