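import Cfsg.Statements.S5520
import Cfsg.Agent.Spor.F24E
-- import your own Cfsg.Agent.* helpers here

set_option autoImplicit false
open Cfsg

namespace Cfsg.Agent.S5520

/-- In the special unitary group of dimension 6 over the field with four elements (determinant-one matrices preserving the standard Hermitian form), the subgroups K whose centre has order 3 with K modulo its centre isomorphic to the projective special unitary group of dimension 4 over the field with nine elements fall into exactly three conjugacy classes. -/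
theorem result (F : Type) [Field F] [Fintype F] (hF : Fintype.card F = 4) (F9 : Type) [Field F9] [Fintype F9] (hF9 : Fintype.card F9 = 9) : ∃ K₁ K₂ K₃ : Subgroup ↥(Cfsg.SU 6 F 2), (∀ K ∈ [K₁, K₂, K₃], Nat.card ↥(Subgroup.center ↥K) = 3 ∧ Nonempty (↥K ⧸ Subgroup.center ↥K ≃* Cfsg.PSU 4 F9 3)) ∧ (¬ ∃ g : ↥(Cfsg.SU 6 F 2), K₁.map (MulAut.conj g).toMonoidHom = K₂) ∧ (¬ ∃ g : ↥(Cfsg.SU 6 F 2), K₁.map (MulAut.conj g).toMonoidHom = K₃) ∧ (¬ ∃ g : ↥(Cfsg.SU 6 F 2), K₂.map (MulAut.conj g).toMonoidHom = K₃) ∧ ∀ K : Subgroup ↥(Cfsg.SU 6 F 2), Nat.card ↥(Subgroup.center ↥K) = 3 → Nonempty (↥K ⧸ Subgroup.center ↥K ≃* Cfsg.PSU 4 F9 3) → ∃ g : ↥(Cfsg.SU 6 F 2), K.map (MulAut.conj g).toMonoidHom = K₁ ∨ K.map (MulAut.conj g).toMonoidHom = K₂ ∨ K.map (MulAut.conj g).toMonoidHom = K₃ := by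
  obtain ⟨el, h⟩ := CL.PG.Tab.exists_fc CL.PG.t4 CL.PG.t4_field F hF
  have h0 : el 2 ≠ 0 := fun e => absurd (h.inj 2 (by decide) 0 (by decide) (e.trans h.zero.symm)) (by decide)
  have h1 : el 2 ≠ 1 := fun e => absurd (h.inj 2 (by decide) 1 (by decide) (e.trans h.one.symm)) (by decide)
  have h2 : el 2 ^ 2 ≠ 1 := fun e => absurd (h.inj 3 (by decide) 1 (by decide)
    ((CL.F24E.el_three h).1.trans (e.trans h.one.symm))) (by decide)
  refine ⟨CL.F24E.KS el 0, CL.F24E.KS el 1, CL.F24E.KS el 2, fun K hK => ?_, fun ⟨g, hg⟩ => h1 ?_, fun ⟨g, hg⟩ => h2 ?_,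
    fun ⟨g, hg⟩ => h1 ?_, fun K hz ⟨φ⟩ => ?_⟩
  · simp only [List.mem_cons, List.not_mem_nil, or_false] at hK
    rcases hK with rfl | rfl | rfl <;> exact CL.F24E.struct_KS h hF9 _
  · simpa using (CL.F24E.pow_eq_of_conj hF h hg).symm
  · simpa using (CL.F24E.pow_eq_of_conj hF h hg).symm
  · have := CL.F24E.pow_eq_of_conj hF h hg
    rw [pow_one, pow_two] at this
    exact (mul_left_cancel₀ h0 (this.symm.trans (mul_one _).symm))
  · obtain ⟨g, i, hi, e⟩ := CL.F24E.exists_conj_KS hF h K hF9 hz φ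
    refine ⟨g, ?_⟩
    interval_cases i
    exacts [.inl e, .inr (.inl e), .inr (.inr e)]

end Cfsg.Agent.S5520
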