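import Cfsg.Statements.S5541
import Cfsg.Agent.Base

set_option autoImplicit false
open Cfsg

namespace Cfsg.Agent.S5541

/-- Let ρ be a representation of a group H on a finite-dimensional real vector space U whose only ρ-invariant subspaces are the zero subspace and U, and suppose U carries a non-zero ρ-invariant symmetric bilinear form. Then the following are equivalent: (1) there is a non-zero ρ-equivariant commutative bilinear product on U of which every ρ-equivariant bilinear product is a scalar multiple; (2) there is a non-zero ρ-invariant trilinear form on U that is symmetric under all permutations of its arguments and of which every ρ-invariant trilinear form is a scalar multiple. -/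
theorem result {H : Type*} [Group H] {U : Type*} [AddCommGroup U] [Module ℝ U] [FiniteDimensional ℝ U] (ρ : Representation ℝ H U) (hirr : ∀ W : Submodule ℝ U, (∀ g : H, W.map (ρ g) ≤ W) → W = ⊥ ∨ W = ⊤) (B : LinearMap.BilinForm ℝ U) (hB0 : B ≠ 0) (hBs : ∀ u v, B u v = B v u) (hBi : ∀ (g : H) (u v : U), B (ρ g u) (ρ g v) = B u v) : (∃ m : U →ₗ[ℝ] U →ₗ[ℝ] U, m ≠ 0 ∧ (∀ u v, m u v = m v u) ∧ (∀ (g : H) (u v : U), m (ρ g u) (ρ g v) = ρ g (m u v)) ∧ ∀ m' : U →ₗ[ℝ] U →ₗ[ℝ] U, (∀ (g : H) (u v : U), m' (ρ g u) (ρ g v) = ρ g (m' u v)) → ∃ c : ℝ, m' = c • m) ↔ (∃ t : U →ₗ[ℝ] U →ₗ[ℝ] U →ₗ[ℝ] ℝ, t ≠ 0 ∧ (∀ u v w, t u v w = t v u w ∧ t u v w = t u w v) ∧ (∀ (g : H) (u v w : U), t (ρ g u) (ρ g v) (ρ g w) = t u v w) ∧ ∀ t' : U →ₗ[ℝ] U →ₗ[ℝ] U →ₗ[ℝ] ℝ, (∀ (g : H) (u v w : U), t' (ρ g u) (ρ g v) (ρ g w) = t' u v w) → ∃ c : ℝ, t' = c • t) := by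
  have hsep : ∀ u : U, (∀ v, B u v = 0) → u = 0 := by
    have hinv : ∀ g : H, (LinearMap.ker B).map (ρ g) ≤ LinearMap.ker B := by
      rintro g _ ⟨u, hu, rfl⟩
      have hu' : B u = 0 := hu
      refine LinearMap.mem_ker.mpr (LinearMap.ext fun v => ?_)
      have : ρ g (ρ g⁻¹ v) = v := by
        rw [← Module.End.mul_apply, ← map_mul, mul_inv_cancel, map_one, Module.End.one_apply]
      rw [← this, hBi, hu']
      simp
    rcases hirr _ hinv with h | h
    · intro u hu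
      have : u ∈ LinearMap.ker B := LinearMap.mem_ker.mpr (LinearMap.ext hu)
      rw [h] at this
      exact this
    · exact absurd (LinearMap.ker_eq_top.mp h) hB0
  have hnd : B.Nondegenerate := ⟨hsep, fun u hu => hsep u fun v => by rw [hBs]; exact hu v⟩
  have hsurj : ∀ (g : H) (v : U), ρ g (ρ g⁻¹ v) = v := fun g v => by
    rw [← Module.End.mul_apply, ← map_mul, mul_inv_cancel, map_one, Module.End.one_apply]
  let e := B.toDual hnd
  have he : ∀ (f : Module.Dual ℝ U) (v : U), B (e.symm f) v = f v := fun f v =>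
    LinearMap.BilinForm.apply_toDual_symm_apply f v
  let T : (U →ₗ[ℝ] U →ₗ[ℝ] U) → (U →ₗ[ℝ] U →ₗ[ℝ] U →ₗ[ℝ] ℝ) := fun m => m.compr₂ B
  let M : (U →ₗ[ℝ] U →ₗ[ℝ] U →ₗ[ℝ] ℝ) → (U →ₗ[ℝ] U →ₗ[ℝ] U) := fun t =>
    t.compr₂ (e.symm : Module.Dual ℝ U →ₗ[ℝ] U)
  have hT : ∀ m u v w, T m u v w = B (m u v) w := fun _ _ _ _ => rfl
  have hM : ∀ t u v w, B (M t u v) w = t u v w := fun t u v w => he _ _
  have ext' : ∀ x y : U, (∀ w, B x w = B y w) → x = y := fun x y h =>
    sub_eq_zero.mp (hsep _ fun w => by rw [map_sub, LinearMap.sub_apply, h, sub_self])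
  have hMi : ∀ t : U →ₗ[ℝ] U →ₗ[ℝ] U →ₗ[ℝ] ℝ, (∀ (g : H) (u v w : U), t (ρ g u) (ρ g v) (ρ g w) = t u v w) →
      ∀ (g : H) (u v : U), M t (ρ g u) (ρ g v) = ρ g (M t u v) := by
    intro t ht g u v
    refine ext' _ _ fun w => ?_
    rw [← hsurj g w, hM, ht, hBi, hM]
  have hTi : ∀ m : U →ₗ[ℝ] U →ₗ[ℝ] U, (∀ (g : H) (u v : U), m (ρ g u) (ρ g v) = ρ g (m u v)) →
      ∀ (g : H) (u v w : U), T m (ρ g u) (ρ g v) (ρ g w) = T m u v w := by
    intro m hm g u v w
    rw [hT, hT, hm, hBi]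
  constructor
  · rintro ⟨m, hm0, hmc, hmi, hmu⟩
    have huniq : ∀ t' : U →ₗ[ℝ] U →ₗ[ℝ] U →ₗ[ℝ] ℝ,
        (∀ (g : H) (u v w : U), t' (ρ g u) (ρ g v) (ρ g w) = t' u v w) → ∃ c : ℝ, t' = c • T m := by
      intro t' ht'
      obtain ⟨c, hc⟩ := hmu (M t') (hMi t' ht')
      refine ⟨c, ?_⟩
      ext u v w
      rw [← hM, hc]
      simp [hT]
    have ht0 : T m ≠ 0 := by
      intro h
      apply hm0
      ext u v
      refine hsep _ fun w => ?_
      rw [← hT, h]; rfl
    have s12 : ∀ u v w, T m u v w = T m v u w := fun u v w => by rw [hT, hT, hmc]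
    refine ⟨T m, ht0, fun u v w => ⟨s12 u v w, ?_⟩, hTi m hmi, huniq⟩
    obtain ⟨c, hc⟩ := huniq ((LinearMap.lflip (R := ℝ) (M := U) (N := U) (P := ℝ)).toLinearMap.comp (T m))
      (fun g u v w => hTi m hmi g u w v)
    have hc' : ∀ u v w, T m u w v = c * T m u v w := fun u v w => by
      have := congrArg (fun t : U →ₗ[ℝ] U →ₗ[ℝ] U →ₗ[ℝ] ℝ => t u v w) hc
      simpa using this
    have c3 : ∀ u v w, T m u v w = c ^ 3 * T m u v w := fun u v w => by
      calc T m u v w = c * T m u w v := hc' u w v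
        _ = c * T m w u v := by rw [s12]
        _ = c * (c * T m w v u) := by rw [hc' w v u]
        _ = c * (c * T m v w u) := by rw [s12 w v]
        _ = c * (c * (c * T m v u w)) := by rw [hc' v u w]
        _ = c ^ 3 * T m u v w := by rw [s12 v u]; ring
    have c1 : c = 1 := by
      by_contra hne
      apply ht0
      ext u v w
      have h3 : c ^ 3 ≠ 1 := fun h => hne ((pow_eq_one_iff_of_ne_zero (by norm_num)).mp h |>.resolve_right
        (by rintro ⟨-, h⟩; exact absurd h (by decide)))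
      have := c3 u v w
      have h4 : (c ^ 3 - 1) * T m u v w = 0 := by linarith
      exact (mul_eq_zero.mp h4).resolve_left (sub_ne_zero.mpr h3)
    rw [hc' u v w, c1, one_mul]
  · rintro ⟨t, ht0, hts, hti, htu⟩
    refine ⟨M t, ?_, fun u v => ext' _ _ fun w => by rw [hM, hM, (hts u v w).1], hMi t hti, fun m' hm' => ?_⟩
    · intro h
      apply ht0
      ext u v w
      rw [← hM, h]; simp
    · obtain ⟨c, hc⟩ := htu (T m') (hTi m' hm')
      refine ⟨c, ?_⟩
      ext u v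
      refine ext' _ _ fun w => ?_
      rw [← hT, hc]
      simp [hM]

end Cfsg.Agent.S5541
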