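import Cfsg.Statements.S5543
import Cfsg.Agent.Spor.Majorana

set_option autoImplicit false
open Cfsg

namespace Cfsg.Agent.S5543

/-- Let V be a finite-dimensional real vector space with a commutative bilinear product and a positive-definite symmetric bilinear form that associates with the product and satisfies the Norton inequality (the Majorana setting of the definitions). Let X be a group of linear automorphisms of V in which every element squares to the identity, and suppose every non-identity element x of X is a Majorana involution with an axial vector a(x) of squared length 1, such that for any two distinct non-identity x, y the product a(x) ∘ a(y) equals (1/8)(a(x) + a(y) − a(xy)) (the dihedral subalgebra of type 2A whose third axis belongs to the involution xy). Then X has order at most 4. -/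
theorem result {V : Type*} [AddCommGroup V] [Module ℝ V] [FiniteDimensional ℝ V] (mul : V →ₗ[ℝ] V →ₗ[ℝ] V) (B : LinearMap.BilinForm ℝ V) (hV : Cfsg.Axial.IsMajoranaAmbient mul B) (X : Subgroup (V ≃ₗ[ℝ] V)) (hX : ∀ x ∈ X, x * x = 1) (ax : (V ≃ₗ[ℝ] V) → V) (hax : ∀ x ∈ X, x ≠ 1 → Cfsg.Axial.IsMajoranaPair mul B x (ax x)) (h1 : ∀ x ∈ X, x ≠ 1 → B (ax x) (ax x) = 1) (h2A : ∀ x ∈ X, ∀ y ∈ X, x ≠ 1 → y ≠ 1 → x ≠ y → mul (ax x) (ax y) = (1 / 8 : ℝ) • (ax x + ax y - ax (x * y))) : Nat.card ↥X ≤ 4 := by
  classical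
  by_contra hlt
  have hfin : Finite X := Nat.finite_of_card_ne_zero (by omega)
  have pick : ∀ s : Finset X, s.card ≤ 4 → ∃ z : X, z ∉ s := by
    intro s hs
    by_contra hno
    push Not at hno
    have := Fintype.ofFinite X
    have h2 : (Finset.univ : Finset X) ⊆ s := fun z _ => hno z
    have h3 := Finset.card_le_card h2
    rw [Finset.card_univ, ← Nat.card_eq_fintype_card] at h3
    omega
  obtain ⟨x, hx⟩ := pick {1} (by simp)
  obtain ⟨y, hy⟩ := pick {1, x} (le_trans Finset.card_le_two (by norm_num))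
  obtain ⟨z, hz⟩ := pick {1, x, y, x * y} Finset.card_le_four
  simp only [Finset.mem_insert, Finset.mem_singleton, not_or] at hx hy hz
  have sq : ∀ u : X, u * u = 1 := fun u => Subtype.ext (hX u u.2)
  have inv : ∀ u : X, u⁻¹ = u := fun u => inv_eq_of_mul_eq_one_right (sq u)
  have cm : ∀ u v : X, u * v = v * u := fun u v => by
    rw [← inv (u * v), mul_inv_rev, inv, inv]
  have mul1 : ∀ u v : X, u ≠ v → u * v ≠ 1 := fun u v huv h => huv (by
    rw [← inv v]; exact eq_inv_of_mul_eq_one_left h)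
  let A : X → V := fun u => ax u
  have hA : ∀ u : X, u ≠ 1 → CL.Spor.Maj.Ax mul B u (A u) := fun u hu =>
    CL.Spor.Maj.ax_of_pair hV (hax u u.2 (fun h => hu (Subtype.ext h))) (h1 u u.2 (fun h => hu (Subtype.ext h)))
  have h2 : ∀ u v : X, u ≠ 1 → v ≠ 1 → u ≠ v → mul (A u) (A v) = (1 / 8 : ℝ) • (A u + A v - A (u * v)) :=
    fun u v hu hv huv => h2A u u.2 v v.2 (fun h => hu (Subtype.ext h)) (fun h => hv (Subtype.ext h))
      (fun h => huv (Subtype.ext h))
  have xx : ∀ u : X, x * (x * u) = u := fun u => by rw [← mul_assoc, sq, one_mul]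
  have beta : ∀ u : X, u ≠ 1 → u ≠ x → mul (A x) (A u - A (x * u)) = (1 / 4 : ℝ) • (A u - A (x * u)) := by
    intro u hu hux
    rw [map_sub, h2 x u hx hu hux.symm, h2 x (x * u) hx (mul1 _ _ hux.symm) (by simpa using hu), xx]
    module
  have hyz1 : y * z ≠ 1 := mul1 _ _ (Ne.symm hz.2.2.1)
  have hyzx : y * z ≠ x := by
    intro h
    apply hz.2.2.2
    rw [← h, cm y z, mul_assoc, sq, mul_one]
  have hxy1 : x * y ≠ 1 := mul1 _ _ (Ne.symm hy.2)
  have hxz1 : x * z ≠ 1 := mul1 _ _ (Ne.symm hz.2.1)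
  have f := (hA x hx).fqq _ _ (beta y hy.1 hy.2) (beta z hz.1 hz.2.1)
  have e1 : y * (x * z) = x * (y * z) := by rw [← mul_assoc, cm y x, mul_assoc]
  have e2 : x * y * (x * z) = y * z := by rw [mul_assoc, e1, xx]
  have n1 : y ≠ x * z := by
    intro h
    apply hz.2.2.2
    rw [h, xx]
  have n2 : x * y ≠ x * z := fun h => hz.2.2.1 (mul_left_cancel h).symm
  have hp : mul (A y - A (x * y)) (A z - A (x * z)) = (-1 / 4 : ℝ) • (A (y * z) - A (x * (y * z))) := by
    simp only [map_sub, LinearMap.sub_apply]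
    rw [h2 y z hy.1 hz.1 (Ne.symm hz.2.2.1), h2 y (x * z) hy.1 hxz1 n1, h2 (x * y) z hxy1 hz.1 (Ne.symm hz.2.2.2),
      h2 (x * y) (x * z) hxy1 hxz1 n2, e1, e2, mul_assoc]
    module
  have b := beta (y * z) hyz1 hyzx
  rw [hp, map_smul, b] at f
  have o : B (A x) (A (y * z) - A (x * (y * z))) = 0 :=
    CL.Spor.Maj.form_eigen hV (hA x hx).idem (by norm_num) b
  have f2 := congrArg (B (A x)) f
  rw [map_smul, map_smul, map_smul, o, (hA x hx).norm] at f2
  have c0 : B (A y - A (x * y)) (A z - A (x * z)) / 4 = 0 := by simpa using f2.symm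
  rw [c0, zero_smul] at f
  have eq : A (y * z) = A (x * (y * z)) := by
    linear_combination (norm := module) (-16 : ℝ) • f
  have u1 := hA (y * z) hyz1
  have u2 := hA (x * (y * z)) (mul1 _ _ hyzx.symm)
  rw [← eq] at u2
  have := Subtype.ext (u1.unique u2)
  exact hx (by simpa using this)

end Cfsg.Agent.S5543
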