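import Cfsg.Statements.S5545
import Cfsg.Agent.Spor.Sakuma3

set_option autoImplicit false
open Cfsg

namespace Cfsg.Agent.S5545

open Cfsg.Axial CL.Spor.Maj

theorem pair_conj {V : Type*} [AddCommGroup V] [Module ℝ V] {mul : V →ₗ[ℝ] V →ₗ[ℝ] V}
    {B : LinearMap.BilinForm ℝ V} {μ g : V ≃ₗ[ℝ] V} {a : V} (h : IsMajoranaPair mul B μ a)
    (gm : ∀ u v, g (mul u v) = mul (g u) (g v)) (gf : ∀ u v, B (g u) (g v) = B u v) :
    IsMajoranaPair mul B (g * μ * g⁻¹) (g a) := by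
  obtain ⟨hm, hf, ⟨⟨h0, hid, htop, hfus⟩, hprim⟩, hplus, hminus⟩ := h
  have hs : ∀ v, g (g⁻¹ v) = v := fun v => g.apply_symm_apply v
  have gm' : ∀ u v, g⁻¹ (mul u v) = mul (g⁻¹ u) (g⁻¹ v) := by
    intro u v
    apply g.injective
    rw [gm, hs, hs, hs]
  have gf' : ∀ u v, B (g⁻¹ u) (g⁻¹ v) = B u v := by
    intro u v
    rw [← gf, hs, hs]
  have he : ∀ c : ℝ, eigen mul (g a) c = (eigen mul a c).map (g : V →ₗ[ℝ] V) := by
    intro c
    ext v
    rw [mem_eigen, Submodule.mem_map]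
    constructor
    · intro hv
      refine ⟨g⁻¹ v, mem_eigen.mpr (g.injective ?_), hs v⟩
      rw [gm, hs, map_smul, hs, hv]
    · rintro ⟨w, hw, rfl⟩
      have := mem_eigen.mp hw
      simp only [LinearEquiv.coe_coe]
      rw [← gm, this, map_smul]
  have hsum : ∀ S : Set ℝ, eigenSum mul (g a) S = (eigenSum mul a S).map (g : V →ₗ[ℝ] V) := by
    intro S
    unfold eigenSum
    simp only [he, Submodule.map_iSup]
  refine ⟨?_, ?_, ⟨⟨?_, ?_, ?_, ?_⟩, ?_⟩, ?_, ?_⟩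
  · intro u v
    simp only [LinearEquiv.mul_apply, gm', hm, gm]
  · intro u v
    simp only [LinearEquiv.mul_apply, gf, hf, gf']
  · simpa using h0
  · rw [← gm, hid]
  · rw [hsum, htop, Submodule.map_top, LinearEquiv.range]
  · intro c hc d hd u hu v hv
    rw [he] at hu hv
    obtain ⟨u', hu', rfl⟩ := hu
    obtain ⟨v', hv', rfl⟩ := hv
    rw [hsum]
    exact ⟨_, hfus c hc d hd u' hu' v' hv', gm _ _⟩
  · rw [he, hprim, Submodule.map_span, Set.image_singleton]; rfl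
  · intro v hv
    rw [hsum] at hv
    obtain ⟨w, hw, rfl⟩ := hv
    have := hplus w hw
    simp only [LinearEquiv.coe_coe] at this ⊢
    rw [LinearEquiv.mul_apply, LinearEquiv.mul_apply, show g⁻¹ (g w) = w from g.symm_apply_apply w, this]
  · intro v hv
    rw [he] at hv
    obtain ⟨w, hw, rfl⟩ := hv
    have := hminus w hw
    simp only [LinearEquiv.coe_coe] at this ⊢
    rw [LinearEquiv.mul_apply, LinearEquiv.mul_apply, show g⁻¹ (g w) = w from g.symm_apply_apply w, this, map_neg]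

/-- Let V be a finite-dimensional real vector space with a commutative bilinear product and a positive-definite symmetric bilinear form that associates with the product and satisfies the Norton inequality (the Majorana setting of the definitions). Let μ₀, μ₁ be commuting Majorana involutions with distinct axial vectors a₀ ≠ a₁ of squared length 1, each involution having no other axial vector. Then either a₀ and a₁ are orthogonal with a₀ ∘ a₁ = 0 (type 2B), or their inner product is 1/8 and, with a₂ = a₀ + a₁ − 8 a₀ ∘ a₁, the vector a₂ is an idempotent and a₀ ∘ a₂ = (1/8)(a₀ + a₂ − a₁), a₁ ∘ a₂ = (1/8)(a₁ + a₂ − a₀) (type 2A: the three idempotents span a subalgebra with aᵢ ∘ aⱼ = (1/8)(aᵢ + aⱼ − aₖ)). -/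
theorem result {V : Type*} [AddCommGroup V] [Module ℝ V] [FiniteDimensional ℝ V] (mul : V →ₗ[ℝ] V →ₗ[ℝ] V) (B : LinearMap.BilinForm ℝ V) (hV : Cfsg.Axial.IsMajoranaAmbient mul B) (μ₀ μ₁ : V ≃ₗ[ℝ] V) (a₀ a₁ : V) (h₀ : Cfsg.Axial.IsMajoranaPair mul B μ₀ a₀) (h₁ : Cfsg.Axial.IsMajoranaPair mul B μ₁ a₁) (hu₀ : ∀ a : V, Cfsg.Axial.IsMajoranaPair mul B μ₀ a → a = a₀) (hu₁ : ∀ a : V, Cfsg.Axial.IsMajoranaPair mul B μ₁ a → a = a₁) (hn₀ : B a₀ a₀ = 1) (hn₁ : B a₁ a₁ = 1) (hc : μ₀ * μ₁ = μ₁ * μ₀) (hne : a₀ ≠ a₁) : (B a₀ a₁ = 0 ∧ mul a₀ a₁ = 0) ∨ (B a₀ a₁ = 1 / 8 ∧ mul (a₀ + a₁ - (8 : ℝ) • mul a₀ a₁) (a₀ + a₁ - (8 : ℝ) • mul a₀ a₁) = a₀ + a₁ - (8 : ℝ) • mul a₀ a₁ ∧ mul a₀ (a₀ + a₁ - (8 : ℝ) • mul a₀ a₁) = (1 / 8 : ℝ) • (a₀ + (a₀ + a₁ - (8 : ℝ) • mul a₀ a₁) - a₁) ∧ mul a₁ (a₀ + a₁ - (8 : ℝ) • mul a₀ a₁) = (1 / 8 : ℝ) • (a₁ + (a₀ + a₁ - (8 : ℝ) • mul a₀ a₁) - a₀)) := by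
  have A₀ := ax_of_pair hV h₀ hn₀
  have A₁ := ax_of_pair hV h₁ hn₁
  have f0 : μ₁ a₀ = a₀ := by
    apply hu₀
    have := pair_conj h₀ h₁.1 h₁.2.1
    rwa [← hc, mul_inv_cancel_right] at this
  have f1 : μ₀ a₁ = a₁ := by
    apply hu₁
    have := pair_conj h₁ h₀.1 h₀.2.1
    rwa [hc, mul_inv_cancel_right] at this
  obtain ⟨a, a0, a1, hs, -, am, a2⟩ := exists_seq A₀ A₁
  rw [f1] at am
  rw [f0] at a2
  have a3 : a 3 = a₁ := by
    obtain ⟨τ, t1, t2⟩ := hs 1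
    have := t2 (-1)
    rw [am, ← a1, t1.fix] at this
    rw [← a1, this]; norm_num
  have am2 : a (-2) = a₀ := by
    obtain ⟨τ, t1, t2⟩ := hs 0
    have := t2 2
    rw [a2, ← a0, t1.fix] at this
    rw [← a0, this]; norm_num
  have hy : B (a 0) (a 2) = 1 := by rw [a0, a2, hn₀]
  have hx : B (a 0) (a 1) = B a₀ a₁ := by rw [a0, a1]
  have l3 := hs.lam3 hV hx hy
  rw [a0, a3] at l3
  have cm := hV.1
  have sy := hV.2.1
  have b0 := A₀.beta a₁
  have b1 := A₁.beta a₀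
  rw [f1] at b0
  rw [f0, cm a₁ a₀, sy a₁ a₀] at b1
  simp only [map_add, map_sub, map_smul, A₀.idem, A₁.idem, cm a₁ a₀] at b0 b1
  set x := B a₀ a₁ with hxdef
  have p0 : mul a₀ (mul a₀ a₁) = (1 / 4 : ℝ) • mul a₀ a₁ + (3 / 4 * x) • a₀ := by
    linear_combination (norm := module) (1 / 4 : ℝ) • b0
  have p1 : mul a₁ (mul a₀ a₁) = (1 / 4 : ℝ) • mul a₀ a₁ + (3 / 4 * x) • a₁ := by
    linear_combination (norm := module) (1 / 4 : ℝ) • b1
  have hroot : x * ((x - 1 / 8) * (x - 1)) = 0 := by linear_combination (7 / 32768) * l3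
  rcases mul_eq_zero.mp hroot with h | h
  · left
    refine ⟨h, ?_⟩
    by_contra hne0
    have hpos := hV.2.2.1 _ hne0
    have e := hV.2.2.2.1 (mul a₀ a₁) a₀ a₁
    rw [cm (mul a₀ a₁) a₀, p0] at e
    have e2 : B (mul a₀ a₁) a₁ = x := by rw [← hV.2.2.2.1, A₁.idem]
    simp only [map_add, map_smul, LinearMap.add_apply, LinearMap.smul_apply, smul_eq_mul, e2, ← hxdef, h] at e
    rw [e] at hpos
    norm_num at hpos
  rcases mul_eq_zero.mp h with h | h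
  · right
    have h8 : x = 1 / 8 := by linarith
    rw [h8] at p0 p1
    have m := (hs.main hV 0 hx hy).2
    norm_num only at m
    rw [a0, a1, am, a2, am2, h8] at m
    unfold sig at m
    simp only [map_add, map_sub, map_smul, LinearMap.add_apply, LinearMap.sub_apply, LinearMap.smul_apply,
      A₀.idem, A₁.idem, cm a₁ a₀, cm (mul a₀ a₁) a₀, cm (mul a₀ a₁) a₁, p0, p1] at m ⊢
    refine ⟨h8, ?_, ?_, ?_⟩
    · linear_combination (norm := module) (64 : ℝ) • m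
    · module
    · module
  · exact absurd (eq_of_form_one hV hn₀ hn₁ (by linarith)) hne

end Cfsg.Agent.S5545
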