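import Cfsg.Statements.S5547
import Cfsg.Agent.Spor.Fi22Rep78
import Cfsg.Agent.Spor.Fi22Model

set_option autoImplicit false
open Cfsg

namespace Cfsg.Agent.S5547

/-- The Fischer group Fi₂₂ (the finitely presented 3-transposition group of the definitions) is isomorphic to a subgroup of the general linear group of degree 78 over the field with 13 elements: there is an injective homomorphism into it. -/
theorem result : ∃ f : Cfsg.Spor.Fi22 →* GL (Fin 78) (ZMod 13), Function.Injective f := by
  refine ⟨CL.Fi22R.hom, (MonoidHom.ker_eq_bot_iff _).1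
    ((CL.Fi22P.simple.eq_bot_or_eq_top_of_normal _ inferInstance).resolve_right fun e => CL.Fi22R.hom_a ?_)⟩
  exact MonoidHom.mem_ker.1 (e ▸ Subgroup.mem_top _)

end Cfsg.Agent.S5547
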