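import Cfsg.Statements.S5549
import Cfsg.Agent.Spor.M24Mod

set_option autoImplicit false
open Cfsg

namespace Cfsg.Agent.S5549

open CL.Spor MulAction
open scoped Pointwise

def B (w : GolayPt → ZMod 2) (v : Finset GolayPt) : ZMod 2 := ∑ p ∈ v, w p

def Bl (v : Finset GolayPt) : (GolayPt → ZMod 2) →ₗ[ZMod 2] ZMod 2 := ∑ p ∈ v, LinearMap.proj p

theorem Bl_apply (v : Finset GolayPt) (w : GolayPt → ZMod 2) : Bl v w = B w v := by simp [Bl, B]

theorem one_mem_code : (fun _ : GolayPt => (1 : ZMod 2)) ∈ golayCode :=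
  (wordOf_univ ▸ mem_GC_iff_wordOf.1 GC_univ : (1 : GolayPt → ZMod 2) ∈ golayCode)

theorem B_eq (w : GolayPt → ZMod 2) (v : Finset GolayPt) : B w v = ∑ p, w p * wordOf v p := by
  simp [B, wordOf]

theorem B_symmDiff (w : GolayPt → ZMod 2) (u v : Finset GolayPt) : B w (symmDiff u v) = B w u + B w v := by
  simp only [B_eq, wordOf_symmDiff, Pi.add_apply, mul_add, Finset.sum_add_distrib]

theorem B_card (w : GolayPt → ZMod 2) (v : Finset GolayPt) : B w v = ((support₂ w ∩ v).card : ZMod 2) := by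
  rw [B_eq, sum_mul_eq_card_inter, support₂_wordOf]

theorem B_one (v : Finset GolayPt) : B (fun _ => 1) v = v.card := by simp [B]

theorem mem_of_B {t : Finset GolayPt} (h : ∀ c : golayCode, B c t = 0) : t ∈ GC :=
  mem_GC_iff_even.2 fun s hs => by
    have := h ⟨_, mem_GC_iff_wordOf.1 hs⟩
    rwa [B_card, support₂_wordOf, ZMod.natCast_eq_zero_iff_even, Finset.inter_comm] at this

theorem exists_B (f : golayCode →ₗ[ZMod 2] ZMod 2) : ∃ v : Finset GolayPt, v.card ≤ 4 ∧ ∀ c, f c = B c v := by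
  obtain ⟨g, rfl⟩ := f.exists_extend
  obtain ⟨v, h1, h2⟩ := exists_coset_leader (support₂ fun p => g (Pi.single p 1))
  refine ⟨v, h1, fun c => ?_⟩
  have h3 := B_symmDiff c (support₂ fun p => g (Pi.single p 1)) v
  rw [B_card, ZMod.natCast_eq_zero_iff_even.2 (GC_even_inter (mem_golayCode_iff.1 c.2) h2), eq_comm,
    CharTwo.add_eq_zero, B_eq, wordOf_support₂] at h3
  rw [← h3]
  rw [LinearMap.comp_apply, pi_eq_sum_univ' (golayCode.subtype c), map_sum]
  simp only [map_smul, smul_eq_mul]; rfl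

def wt816 (w : GolayPt → ZMod 2) : Prop := (support₂ w).card = 8 ∨ (support₂ w).card = 16

noncomputable def N (v : Finset GolayPt) : ℕ := {c : golayCode | wt816 c ∧ B c v = 1}.ncard

theorem N_eq (v : Finset GolayPt) :
    N v = {s | s ∈ GC ∧ (s.card = 8 ∨ s.card = 16) ∧ (s ∩ v).card % 2 = 1}.ncard := by
  rw [N, ← Set.ncard_image_of_injective _ (support₂_injective.comp Subtype.val_injective)]
  refine congrArg Set.ncard (Set.ext fun s => ⟨?_, fun h => ⟨⟨_, mem_GC_iff_wordOf.1 h.1⟩, ?_, support₂_wordOf s⟩⟩)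
  · rintro ⟨c, h, rfl⟩
    exact ⟨mem_golayCode_iff.1 c.2, h.1, Nat.odd_iff.1 (ZMod.natCast_eq_one_iff_odd.1 (B_card _ _ ▸ h.2))⟩
  · simp only [Set.mem_ofPred_eq, wt816, B_card, support₂_wordOf, ZMod.natCast_eq_one_iff_odd, Nat.odd_iff]
    exact h.2

theorem N_of {v : Finset GolayPt} {m k : ℕ} (h5 : v.card ≤ 5) (h : v.card = pc24 m)
    (hc : cnt4096 (fun x => (fun s => (Nat.beq (pc24 s) 8 || Nat.beq (pc24 s) 16) &&
      Nat.beq (Nat.mod (pc24 (Nat.land s m)) 2) 1) (enc x)) = k) : N v = k := by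
  obtain ⟨g, e⟩ := M24_exists_smul_finset h5 (h.trans (card_ofMask m).symm)
  refine (N_eq v).trans (Eq.trans ?_ ((ncard_GC (fun s => (s.card = 8 ∨ s.card = 16) ∧ (s ∩ ofMask m).card % 2 = 1)
    (fun s => (Nat.beq (pc24 s) 8 || Nat.beq (pc24 s) 16) && Nat.beq (Nat.mod (pc24 (Nat.land s m)) 2) 1) fun x _ => by
    simp only [← ofMask_and, card_ofMask, Bool.and_eq_true, Bool.or_eq_true, Nat.beq_eq]; rfl).trans hc))
  refine (ncard_smul_congr g fun y => ?_).symm
  simp only [Set.mem_ofPred_eq, smul_mem_GC_iff, Finset.card_smul_finset, ← e, card_smul_inter_smul]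

theorem N_zero : N ∅ = 0 := N_of (m := 0) (by simp) (by decide +kernel) (by decide +kernel)
theorem N_two {v : Finset GolayPt} (h : v.card = 2) : N v = 704 :=
  N_of (m := 3) (by omega) (by rw [h]; decide +kernel) (by decide +kernel)
theorem N_four {v : Finset GolayPt} (h : v.card = 4) : N v = 768 :=
  N_of (m := 15) (by omega) (by rw [h]; decide +kernel) (by decide +kernel)

theorem star (φ : GolayPt → GolayPt → Finset GolayPt) (h2 : ∀ a b, a ≠ b → (φ a b).card = 2)
    (tri : ∀ a b c, a ≠ b → a ≠ c → b ≠ c → symmDiff (φ a b) (φ a c) = φ b c) :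
    ∃ τ : Equiv.Perm GolayPt, ∀ a, a ≠ none → φ none a = {τ none, τ a} := by
  have h1 : ∀ a b, a ≠ none → b ≠ none → a ≠ b → (φ none a ∩ φ none b).card = 1 := fun a b ha hb h => by
    have := card_symmDiff_add (φ none a) (φ none b)
    rw [tri _ _ _ ha.symm hb.symm h, h2 _ _ h, h2 _ _ ha.symm, h2 _ _ hb.symm] at this
    omega
  obtain ⟨p, hp⟩ := Finset.card_eq_one.1 (h1 (some 0) (some 1) (by simp) (by simp) (by decide))
  have pr : ∀ {s : Finset GolayPt} {p}, s.card = 2 → p ∈ s → ∃ q, q ≠ p ∧ s = {p, q} := fun {s p} h hp => by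
    obtain ⟨q, hq⟩ := Finset.card_eq_one.1 (show (s.erase p).card = 1 by rw [Finset.card_erase_of_mem hp, h])
    exact ⟨q, Finset.ne_of_mem_erase (hq ▸ Finset.mem_singleton_self q), by
      rw [← Finset.insert_erase hp, hq]⟩
  have p0 := Finset.mem_inter.1 (hp ▸ Finset.mem_singleton_self p)
  obtain ⟨q, q1, q2⟩ := pr (h2 _ _ (by simp)) p0.1
  obtain ⟨r, r1, r2⟩ := pr (h2 _ _ (by simp)) p0.2
  have qr : q ≠ r := by
    rintro rfl
    rw [q2, r2, Finset.inter_self] at hp
    exact q1 (Finset.mem_singleton.1 (hp ▸ (by simp : q ∈ ({p, q} : Finset GolayPt))))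
  have out : ∀ a, a ≠ none → p ∉ φ none a → φ none a = {q, r} := fun a ha h => by
    have a0 : a ≠ some 0 := by rintro rfl; exact h p0.1
    have a1 : a ≠ some 1 := by rintro rfl; exact h p0.2
    obtain ⟨y, hy⟩ := Finset.card_pos.1 ((h1 a _ ha (by simp) a0).symm ▸ one_pos)
    obtain ⟨z, hz⟩ := Finset.card_pos.1 ((h1 a _ ha (by simp) a1).symm ▸ one_pos)
    simp only [q2, r2, Finset.mem_inter, Finset.mem_insert, Finset.mem_singleton] at hy hz
    refine (Finset.eq_of_subset_of_card_le (Finset.insert_subset ?_ (Finset.singleton_subset_iff.2 ?_))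
      (by rw [h2 _ _ ha.symm, Finset.card_pair qr])).symm
    · exact (hy.2.resolve_left fun e => h (e ▸ hy.1)) ▸ hy.1
    · exact (hz.2.resolve_left fun e => h (e ▸ hz.1)) ▸ hz.1
  have all : ∀ a, a ≠ none → p ∈ φ none a := fun a ha => by
    by_contra h
    obtain ⟨b, b0, b1, b2, b3⟩ := (by decide +kernel : ∀ a : GolayPt, ∃ b, b ≠ none ∧ b ≠ some 0 ∧ b ≠ some 1 ∧ b ≠ a) a
    have c1 := h1 b a b0 ha b3
    rw [out a ha h] at c1
    by_cases hb : p ∈ φ none b
    · obtain ⟨s, s1, s2⟩ := pr (h2 _ _ b0.symm) hb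
      have c2 := h1 b _ b0 (by simp) b1
      have c3 := h1 b _ b0 (by simp) b2
      obtain ⟨y, hy⟩ := Finset.card_pos.1 (c1.symm ▸ one_pos)
      simp only [s2, Finset.mem_inter, Finset.mem_insert, Finset.mem_singleton] at hy
      rcases hy with ⟨rfl | rfl, rfl | rfl⟩
      · exact q1 rfl
      · exact r1 rfl
      · rw [s2, q2, Finset.inter_self, Finset.card_pair s1.symm] at c2; omega
      · rw [s2, r2, Finset.inter_self, Finset.card_pair s1.symm] at c3; omega
    · rw [out b b0 hb, Finset.inter_self, Finset.card_pair qr] at c1; omega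
  choose! t t1 t2 using fun a ha => pr (h2 none a (Ne.symm ha)) (all a ha)
  have inj : Function.Injective fun a => if a = none then p else t a := fun a b e => by
    by_cases ha : a = none <;> by_cases hb : b = none <;> simp only [ha, hb, if_true, if_false] at e
    · rw [ha, hb]
    · exact absurd e.symm (t1 b hb)
    · exact absurd e (t1 a ha)
    · by_contra h
      have := h1 a b ha hb h
      rw [t2 a ha, t2 b hb, e, Finset.inter_self, Finset.card_pair (t1 b hb).symm] at this
      omega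
  exact ⟨Equiv.ofBijective _ inj.bijective_of_finite, fun a ha => by simp [ha, t2 a ha]⟩

/-- Let X be a group of linear automorphisms of the length-24 binary Golay code of the definitions that fix the all-ones word, containing the coordinate-permutation action of every element of the code's automorphism group (the Mathieu group of degree 24), and such that every element of X sends each codeword into its orbit under that Mathieu group up to adding the all-ones word (X has the same orbits as the Mathieu group on the code modulo the all-ones word). Then every element of X agrees, modulo the all-ones word, with the action of a single element of the Mathieu group: X induces exactly the Mathieu group on the code modulo the all-ones word. -/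
theorem result (X : Subgroup (↥Cfsg.golayCode ≃ₗ[ZMod 2] ↥Cfsg.golayCode)) (h1 : ∀ x ∈ X, ∀ e : ↥Cfsg.golayCode, (e : (Cfsg.GolayPt → ZMod 2)) = (fun _ => (1 : ZMod 2)) → x e = e) (hM : ∀ σ ∈ Cfsg.M24, ∃ x ∈ X, ∀ c : ↥Cfsg.golayCode, ((x c : ↥Cfsg.golayCode) : (Cfsg.GolayPt → ZMod 2)) = fun p => (c : (Cfsg.GolayPt → ZMod 2)) (σ.symm p)) (horb : ∀ x ∈ X, ∀ c : ↥Cfsg.golayCode, ∃ σ ∈ Cfsg.M24, ((x c : ↥Cfsg.golayCode) : (Cfsg.GolayPt → ZMod 2)) = (fun p => (c : (Cfsg.GolayPt → ZMod 2)) (σ.symm p)) ∨ ((x c : ↥Cfsg.golayCode) : (Cfsg.GolayPt → ZMod 2)) = (fun p => (c : (Cfsg.GolayPt → ZMod 2)) (σ.symm p)) + fun _ => (1 : ZMod 2)) (x : ↥Cfsg.golayCode ≃ₗ[ZMod 2] ↥Cfsg.golayCode) (hx : x ∈ X) : ∃ σ ∈ Cfsg.M24, ∀ c : ↥Cfsg.golayCode, ((x c : ↥Cfsg.golayCode) : (Cfsg.GolayPt → ZMod 2)) = (fun p => (c : (Cfsg.GolayPt → ZMod 2)) (σ.symm p)) ∨ ((x c : ↥Cfsg.golayCode) : (Cfsg.GolayPt → ZMod 2)) = (fun p => (c : (Cfsg.GolayPt → ZMod 2)) (σ.symm p)) + fun _ => (1 : ZMod 2) := by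
  have one : ∀ y ∈ X, ∀ c : golayCode, wt816 c → wt816 (y c) := fun y hy c hc => by
    obtain ⟨σ, -, h⟩ := horb y hy c
    have e : (support₂ fun p => (c : GolayPt → ZMod 2) (σ.symm p)).card = (support₂ (c : GolayPt → ZMod 2)).card := by
      rw [← wordOf_support₂ (c : GolayPt → ZMod 2), ← wordOf_smul, support₂_wordOf, support₂_wordOf,
        Finset.card_smul_finset]
    unfold wt816 at hc ⊢
    rcases h with h | h
    · rwa [h, e]
    · rw [h, support₂_add, show support₂ (fun _ : GolayPt => (1 : ZMod 2)) = Finset.univ by ext; simp,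
        show ∀ s : Finset GolayPt, symmDiff s Finset.univ = sᶜ from fun s => by ext; simp [Finset.mem_symmDiff],
        Finset.card_compl, e, card_golayPt]
      omega
  have duad : ∀ u : Finset GolayPt, u.card = 2 → ∃ v : Finset GolayPt, v.card = 2 ∧ ∀ c, B (x c) u = B c v := by
    intro u hu
    obtain ⟨v, h4, hv⟩ := exists_B (((Bl u).comp golayCode.subtype).comp x.toLinearMap)
    have hv : ∀ c, B (x c) u = B c v := fun c => (Bl_apply _ _).symm.trans (hv c)
    refine ⟨v, ?_, hv⟩
    have n : N v = N u := by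
      unfold N
      rw [← Set.ncard_image_of_injective _ x.injective]
      refine congrArg Set.ncard (Set.ext fun c => ⟨?_, fun h => ⟨x⁻¹ c, ⟨one _ (inv_mem hx) c h.1, ?_⟩, ?_⟩⟩)
      · rintro ⟨c, h, rfl⟩; exact ⟨one x hx c h.1, (hv c).trans h.2⟩
      · rw [← hv, show x (x⁻¹ c) = c from x.apply_symm_apply c]; exact h.2
      · exact x.apply_symm_apply c
    have e := hv ⟨_, one_mem_code⟩
    rw [h1 x hx _ rfl, B_one, B_one, hu] at e
    have e2 := (ZMod.natCast_eq_zero_iff_even.1 e.symm)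
    rw [N_two hu] at n
    by_contra hne
    rcases (by obtain ⟨k, hk⟩ := e2; omega : v.card = 0 ∨ v.card = 4) with h | h
    · rw [Finset.card_eq_zero.1 h, N_zero] at n; exact absurd n (by norm_num)
    · rw [N_four h] at n; exact absurd n (by norm_num)
  choose! φ φ2 φB using duad
  have tri : ∀ a b c : GolayPt, a ≠ b → a ≠ c → b ≠ c → symmDiff (φ {a, b}) (φ {a, c}) = φ {b, c} := by
    intro a b c hab hac hbc
    have e : symmDiff ({a, b} : Finset GolayPt) {a, c} = {b, c} := by
      ext p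
      simp only [Finset.mem_symmDiff, Finset.mem_insert, Finset.mem_singleton]
      by_cases p = a <;> by_cases p = b <;> by_cases p = c <;> simp_all
    have c1 := card_symmDiff_add (φ {a, b}) (φ {a, c})
    have c2 := card_symmDiff_add (symmDiff (φ {a, b}) (φ {a, c})) (φ {b, c})
    rw [φ2 _ (Finset.card_pair hab), φ2 _ (Finset.card_pair hac)] at c1
    rw [φ2 _ (Finset.card_pair hbc)] at c2
    refine symmDiff_eq_bot.1 (GC_eq_empty_of_card_lt (mem_of_B fun w => ?_) (by omega))
    rw [B_symmDiff, B_symmDiff, ← φB _ (Finset.card_pair hab), ← φB _ (Finset.card_pair hac),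
      ← φB _ (Finset.card_pair hbc), ← B_symmDiff, e, CharTwo.add_self_eq_zero]
  obtain ⟨τ, hτ⟩ := star (fun a b => φ {a, b}) (fun a b h => φ2 _ (Finset.card_pair h)) tri
  have key : ∀ c : golayCode, (x c : GolayPt → ZMod 2) = (fun p => (c : GolayPt → ZMod 2) (τ p)) ∨
      (x c : GolayPt → ZMod 2) = (fun p => (c : GolayPt → ZMod 2) (τ p)) + fun _ => (1 : ZMod 2) := fun c => by
    have h1 : ∀ a, (x c : GolayPt → ZMod 2) a = (c : GolayPt → ZMod 2) (τ a) +
        ((x c : GolayPt → ZMod 2) none + (c : GolayPt → ZMod 2) (τ none)) := fun a => by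
      by_cases h : a = none
      · rw [h, add_left_comm, CharTwo.add_self_eq_zero, add_zero]
      have := φB _ (Finset.card_pair (Ne.symm h)) c
      rw [hτ a h, B, B, Finset.sum_pair (Ne.symm h), Finset.sum_pair (τ.injective.ne (Ne.symm h))] at this
      exact (by decide : ∀ a b c d : ZMod 2, a + b = c + d → b = d + (a + c)) _ _ _ _ this
    rcases zmod2_cases ((x c : GolayPt → ZMod 2) none + (c : GolayPt → ZMod 2) (τ none)) with h | h
    · exact Or.inl (funext fun a => by rw [h1, h, add_zero])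
    · exact Or.inr (funext fun a => by rw [h1, h]; rfl)
  refine ⟨τ.symm, mem_M24_iff.2 fun s hs => ?_, key⟩
  rw [mem_GC_iff_wordOf, wordOf_smul]
  rcases key ⟨_, mem_GC_iff_wordOf.1 hs⟩ with h | h
  · exact h ▸ Subtype.prop _
  · exact (Submodule.add_mem_iff_left _ one_mem_code).1 (h ▸ Subtype.prop _)

end Cfsg.Agent.S5549
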