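import Cfsg.Statements.S5550
import Cfsg.Agent.Spor.M24Mod

set_option autoImplicit false
open Cfsg

namespace Cfsg.Agent.S5550

open CL.Spor MulAction
open scoped Pointwise

/-- Let u be a word of the length-24 binary Golay code of the definitions (possibly zero or all-ones) and w any binary word of length 24 outside the code. Then some automorphism of the code (a coordinate permutation preserving it) fixes u but moves w to a word not congruent to w modulo the code: the stabilizer of a codeword fixes no non-zero element of the quotient of the space of all words by the code. -/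
theorem result (u : (Cfsg.GolayPt → ZMod 2)) (hu : u ∈ Cfsg.golayCode) (w : (Cfsg.GolayPt → ZMod 2)) (hw : w ∉ Cfsg.golayCode) : ∃ σ ∈ Cfsg.M24, (fun p => u (σ.symm p)) = u ∧ (fun p => w (σ.symm p)) - w ∉ Cfsg.golayCode := by
  obtain ⟨s, rfl⟩ : ∃ s, u = wordOf s := ⟨_, (wordOf_support₂ u).symm⟩
  obtain ⟨t, rfl⟩ : ∃ t, w = wordOf t := ⟨_, (wordOf_support₂ w).symm⟩
  rw [← mem_GC_iff_wordOf] at hu hw
  suffices h : ∃ g ∈ stabilizer M24 s, symmDiff (g • t) t ∉ GC by
    obtain ⟨g, h1, h2⟩ := h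
    refine ⟨g, g.2, (wordOf_smul g s).symm.trans (congrArg wordOf h1), ?_⟩
    rwa [← wordOf_smul, CharTwo.sub_eq_add, ← wordOf_symmDiff, ← mem_GC_iff_wordOf]
  have base : ∀ (S : List ℕ) (H : Subgroup M24), (∀ P ∈ S, Good H P) → allL (fun T => allBelow (fun y => Nat.beq y 0 ||
      anyL (fun A => !Nat.beq (lin A y) y) T) 4096) [S.map sTab] = true → ∀ t ∉ GC, ∃ g ∈ H, symmDiff (g • t) t ∉ GC := by
    intro S H hS h t ht
    have := (allBelow_iff _ _).1 ((allL_iff _ _).1 h _ List.mem_cons_self) _ (syn_lt t)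
    simp only [Bool.or_eq_true, Nat.beq_eq, syn_eq_zero_iff, ht, false_or, anyL_iff, List.mem_map, Bool.not_eq_true',
      exists_exists_and_eq_and] at this
    obtain ⟨P, hP, e⟩ := this
    refine ⟨m24 P, (hS P hP).m24_mem, ?_⟩
    rw [← syn_eq_iff, (hS P hP).rep.syn_smul, ← Nat.beq_eq, e]
    exact Bool.false_ne_true
  have tr : ∀ (s₀ : Finset GolayPt) (g : M24), (∀ t ∉ GC, ∃ k ∈ stabilizer M24 s₀, symmDiff (k • t) t ∉ GC) →
      ∃ k ∈ stabilizer M24 (g • s₀), symmDiff (k • t) t ∉ GC := by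
    intro s₀ g h
    obtain ⟨t, rfl⟩ := MulAction.surjective g t
    obtain ⟨k, h1, h2⟩ := h t ((smul_mem_GC_iff g).not.1 hw)
    refine ⟨g * k * g⁻¹, conj_smul_smul g k h1, ?_⟩
    rw [conj_smul_smul g k rfl, ← smul_mem_GC_iff g⁻¹,
      show g⁻¹ • symmDiff (g • k • t) (g • t) = symmDiff (g⁻¹ • g • k • t) (g⁻¹ • g • t) from smul_symmDiff _ _ _,
      inv_smul_smul, inv_smul_smul]
    exact h2
  have oct : ∀ o ∈ octads, ∃ k ∈ stabilizer M24 o, symmDiff (k • t) t ∉ GC := fun o ho => by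
    obtain ⟨g, rfl⟩ := exists_eq_smul (M24_octad_trans0 ho)
    exact tr _ g (base _ _ octG_good (by decide +kernel))
  rcases GC_card hu with c | c | c | c | c
  · obtain ⟨k, -, h⟩ := oct _ oct0_mem
    exact ⟨k, by rw [Finset.card_eq_zero.1 c]; exact Finset.smul_finset_empty _, h⟩
  · exact oct s (mem_octads.2 ⟨hu, c⟩)
  · obtain ⟨g, rfl⟩ := exists_eq_smul (M24_dodecad_trans0 (mem_dodecads.2 ⟨hu, c⟩))
    exact tr _ g (base _ _ dodG_good (by decide +kernel))
  · rw [← CL.Spor.stabilizer_compl]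
    exact oct _ (mem_octads.2 ⟨GC_compl hu, by rw [Finset.card_compl, c, card_golayPt]⟩)
  · obtain ⟨k, -, h⟩ := oct _ oct0_mem
    exact ⟨k, by rw [Finset.eq_univ_of_card _ (c.trans card_golayPt.symm)]; exact Finset.smul_finset_univ, h⟩

end Cfsg.Agent.S5550
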