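import Cfsg.Statements.S5570
import Cfsg.Agent.Spor.J4T5

set_option autoImplicit false
open Cfsg

namespace Cfsg.Agent.S5570

/-- Let G be a finite non-abelian simple group of Janko-four type (an involution z whose centralizer H has an extraspecial largest normal 2-subgroup E of order 2^13 containing its centralizer in H, a normal subgroup N ≥ E of H with N/E of order 3 and H/N the automorphism group of M₂₂, and a subgroup P ≤ N of order 3 with C_E(P) = ⟨z⟩, N_H(P) ≠ C_H(P) and P ≤ C_H(P)′). Then G has self-centralizing elementary abelian subgroups of order 2^10, any two of them are conjugate, and for such a subgroup A the normalizer of A is a split extension of A by a complement isomorphic to L₅(2) under which A has no proper non-trivial invariant subgroup. -/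
theorem result {G : Type*} [Group G] [Finite G] [IsSimpleGroup G] (hG : ¬ IsMulCommutative G) (hJ : Cfsg.IsOfJankoFourType G) :
    (∃ A : Subgroup G, Cfsg.IsElementaryAbelian 2 A ∧ Nat.card ↥A = 2 ^ 10 ∧ Subgroup.centralizer (A : Set G) = A) ∧
    (∀ A A' : Subgroup G, Cfsg.IsElementaryAbelian 2 A → Nat.card ↥A = 2 ^ 10 → Subgroup.centralizer (A : Set G) = A → Cfsg.IsElementaryAbelian 2 A' → Nat.card ↥A' = 2 ^ 10 → Subgroup.centralizer (A' : Set G) = A' → ∃ g : G, A' = A.map (MulAut.conj g).toMonoidHom) ∧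
    ∀ A : Subgroup G, Cfsg.IsElementaryAbelian 2 A → Nat.card ↥A = 2 ^ 10 → Subgroup.centralizer (A : Set G) = A →
      (∃ B : Subgroup G, B ≤ Subgroup.normalizer (A : Set G) ∧ B ⊓ A = ⊥ ∧ B ⊔ A = Subgroup.normalizer (A : Set G) ∧
        Nonempty (↥B ≃* Matrix.SpecialLinearGroup (Fin 5) (ZMod 2))) ∧
      ∀ W : Subgroup G, W ≤ A → Subgroup.normalizer (A : Set G) ≤ Subgroup.normalizer (W : Set G) → W = ⊥ ∨ W = A := by
  obtain ⟨M⟩ := CL.J4.nonempty_JM hJ
  refine ⟨⟨_, CL.J4.Ten.A0_elem M.toNM, CL.J4.Ten.card_A0 _, CL.J4.Ten.cent_A0_eq M⟩,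
    fun A A' h1 h2 h3 h4 h5 h6 => ?_, CL.J4.Ten.ten_split M⟩
  obtain ⟨g, rfl⟩ := CL.J4.Ten.conj_A0 M h1 h2 h3.le
  obtain ⟨g', rfl⟩ := CL.J4.Ten.conj_A0 M h4 h5 h6.le
  exact ⟨g' * g⁻¹, ((CL.J4.cj_cj _ _ _).trans (by rw [inv_mul_cancel_right])).symm⟩

end Cfsg.Agent.S5570
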