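import Cfsg.Statements.S5574
import Cfsg.Agent.Spor.J4Main
import Cfsg.Agent.Spor.J4F5

set_option autoImplicit false
open Cfsg

namespace Cfsg.Agent.S5574

/-- Let G be a finite non-abelian simple group of Janko-four type (an involution z whose centralizer H has an extraspecial largest normal 2-subgroup E of order 2^13 containing its centralizer in H, a normal subgroup N ≥ E of H with N/E of order 3 and H/N the automorphism group of M₂₂, and a subgroup P ≤ N of order 3 with C_E(P) = ⟨z⟩, N_H(P) ≠ C_H(P) and P ≤ C_H(P)′). Then G has a special 2-subgroup L of order 2^15 with centre of order 8 whose normalizer M satisfies: M/L is isomorphic to the direct product of the symmetric group of degree 5 and L₃(2); L has no complement in M; M nevertheless contains subgroups isomorphic to the symmetric group of degree 5 and to L₃(2); and M contains the normalizer of some Sylow 5-subgroup and of some Sylow 7-subgroup of G. -/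
theorem result {G : Type*} [Group G] [Finite G] [IsSimpleGroup G] (hG : ¬ IsMulCommutative G) (hJ : Cfsg.IsOfJankoFourType G) :
    ∃ L : Subgroup G, Cfsg.IsSpecial 2 ↥L ∧ Nat.card ↥L = 2 ^ 15 ∧ Nat.card ↥(Subgroup.center ↥L) = 8 ∧
    Nonempty (↥(Subgroup.normalizer (L : Set G)) ⧸ L.subgroupOf (Subgroup.normalizer (L : Set G)) ≃* Equiv.Perm (Fin 5) × Matrix.SpecialLinearGroup (Fin 3) (ZMod 2)) ∧
    (∀ K : Subgroup ↥(Subgroup.normalizer (L : Set G)), ¬ (L.subgroupOf (Subgroup.normalizer (L : Set G))).IsComplement' K) ∧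
    (∃ K₁ : Subgroup G, K₁ ≤ Subgroup.normalizer (L : Set G) ∧ Nonempty (↥K₁ ≃* Equiv.Perm (Fin 5))) ∧
    (∃ K₂ : Subgroup G, K₂ ≤ Subgroup.normalizer (L : Set G) ∧ Nonempty (↥K₂ ≃* Matrix.SpecialLinearGroup (Fin 3) (ZMod 2))) ∧
    (∃ Q : Sylow 5 G, Subgroup.normalizer ((Q : Subgroup G) : Set G) ≤ Subgroup.normalizer (L : Set G)) ∧
    (∃ S : Sylow 7 G, Subgroup.normalizer ((S : Subgroup G) : Set G) ≤ Subgroup.normalizer (L : Set G)) := by
  obtain ⟨X⟩ := CL.J4.nonempty_JM hJ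
  let M := X.toNM
  have hN := M.normalizer_L
  have hs : ∀ {p : ℕ} {g : G}, p.Prime → orderOf g = p → ¬ p ^ 2 ∣ Nat.card G →
      ∃ S : Sylow p G, (S : Subgroup G) = Subgroup.zpowers g := fun hp hg h => CL.Fus.sylIn_top_iff.1
    (CL.J4.sylIn_prime hp ((Nat.card_zpowers _).trans hg) le_top (Subgroup.card_top (G := G) ▸ h))
  refine ⟨M.L, M.isSpecial_L, M.card_L, M.card_center_L, ⟨(QuotientGroup.quotientMulEquivOfEq
    (Subgroup.ext fun g : Subgroup.normalizer (M.L : Set G) => M.mem_L_iff' (g := ⟨g, hN.le g.2⟩))).trans (QuotientGroup.quotientKerEquivOfSurjective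
      (M.φ.comp (Subgroup.inclusion hN.le)) fun y => let ⟨m, e⟩ := M.card_M3.2 y; ⟨⟨m, hN.ge m.2⟩, e⟩)⟩, fun K hK => ?_,
    ⟨_, M.I7_le.trans hN.ge, ⟨M.ψ5⟩⟩, hN ▸ M.exists_L32, ?_, ?_⟩
  · refine M.not_compl_L (K := K.map (Subgroup.subtype _)) ((Subgroup.map_subtype_le _).trans hN.le) (fun m hm => ?_) ?_
    · obtain ⟨⟨l, k⟩, e⟩ := hK.2 ⟨m, hN.ge hm⟩
      exact ⟨_, l.2, _, ⟨_, k.2, rfl⟩, congrArg Subtype.val e⟩
    · rintro _ ⟨k, hk, rfl⟩ h
      exact congrArg Subtype.val (Subgroup.disjoint_def.1 hK.disjoint h hk)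
  · obtain ⟨S, e⟩ := hs Nat.prime_five M.orderOf_g5 M.not_dvd_25
    exact ⟨S, e ▸ M.norm_g5_le.trans hN.ge⟩
  · obtain ⟨S, e⟩ := hs (by norm_num) M.orderOf_σ M.not_dvd_49
    exact ⟨S, e ▸ M.norm_σ_le.trans hN.ge⟩

end Cfsg.Agent.S5574
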