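import Cfsg.Statements.S5578
import Cfsg.Agent.Spor.J4PGL2
import Cfsg.Agent.Spor.J4Main

set_option autoImplicit false
open Cfsg

namespace Cfsg.Agent.S5578

/-- Let G be a finite non-abelian simple group of Janko-four type (an involution z whose centralizer H has an extraspecial largest normal 2-subgroup E of order 2^13 containing its centralizer in H, a normal subgroup N ≥ E of H with N/E of order 3 and H/N the automorphism group of M₂₂, and a subgroup P ≤ N of order 3 with C_E(P) = ⟨z⟩, N_H(P) ≠ C_H(P) and P ≤ C_H(P)′). Then G has a subgroup isomorphic to PGL₂(23) (the general linear group of degree 2 over the integers modulo 23, modulo its centre). -/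
theorem result {G : Type*} [Group G] [Finite G] [IsSimpleGroup G] (hG : ¬ IsMulCommutative G) (hJ : Cfsg.IsOfJankoFourType G) :
    ∃ K : Subgroup G, Nonempty (↥K ≃* GL (Fin 2) (ZMod 23) ⧸ Subgroup.center (GL (Fin 2) (ZMod 23))) := by
  obtain ⟨M⟩ := CL.J4.nonempty_JM hJ
  exact CL.J4.PGL.exists_pgl M

end Cfsg.Agent.S5578
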