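import Cfsg.Statements.S5582
import Cfsg.Agent.Spor.J4XF
import Cfsg.Agent.Spor.J4XA
import Cfsg.Agent.Spor.J4XU
import Cfsg.Agent.Spor.J4Main

set_option autoImplicit false
open Cfsg

namespace Cfsg.Agent.S5582

/-- Let G be a finite non-abelian simple group of Janko-four type (Janko's involution-centralizer conditions; such a group is the fourth Janko group). Then the following subgroups are maximal: the centralizer of the involution z of the hypothesis; the normalizer of every elementary abelian subgroup of order 2^11; the normalizer of every self-centralizing elementary abelian subgroup of order 2^10; the normalizer of some special 2-subgroup of order 2^15 with centre of order 8; and the normalizer of every Sylow p-subgroup for p = 11, 29, 37 and 43. -/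
theorem result {G : Type*} [Group G] [Finite G] [IsSimpleGroup G] (hG : ¬ IsMulCommutative G) (z : G) (hJ : Cfsg.IsOfJankoFourTypeAt z) :
    IsCoatom (Subgroup.centralizer ({z} : Set G)) ∧
    (∀ V : Subgroup G, Cfsg.IsElementaryAbelian 2 V → Nat.card ↥V = 2 ^ 11 → IsCoatom (Subgroup.normalizer (V : Set G))) ∧
    (∀ A : Subgroup G, Cfsg.IsElementaryAbelian 2 A → Nat.card ↥A = 2 ^ 10 → Subgroup.centralizer (A : Set G) = A → IsCoatom (Subgroup.normalizer (A : Set G))) ∧
    (∃ L : Subgroup G, Cfsg.IsSpecial 2 ↥L ∧ Nat.card ↥L = 2 ^ 15 ∧ Nat.card ↥(Subgroup.center ↥L) = 8 ∧ IsCoatom (Subgroup.normalizer (L : Set G))) ∧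
    (∀ U : Sylow 11 G, IsCoatom (Subgroup.normalizer ((U : Subgroup G) : Set G))) ∧ (∀ U : Sylow 29 G, IsCoatom (Subgroup.normalizer ((U : Subgroup G) : Set G))) ∧
    (∀ U : Sylow 37 G, IsCoatom (Subgroup.normalizer ((U : Subgroup G) : Set G))) ∧ (∀ U : Sylow 43 G, IsCoatom (Subgroup.normalizer ((U : Subgroup G) : Set G))) := by
  obtain ⟨J, rfl⟩ := CL.J4.exists_JM_at hJ
  have h29 := CL.J4X.maxP29 J
  have h37 := CL.J4X.maxP37 J
  have h43 := CL.J4X.maxP43 J
  have nt : ∀ V : Subgroup G, 1 < Nat.card V → Nat.card V ≠ 86775571046077562880 →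
      Subgroup.normalizer (V : Set G) ≠ ⊤ := fun V h1 h2 e =>
    (Subgroup.normalizer_eq_top_iff.1 e).eq_bot_or_eq_top.elim (fun e => by simp [e] at h1)
      fun e => h2 (by rw [e, Subgroup.card_top, J.card_G])
  refine ⟨CL.J4X.coatom J J.card_H (by norm_num) fun _ => CL.J4X.thmH J h37,
    fun V hV hc => ⟨nt V (by rw [hc]; norm_num) (by rw [hc]; norm_num), fun _ => CL.J4X.thmV J h37 hV hc⟩,
    fun A hA hc hC => ⟨nt A (by rw [hc]; norm_num) (by rw [hc]; norm_num), fun _ => CL.J4X.thmA J h29 h43 hA hc hC⟩,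
    ⟨J.L, J.isSpecial_L, J.card_L, J.card_center_L, nt _ (by rw [J.card_L]; norm_num) (by rw [J.card_L]; norm_num),
      fun _ => CL.J4X.thmK J⟩, fun U => ⟨nt _ ?_ ?_, fun _ => CL.J4X.thmU J h29 U⟩,
    h29.coatom J (e := 28) (by decide), h37.coatom J (e := 12) (by decide), h43.coatom J (e := 14) (by decide)⟩
  all_goals
    haveI : Fact (Nat.Prime 11) := ⟨by norm_num⟩
    rw [(CL.J4X.t11 J (CL.Fus.sylIn_top_iff.2 ⟨U, rfl⟩) (by rw [Subgroup.card_top, J.card_G]; norm_num)).1,
      Subgroup.card_top, J.card_G]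
    norm_num

end Cfsg.Agent.S5582
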