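import Cfsg.Statements.S5585
import Cfsg.Agent.Spor.J4U3
import Cfsg.Agent.S1703

set_option autoImplicit false
open Cfsg
open scoped Pointwise

namespace Cfsg.Agent.S5585

/-- Let G be a finite non-abelian simple group with an involution τ whose centralizer C has generalized Fitting subgroup an extraspecial 2-group Q of order 2^13 of plus type (Q contains an elementary abelian subgroup of order 2^7), with a normal subgroup N ≥ Q of C such that N/Q has order 3 and is not complemented in C/Q, and C/N isomorphic to the automorphism group of M₂₂; suppose some conjugate of τ other than τ lies in Q. Then G is isomorphic to the fourth Janko group. -/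
theorem result {G : Type*} [Group G] [Finite G] [IsSimpleGroup G] (hG : ¬ IsMulCommutative G) (τ : G) (Q N : Subgroup ↥(Subgroup.centralizer ({τ} : Set G))) [Q.Normal] [N.Normal] (hS : Cfsg.IsExtraspecialCentralizerSetting τ Q 6) (hplus : ∃ E : Subgroup ↥Q, Cfsg.IsElementaryAbelian 2 E ∧ Nat.card ↥E = 2 ^ 7) (hQN : Q ≤ N) (hN3 : Nat.card ↥N = 3 * Nat.card ↥Q) (hns : ∀ K : Subgroup ↥(Subgroup.centralizer ({τ} : Set G)), K ⊓ N = Q → K ⊔ N = ⊤ → False) (hAut : Nonempty (↥(Subgroup.centralizer ({τ} : Set G)) ⧸ N ≃* MulAut ↥Cfsg.Spor.M22)) :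
    Cfsg.Spor.IsoJ4 G := by
  obtain ⟨Y⟩ := CL.J4.Un.exists_JM_of_setting Q N hS hQN hN3 hns hAut
  exact CL.J4.Un.isoJ4 Y Cfsg.Agent.S1703.result

end Cfsg.Agent.S5585
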