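import Cfsg.Statements.S5599
import Cfsg.Agent.Spor.M24More

set_option autoImplicit false
open scoped Pointwise
open Cfsg

namespace Cfsg.Agent.S5599

open CL.Spor MulAction

/-- In the automorphism group of the length-24 code, the two-point Mathieu group (permutations of the code's group fixing the extra point and the residue 0) has index 2 in the setwise stabiliser of that pair of points, and an element of the code's group interchanging the two points normalises the two-point group and induces on it, by conjugation, an automorphism that is not inner. -/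
theorem result (g : Equiv.Perm Cfsg.GolayPt) (hg : g ∈ Cfsg.M24) (h₁ : g none = some 0) (h₂ : g (some 0) = none) : Cfsg.Spor.M22.relIndex (Cfsg.M24 ⊓ MulAction.stabilizer (Equiv.Perm Cfsg.GolayPt) ({none, some 0} : Finset Cfsg.GolayPt)) = 2 ∧ (∀ x ∈ Cfsg.Spor.M22, g * x * g⁻¹ ∈ Cfsg.Spor.M22) ∧ ¬ ∃ h ∈ Cfsg.Spor.M22, ∀ x ∈ Cfsg.Spor.M22, g * x * g⁻¹ = h * x * h⁻¹ := by
  have e : duad0 = {none, some 0} := by decide +kernel
  have hM : ∀ x, x ∈ Spor.M22 ↔ x ∈ M24 ∧ x none = none ∧ x (some 0) = some 0 := fun x => and_assoc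
  refine ⟨?_, fun x hx => ?_, fun ⟨h, hh, hc⟩ => ?_⟩
  · have h1 : Spor.M22 ≤ M24 ⊓ stabilizer (Equiv.Perm GolayPt) ({none, some 0} : Finset GolayPt) := fun x hx =>
      ⟨hx.1.1, mem_stabilizer_iff.2 (by
        rw [Finset.smul_finset_insert, Finset.smul_finset_singleton, mem_stabilizer_iff.1 hx.1.2,
          mem_stabilizer_iff.1 hx.2])⟩
    have h2 := (Spor.M22.subgroupOf (M24 ⊓ stabilizer (Equiv.Perm GolayPt) ({none, some 0} : Finset GolayPt))).card_mul_index
    have h3 : Nat.card (M24 ⊓ stabilizer (Equiv.Perm GolayPt) ({none, some 0} : Finset GolayPt) : Subgroup _) = 887040 :=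
      (card_M24_inf _).trans (card_stabilizer_duad (s := {none, some 0}) (by decide))
    rw [Nat.card_congr (Subgroup.subgroupOfEquivOfLe h1).toEquiv, ← Nat.card_congr equivM22.toEquiv, card_M22', h3] at h2
    unfold Subgroup.relIndex; omega
  · rw [hM] at hx ⊢
    refine ⟨mul_mem (mul_mem hg hx.1) (inv_mem hg), ?_, ?_⟩
    · rw [Equiv.Perm.mul_apply, Equiv.Perm.mul_apply, Equiv.Perm.inv_eq_iff_eq.2 h₂.symm, hx.2.2, h₂]
    · rw [Equiv.Perm.mul_apply, Equiv.Perm.mul_apply, Equiv.Perm.inv_eq_iff_eq.2 h₁.symm, hx.2.1, h₁]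
  · have h1 := (chain24.card_inf_le (pruneOK_cent (K := fixS duad0) (good_fixS_all (good_top_of_all
      (S := [972666067725962093108061372731835424, 965058849188456039188914152537472032, 971140993845582983632815144601684160, 966681597361424961765067074684061792, 979088528032574385872360960914730464, 961352405100509415663727597140952704, 973760410849630889206357963269639872, 976744014708871947637967209238302240, 984681358691697744832984855966168416, 978937333476708509851348003517577696]) (by decide +kernel)) (by decide +kernel)))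
      [8388608, 1, 2, 4, 8, 16, 32]).trans (Nat.le_of_ble_eq_true (m := 1) (by decide +kernel))
    rw [top_inf_eq] at h1
    have h2 : (⟨h⁻¹ * g, mul_mem (inv_mem hh.1.1) hg⟩ : M24) ∈
        Subgroup.centralizer ((fixS duad0 : Subgroup M24) : Set M24) := by
      intro x hx
      have := hc x ((hM x).2 ⟨x.2, mem_fixS.1 hx none (by rw [e]; simp), mem_fixS.1 hx (some 0) (by rw [e]; simp)⟩)
      apply Subtype.ext
      show x * (h⁻¹ * g) = h⁻¹ * g * x
      calc _ = h⁻¹ * (h * x * h⁻¹) * g := by group
        _ = _ := by rw [← this]; group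
    rw [Subgroup.eq_bot_of_card_le _ h1, Subgroup.mem_bot, Subtype.ext_iff] at h2
    have h3 : h = g := inv_mul_eq_one.1 h2
    rw [← h3, ((hM h).1 hh).2.1] at h₁
    exact absurd h₁ (by simp)

end Cfsg.Agent.S5599
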