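import Cfsg.Statements.S5600
import Cfsg.Agent.Spor.M24More

set_option autoImplicit false
open scoped Pointwise
open Cfsg

namespace Cfsg.Agent.S5600

open CL.Spor MulAction

/-- Although the group of the length-24 code is only 5-transitive on the 24 points, it induces the full symmetric group on every 6-element subset: every permutation of a 6-set E is the restriction of an element of the group mapping E to itself. The pointwise stabiliser of E has order 16 when E lies in an octad and order 3 otherwise; in the latter case the setwise stabiliser of E has order 2160. -/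
theorem result (E : Finset Cfsg.GolayPt) (hE : E.card = 6) : (∀ σ : Equiv.Perm ↥E, ∃ g ∈ Cfsg.M24, ∀ p : ↥E, g p = σ p) ∧ ((∃ o ∈ Cfsg.octads, E ⊆ o) → Nat.card {g : Equiv.Perm Cfsg.GolayPt // g ∈ Cfsg.M24 ∧ ∀ p ∈ E, g p = p} = 16) ∧ ((¬ ∃ o ∈ Cfsg.octads, E ⊆ o) → Nat.card {g : Equiv.Perm Cfsg.GolayPt // g ∈ Cfsg.M24 ∧ ∀ p ∈ E, g p = p} = 3 ∧ Nat.card ↥(MulAction.stabilizer Cfsg.M24 E) = 2160) := by
  have h1 : ∀ σ : Equiv.Perm E, ∃ g : M24, ∀ p : E, g • (p : GolayPt) = σ p := fun σ => by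
    have e : Equiv.Perm.ofSubtype σ • E = E := by
      refine Finset.eq_of_subset_of_card_le (fun x hx => ?_) (by rw [Finset.card_smul_finset])
      obtain ⟨y, hy, rfl⟩ := Finset.mem_smul_finset.1 hx
      exact (Equiv.Perm.ofSubtype_apply_mem_iff_mem σ y).2 hy
    obtain ⟨g, hg⟩ := six_exists_eq_on hE (Equiv.Perm.ofSubtype σ) (by rw [e])
    exact ⟨g, fun p => (hg p p.2).trans (Equiv.Perm.ofSubtype_apply_coe σ p)⟩
  have h2 : Nat.card {g : Equiv.Perm GolayPt // g ∈ M24 ∧ ∀ p ∈ E, g p = p} = Nat.card (fixS E : Subgroup M24) :=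
    Nat.card_congr ⟨fun g => ⟨⟨g.1, g.2.1⟩, mem_fixS.2 g.2.2⟩, fun g => ⟨g.1.1, g.1.2, mem_fixS.1 g.2⟩,
      fun _ => rfl, fun _ => rfl⟩
  refine ⟨fun σ => (h1 σ).elim fun g hg => ⟨g, g.2, hg⟩, fun ⟨o, ho, h⟩ => ?_, fun h => ?_⟩
  · rw [h2, fixS_eq_of_six ho h hE.ge, card_fixS_octad ho]
  · refine ⟨h2.trans (card_fixS_umbral hE h), ?_⟩
    have h3 : (resHom (stabilizer M24 E) E fun _ h => h).range = ⊤ := by
      refine eq_top_iff.2 fun σ _ => ?_
      obtain ⟨g, hg⟩ := h1 σ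
      refine ⟨⟨g, mem_stabilizer_iff.2 (Finset.eq_of_subset_of_card_le (fun x hx => ?_)
        (by rw [Finset.card_smul_finset]))⟩, Equiv.ext fun p => Subtype.ext (hg p)⟩
      obtain ⟨y, hy, rfl⟩ := Finset.mem_smul_finset.1 hx
      exact (hg ⟨y, hy⟩).symm ▸ (σ ⟨y, hy⟩).2
    rw [← card_range_resHom (stabilizer M24 E) E fun _ h => h, h3, inf_eq_right.2 (fixS_le_stabilizer E),
      card_fixS_umbral hE h, Subgroup.card_top, Nat.card_perm, Nat.card_eq_fintype_card, Fintype.card_coe, hE]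
    rfl

end Cfsg.Agent.S5600
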