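import Cfsg.Statements.S5601
import Cfsg.Agent.Spor.M24Class

set_option autoImplicit false
open scoped Pointwise
open Cfsg

namespace Cfsg.Agent.S5601

open CL.Spor MulAction
open scoped Pointwise

/-- The group of the length-24 code has exactly two conjugacy classes of subgroups of order 3: a subgroup of order 3 fixes either exactly 6 of the 24 points or none of them, both cases occur, and two subgroups of order 3 with the same number of fixed points are conjugate. -/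
theorem result : (∀ X : Subgroup ↥Cfsg.M24, Nat.card X = 3 → {p : Cfsg.GolayPt | ∀ x ∈ X, ((x : ↥Cfsg.M24) : Equiv.Perm Cfsg.GolayPt) p = p}.ncard = 6 ∨ {p : Cfsg.GolayPt | ∀ x ∈ X, ((x : ↥Cfsg.M24) : Equiv.Perm Cfsg.GolayPt) p = p}.ncard = 0) ∧ (∃ X : Subgroup ↥Cfsg.M24, Nat.card X = 3 ∧ {p : Cfsg.GolayPt | ∀ x ∈ X, ((x : ↥Cfsg.M24) : Equiv.Perm Cfsg.GolayPt) p = p}.ncard = 6) ∧ (∃ X : Subgroup ↥Cfsg.M24, Nat.card X = 3 ∧ {p : Cfsg.GolayPt | ∀ x ∈ X, ((x : ↥Cfsg.M24) : Equiv.Perm Cfsg.GolayPt) p = p}.ncard = 0) ∧ ∀ X Y : Subgroup ↥Cfsg.M24, Nat.card X = 3 → Nat.card Y = 3 → {p : Cfsg.GolayPt | ∀ x ∈ X, ((x : ↥Cfsg.M24) : Equiv.Perm Cfsg.GolayPt) p = p}.ncard = {p : Cfsg.GolayPt | ∀ x ∈ Y, ((x : ↥Cfsg.M24) : Equiv.Perm Cfsg.GolayPt) p = p}.ncard → ∃ k : ↥Cfsg.M24, MulAut.conj k • X = Y := by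
  have key : ∀ x : M24, {p : GolayPt | ∀ y ∈ Subgroup.zpowers x, ((y : M24) : Equiv.Perm GolayPt) p = p}.ncard =
      (fixSet x).card := fun x => by
    rw [← Set.ncard_coe_finset]
    refine congrArg Set.ncard (Set.ext fun p => ⟨fun h => mem_fixSet.2 (h x (Subgroup.mem_zpowers x)), fun h => ?_⟩)
    have : Subgroup.zpowers x ≤ stabilizer M24 p := (Subgroup.zpowers_le).2 (mem_fixSet.1 h)
    exact fun y hy => this hy
  have cyc : ∀ X : Subgroup M24, Nat.card X = 3 → ∃ x, orderOf x = 3 ∧ X = Subgroup.zpowers x := fun X hX => by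
    have : Fact (Nat.Prime 3) := ⟨Nat.prime_three⟩
    obtain ⟨x, hx⟩ := exists_prime_orderOf_dvd_card' (G := X) 3 (by rw [hX])
    have ho : orderOf (x : M24) = 3 := (Subgroup.orderOf_coe x).trans hx
    exact ⟨x, ho, (Subgroup.eq_of_le_of_card_ge ((Subgroup.zpowers_le).2 x.2) (by rw [Nat.card_zpowers, ho, hX])).symm⟩
  refine ⟨fun X hX => ?_, ⟨Subgroup.zpowers (m24 r3A), by rw [Nat.card_zpowers, orderOf_r3A], ?_⟩,
    ⟨Subgroup.zpowers (m24 r3B), by rw [Nat.card_zpowers, orderOf_r3B], ?_⟩, fun X Y hX hY h => ?_⟩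
  · obtain ⟨x, ho, rfl⟩ := cyc X hX
    rw [key]; exact card_fixSet_three ho
  · rw [key, card_fixSet_r3A]
  · rw [key, card_fixSet_r3B]
  · obtain ⟨x, ox, rfl⟩ := cyc X hX
    obtain ⟨y, oy, rfl⟩ := cyc Y hY
    rw [key, key] at h
    obtain ⟨c, d, e1⟩ : ∃ c d : M24, c * x * c⁻¹ = d * y * d⁻¹ := by
      by_cases h0 : (fixSet x).card = 0
      · obtain ⟨c, e1⟩ := class_3B ox (by omega)
        obtain ⟨d, e2⟩ := class_3B oy (by omega)
        exact ⟨c, d, e1.trans e2.symm⟩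
      · obtain ⟨c, e1⟩ := class_3A ox h0
        obtain ⟨d, e2⟩ := class_3A oy (h ▸ h0)
        exact ⟨c, d, e1.trans e2.symm⟩
    have : (d⁻¹ * c) * x * (d⁻¹ * c)⁻¹ = y := by
      calc _ = d⁻¹ * (c * x * c⁻¹) * d := by group
        _ = _ := by rw [e1]; group
    refine ⟨d⁻¹ * c, ?_⟩
    rw [← this]
    exact MonoidHom.map_zpowers (MulAut.conj (d⁻¹ * c)).toMonoidHom x

end Cfsg.Agent.S5601
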