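import Cfsg.Statements.S5608
import Cfsg.Agent.Spor.M24Class

set_option autoImplicit false
open scoped Pointwise
open Cfsg

namespace Cfsg.Agent.S5608

open CL.Spor MulAction

/-- If an element of order 3 and an involution of the group of the length-24 code commute, then either the element of order 3 has exactly 6 fixed points and the involution exactly 8, or both are fixed-point-free. -/
theorem result (x s : Equiv.Perm Cfsg.GolayPt) (hx : x ∈ Cfsg.M24) (hs : s ∈ Cfsg.M24) (h₃ : orderOf x = 3) (h₂ : orderOf s = 2) (hc : Commute x s) : ((Finset.univ.filter fun p => x p = p).card = 6 ∧ (Finset.univ.filter fun p => s p = p).card = 8) ∨ ((Finset.univ.filter fun p => x p = p).card = 0 ∧ (Finset.univ.filter fun p => s p = p).card = 0) := by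
  have ox : orderOf (⟨x, hx⟩ : M24) = 3 := (Subgroup.orderOf_coe _).symm.trans h₃
  have os : orderOf (⟨s, hs⟩ : M24) = 2 := (Subgroup.orderOf_coe _).symm.trans h₂
  have key : ∀ (r n : ℕ) (lv : List (ℕ × List ℕ)), SChain (Subgroup.centralizer {m24 r}) lv →
      allProds (fun P => !isOrd 2 P || Nat.beq (pc24 (fixMask P)) n) lv pone = true →
      ∀ c : M24, c * ⟨x, hx⟩ * c⁻¹ = m24 r → (fixSet ⟨s, hs⟩).card = n := by
    intro r n lv h1 h2 c e
    obtain ⟨P, hP, h3⟩ := h1.forall_mem h2 (c * ⟨s, hs⟩ * c⁻¹) (by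
      rw [← e, Subgroup.mem_centralizer_singleton_iff]
      have : (⟨s, hs⟩ : M24) * ⟨x, hx⟩ = ⟨x, hx⟩ * ⟨s, hs⟩ := Subtype.ext hc.symm.eq
      calc _ = c * ((⟨s, hs⟩ : M24) * ⟨x, hx⟩) * c⁻¹ := by group
        _ = _ := by rw [this]; group)
    rw [(hP.isOrd_iff Nat.prime_two).2 (by rw [orderOf_conj', os]), Bool.not_true, Bool.false_or, Nat.beq_eq] at h3
    rw [hP.card_fixSet_conj, h3]
  rcases class_three ox with ⟨c, e⟩ | ⟨c, e⟩
  · exact Or.inl ⟨(card_fixSet_of_conj e).trans card_fixSet_r3A, key _ _ _ chainC3A (by decide +kernel) c e⟩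
  · exact Or.inr ⟨(card_fixSet_of_conj e).trans card_fixSet_r3B, key _ _ _ chainC3B (by decide +kernel) c e⟩

end Cfsg.Agent.S5608
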