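import Cfsg.Statements.S5609
import Cfsg.Agent.Spor.M24More

set_option autoImplicit false
open scoped Pointwise
open Cfsg

namespace Cfsg.Agent.S5609

open CL.Spor MulAction

/-- In the graph on the 759 octads of the length-24 code in which two octads are adjacent when they are disjoint, the graph is connected (of diameter 3) and two distinct octads are at distance 1, 2 or 3 exactly when they meet in 0, 4 or 2 points respectively. -/
theorem result (o o' : Finset Cfsg.GolayPt) (ho : o ∈ Cfsg.octads) (ho' : o' ∈ Cfsg.octads) (hne : o ≠ o') : (Cfsg.blockGraph Cfsg.octads).Connected ∧ ((Cfsg.blockGraph Cfsg.octads).dist ⟨o, ho⟩ ⟨o', ho'⟩ = 1 ↔ (o ∩ o').card = 0) ∧ ((Cfsg.blockGraph Cfsg.octads).dist ⟨o, ho⟩ ⟨o', ho'⟩ = 2 ↔ (o ∩ o').card = 4) ∧ ((Cfsg.blockGraph Cfsg.octads).dist ⟨o, ho⟩ ⟨o', ho'⟩ = 3 ↔ (o ∩ o').card = 2) := by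
  have adj : ∀ a b : octads, (blockGraph octads).Adj a b ↔ ((a : Finset GolayPt) ∩ b).card = 0 := by
    intro a b
    rw [blockGraph, SimpleGraph.fromRel_adj, Finset.card_eq_zero, ← Finset.disjoint_iff_inter_eq_empty]
    refine ⟨fun h => h.2.elim id fun h => h.symm, fun h => ⟨?_, Or.inl h⟩⟩
    rintro rfl
    have := (mem_octads.1 a.2).2
    rw [(Finset.disjoint_self_iff_empty _).1 h] at this
    exact absurd this (by decide)
  have w2 : ∀ a b : octads, ((a : Finset GolayPt) ∩ b).card = 4 → ∃ x, (blockGraph octads).Adj a x ∧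
      (blockGraph octads).Adj b x := by
    rintro ⟨a, ha⟩ ⟨b, hb⟩ h
    obtain ⟨g, rfl, rfl⟩ := octad_pair_base oct0_mem ((ofMask_mem_octads (m := 5279) (by norm_num)).2 (by decide +kernel))
      ha hb (by rw [h]; decide +kernel)
    refine ⟨⟨g • ofMask 4038912, (smul_mem_octads_iff g).2 ((ofMask_mem_octads (by norm_num)).2 (by decide +kernel))⟩, ?_, ?_⟩ <;>
      rw [adj, card_smul_inter_smul] <;> decide +kernel
  have w3 : ∀ a b : octads, ((a : Finset GolayPt) ∩ b).card = 2 → ∃ x, (blockGraph octads).Adj a x ∧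
      ((x : Finset GolayPt) ∩ b).card = 4 := by
    rintro ⟨a, ha⟩ ⟨b, hb⟩ h
    obtain ⟨g, rfl, rfl⟩ := octad_pair_base oct0_mem ((ofMask_mem_octads (m := 15777) (by norm_num)).2 (by decide +kernel))
      ha hb (by rw [h]; decide +kernel)
    refine ⟨⟨g • ofMask 337856, (smul_mem_octads_iff g).2 ((ofMask_mem_octads (by norm_num)).2 (by decide +kernel))⟩, ?_, ?_⟩
    · rw [adj, card_smul_inter_smul]; decide +kernel
    · rw [card_smul_inter_smul]; decide +kernel
  have n2 : ∀ a b x : octads, ((a : Finset GolayPt) ∩ b).card = 2 → (blockGraph octads).Adj a x →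
      ¬ (blockGraph octads).Adj b x := by
    rintro ⟨a, ha⟩ ⟨b, hb⟩ ⟨x, hx⟩ h h1 h2
    rw [adj] at h1 h2
    have c1 := card_symmDiff_add a b
    have c2 := card_symmDiff_add (symmDiff a b) x
    have c3 : (symmDiff a b ∩ x).card = 0 := by
      rw [Finset.card_eq_zero, Finset.eq_empty_iff_forall_notMem] at h1 h2 ⊢
      intro p hp
      rcases Finset.mem_symmDiff.1 (Finset.mem_inter.1 hp).1 with h3 | h3
      · exact h1 p (Finset.mem_inter.2 ⟨h3.1, (Finset.mem_inter.1 hp).2⟩)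
      · exact h2 p (Finset.mem_inter.2 ⟨h3.1, (Finset.mem_inter.1 hp).2⟩)
    have c4 := GC_card (GC_symmDiff (GC_symmDiff (mem_octads.1 ha).1 (mem_octads.1 hb).1) (mem_octads.1 hx).1)
    have := ha.2; have := hb.2; have := hx.2
    simp only at h
    omega
  have walk : ∀ a b : octads, a ≠ b → ∃ p : (blockGraph octads).Walk a b,
      (((a : Finset GolayPt) ∩ b).card = 4 → p.length ≤ 2) ∧ p.length ≤ 3 := by
    intro a b hab
    rcases octad_inter_card a.2 b.2 with h | h | h | h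
    · exact absurd (Subtype.ext h) hab
    · exact ⟨.cons ((adj a b).2 h) .nil, fun _ => by simp, by simp⟩
    · obtain ⟨x, h1, h2⟩ := w3 a b h
      obtain ⟨y, h3, h4⟩ := w2 x b h2
      exact ⟨.cons h1 (.cons h3 (.cons h4.symm .nil)), fun h' => by omega, by simp⟩
    · obtain ⟨y, h3, h4⟩ := w2 a b h
      exact ⟨.cons h3 (.cons h4.symm .nil), fun _ => by simp, by simp⟩
  have conn : (blockGraph octads).Connected := by
    have : Nonempty octads := ⟨⟨o, ho⟩⟩
    refine ⟨fun a b => ?_⟩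
    by_cases hab : a = b
    · rw [hab]
    · exact ⟨(walk a b hab).choose⟩
  have hne' : (⟨o, ho⟩ : octads) ≠ ⟨o', ho'⟩ := fun h => hne (congrArg Subtype.val h)
  have d1 : (blockGraph octads).dist ⟨o, ho⟩ ⟨o', ho'⟩ = 1 ↔ (o ∩ o').card = 0 :=
    SimpleGraph.dist_eq_one_iff_adj.trans (adj _ _)
  have d0 := conn.pos_dist_of_ne hne'
  obtain ⟨p, p2, p3⟩ := walk _ _ hne'
  have dp := SimpleGraph.dist_le p
  have d2 : (o ∩ o').card = 2 → (blockGraph octads).dist ⟨o, ho⟩ ⟨o', ho'⟩ ≠ 2 := fun h e => by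
    have e' : (blockGraph octads).edist ⟨o, ho⟩ ⟨o', ho'⟩ = 2 := by
      rw [← (conn _ _).coe_dist_eq_edist, e]; rfl
    obtain ⟨x, hx⟩ := (SimpleGraph.edist_eq_two_iff.1 e').2.2
    exact n2 _ _ x h hx.1 hx.2
  have := (octad_inter_card ho ho').resolve_left hne
  simp only at p2
  refine ⟨conn, d1, ?_, ?_⟩ <;> omega

end Cfsg.Agent.S5609
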