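import Cfsg.Statements.S5614
import Cfsg.Agent.Spor.M24More

set_option autoImplicit false
open scoped Pointwise
open Cfsg

namespace Cfsg.Agent.S5614

open CL.Spor MulAction

/-- In the group of the length-24 code, the joint stabiliser of two octads meeting in exactly two points is isomorphic to the symmetric group of degree 6. -/
theorem result (o o' : Finset Cfsg.GolayPt) (ho : o ∈ Cfsg.octads) (ho' : o' ∈ Cfsg.octads) (h₂ : (o ∩ o').card = 2) : Nonempty (↥(MulAction.stabilizer Cfsg.M24 o ⊓ MulAction.stabilizer Cfsg.M24 o') ≃* Equiv.Perm (Fin 6)) := by
  have hx : ofMask 15777 ∈ octads := (ofMask_mem_octads (by norm_num)).2 (by decide +kernel)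
  obtain ⟨g, rfl, rfl⟩ := octad_pair_base oct0_mem hx ho ho' (by rw [h₂]; decide +kernel)
  have h := card_stabilizer_octad_pair oct0_mem hx
  rw [show (oct0 ∩ ofMask 15777).card = 2 by decide +kernel, (ncard_octads_inter oct0_mem).2.1] at h
  have ch : SChain (fixS oct0) [(4, [984818244535754528103549039458486304, 967812279691448225500382947153381408, 963721886883755259286232606933354528, 961365507626256404119956257276790816, 981818691054096003685363657089320992, 970499966350631336865513127433832480, 968708902336673183175954409307867168, 972512676110088067912772961567868960, 965128854020860192151391391390468128, 979121071158219704299181131031480352, 975346028712660580592452217730074656, 971592882964418941354553515258775584, 983548720921252936276249910206105632, 976448692869377735270425038196672544, 966182099583441531322624363496310816, 980224387687010295957922729495201824])] :=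
    sChain_of_card (good_fixS_all (good_top_of_all (by decide +kernel)) (by decide +kernel)) e16G_eq.2.le
      (by decide +kernel)
  obtain ⟨e⟩ := nonempty_mulEquiv_perm (stabilizer M24 oct0 ⊓ stabilizer M24 (ofMask 15777)) (oct0 \ ofMask 15777)
    (fun k hk => by rw [Finset.smul_finset_sdiff, mem_stabilizer_iff.1 hk.1, mem_stabilizer_iff.1 hk.2])
    (eq_bot_iff.2 fun k hk => by
      obtain ⟨P, hP, h1⟩ := ch.forall_mem (f := fun P => Nat.beq P pone || !Nat.beq (actMask (pf P) 15777) 15777)
        (by decide +kernel) k (fixS_eq_of_six (E := oct0 \ ofMask 15777) oct0_mem Finset.sdiff_subset (by decide +kernel) ▸ hk.2)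
      have h2 := mem_stabilizer_iff.1 hk.1.2
      rw [hP.smul_ofMask, ofMask_inj (hP.actMask_lt _) (by norm_num)] at h2
      rw [h2] at h1
      exact hP.eq_one_iff.2 (by simpa using h1))
    (n := 6) (by decide +kernel) (by rw [show Nat.factorial 6 = 720 from rfl]; omega)
  exact ⟨(conjEquiv g _ _ fun x => by simp only [Subgroup.mem_inf, mem_stabilizer_smul_iff]).symm.trans e⟩

end Cfsg.Agent.S5614
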