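import Cfsg.Statements.S5618
import Cfsg.Agent.Spor.M24More

set_option autoImplicit false
open scoped Pointwise
open Cfsg

namespace Cfsg.Agent.S5618

open CL.Spor MulAction

/-- For a dodecad d of the length-24 code and a hexad C on it (a 6-point intersection of d with an octad): the joint stabiliser of d and C in the code's group is isomorphic to the symmetric group of degree 6, and it acts faithfully both on the six points of C and on the six points of d outside C. -/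
theorem result (d : Finset Cfsg.GolayPt) (hd : d ∈ Cfsg.dodecads) (C : Finset Cfsg.GolayPt) (hC : C ∈ Cfsg.hexadsOn d) : Nonempty (↥(MulAction.stabilizer Cfsg.M24 d ⊓ MulAction.stabilizer Cfsg.M24 C) ≃* Equiv.Perm (Fin 6)) ∧ (∀ g ∈ MulAction.stabilizer Cfsg.M24 d ⊓ MulAction.stabilizer Cfsg.M24 C, (∀ p ∈ C, ((g : ↥Cfsg.M24) : Equiv.Perm Cfsg.GolayPt) p = p) → g = 1) ∧ ∀ g ∈ MulAction.stabilizer Cfsg.M24 d ⊓ MulAction.stabilizer Cfsg.M24 C, (∀ p ∈ d \ C, ((g : ↥Cfsg.M24) : Equiv.Perm Cfsg.GolayPt) p = p) → g = 1 := by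
  obtain ⟨h6, o, ho, rfl⟩ := hC
  have f1 : ∀ F : Finset GolayPt, F ⊆ d → F.card = 6 → ∀ g ∈ stabilizer M24 d ⊓ stabilizer M24 (o ∩ d),
      (∀ p ∈ F, g • p = p) → g = 1 := fun F h1 h2 g hg h3 =>
    (Subgroup.mem_bot.1 (dodecad_fix_eq_bot hd (F := F) (by rw [Finset.inter_eq_left.2 h1]; omega) ▸
      (⟨hg.1, mem_fixS.2 h3⟩ : g ∈ stabilizer M24 d ⊓ fixS F)))
  refine ⟨nonempty_mulEquiv_perm _ (o ∩ d) (fun _ h => (Subgroup.mem_inf.1 h).2) (eq_bot_iff.2 fun g hg =>
    f1 _ Finset.inter_subset_right h6 g hg.1 (mem_fixS.1 hg.2)) h6 ?_, f1 _ Finset.inter_subset_right h6,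
    f1 _ Finset.sdiff_subset (by rw [Finset.card_sdiff_of_subset Finset.inter_subset_right, hd.2, h6])⟩
  have c1 := card_eq_ncard_orbit_mul (stabilizer M24 d) o
  have c2 : (orbit (stabilizer M24 d) o).ncard ≤ 132 := by
    obtain ⟨g, rfl⟩ := exists_eq_smul (M24_dodecad_trans0 hd)
    refine (Set.ncard_le_ncard (t := {x | (x ∈ GC ∧ x.card = 8) ∧ (g • dod0 ∩ x).card = 6}) (fun x hx => ?_)).trans
      ((ncard_cw_inter_smul g 8 6 dod0).trans ((ncard_cw_inter 8 340831 6).trans (by decide +kernel))).le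
    obtain ⟨k, hk, rfl⟩ := mem_orbit_subgroup_iff.1 hx
    exact ⟨mem_octads.1 ((smul_mem_octads_iff k).2 ho), by
      rw [← mem_stabilizer_iff.1 hk, card_smul_inter_smul, Finset.inter_comm, h6]⟩
  have c3 : Nat.card (stabilizer M24 d ⊓ stabilizer M24 o : Subgroup M24) ≤
      Nat.card (stabilizer M24 d ⊓ stabilizer M24 (o ∩ d) : Subgroup M24) :=
    Subgroup.card_le_of_le fun k hk => ⟨hk.1, mem_stabilizer_iff.2 (by
      rw [Finset.smul_finset_inter, mem_stabilizer_iff.1 hk.1, mem_stabilizer_iff.1 hk.2])⟩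
  rw [card_stabilizer_dodecad hd] at c1
  rw [show Nat.factorial 6 = 720 from rfl]
  nlinarith

end Cfsg.Agent.S5618
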