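import Cfsg.Statements.S5619
import Cfsg.Agent.Spor.M24Iso

set_option autoImplicit false
open scoped Pointwise
open Cfsg

namespace Cfsg.Agent.S5619

open CL.Spor MulAction

def levN : List (ℕ × List ℕ) := [(3, [984818244535754528103549039458486304, 928718206277989008510816407558424608, 929000492124499343650182431580424224, 487607080158395075740321133224921120, 487373122709212905255923294881187872, 487655643029606470073469406179395616, 984769902586367543974814854303385632, 984534996141977609297800625156032544, 928952864966028496604741530750814240])]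
def idx : QuaternionGroup 2 → ℕ
  | .a i => nth 0 [4, 9, 12, 6] i.val
  | .xa i => nth 0 [8, 13, 16, 18] i.val

/-- In the group of the length-24 code, the subgroup fixing a dodecad setwise and three of its points individually (a group of order 72) has a normal Sylow 3-subgroup that is elementary abelian of order 9, and its Sylow 2-subgroups are quaternion of order 8. -/
theorem result (d : Finset Cfsg.GolayPt) (hd : d ∈ Cfsg.dodecads) (p q r : Cfsg.GolayPt) (hp : p ∈ d) (hq : q ∈ d) (hr : r ∈ d) (hpq : p ≠ q) (hpr : p ≠ r) (hqr : q ≠ r) : (∀ Q : Sylow 3 ↥(MulAction.stabilizer Cfsg.M24 d ⊓ MulAction.stabilizer Cfsg.M24 p ⊓ MulAction.stabilizer Cfsg.M24 q ⊓ MulAction.stabilizer Cfsg.M24 r), (Q : Subgroup ↥(MulAction.stabilizer Cfsg.M24 d ⊓ MulAction.stabilizer Cfsg.M24 p ⊓ MulAction.stabilizer Cfsg.M24 q ⊓ MulAction.stabilizer Cfsg.M24 r)).Normal ∧ Nat.card ↥Q = 9 ∧ ∀ x ∈ (Q : Subgroup ↥(MulAction.stabilizer Cfsg.M24 d ⊓ MulAction.stabilizer Cfsg.M24 p ⊓ MulAction.stabilizer Cfsg.M24 q ⊓ MulAction.stabilizer Cfsg.M24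 r)), x ^ 3 = 1) ∧ ∀ P : Sylow 2 ↥(MulAction.stabilizer Cfsg.M24 d ⊓ MulAction.stabilizer Cfsg.M24 p ⊓ MulAction.stabilizer Cfsg.M24 q ⊓ MulAction.stabilizer Cfsg.M24 r), Nonempty (↥P ≃* QuaternionGroup 2) := by
  obtain ⟨g, rfl, rfl, rfl, rfl⟩ := dodecad_trans3 dod0_mem hd (p := gPt 0) (q := gPt 1) (r := gPt 2) (by decide +kernel)
    (by decide +kernel) (by decide +kernel) hp hq hr (by decide) (by decide) (by decide) hpq hpr hqr
  have ch := chain10.tail.1
  have e := conjEquiv g _ (stabilizer M24 (g • dod0) ⊓ stabilizer M24 (g • gPt 0) ⊓ stabilizer M24 (g • gPt 1) ⊓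
    stabilizer M24 (g • gPt 2)) (fun x => (by simp only [Subgroup.mem_inf, mem_stabilizer_smul_iff] : _ ↔ _ ∈
      stabilizer M24 dod0 ⊓ stabilizer M24 (gPt 0) ⊓ stabilizer M24 (gPt 1) ⊓ stabilizer M24 (gPt 2)))
  have hc := (Nat.card_congr e.toEquiv).symm.trans (ch.card_eq.trans (show _ = 72 by decide +kernel))
  have : Fact (Nat.Prime 3) := ⟨Nat.prime_three⟩
  refine ⟨fun Q => ?_, fun P => ?_⟩
  · have hL : ∀ P ∈ levelEls levN, Good ⊤ P := good_top_of_all (by decide +kernel)
    have : ((gen (levelEls levN)).subgroupOf (stabilizer M24 dod0 ⊓ stabilizer M24 (gPt 0) ⊓ stabilizer M24 (gPt 1) ⊓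
        stabilizer M24 (gPt 2))).Normal :=
      Subgroup.normal_subgroupOf_of_le_normalizer (ch.eq_gen.le.trans (gen_le
        (good_normalizer_all ch.1 (good_gen hL) rfl (good_gen hL) (by decide +kernel))))
    obtain ⟨N, n1, n2, n3⟩ := exists_normal_of_equiv e ((gen (levelEls levN)).subgroupOf _)
    rw [card_subgroupOf', inf_eq_right.2 (gen_le (ch.good_of_sift hL (by decide +kernel))),
      (sChain_gen (by decide +kernel)).card_eq, show lenProd levN = 9 by decide +kernel] at n2
    have h1 : N = Q := by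
      let R : Sylow 3 _ := Sylow.ofCard N (by rw [n2, hc]; decide +kernel)
      have := Sylow.unique_of_normal R n1
      exact congrArg Sylow.toSubgroup (Subsingleton.elim R Q)
    refine ⟨h1 ▸ n1, (congrArg (fun K : Subgroup _ => Nat.card K) h1).symm.trans n2, fun x hx => ?_⟩
    rw [← h1] at hx
    have := gen_pow_eq_one hL (by decide +kernel) (n := 3) (by decide +kernel) _ ((n3 x).1 hx)
    apply e.symm.injective
    rw [map_pow, map_one]
    exact Subtype.ext this
  · have ch2 := ch.tail.1
    have hcd := ch2.card_eq.trans (show _ = 8 by decide +kernel)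
    have hX := ch2.good_of_sift (good_top_of_all (S := [715872302521680643580706198532491296, 608405391266436187982588441666881568]) (by decide +kernel)) (by decide +kernel)
    obtain ⟨θ, h1, -⟩ := exists_hom_pts idx (by decide +kernel) _
      (id_ker_iff (Γ := QuaternionGroup 2) (by decide +kernel)) hX
      (eq_gen_of_card_le [4] hX (by decide +kernel) hcd.le).1 (by
        intro P hP
        simp only [List.mem_cons, List.not_mem_nil, or_false] at hP
        rcases hP with rfl | rfl
        · exact ⟨.a 1, by decide +kernel⟩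
        · exact ⟨.xa 0, by decide +kernel⟩)
    have h2 := nonempty_equiv_of_injective θ (fun y hy => Subtype.ext (Subgroup.mem_bot.1
      ((dodecad_fix_eq_bot dod0_mem (F := Finset.univ.image fun v => gPt (idx v)) (by decide +kernel)).le
        ⟨y.2.1.1.1.1, mem_fixS.2 fun p hp => by
          obtain ⟨v, -, rfl⟩ := Finset.mem_image.1 hp
          exact (h1 y).1 hy v⟩))) (by rw [hcd, Nat.card_eq_fintype_card, QuaternionGroup.card])
    have e2 := ((e.subgroupMap _).symm.trans (Subgroup.subgroupOfEquivOfLe inf_le_left)).trans (MulEquiv.ofBijective θ h2)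
    refine ⟨(Sylow.equiv P (Sylow.ofCard _ ?_)).trans e2⟩
    refine (Nat.card_congr e2.toEquiv).trans ?_
    rw [hc, Nat.card_eq_fintype_card, QuaternionGroup.card]
    decide +kernel

end Cfsg.Agent.S5619
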