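import Cfsg.Statements.S5620
import Cfsg.Agent.Spor.M24More

set_option autoImplicit false
open scoped Pointwise
open Cfsg

namespace Cfsg.Agent.S5620

open CL.Spor MulAction

/-- Inside the stabiliser of the dodecad of squares (a Mathieu group of degree 12), the stabiliser of the residue 0 (a point of the dodecad) and the stabiliser of the extra point (a point outside the dodecad) are isomorphic but not conjugate; conjugation by a suitable element of the code's group that maps the dodecad of squares onto its complement carries the first onto the second. -/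
theorem result : Nonempty (↥(Cfsg.Spor.M12 ⊓ MulAction.stabilizer (Equiv.Perm Cfsg.GolayPt) (none : Cfsg.GolayPt)) ≃* ↥Cfsg.Spor.M11) ∧ (¬ ∃ k ∈ Cfsg.Spor.M12, MulAut.conj k • Cfsg.Spor.M11 = Cfsg.Spor.M12 ⊓ MulAction.stabilizer (Equiv.Perm Cfsg.GolayPt) (none : Cfsg.GolayPt)) ∧ ∃ g ∈ Cfsg.M24, g • Cfsg.Spor.squareDodecad = Finset.univ \ Cfsg.Spor.squareDodecad ∧ MulAut.conj g • Cfsg.Spor.M11 = Cfsg.Spor.M12 ⊓ MulAction.stabilizer (Equiv.Perm Cfsg.GolayPt) (none : Cfsg.GolayPt) := by
  obtain ⟨g, h1, h2⟩ := dodecad_point_trans dod0_mem (dodecad_compl dod0_mem) (p := some 0) (p' := none)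
    (by decide +kernel) (by decide +kernel)
  have hM : ∀ (s : Finset GolayPt) (p : GolayPt) (k : M24), MulAut.conj (k : Equiv.Perm GolayPt) •
      (M24 ⊓ stabilizer (Equiv.Perm GolayPt) s ⊓ stabilizer (Equiv.Perm GolayPt) p) =
      M24 ⊓ stabilizer (Equiv.Perm GolayPt) (k • s) ⊓ stabilizer (Equiv.Perm GolayPt) (k • p) := by
    intro s p k
    ext x
    rw [Subgroup.mem_pointwise_smul_iff_inv_smul_mem]
    simp only [Subgroup.mem_inf, Subgroup.smul_def k, mem_stabilizer_smul_iff, MulAut.smul_def, MulAut.conj_inv_apply]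
    refine and_congr_left' (and_congr_left' ?_)
    rw [mul_mem_cancel_right k.2, mul_mem_cancel_left (inv_mem k.2)]
  have e : MulAut.conj (g : Equiv.Perm GolayPt) • Spor.M11 =
      Spor.M12 ⊓ stabilizer (Equiv.Perm GolayPt) (none : GolayPt) := by
    rw [Spor.M11, Spor.M12, hM, squareDodecad_eq, h1, h2]
    have : stabilizer (Equiv.Perm GolayPt) dod0ᶜ = stabilizer (Equiv.Perm GolayPt) dod0 := by
      ext x
      rw [mem_stabilizer_iff, mem_stabilizer_iff, smul_finset_compl', compl_inj_iff]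
    rw [this]
  refine ⟨⟨e ▸ (Subgroup.equivSMul _ _).symm⟩, fun ⟨k, hk, e2⟩ => ?_, g, g.2, ?_, e⟩
  · have h3 := hM dod0 (some 0) ⟨k, hk.1⟩
    rw [Spor.M11, Spor.M12, squareDodecad_eq] at e2
    have h4 : (⟨k, hk.1⟩ : M24) • (some 0 : GolayPt) ∈ dod0 := by
      refine (smul_mem_iff_of_smul_eq ?_ _).2 (by decide +kernel)
      exact squareDodecad_eq ▸ mem_stabilizer_iff.1 hk.2
    obtain ⟨y, hy, hy'⟩ := Finset.exists_mem_ne (s := dod0) (by rw [dod0_mem.2]; norm_num)
      ((⟨k, hk.1⟩ : M24) • (some 0 : GolayPt))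
    obtain ⟨x, hx, e3⟩ := dodecad_fix_three_trans_compl (dodecad_compl dod0_mem) (F := {gPt 23, gPt 5, gPt 7})
      (by decide +kernel) (by decide +kernel) (by simpa using h4) (y := y) (by simpa using hy)
    have h5 : (x : Equiv.Perm GolayPt) ∈ M24 ⊓ stabilizer (Equiv.Perm GolayPt) dod0 ⊓
        stabilizer (Equiv.Perm GolayPt) (none : GolayPt) :=
      ⟨⟨x.2, (stabilizer_compl dod0).le hx.1⟩, mem_fixS.1 hx.2 none (by decide +kernel)⟩
    rw [← e2] at h5
    exact hy' (e3.symm.trans (mem_stabilizer_iff.1 (h3.le h5).2))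
  · rw [squareDodecad_eq, ← Finset.compl_eq_univ_sdiff]; exact h1

end Cfsg.Agent.S5620
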