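import Cfsg.Statements.S5621
import Cfsg.Agent.Spor.DesignCode

set_option autoImplicit false
open Cfsg

namespace Cfsg.Agent.S5621

/-- Let C be a self-dual binary code of length 24 with minimum weight at least 8 (a 12-dimensional subspace of the 24-dimensional space over the field with two elements, any two of whose words have dot product zero, with no non-zero word of weight below 8 — an abstract extended binary Golay code). Then C is doubly even: every word of C has weight divisible by 4. -/
theorem result (C : Submodule (ZMod 2) (Fin 24 → ZMod 2)) (hdim : Module.finrank (ZMod 2) C = 12) (horth : ∀ v ∈ C, ∀ w ∈ C, ∑ i, v i * w i = 0) (hmin : ∀ w ∈ C, w ≠ 0 → 8 ≤ hammingNorm w) : ∀ w ∈ C, 4 ∣ hammingNorm w := by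
  have h := CL.Spor.Des.setGolay_of_code (by simp) C hdim hmin
  intro w hw
  rw [CL.Spor.Des.norm_eq_card]
  refine h.induction (P := fun s => 4 ∣ s.card) (by simp) ?_ _ ⟨w, hw, rfl⟩
  rintro _ ⟨o, ho, rfl⟩ h8 _ ⟨t, ht, rfl⟩ h4
  have h1 := CL.Spor.Des.card_symmDiff_eq (support₂ o) (support₂ t)
  have h2 := horth o ho t ht
  rw [CL.Spor.Des.dot_eq_card, ZMod.natCast_eq_zero_iff] at h2
  omega

end Cfsg.Agent.S5621
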