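import Cfsg.Statements.S5624
import Cfsg.Agent.Spor.DesignCode

set_option autoImplicit false
open Cfsg

namespace Cfsg.Agent.S5624

/-- Let C be a self-dual binary code of length 24 with minimum weight at least 8 (a 12-dimensional subspace of the 24-dimensional space over the field with two elements, any two of whose words have dot product zero, with no non-zero word of weight below 8 — an abstract extended binary Golay code). Then C is spanned, as a vector space over the field with two elements, by its words of weight 8. -/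
theorem result (C : Submodule (ZMod 2) (Fin 24 → ZMod 2)) (hdim : Module.finrank (ZMod 2) C = 12) (horth : ∀ v ∈ C, ∀ w ∈ C, ∑ i, v i * w i = 0) (hmin : ∀ w ∈ C, w ≠ 0 → 8 ≤ hammingNorm w) : Submodule.span (ZMod 2) {w : Fin 24 → ZMod 2 | w ∈ C ∧ hammingNorm w = 8} = C := by
  have h := CL.Spor.Des.setGolay_of_code (by simp) C hdim hmin
  refine le_antisymm (Submodule.span_le.2 fun w hw => hw.1) fun w hw => ?_
  have := h.induction (P := fun s => s ∈ supports ((Submodule.span (ZMod 2)
    {w : Fin 24 → ZMod 2 | w ∈ C ∧ hammingNorm w = 8} : Submodule (ZMod 2) (Fin 24 → ZMod 2)) :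
      Set (Fin 24 → ZMod 2))) ⟨0, Submodule.zero_mem _, CL.Spor.Des.supp_zero⟩ ?_ _ ⟨w, hw, rfl⟩
  · exact CL.Spor.Des.supp_mem_supports.1 this
  · rintro _ ⟨o, ho, rfl⟩ h8 _ - ⟨t, ht, rfl⟩
    refine ⟨o + t, Submodule.add_mem _ (Submodule.subset_span ⟨ho, ?_⟩) ht, CL.Spor.Des.supp_add o t⟩
    rw [CL.Spor.Des.norm_eq_card, h8]

end Cfsg.Agent.S5624
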