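import Cfsg.Statements.S5625
import Cfsg.Agent.Spor.DesignBasic

set_option autoImplicit false
open Cfsg

namespace Cfsg.Agent.S5625

/-- In any Steiner system S(5, 8, 24) and for any set Y of three points, the blocks meeting Y in exactly 3, 2, 1 and 0 points number 21, 168, 360 and 210 respectively (so there are 759 blocks in all). -/
theorem result (α : Type*) [Fintype α] [DecidableEq α] (hα : Fintype.card α = 24) (B : Set (Finset α)) (hB : Cfsg.IsSteinerSystem 5 8 B) (Y : Finset α) (hY : Y.card = 3) : {b : Finset α | b ∈ B ∧ (b ∩ Y).card = 3}.ncard = 21 ∧ {b : Finset α | b ∈ B ∧ (b ∩ Y).card = 2}.ncard = 168 ∧ {b : Finset α | b ∈ B ∧ (b ∩ Y).card = 1}.ncard = 360 ∧ {b : Finset α | b ∈ B ∧ (b ∩ Y).card = 0}.ncard = 210 := by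
  have key : ∀ i : ℕ, (({c | c ∈ B ∧ (c ∩ Y).card = i} : Set (Finset α)).ncard : ℤ) =
      Nat.choose 3 i * CL.Spor.Des.tri CL.Spor.Des.lam24 (3 - i) i := by
    intro i
    have := CL.Spor.Des.ncard_inter_card B Y i (CL.Spor.Des.tri CL.Spor.Des.lam24 (3 - i) i) (by
      intro s hs hsi
      have := CL.Spor.Des.ncard_inter_eq_small hB hα CL.Spor.Des.lamOK24 (U := Y) (by omega) hs
      rwa [hY, hsi] at this)
    rw [hY] at this
    simpa only [Finset.inter_comm Y] using this
  have h3 : (Nat.choose 3 3 : ℤ) * CL.Spor.Des.tri CL.Spor.Des.lam24 (3 - 3) 3 = 21 := by decide +kernel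
  have h2 : (Nat.choose 3 2 : ℤ) * CL.Spor.Des.tri CL.Spor.Des.lam24 (3 - 2) 2 = 168 := by decide +kernel
  have h1 : (Nat.choose 3 1 : ℤ) * CL.Spor.Des.tri CL.Spor.Des.lam24 (3 - 1) 1 = 360 := by decide +kernel
  have h0 : (Nat.choose 3 0 : ℤ) * CL.Spor.Des.tri CL.Spor.Des.lam24 (3 - 0) 0 = 210 := by decide +kernel
  refine ⟨?_, ?_, ?_, ?_⟩
  · have := key 3; rw [h3] at this; exact_mod_cast this
  · have := key 2; rw [h2] at this; exact_mod_cast this
  · have := key 1; rw [h1] at this; exact_mod_cast this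
  · have := key 0; rw [h0] at this; exact_mod_cast this

end Cfsg.Agent.S5625
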