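import Cfsg.Statements.S5628
import Cfsg.Agent.Spor.DesignPlane4

set_option autoImplicit false
open Cfsg

namespace Cfsg.Agent.S5628

/-- In a projective plane of order 4 (a Steiner system S(2, 5, 21)), every permutation of the six points of a hyperoval (a 6-set met by no line in more than two points) is the restriction of exactly one automorphism of the plane. In particular the stabiliser of a hyperoval in the automorphism group is isomorphic to the symmetric group of degree 6 acting faithfully on the hyperoval. -/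
theorem result {α : Type*} [Fintype α] [DecidableEq α] (hα : Fintype.card α = 21) (L : Set (Finset α)) (hL : Cfsg.IsSteinerSystem 2 5 L) (H : Finset α) (hH : (H.card = 6 ∧ ∀ l ∈ L, (l ∩ H).card ≤ 2)) (σ : Equiv.Perm ↥H) : ∃! g : Equiv.Perm α, g ∈ Cfsg.setSystemAut L ∧ ∀ p : ↥H, g p = σ p := by
  obtain ⟨g, hg, hg'⟩ := CL.Spor.Des.exists_ext_hyperoval hα hL hH.1 hH.2 σ
  refine ⟨g, ⟨hg, hg'⟩, fun k hk => ?_⟩
  have := CL.Spor.Des.eq_one_of_fix_hyperoval hα hL hH.1 hH.2 (g := g⁻¹ * k)
    (Subgroup.mul_mem _ (Subgroup.inv_mem _ hg) hk.1) (fun p hp => by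
      rw [Equiv.Perm.mul_apply, Equiv.Perm.inv_eq_iff_eq]
      exact (hk.2 ⟨p, hp⟩).trans (hg' ⟨p, hp⟩).symm)
  exact (inv_mul_eq_one.1 this).symm

end Cfsg.Agent.S5628
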