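import Cfsg.Statements.S5629
import Cfsg.Agent.Spor.J4U4
import Cfsg.Agent.Spor.J4Main
import Cfsg.Agent.Spor.J4DMain
import Cfsg.Agent.S1703

set_option autoImplicit false
open Cfsg
open scoped Pointwise

namespace Cfsg.Agent.S5629

/-- Let G be a finite non-abelian simple group of Janko-four type (an involution z whose centralizer H has an extraspecial largest normal 2-subgroup E of order 2^13 containing its centralizer in H, a normal subgroup N ≥ E of H with N/E of order 3 and H/N the automorphism group of M₂₂, and a subgroup P ≤ N of order 3 with C_E(P) = ⟨z⟩, N_H(P) ≠ C_H(P) and P ≤ C_H(P)′), and let V be an elementary abelian subgroup of G of order 2^11. Then the normalizer of V has index 173067389 in G, and in the action of G on the cosets of this normalizer the normalizer itself has exactly seven orbits, of sizes 1, 15180, 28336, 3400320, 32643072, 54405120 and 82575360 (a rank-7 permutation representation). -/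
theorem result {G : Type*} [Group G] [Finite G] [IsSimpleGroup G] (hG : ¬ IsMulCommutative G) (z : G) (hJ : Cfsg.IsOfJankoFourTypeAt z) (V : Subgroup G) (hV : Cfsg.IsElementaryAbelian 2 V) (hcard : Nat.card ↥V = 2 ^ 11) : (Subgroup.normalizer (V : Set G)).index = 173067389 ∧ ∃ c : Fin 7 → G ⧸ Subgroup.normalizer (V : Set G), (∀ i j : Fin 7, i ≠ j → MulAction.orbit ↥(Subgroup.normalizer (V : Set G)) (c i) ≠ MulAction.orbit ↥(Subgroup.normalizer (V : Set G)) (c j)) ∧ (∀ q : G ⧸ Subgroup.normalizer (V : Set G), ∃ i : Fin 7, q ∈ MulAction.orbit ↥(Subgroup.normalizer (V : Set G)) (c i)) ∧ (List.ofFn fun i => (MulAction.orbit ↥(Subgroup.normalizer (V : Set G)) (c i)).ncard) = [1, 15180, 28336, 3400320, 32643072, 54405120, 82575360] := by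
  obtain ⟨M, -⟩ := CL.J4.exists_JM_at hJ
  have hs := CL.J4M.subdegrees
  simp only [CL.J4M.reps, List.map_cons, List.map_nil, List.cons.injEq, and_true] at hs
  obtain ⟨s1, s2, s3, s4, s5, s6⟩ := hs
  refine CL.J4.Un.rank_seven M Cfsg.Agent.S1703.result (K := CL.J4M.N0) ?_ CL.J4M.final.1
    (fun i => CL.PG.wordG (CL.PG.ext CL.J4Rep.gs CL.J4M.xw) (([] :: CL.J4M.reps).getD i [])) (fun g => ?_)
    (fun i => ?_) V hV hcard
  · refine le_of_eq_of_le ?_ (CL.J4.Un.map_le M)
    unfold CL.J4M.N0 CL.TC.subL CL.J4DA.s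
    congr 3
    ext x
    simp
  · obtain ⟨w, hw, h⟩ := CL.J4M.cover g
    obtain ⟨i, hi, rfl⟩ := List.getElem_of_mem hw
    exact ⟨⟨i, hi⟩, by rw [List.getD_eq_getElem _ _ hi]; exact h⟩
  · fin_cases i
    · show (MulAction.orbit CL.J4M.N0 ((1 : Cfsg.Spor.J4) : Cfsg.Spor.J4 ⧸ CL.J4M.N0)).ncard = 1
      rw [Set.ncard_eq_one]
      refine ⟨((1 : Cfsg.Spor.J4) : Cfsg.Spor.J4 ⧸ CL.J4M.N0), Set.eq_singleton_iff_unique_mem.2
        ⟨MulAction.mem_orbit_self _, ?_⟩⟩
      rintro _ ⟨⟨a, ha⟩, rfl⟩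
      show ((a * 1 : Cfsg.Spor.J4) : Cfsg.Spor.J4 ⧸ CL.J4M.N0) = _
      rw [QuotientGroup.eq]
      simpa using ha
    exacts [s1, s2, s3, s4, s5, s6]

end Cfsg.Agent.S5629
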