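import Cfsg.Statements.S5648
import Cfsg.Agent.Cls.MaxSpCases

set_option autoImplicit false
open Cfsg

namespace Cfsg.Agent.S5648

/-- Over the field with 2 elements and for m ≥ 7, let D be a decomposition of F^(2m) into t pairwise orthogonal non-degenerate 2-dimensional subspaces for the standard alternating form (t = m ≥ 2). Then the elements of Sp_2m(2) permuting the members of D form a subgroup that is not maximal: some subgroup lies strictly between it and Sp_2m(2). -/
theorem result {F : Type*} [Field F] [Fintype F] (m : ℕ) (hm : 7 ≤ m) (hq : Fintype.card F = 2) {t : ℕ} (D : Fin t → Submodule F (Fin m ⊕ Fin m → F)) (hD : Cfsg.Geo.IsNondegenerateMDecomposition (Cfsg.sympForm m F) 2 D) : ∃ K : Subgroup (Matrix.GeneralLinearGroup (Fin m ⊕ Fin m) F), Cfsg.Geo.decompositionStabilizer D ⊓ Cfsg.spGL m F < K ∧ K < Cfsg.spGL m F := by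
  obtain ⟨Q, hQ, hp, hfix⟩ := CL.Asch.exists_quad_of_planes hq (CL.Asch.isSesq_sympForm m) (CL.Asch.sympForm_alt m) hD
  have hG := CL.Asch.rich_spGL (F := F) (m := m) (by omega) (by omega)
  have hO := CL.Asch.rich_omegaGL' hQ (by simp; omega)
  refine ⟨Cfsg.Geo.quadSimilarityGroup Q ⊓ Cfsg.spGL m F, lt_of_le_not_ge
    (fun g hg => ⟨⟨1, fun v => by simp [hfix g hg.1 hg.2]⟩, hg.2⟩) fun h =>
      hO.not_le_decompositionStabilizer hD.decomp fun g hg => (h ?_).1,
    lt_of_le_not_ge inf_le_right fun h => hG.not_le_quadSimilarityGroup (by simp; omega) hQ (h.trans inf_le_left)⟩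
  obtain ⟨⟨g, hg⟩, -, rfl⟩ := hg
  have e : ∀ v, Q ((g : Matrix _ _ F).mulVec v) = Q v := fun v => hg v v
  refine ⟨⟨1, fun v => by simpa using e v⟩, fun u v => ?_⟩
  show Cfsg.sympForm m F ((g : Matrix _ _ F).mulVec u) ((g : Matrix _ _ F).mulVec v) = _
  rw [← hp, ← hp, QuadraticMap.polar, QuadraticMap.polar, ← Matrix.mulVec_add, e, e, e]

end Cfsg.Agent.S5648
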