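import Cfsg.Statements.S5680
import Cfsg.Agent.Cls.OrthExt5

set_option autoImplicit false
open Cfsg

namespace Cfsg.Agent.S5680

/-- Let F be a finite field of odd order, m ≥ 6, Q the standard quadratic form on F^(2m+1) and Ω the commutator subgroup of its isometry group. Let K be a subfield of the algebra of (2m+1) × (2m+1) matrices over F containing the scalars, of prime degree r over F with r ≠ 2m + 1, whose elements are self-adjoint for the polar form of Q. Then the elements of Ω normalising K form a maximal subgroup of Ω. -/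
theorem result {F : Type*} [Field F] [Fintype F] (hodd : Odd (Fintype.card F)) (m : ℕ) (hm : 6 ≤ m) (r : ℕ) (hr : r.Prime) (hrn : 2 * m + 1 ≠ r) (K : Subalgebra F (Matrix (Unit ⊕ (Fin m ⊕ Fin m)) (Unit ⊕ (Fin m ⊕ Fin m)) F)) (hK : Cfsg.Geo.IsFieldSubalgebra r K) (hsa : Cfsg.Geo.IsSelfAdjointFor (QuadraticMap.polar (Cfsg.quadFormOdd m F)) K) : Cfsg.Geo.IsMaximalIn (Cfsg.Geo.omegaGL (Cfsg.quadFormOdd m F)) (Cfsg.Geo.subalgebraNormalizer K ⊓ Cfsg.Geo.omegaGL (Cfsg.quadFormOdd m F)) := by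
  have hd := (CL.Asch.isFld_of hK).finrank_dvd
  rw [hK.finrank_eq] at hd
  refine CL.Cls.isMaximalIn_omega_ext' (Q := CL.Cls.qfOdd m F)
    (CL.Cls.nondeg_qfOdd (CL.Cls.two_ne_zero_of_odd_card hodd)) (CL.Cls.two_ne_zero_of_odd_card hodd) hr ?_
    (fun _ => Or.inl (by simp; omega)) hK hsa
  obtain ⟨c, hc⟩ := hd
  have h1 : 2 * m + 1 = r * c := by rw [← hc]; simp; omega
  rw [hc, mul_comm]
  refine Nat.mul_le_mul_left r ?_
  by_contra h
  obtain rfl | rfl | rfl : c = 0 ∨ c = 1 ∨ c = 2 := by omega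
  all_goals omega

end Cfsg.Agent.S5680
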