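import Cfsg.Statements.S5778
import Cfsg.Agent.Cls.UniEx2
import Cfsg.Agent.S5663

set_option autoImplicit false
open Cfsg

namespace Cfsg.Agent.S5778

/-- Every maximal subgroup of SU_3(q), q ≥ 3, is of one of the listed geometric types or lies in the residual class. Let F be the field with q² elements, f the standard unitary form Σ u_i v_i^q on F^3, and H a maximal subgroup of SU_3(q) (the determinant-one isometries of f, inside GL_3(F)). Then H is the intersection with SU_3(q) of one of: the stabiliser of a non-zero subspace on which f vanishes; the stabiliser of a non-degenerate 1-space; for q ≠ 5, the stabiliser of a decomposition into three mutually orthogonal non-degenerate 1-spaces; for q ≠ 3, 5, the normaliser of an adjoint-closed degree-3 subfield of the matrix algebra; a subfield group of odd prime index whose F₀-structure carries f; for q odd, q ≥ 7, a subfield group of index 2 whose F₀-structure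 carries f; for q = p ≡ 2 mod 3 prime with p ≥ 11, the normaliser of an absolutely irreducible subgroup of order 27 with centre of order 3, exponent 3 and all characteristic abelian subgroups cyclic, contained in the similarity group of f — or else H lies in the residual class of the unitary case. -/
theorem result {F : Type*} [Field F] [Fintype F] (q : ℕ) (hF : Fintype.card F = q ^ 2) (hq : 3 ≤ q) (H : Subgroup (Matrix.GeneralLinearGroup (Fin 3) F)) (hH : Cfsg.Geo.IsMaximalIn (Cfsg.GU 3 F q ⊓ Cfsg.Geo.specialLinear (Fin 3) F) H) :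
    (∃ W : Submodule F (Fin 3 → F), W ≠ ⊥ ∧ Cfsg.Geo.IsTotallySingularFor (Cfsg.hermForm 3 F q) W ∧ H = Cfsg.Geo.subspaceStabilizer W ⊓ (Cfsg.GU 3 F q ⊓ Cfsg.Geo.specialLinear (Fin 3) F)) ∨
    (∃ W : Submodule F (Fin 3 → F), W ≠ ⊥ ∧ Cfsg.Geo.IsNondegenerateOn (Cfsg.hermForm 3 F q) W ∧ 2 * Module.finrank F W < 3 ∧ H = Cfsg.Geo.subspaceStabilizer W ⊓ (Cfsg.GU 3 F q ⊓ Cfsg.Geo.specialLinear (Fin 3) F)) ∨
    (q ≠ 5 ∧ ∃ D : Fin 3 → Submodule F (Fin 3 → F), Cfsg.Geo.IsNondegenerateMDecomposition (Cfsg.hermForm 3 F q) 1 D ∧ H = Cfsg.Geo.decompositionStabilizer D ⊓ (Cfsg.GU 3 F q ⊓ Cfsg.Geo.specialLinear (Fin 3) F)) ∨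
    (q ≠ 3 ∧ q ≠ 5 ∧ ∃ K : Subalgebra F (Matrix (Fin 3) (Fin 3) F), Cfsg.Geo.IsFieldSubalgebra 3 K ∧ Cfsg.Geo.IsAdjointClosedFor (Cfsg.hermForm 3 F q) K ∧ H = Cfsg.Geo.subalgebraNormalizer K ⊓ (Cfsg.GU 3 F q ⊓ Cfsg.Geo.specialLinear (Fin 3) F)) ∨
    (∃ (F₀ : Subfield F) (r : ℕ) (P : Matrix.GeneralLinearGroup (Fin 3) F), r.Prime ∧ Odd r ∧ Fintype.card F = Nat.card F₀ ^ r ∧ Cfsg.Geo.IsFormRationalStructure (Cfsg.hermForm 3 F q) F₀ 1 P ∧ H = Cfsg.Geo.subfieldSubgroup F₀ P ⊓ (Cfsg.GU 3 F q ⊓ Cfsg.Geo.specialLinear (Fin 3) F)) ∨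
    (Odd q ∧ 7 ≤ q ∧ ∃ (F₀ : Subfield F) (P : Matrix.GeneralLinearGroup (Fin 3) F), Fintype.card F = Nat.card F₀ ^ 2 ∧ Cfsg.Geo.IsFormRationalStructure (Cfsg.hermForm 3 F q) F₀ 1 P ∧ H = Cfsg.Geo.subfieldSubgroup F₀ P ⊓ (Cfsg.GU 3 F q ⊓ Cfsg.Geo.specialLinear (Fin 3) F)) ∨
    (∃ (p : ℕ) (R : Subgroup (Matrix.GeneralLinearGroup (Fin 3) F)), p.Prime ∧ q = p ∧ p % 3 = 2 ∧ 11 ≤ p ∧ Cfsg.Geo.IsSymplecticTypeGroup 3 R ∧ Cfsg.Geo.ActsAbsolutelyIrreducibly (Cfsg.Geo.matrixSet R) ∧ R ≤ Cfsg.Geo.similarityGroup (Cfsg.hermForm 3 F q) ∧ Nat.card R = 27 ∧ Nat.card (Subgroup.center R) = 3 ∧ H = Cfsg.Geo.subgroupNormalizer R ⊓ (Cfsg.GU 3 F q ⊓ Cfsg.Geo.specialLinear (Fin 3) F)) ∨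
    Cfsg.Geo.InUnitaryResidualClass H := by
  cases CL.Uni.uCase_of hF (by omega) (by omega) hH (Cfsg.Agent.S5663.result 3 q hF (by omega) (by omega) H) with
  | ti W h0 hW e => exact .inl ⟨W, h0, hW, e⟩
  | nondeg W h0 hW hd e => exact .inr (.inl ⟨W, h0, hW, hd, e⟩)
  | dec t k ht htk D hD e =>
    have h9 : t ≤ 3 := Nat.le_of_dvd (by omega) ⟨k, htk⟩
    obtain ⟨rfl, rfl⟩ : t = 3 ∧ k = 1 := by interval_cases t <;> omega
    refine .inr (.inr (.inl ⟨?_, D, hD, e⟩))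
    rintro rfl
    exact CL.Uni.not_max_frame_three_five (CL.Uni.isBar_bar hF) hD (e ▸ hH)
  | pair k hk D hD hts e => omega
  | field r hr hodd hrn K hK hadj e =>
    obtain rfl : r = 3 := (Nat.prime_dvd_prime_iff_eq hr (by norm_num)).1 hrn
    refine .inr (.inr (.inr (.inl ⟨?_, ?_, K, hK, hadj, e⟩))) <;> rintro rfl
    · exact CL.Uni.not_max_field_three_three (CL.Uni.isBar_bar hF) hK (e ▸ hH)
    · exact CL.Uni.not_max_field_three_five (CL.Uni.isBar_bar hF) hK (e ▸ hH)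
  | tensor n₁ n₂ h1 h12 hn e P f₁ f₂ hf₁ hf₂ hT e' =>
    have h9 : n₁ ≤ 3 := Nat.le_of_dvd (by omega) ⟨n₂, hn⟩
    exfalso
    interval_cases n₁ <;> omega
  | sub F₀ r P hr hodd hc hP e =>
    exact .inr (.inr (.inr (.inr (.inl ⟨F₀, r, P, hr, hodd, hc, hP, e⟩))))
  | orth hq' F₀ P hc hP e =>
    refine .inr (.inr (.inr (.inr (.inr (.inl ⟨hq', ?_, F₀, P, hc, hP, e⟩)))))
    by_contra h7
    obtain rfl | rfl : q = 3 ∨ q = 5 := by obtain ⟨k, rfl⟩ := hq'; omega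
    · exact CL.Uni.not_max_orth_three (CL.Uni.isBar_bar hF) hc hP (e ▸ hH)
    · exact CL.Uni.not_max_orth_five (CL.Uni.isBar_bar hF) hc hP (e ▸ hH)
  | symp hn F₀ P ζ hc hζ hζ' hP halt e => exact absurd hn (by decide)
  | extraOdd r p f k hr hodd hp hch hq hdvd hmin hf hn R hR hirr hsim hU hcard hZ e =>
    obtain ⟨rfl, -⟩ := CL.Uni.prime_pow_eq hr (l := 3) (by norm_num) one_ne_zero hn
    obtain ⟨rfl, h⟩ := CL.Uni.extra_three hp.pos hf hdvd hmin
    obtain rfl : q = p := hq.trans (pow_one p)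
    refine .inr (.inr (.inr (.inr (.inr (.inr (.inl ⟨q, R, hp, rfl, h, ?_, hR, hirr, hsim, hcard, hZ, e⟩))))))
    by_contra h11
    obtain rfl | rfl : q = 5 ∨ q = 8 := by omega
    · exact CL.Uni.not_max_extra_five (CL.Uni.isBar_bar hF) hR hirr hU hcard hZ (e ▸ hH)
    · exact absurd hp (by norm_num)
  | extraTwo k hp h4 hn R hR hirr hsim hcard hZ e =>
    exact absurd (CL.Uni.prime_pow_eq Nat.prime_two (l := 3) (by norm_num) one_ne_zero hn).1 (by decide)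
  | wreath k t hk ht hqk hn => exact absurd (CL.Uni.nine_le_pow hk ht) (by omega)
  | residual h => exact .inr (.inr (.inr (.inr (.inr (.inr (.inr h))))))

end Cfsg.Agent.S5778
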