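import Cfsg.Statements.S5784
import Cfsg.Agent.Cls.UniEx1
import Cfsg.Agent.Cls.UniJ
import Cfsg.Agent.S5663

set_option autoImplicit false
open Cfsg

namespace Cfsg.Agent.S5784

/-- Every maximal subgroup of SU_4(q) is of one of the listed geometric types or lies in the residual class. Let F be the field with q² elements, f the standard unitary form Σ u_i v_i^q on F^4, and H a maximal subgroup of SU_4(q) (inside GL_4(F)). Then H is the intersection with SU_4(q) of one of: the stabiliser of a non-zero subspace on which f vanishes; the stabiliser of a non-degenerate 1-space; for q ≠ 3, the stabiliser of a decomposition into four mutually orthogonal non-degenerate 1-spaces; for q ≥ 3, of a decomposition into two orthogonal non-degenerate 2-spaces; for q ≥ 4, of a decomposition into two totally isotropic 2-spaces; a subfield group of odd prime index whose F₀-structure carries f; a subfield group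 of index 2 whose F₀-structure carries ζ f, vanishing on pairs (u, u), for some non-zero ζ with ζ + ζ^q = 0; for q odd, a subfield group of index 2 whose F₀-structure carries f; for q = p ≡ 3 mod 4 prime, the normaliser of an absolutely irreducible symplectic-type 2-group of exponent 4, order 64 and centre of order 4 inside the similarity group of f — or else H lies in the residual class of the unitary case. -/
theorem result {F : Type*} [Field F] [Fintype F] (q : ℕ) (hF : Fintype.card F = q ^ 2) (H : Subgroup (Matrix.GeneralLinearGroup (Fin 4) F)) (hH : Cfsg.Geo.IsMaximalIn (Cfsg.GU 4 F q ⊓ Cfsg.Geo.specialLinear (Fin 4) F) H) :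
    (∃ W : Submodule F (Fin 4 → F), W ≠ ⊥ ∧ Cfsg.Geo.IsTotallySingularFor (Cfsg.hermForm 4 F q) W ∧ H = Cfsg.Geo.subspaceStabilizer W ⊓ (Cfsg.GU 4 F q ⊓ Cfsg.Geo.specialLinear (Fin 4) F)) ∨
    (∃ W : Submodule F (Fin 4 → F), W ≠ ⊥ ∧ Cfsg.Geo.IsNondegenerateOn (Cfsg.hermForm 4 F q) W ∧ 2 * Module.finrank F W < 4 ∧ H = Cfsg.Geo.subspaceStabilizer W ⊓ (Cfsg.GU 4 F q ⊓ Cfsg.Geo.specialLinear (Fin 4) F)) ∨
    (q ≠ 3 ∧ ∃ D : Fin 4 → Submodule F (Fin 4 → F), Cfsg.Geo.IsNondegenerateMDecomposition (Cfsg.hermForm 4 F q) 1 D ∧ H = Cfsg.Geo.decompositionStabilizer D ⊓ (Cfsg.GU 4 F q ⊓ Cfsg.Geo.specialLinear (Fin 4) F)) ∨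
    (3 ≤ q ∧ ∃ D : Fin 2 → Submodule F (Fin 4 → F), Cfsg.Geo.IsNondegenerateMDecomposition (Cfsg.hermForm 4 F q) 2 D ∧ H = Cfsg.Geo.decompositionStabilizer D ⊓ (Cfsg.GU 4 F q ⊓ Cfsg.Geo.specialLinear (Fin 4) F)) ∨
    (4 ≤ q ∧ ∃ D : Fin 2 → Submodule F (Fin 4 → F), Cfsg.Geo.IsMDecomposition 2 D ∧ (∀ i, Cfsg.Geo.IsTotallySingularFor (Cfsg.hermForm 4 F q) (D i)) ∧ H = Cfsg.Geo.decompositionStabilizer D ⊓ (Cfsg.GU 4 F q ⊓ Cfsg.Geo.specialLinear (Fin 4) F)) ∨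
    (∃ (F₀ : Subfield F) (r : ℕ) (P : Matrix.GeneralLinearGroup (Fin 4) F), r.Prime ∧ Odd r ∧ Fintype.card F = Nat.card F₀ ^ r ∧ Cfsg.Geo.IsFormRationalStructure (Cfsg.hermForm 4 F q) F₀ 1 P ∧ H = Cfsg.Geo.subfieldSubgroup F₀ P ⊓ (Cfsg.GU 4 F q ⊓ Cfsg.Geo.specialLinear (Fin 4) F)) ∨
    (∃ (F₀ : Subfield F) (P : Matrix.GeneralLinearGroup (Fin 4) F) (ζ : F), Fintype.card F = Nat.card F₀ ^ 2 ∧ ζ ≠ 0 ∧ ζ + ζ ^ q = 0 ∧ Cfsg.Geo.IsFormRationalStructure (Cfsg.hermForm 4 F q) F₀ ζ P ∧ (∀ u : Fin 4 → F, (∀ i, u i ∈ F₀) → (Cfsg.hermForm 4 F q) (Matrix.mulVec (P : Matrix (Fin 4) (Fin 4) F) u) (Matrix.mulVec (P : Matrix (Fin 4) (Fin 4) F) u) = 0) ∧ H = Cfsg.Geo.subfieldSubgroup F₀ P ⊓ (Cfsg.GU 4 F q ⊓ Cfsg.Geo.specialLinear (Fin 4) F)) ∨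
    (Odd q ∧ ∃ (F₀ : Subfield F) (P : Matrix.GeneralLinearGroup (Fin 4) F), Fintype.card F = Nat.card F₀ ^ 2 ∧ Cfsg.Geo.IsFormRationalStructure (Cfsg.hermForm 4 F q) F₀ 1 P ∧ H = Cfsg.Geo.subfieldSubgroup F₀ P ⊓ (Cfsg.GU 4 F q ⊓ Cfsg.Geo.specialLinear (Fin 4) F)) ∨
    (∃ (p : ℕ) (R : Subgroup (Matrix.GeneralLinearGroup (Fin 4) F)), p.Prime ∧ q = p ∧ p % 4 = 3 ∧ Cfsg.Geo.IsSymplecticTypeGroup 2 R ∧ Cfsg.Geo.ActsAbsolutelyIrreducibly (Cfsg.Geo.matrixSet R) ∧ R ≤ Cfsg.Geo.similarityGroup (Cfsg.hermForm 4 F q) ∧ Nat.card R = 64 ∧ Nat.card (Subgroup.center R) = 4 ∧ H = Cfsg.Geo.subgroupNormalizer R ⊓ (Cfsg.GU 4 F q ⊓ Cfsg.Geo.specialLinear (Fin 4) F)) ∨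
    Cfsg.Geo.InUnitaryResidualClass H := by
  have h2 := CL.Uni.two_le_q hF
  cases CL.Uni.uCase_of hF (by omega) (by omega) hH (Cfsg.Agent.S5663.result 4 q hF (by omega) (by omega) H) with
  | ti W h0 hW e => exact .inl ⟨W, h0, hW, e⟩
  | nondeg W h0 hW hd e => exact .inr (.inl ⟨W, h0, hW, hd, e⟩)
  | dec t k ht htk D hD e =>
    have h9 : t ≤ 4 := Nat.le_of_dvd (by omega) ⟨k, htk⟩
    obtain ⟨rfl, rfl⟩ | ⟨rfl, rfl⟩ : (t = 4 ∧ k = 1) ∨ (t = 2 ∧ k = 2) := by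
      interval_cases t <;> omega
    · refine .inr (.inr (.inl ⟨?_, D, hD, e⟩))
      rintro rfl
      exact CL.Uni.not_max_frame_four_three (CL.Uni.isBar_bar hF) hD (e ▸ hH)
    · refine .inr (.inr (.inr (.inl ⟨?_, D, hD, e⟩)))
      by_contra hq
      obtain rfl : q = 2 := by omega
      obtain ⟨M, h1, h2⟩ := CL.Uni.exists_between_planes (CL.Uni.isBar_bar hF) hD
      exact CL.Uni.not_isMaximalIn_of_lt h1 h2 (e ▸ hH)
  | pair k hk D hD hts e =>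
    obtain rfl : k = 2 := by omega
    refine .inr (.inr (.inr (.inr (.inl ⟨?_, D, hD, hts, e⟩))))
    by_contra hq
    obtain ⟨M, h1, h2⟩ := CL.Uni.exists_between_pair (CL.Uni.isBar_bar hF) (by omega) hD hts
    exact CL.Uni.not_isMaximalIn_of_lt h1 h2 (e ▸ hH)
  | field r hr hodd hrn K hK hadj e =>
    obtain rfl : r = 2 := (Nat.prime_dvd_prime_iff_eq hr (by norm_num)).1
      (hr.dvd_of_dvd_pow (show r ∣ 2 ^ 2 from hrn))
    exact absurd hodd (by decide)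
  | tensor n₁ n₂ h1 h12 hn e P f₁ f₂ hf₁ hf₂ hT e' =>
    have h9 : n₁ ≤ 4 := Nat.le_of_dvd (by omega) ⟨n₂, hn⟩
    exfalso
    interval_cases n₁ <;> omega
  | sub F₀ r P hr hodd hc hP e =>
    exact .inr (.inr (.inr (.inr (.inr (.inl ⟨F₀, r, P, hr, hodd, hc, hP, e⟩)))))
  | orth hq F₀ P hc hP e =>
    exact .inr (.inr (.inr (.inr (.inr (.inr (.inr (.inl ⟨hq, F₀, P, hc, hP, e⟩)))))))
  | symp hn F₀ P ζ hc hζ hζ' hP halt e =>
    exact .inr (.inr (.inr (.inr (.inr (.inr (.inl ⟨F₀, P, ζ, hc, hζ, hζ', hP, halt, e⟩))))))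
  | extraOdd r p f k hr hodd hp hch hq hdvd hmin hf hn R hR hirr hsim hU hcard hZ e =>
    obtain ⟨rfl, -⟩ := CL.Uni.prime_pow_eq hr (l := 2) (by norm_num) two_ne_zero hn
    exact absurd hodd (by decide)
  | extraTwo k hp h4 hn R hR hirr hsim hcard hZ e =>
    exact .inr (.inr (.inr (.inr (.inr (.inr (.inr (.inr (.inl
      ⟨q, R, hp, rfl, h4, hR, hirr, hsim, hcard, hZ, e⟩))))))))
  | wreath k t hk ht hqk hn => exact absurd (CL.Uni.nine_le_pow hk ht) (by omega)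
  | residual h => exact .inr (.inr (.inr (.inr (.inr (.inr (.inr (.inr (.inr h))))))))

end Cfsg.Agent.S5784
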