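import Cfsg.Statements.S5802
import Cfsg.Agent.Cls.UniEx1
import Cfsg.Agent.Cls.UniJ
import Cfsg.Agent.S5663

set_option autoImplicit false
open Cfsg

namespace Cfsg.Agent.S5802

/-- Every maximal subgroup of SU_6(q) is of one of the listed geometric types or lies in the residual class. Let F be the field with q² elements, f the standard unitary form Σ u_i v_i^q on F^6, and H a maximal subgroup of SU_6(q) (inside GL_6(F)). Then H is the intersection with SU_6(q) of one of: the stabiliser of a non-zero totally isotropic subspace; the stabiliser of a non-degenerate 1- or 2-space; for q ≥ 3, the stabiliser of a decomposition into six mutually orthogonal non-degenerate 1-spaces; for q ≥ 3, of a decomposition into three mutually orthogonal non-degenerate 2-spaces; of a decomposition into two orthogonal non-degenerate 3-spaces; of a decomposition into two totally isotropic 3-spaces; for q ≥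 3, the normaliser of an adjoint-closed degree-3 subfield of the matrix algebra; for q ≥ 3, the stabiliser of a tensor decomposition of f into unitary forms on F^2 and F^3; a subfield group of odd prime index whose F₀-structure carries f; a subfield group of index 2 and symplectic type; for q odd, a subfield group of index 2 and orthogonal type — or else H lies in the residual class of the unitary case. -/
theorem result {F : Type*} [Field F] [Fintype F] (q : ℕ) (hF : Fintype.card F = q ^ 2) (H : Subgroup (Matrix.GeneralLinearGroup (Fin 6) F)) (hH : Cfsg.Geo.IsMaximalIn (Cfsg.GU 6 F q ⊓ Cfsg.Geo.specialLinear (Fin 6) F) H) :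
    (∃ W : Submodule F (Fin 6 → F), W ≠ ⊥ ∧ Cfsg.Geo.IsTotallySingularFor (Cfsg.hermForm 6 F q) W ∧ H = Cfsg.Geo.subspaceStabilizer W ⊓ (Cfsg.GU 6 F q ⊓ Cfsg.Geo.specialLinear (Fin 6) F)) ∨
    (∃ W : Submodule F (Fin 6 → F), W ≠ ⊥ ∧ Cfsg.Geo.IsNondegenerateOn (Cfsg.hermForm 6 F q) W ∧ 2 * Module.finrank F W < 6 ∧ H = Cfsg.Geo.subspaceStabilizer W ⊓ (Cfsg.GU 6 F q ⊓ Cfsg.Geo.specialLinear (Fin 6) F)) ∨
    (3 ≤ q ∧ ∃ D : Fin 6 → Submodule F (Fin 6 → F), Cfsg.Geo.IsNondegenerateMDecomposition (Cfsg.hermForm 6 F q) 1 D ∧ H = Cfsg.Geo.decompositionStabilizer D ⊓ (Cfsg.GU 6 F q ⊓ Cfsg.Geo.specialLinear (Fin 6) F)) ∨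
    (3 ≤ q ∧ ∃ D : Fin 3 → Submodule F (Fin 6 → F), Cfsg.Geo.IsNondegenerateMDecomposition (Cfsg.hermForm 6 F q) 2 D ∧ H = Cfsg.Geo.decompositionStabilizer D ⊓ (Cfsg.GU 6 F q ⊓ Cfsg.Geo.specialLinear (Fin 6) F)) ∨
    (∃ D : Fin 2 → Submodule F (Fin 6 → F), Cfsg.Geo.IsNondegenerateMDecomposition (Cfsg.hermForm 6 F q) 3 D ∧ H = Cfsg.Geo.decompositionStabilizer D ⊓ (Cfsg.GU 6 F q ⊓ Cfsg.Geo.specialLinear (Fin 6) F)) ∨
    (∃ D : Fin 2 → Submodule F (Fin 6 → F), Cfsg.Geo.IsMDecomposition 3 D ∧ (∀ i, Cfsg.Geo.IsTotallySingularFor (Cfsg.hermForm 6 F q) (D i)) ∧ H = Cfsg.Geo.decompositionStabilizer D ⊓ (Cfsg.GU 6 F q ⊓ Cfsg.Geo.specialLinear (Fin 6) F)) ∨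
    (3 ≤ q ∧ ∃ K : Subalgebra F (Matrix (Fin 6) (Fin 6) F), Cfsg.Geo.IsFieldSubalgebra 3 K ∧ Cfsg.Geo.IsAdjointClosedFor (Cfsg.hermForm 6 F q) K ∧ H = Cfsg.Geo.subalgebraNormalizer K ⊓ (Cfsg.GU 6 F q ⊓ Cfsg.Geo.specialLinear (Fin 6) F)) ∨
    (3 ≤ q ∧ ∃ (e : Fin 6 ≃ Fin 2 × Fin 3) (P : Matrix.GeneralLinearGroup (Fin 6) F) (f₁ : (Fin 2 → F) → (Fin 2 → F) → F) (f₂ : (Fin 3 → F) → (Fin 3 → F) → F), Cfsg.Geo.IsUnitaryFormPow q f₁ ∧ Cfsg.Geo.IsUnitaryFormPow q f₂ ∧ Cfsg.Geo.IsTensorFormStructure (fun x : F => x ^ q) (Cfsg.hermForm 6 F q) f₁ f₂ e P ∧ H = Cfsg.Geo.tensorProductSubgroup 2 3 e P ⊓ (Cfsg.GU 6 F q ⊓ Cfsg.Geo.specialLinear (Fin 6) F)) ∨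
    (∃ (F₀ : Subfield F) (r : ℕ) (P : Matrix.GeneralLinearGroup (Fin 6) F), r.Prime ∧ Odd r ∧ Fintype.card F = Nat.card F₀ ^ r ∧ Cfsg.Geo.IsFormRationalStructure (Cfsg.hermForm 6 F q) F₀ 1 P ∧ H = Cfsg.Geo.subfieldSubgroup F₀ P ⊓ (Cfsg.GU 6 F q ⊓ Cfsg.Geo.specialLinear (Fin 6) F)) ∨
    (∃ (F₀ : Subfield F) (P : Matrix.GeneralLinearGroup (Fin 6) F) (ζ : F), Fintype.card F = Nat.card F₀ ^ 2 ∧ ζ ≠ 0 ∧ ζ + ζ ^ q = 0 ∧ Cfsg.Geo.IsFormRationalStructure (Cfsg.hermForm 6 F q) F₀ ζ P ∧ (∀ u : Fin 6 → F, (∀ i, u i ∈ F₀) → (Cfsg.hermForm 6 F q) (Matrix.mulVec (P : Matrix (Fin 6) (Fin 6) F) u) (Matrix.mulVec (P : Matrix (Fin 6) (Fin 6) F) u) = 0) ∧ H = Cfsg.Geo.subfieldSubgroup F₀ P ⊓ (Cfsg.GU 6 F q ⊓ Cfsg.Geo.specialLinear (Fin 6) F)) ∨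
    (Odd q ∧ ∃ (F₀ : Subfield F) (P : Matrix.GeneralLinearGroup (Fin 6) F), Fintype.card F = Nat.card F₀ ^ 2 ∧ Cfsg.Geo.IsFormRationalStructure (Cfsg.hermForm 6 F q) F₀ 1 P ∧ H = Cfsg.Geo.subfieldSubgroup F₀ P ⊓ (Cfsg.GU 6 F q ⊓ Cfsg.Geo.specialLinear (Fin 6) F)) ∨
    Cfsg.Geo.InUnitaryResidualClass H := by
  have h2 := CL.Uni.two_le_q hF
  cases CL.Uni.uCase_of hF (by omega) (by omega) hH (Cfsg.Agent.S5663.result 6 q hF (by omega) (by omega) H) with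
  | ti W h0 hW e => exact .inl ⟨W, h0, hW, e⟩
  | nondeg W h0 hW hd e => exact .inr (.inl ⟨W, h0, hW, hd, e⟩)
  | dec t k ht htk D hD e =>
    have h9 : t ≤ 6 := Nat.le_of_dvd (by omega) ⟨k, htk⟩
    obtain ⟨rfl, rfl⟩ | ⟨rfl, rfl⟩ | ⟨rfl, rfl⟩ : (t = 6 ∧ k = 1) ∨ (t = 3 ∧ k = 2) ∨ (t = 2 ∧ k = 3) := by
      interval_cases t <;> omega
    · refine .inr (.inr (.inl ⟨?_, D, hD, e⟩))
      by_contra hq
      obtain rfl : q = 2 := by omega
      exact CL.Uni.not_max_frame_six_two (CL.Uni.isBar_bar hF) hD (e ▸ hH)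
    · refine .inr (.inr (.inr (.inl ⟨?_, D, hD, e⟩)))
      by_contra hq
      obtain rfl : q = 2 := by omega
      obtain ⟨M, h1, h2⟩ := CL.Uni.exists_between_planes (CL.Uni.isBar_bar hF) hD
      exact CL.Uni.not_isMaximalIn_of_lt h1 h2 (e ▸ hH)
    · exact .inr (.inr (.inr (.inr (.inl ⟨D, hD, e⟩))))
  | pair k hk D hD hts e =>
    obtain rfl : k = 3 := by omega
    exact .inr (.inr (.inr (.inr (.inr (.inl ⟨D, hD, hts, e⟩)))))
  | field r hr hodd hrn K hK hadj e =>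
    obtain rfl : r = 3 := by
      have := Nat.le_of_dvd (by omega) hrn
      have := hr.two_le
      interval_cases r <;> simp_all (config := {decide := true})
    refine .inr (.inr (.inr (.inr (.inr (.inr (.inl ⟨?_, K, hK, hadj, e⟩))))))
    by_contra hq
    obtain rfl : q = 2 := by omega
    obtain ⟨M, h1, h2⟩ := CL.Uni.exists_between_field_six (CL.Uni.isBar_bar hF) hK hadj
    exact CL.Uni.not_isMaximalIn_of_lt h1 h2 (e ▸ hH)
  | tensor n₁ n₂ h1 h12 hn e P f₁ f₂ hf₁ hf₂ hT e' =>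
    have h9 : n₁ ≤ 6 := Nat.le_of_dvd (by omega) ⟨n₂, hn⟩
    obtain ⟨rfl, rfl⟩ : n₁ = 2 ∧ n₂ = 3 := by interval_cases n₁ <;> omega
    refine .inr (.inr (.inr (.inr (.inr (.inr (.inr (.inl ⟨?_, e, P, f₁, f₂, hf₁, hf₂, hT, e'⟩)))))))
    by_contra hq
    obtain rfl : q = 2 := by omega
    obtain ⟨M, h1, h2⟩ := CL.Uni.exists_between_tensor (CL.Uni.isBar_bar hF) (by omega) hf₁ hf₂ hT
    exact CL.Uni.not_isMaximalIn_of_lt h1 h2 (e' ▸ hH)
  | sub F₀ r P hr hodd hc hP e =>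
    exact .inr (.inr (.inr (.inr (.inr (.inr (.inr (.inr (.inl ⟨F₀, r, P, hr, hodd, hc, hP, e⟩))))))))
  | orth hq F₀ P hc hP e =>
    exact .inr (.inr (.inr (.inr (.inr (.inr (.inr (.inr (.inr (.inr (.inl ⟨hq, F₀, P, hc, hP, e⟩))))))))))
  | symp hn F₀ P ζ hc hζ hζ' hP halt e =>
    exact .inr (.inr (.inr (.inr (.inr (.inr (.inr (.inr (.inr (.inl ⟨F₀, P, ζ, hc, hζ, hζ', hP, halt, e⟩)))))))))
  | extraOdd r p f k hr hodd hp hch hq hdvd hmin hf hn R hR hirr hsim hU hcard hZ e =>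
    exact (CL.Uni.not_prime_pow (k := k) hr Nat.prime_two Nat.prime_three (by decide) (by rw [← hn]; decide)
      (by rw [← hn]; decide)).elim
  | extraTwo k hp h4 hn R hR hirr hsim hcard hZ e =>
    exact (CL.Uni.not_prime_pow (k := k) Nat.prime_two Nat.prime_two Nat.prime_three (by decide) (by rw [← hn]; decide)
      (by rw [← hn]; decide)).elim
  | wreath k t hk ht hqk hn => exact absurd (CL.Uni.nine_le_pow hk ht) (by omega)
  | residual h => exact .inr (.inr (.inr (.inr (.inr (.inr (.inr (.inr (.inr (.inr (.inr h))))))))))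

end Cfsg.Agent.S5802
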