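import Cfsg.Statements.S5811
import Cfsg.Agent.Cls.UniCases
import Cfsg.Agent.S5663

set_option autoImplicit false
open Cfsg

namespace Cfsg.Agent.S5811

/-- Every maximal subgroup of SU_7(q) is of one of the listed geometric types or lies in the residual class. Let F be the field with q² elements (characteristic p), f the standard unitary form Σ u_i v_i^q on F^7, and H a maximal subgroup of SU_7(q) (inside GL_7(F)). Then H is the intersection with SU_7(q) of one of: the stabiliser of a non-zero totally isotropic subspace; the stabiliser of a non-degenerate 1-, 2- or 3-space; the stabiliser of a decomposition into seven mutually orthogonal non-degenerate 1-spaces; the normaliser of an adjoint-closed degree-7 subfield of the matrix algebra; a subfield group of odd prime index whose F₀-structure carries f; for q odd, a subfield group of index 2 whose F₀-structure carries f; for q = p prime with p ≡ 6 mod 7, or q = p³ with p ≡ 3 or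 5 mod 7, the normaliser of an absolutely irreducible 7-group R of exponent 7, order 343 and centre of order 7, all of whose characteristic abelian subgroups are cyclic, contained in the similarity group of f — or else H lies in the residual class of the unitary case (modulo scalars H is almost simple, with absolutely irreducible perfect socle preimage realisable over no proper subfield and fixing no non-degenerate quadratic or symplectic form). -/
theorem result {F : Type*} [Field F] [Fintype F] (q : ℕ) (hF : Fintype.card F = q ^ 2) (H : Subgroup (Matrix.GeneralLinearGroup (Fin 7) F)) (hH : Cfsg.Geo.IsMaximalIn (Cfsg.GU 7 F q ⊓ Cfsg.Geo.specialLinear (Fin 7) F) H) :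
    (∃ W : Submodule F (Fin 7 → F), W ≠ ⊥ ∧ Cfsg.Geo.IsTotallySingularFor (Cfsg.hermForm 7 F q) W ∧ H = Cfsg.Geo.subspaceStabilizer W ⊓ (Cfsg.GU 7 F q ⊓ Cfsg.Geo.specialLinear (Fin 7) F)) ∨
    (∃ W : Submodule F (Fin 7 → F), W ≠ ⊥ ∧ Cfsg.Geo.IsNondegenerateOn (Cfsg.hermForm 7 F q) W ∧ 2 * Module.finrank F W < 7 ∧ H = Cfsg.Geo.subspaceStabilizer W ⊓ (Cfsg.GU 7 F q ⊓ Cfsg.Geo.specialLinear (Fin 7) F)) ∨
    (∃ D : Fin 7 → Submodule F (Fin 7 → F), Cfsg.Geo.IsNondegenerateMDecomposition (Cfsg.hermForm 7 F q) 1 D ∧ H = Cfsg.Geo.decompositionStabilizer D ⊓ (Cfsg.GU 7 F q ⊓ Cfsg.Geo.specialLinear (Fin 7) F)) ∨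
    (∃ K : Subalgebra F (Matrix (Fin 7) (Fin 7) F), Cfsg.Geo.IsFieldSubalgebra 7 K ∧ Cfsg.Geo.IsAdjointClosedFor (Cfsg.hermForm 7 F q) K ∧ H = Cfsg.Geo.subalgebraNormalizer K ⊓ (Cfsg.GU 7 F q ⊓ Cfsg.Geo.specialLinear (Fin 7) F)) ∨
    (∃ (F₀ : Subfield F) (r : ℕ) (P : Matrix.GeneralLinearGroup (Fin 7) F), r.Prime ∧ Odd r ∧ Fintype.card F = Nat.card F₀ ^ r ∧ Cfsg.Geo.IsFormRationalStructure (Cfsg.hermForm 7 F q) F₀ 1 P ∧ H = Cfsg.Geo.subfieldSubgroup F₀ P ⊓ (Cfsg.GU 7 F q ⊓ Cfsg.Geo.specialLinear (Fin 7) F)) ∨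
    (Odd q ∧ ∃ (F₀ : Subfield F) (P : Matrix.GeneralLinearGroup (Fin 7) F), Fintype.card F = Nat.card F₀ ^ 2 ∧ Cfsg.Geo.IsFormRationalStructure (Cfsg.hermForm 7 F q) F₀ 1 P ∧ H = Cfsg.Geo.subfieldSubgroup F₀ P ⊓ (Cfsg.GU 7 F q ⊓ Cfsg.Geo.specialLinear (Fin 7) F)) ∨
    (∃ (p : ℕ) (R : Subgroup (Matrix.GeneralLinearGroup (Fin 7) F)), p.Prime ∧ CharP F p ∧ ((q = p ∧ p % 7 = 6) ∨ (q = p ^ 3 ∧ (p % 7 = 3 ∨ p % 7 = 5))) ∧ Cfsg.Geo.IsSymplecticTypeGroup 7 R ∧ Cfsg.Geo.ActsAbsolutelyIrreducibly (Cfsg.Geo.matrixSet R) ∧ R ≤ Cfsg.Geo.similarityGroup (Cfsg.hermForm 7 F q) ∧ Nat.card R = 343 ∧ Nat.card (Subgroup.center R) = 7 ∧ H = Cfsg.Geo.subgroupNormalizer R ⊓ (Cfsg.GU 7 F q ⊓ Cfsg.Geo.specialLinear (Fin 7) F)) ∨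
    Cfsg.Geo.InUnitaryResidualClass H := by
  cases CL.Uni.uCase_of hF (by omega) (by omega) hH (Cfsg.Agent.S5663.result 7 q hF (by omega) (by omega) H) with
  | ti W h0 hW e => exact .inl ⟨W, h0, hW, e⟩
  | nondeg W h0 hW hd e => exact .inr (.inl ⟨W, h0, hW, hd, e⟩)
  | dec t k ht htk D hD e =>
    obtain rfl : t = 7 := ((by norm_num : Nat.Prime 7).eq_one_or_self_of_dvd t ⟨k, htk⟩).resolve_left (by omega)
    obtain rfl : k = 1 := by omega
    exact .inr (.inr (.inl ⟨D, hD, e⟩))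
  | pair k hk D hD hts e => omega
  | field r hr hodd hrn K hK hadj e =>
    obtain rfl : r = 7 := (Nat.prime_dvd_prime_iff_eq hr (by norm_num)).1 hrn
    exact .inr (.inr (.inr (.inl ⟨K, hK, hadj, e⟩)))
  | tensor n₁ n₂ h1 h12 hn e P f₁ f₂ hf₁ hf₂ hT e' =>
    obtain rfl : n₁ = 7 := ((by norm_num : Nat.Prime 7).eq_one_or_self_of_dvd n₁ ⟨n₂, hn⟩).resolve_left (by omega)
    omega
  | sub F₀ r P hr hodd hc hP e => exact .inr (.inr (.inr (.inr (.inl ⟨F₀, r, P, hr, hodd, hc, hP, e⟩))))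
  | orth hq F₀ P hc hP e => exact .inr (.inr (.inr (.inr (.inr (.inl ⟨hq, F₀, P, hc, hP, e⟩)))))
  | symp hn => exact absurd hn (by decide)
  | extraOdd r p f k hr hodd hp hch hq hdvd hmin hf hn R hR hirr hsim hU hcard hZ e =>
    obtain ⟨rfl, -⟩ := CL.Uni.prime_pow_eq hr (l := 7) (by norm_num) one_ne_zero hn
    refine .inr (.inr (.inr (.inr (.inr (.inr (.inl ⟨p, R, hp, hch, ?_, hR, hirr, hsim, hcard, hZ, e⟩))))))
    rcases CL.Uni.extra_seven hp.pos hf hdvd hmin with ⟨rfl, h⟩ | ⟨rfl, h⟩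
    · exact .inl ⟨by simpa using hq, h⟩
    · exact .inr ⟨hq, h⟩
  | extraTwo k hp h4 hn =>
    exact absurd (CL.Uni.prime_pow_eq Nat.prime_two (l := 7) (by norm_num) one_ne_zero hn).1 (by decide)
  | wreath k t hk ht hqk hn => exact absurd (CL.Uni.nine_le_pow hk ht) (by omega)
  | residual h => exact .inr (.inr (.inr (.inr (.inr (.inr (.inr h))))))

end Cfsg.Agent.S5811
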