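import Cfsg.Statements.S5826
import Cfsg.Agent.Cls.MaxEven

set_option autoImplicit false
open Cfsg

namespace Cfsg.Agent.S5826

/-- Every maximal subgroup of Ω_8^-(q) is of one of the listed geometric types or lies in the residual class. Let F be a finite field with q elements, Q a non-degenerate quadratic form on F^8 of minus type (no totally singular 4-space), Ω the commutator subgroup of its isometry group, and H a maximal subgroup of Ω (inside GL_8(F)). Then H is the intersection with Ω of one of: the stabiliser of a non-zero totally singular subspace; for q odd, the stabiliser of a non-degenerate subspace of odd dimension; the stabiliser of a non-degenerate 2-space of minus type; for q ≥ 4, the stabiliser of a non-degenerate 2-space of plus type; the stabiliser of a non-degenerate 4-space; for q even, the stabiliser of the span of a non-singular vector; the normaliser of a degree-2 subfield of the matrix algebra; a subfield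 group of odd prime index whose F₀-structure carries a non-zero multiple of Q — or else H lies in the residual class of the orthogonal case (modulo scalars H is almost simple, with absolutely irreducible perfect socle preimage realisable over no proper subfield and fixing no non-degenerate unitary form). -/
theorem result {F : Type*} [Field F] [Fintype F] (Q : (Fin 8 → F) → F) (hQ : Cfsg.Geo.IsNondegenerateQuadraticForm Q) (hminus : ¬ Cfsg.Geo.IsPlusTypeOn Q ⊤) (H : Subgroup (Matrix.GeneralLinearGroup (Fin 8) F)) (hH : Cfsg.Geo.IsMaximalIn (Cfsg.Geo.omegaGL Q) H) :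
    (∃ W : Submodule F (Fin 8 → F), W ≠ ⊥ ∧ Cfsg.Geo.IsTotallySingularQuad Q W ∧ H = Cfsg.Geo.subspaceStabilizer W ⊓ Cfsg.Geo.omegaGL Q) ∨
    (Odd (Fintype.card F) ∧ ∃ W : Submodule F (Fin 8 → F), W ≠ ⊥ ∧ W ≠ ⊤ ∧ Odd (Module.finrank F W) ∧ Cfsg.Geo.IsNondegenerateOn (QuadraticMap.polar Q) W ∧ H = Cfsg.Geo.subspaceStabilizer W ⊓ Cfsg.Geo.omegaGL Q) ∨
    (∃ W : Submodule F (Fin 8 → F), Module.finrank F W = 2 ∧ Cfsg.Geo.IsNondegenerateOn (QuadraticMap.polar Q) W ∧ ¬ Cfsg.Geo.IsPlusTypeOn Q W ∧ H = Cfsg.Geo.subspaceStabilizer W ⊓ Cfsg.Geo.omegaGL Q) ∨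
    (4 ≤ Fintype.card F ∧ ∃ W : Submodule F (Fin 8 → F), Module.finrank F W = 2 ∧ Cfsg.Geo.IsNondegenerateOn (QuadraticMap.polar Q) W ∧ Cfsg.Geo.IsPlusTypeOn Q W ∧ H = Cfsg.Geo.subspaceStabilizer W ⊓ Cfsg.Geo.omegaGL Q) ∨
    (∃ W : Submodule F (Fin 8 → F), Module.finrank F W = 4 ∧ Cfsg.Geo.IsNondegenerateOn (QuadraticMap.polar Q) W ∧ H = Cfsg.Geo.subspaceStabilizer W ⊓ Cfsg.Geo.omegaGL Q) ∨
    (¬ Odd (Fintype.card F) ∧ ∃ v : (Fin 8 → F), Q v ≠ 0 ∧ H = Cfsg.Geo.subspaceStabilizer (Submodule.span F {v}) ⊓ Cfsg.Geo.omegaGL Q) ∨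
    (∃ K : Subalgebra F (Matrix (Fin 8) (Fin 8) F), Cfsg.Geo.IsFieldSubalgebra 2 K ∧ H = Cfsg.Geo.subalgebraNormalizer K ⊓ Cfsg.Geo.omegaGL Q) ∨
    (∃ (F₀ : Subfield F) (r : ℕ) (P : Matrix.GeneralLinearGroup (Fin 8) F) (ζ : F), r.Prime ∧ Odd r ∧ Fintype.card F = Nat.card F₀ ^ r ∧ ζ ≠ 0 ∧ Cfsg.Geo.IsQuadFormRationalStructure (fun v : Fin 8 → F => ζ * Q v) F₀ P ∧ H = Cfsg.Geo.subfieldSubgroup F₀ P ⊓ Cfsg.Geo.omegaGL Q) ∨
    Cfsg.Geo.InOrthogonalResidualClass H := by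
  rcases CL.Asch.even_cases (m := 4) hQ (by simp) (by omega) hH with ⟨W, h0, h1, h2, h3⟩ |
    ⟨W, h0, h1, h2, h3, h4, hW⟩ | h | ⟨t, k, D, ht, htk, h1, h2, h3, h4, h5, h6, h7, hD⟩ | ⟨h1, h2, h3, hD⟩ |
    ⟨h1, h2, hD⟩ | ⟨r, K, hr, h1, h2, h3, hK⟩ | ⟨h1, K, hK⟩ | ⟨k, l, e, P, f₁, f₂, hk, hkl, h1, h2, h3, h4, hT⟩ |
    ⟨ho, k, l, e, P, f₁, f₂, hk, hkl, h1, h2, h3, h4, h5, hT⟩ | ⟨F₀, r, P, ζ, hr, h1, hP⟩ | ⟨k, t, hk, ht, h1, h2⟩ | h
  · exact Or.inl ⟨W, h0, h1, h3⟩
  · have h5 := CL.Asch.ne_bot_top_of_finrank h0 (by simp; omega)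
    rcases Nat.even_or_odd (Module.finrank F W) with ⟨s, hs⟩ | ho
    · rcases (by omega : Module.finrank F W = 2 ∨ Module.finrank F W = 4) with h | h
      · by_cases hp : Cfsg.Geo.IsPlusTypeOn Q W
        · exact Or.inr (Or.inr (Or.inr (Or.inl ⟨h4 h hp, W, h, hW.1, hp, hW.2⟩)))
        · exact Or.inr (Or.inr (Or.inl ⟨W, h, hW.1, hp, hW.2⟩))
      · iterate 4 right
        exact Or.inl ⟨W, h, hW⟩
    · exact Or.inr (Or.inl ⟨h3 ho, W, h5.1, h5.2, ho, hW⟩)
  · iterate 5 right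
    exact Or.inl h
  · refine (hminus ?_).elim
    rcases Nat.even_or_odd k with hk | hk
    · refine (h3 hk ⟨0, by omega⟩).mpr (Or.inl ?_)
      have := CL.Asch.le_of_mul_eq ht htk
      have : k ≤ 4 := by omega
      interval_cases k <;> first | omega | exact ⟨t / 2, by omega⟩
    · exact (h2 hk).2.mpr (Or.inl (by decide))
  · exact absurd h1 (by decide)
  · exact absurd h2 hminus
  · obtain rfl : r = 2 := (Nat.prime_dvd_prime_iff_eq hr Nat.prime_two).mp (hr.dvd_of_dvd_pow (n := 3) h1)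
    iterate 6 right
    exact Or.inl ⟨K, hK.1, hK.2.2⟩
  · iterate 6 right
    exact Or.inl ⟨K, hK.1, hK.2.2.2.2⟩
  · exact absurd (h4 (by nlinarith)).1 hminus
  · have : k ≤ 3 := by nlinarith
    obtain rfl : k = 3 := by omega
    omega
  · iterate 7 right
    exact Or.inl ⟨F₀, r, P, ζ, hr, h1 hminus, hP⟩
  · rcases CL.Asch.pow_le_twelve' hk ht (by omega) with ⟨rfl, -⟩ | ⟨rfl, rfl⟩
    · exact absurd (h2 rfl) hminus
    · omega
  · iterate 8 right
    exact h

end Cfsg.Agent.S5826
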