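import Cfsg.Statements.S5858
import Cfsg.Agent.Cls.OrthFrameMax
import Cfsg.Agent.Cls.OrthMaxFour
import Cfsg.Agent.Cls.OrthSub2

set_option autoImplicit false
open Cfsg

namespace Cfsg.Agent.S5858

/-- Maximal subgroups of Ω_11(q) of geometric type, q odd. Let F be a finite field of odd order q, Q the standard quadratic form x₀² + Σ x_i y_i on F^11 (coordinates Unit ⊕ (Fin 5 ⊕ Fin 5)), and Ω = Ω_11(q) the commutator subgroup of its isometry group, inside GL_11(F). Each of the following, intersected with Ω, is a maximal subgroup of Ω: (1) the stabiliser of any non-zero subspace on which Q vanishes identically (totally singular 1- to 5-spaces); (2) the stabiliser of any non-zero even-dimensional subspace W (dimension 2 to 10) on which the polar form of Q is non-degenerate (equivalently of its odd-dimensional orthogonal complement), except when q = 3 and W is a 2-space containing a non-zero singular vector (a plus-type plane); (3) for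 q = p prime, the stabiliser of any decomposition of F^11 into eleven pairwise orthogonal, pairwise Q-isometric non-degenerate 1-spaces; (4) every subfield group for a subfield F₀ with |F| = |F₀|^r, r prime, whose F₀-structure carries Q. -/
theorem result {F : Type*} [Field F] [Fintype F] (hodd : Odd (Fintype.card F)) :
    (∀ W : Submodule F (Unit ⊕ (Fin 5 ⊕ Fin 5) → F), W ≠ ⊥ → Cfsg.Geo.IsTotallySingularQuad (Cfsg.quadFormOdd 5 F) W → Cfsg.Geo.IsMaximalIn (Cfsg.Geo.omegaGL (Cfsg.quadFormOdd 5 F)) (Cfsg.Geo.subspaceStabilizer W ⊓ Cfsg.Geo.omegaGL (Cfsg.quadFormOdd 5 F))) ∧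
    (∀ W : Submodule F (Unit ⊕ (Fin 5 ⊕ Fin 5) → F), W ≠ ⊥ → Even (Module.finrank F W) → Cfsg.Geo.IsNondegenerateOn (QuadraticMap.polar (Cfsg.quadFormOdd 5 F)) W → ¬ (Fintype.card F = 3 ∧ Module.finrank F W = 2 ∧ Cfsg.Geo.IsPlusTypeOn (Cfsg.quadFormOdd 5 F) W) → Cfsg.Geo.IsMaximalIn (Cfsg.Geo.omegaGL (Cfsg.quadFormOdd 5 F)) (Cfsg.Geo.subspaceStabilizer W ⊓ Cfsg.Geo.omegaGL (Cfsg.quadFormOdd 5 F))) ∧
    ((Fintype.card F).Prime → ∀ D : Fin 11 → Submodule F (Unit ⊕ (Fin 5 ⊕ Fin 5) → F), Cfsg.Geo.IsOrthogonalMDecomposition (Cfsg.quadFormOdd 5 F) 1 D → Cfsg.Geo.IsMaximalIn (Cfsg.Geo.omegaGL (Cfsg.quadFormOdd 5 F)) (Cfsg.Geo.decompositionStabilizer D ⊓ Cfsg.Geo.omegaGL (Cfsg.quadFormOdd 5 F))) ∧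
    (∀ (F₀ : Subfield F) (r : ℕ) (P : Matrix.GeneralLinearGroup (Unit ⊕ (Fin 5 ⊕ Fin 5)) F), r.Prime → Fintype.card F = Nat.card F₀ ^ r → Cfsg.Geo.IsQuadFormRationalStructure (Cfsg.quadFormOdd 5 F) F₀ P → Cfsg.Geo.IsMaximalIn (Cfsg.Geo.omegaGL (Cfsg.quadFormOdd 5 F)) (Cfsg.Geo.subfieldSubgroup F₀ P ⊓ Cfsg.Geo.omegaGL (Cfsg.quadFormOdd 5 F))) := by
  have hQ := CL.Cls.nondeg_qfOdd (m := 5) (CL.Cls.two_ne_zero_of_odd_card hodd)
  have hc : Fintype.card (Unit ⊕ (Fin 5 ⊕ Fin 5)) = 11 := by simp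
  refine ⟨fun W hW0 hW => CL.Cls.isMaximalIn_omega_stab_singular hQ (by omega) hW0 hW (fun h => by omega),
    fun W hW0 ⟨k, hk⟩ hW hex => CL.Cls.isMaximalIn_omega_stab_nondeg' hQ (by omega) (by omega) hW0 (fun h => ?_) hW
      (fun h => by omega) ?_,
    fun hp D hD => CL.Cls.isMaximalIn_omega_frame hQ (by omega) (by omega) hp hodd hD,
    fun F₀ r P hr hcard hP => CL.Cls.isMaximalIn_omega_subfield' hQ (by omega) F₀ hr hcard P hP⟩
  · rw [h, finrank_top, Module.finrank_fintype_fun_eq_card] at hk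
    omega
  · rintro ⟨h3, U, h2, -, hp, rfl | ⟨-, h⟩⟩
    · have := Fintype.one_lt_card (α := F)
      obtain ⟨j, hj⟩ := hodd
      exact hex ⟨by omega, h2, hp⟩
    · omega

end Cfsg.Agent.S5858
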