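import Cfsg.Statements.S5944
import Cfsg.Agent.Base

set_option autoImplicit false
open Cfsg

namespace Cfsg.Agent.S5944

/-- For n ≠ 4, every proper subgroup of the symmetric group S_n other than the alternating group A_n has index at least n. -/
theorem result (n : ℕ) (hn : n ≠ 4) (H : Subgroup (Equiv.Perm (Fin n))) (hH : H ≠ ⊤) (hA : H ≠ alternatingGroup (Fin n)) : n ≤ H.index := by
  have h0 : H.index ≠ 0 := Subgroup.FiniteIndex.index_ne_zero
  have h1 : H.index ≠ 1 := by rwa [Ne, Subgroup.index_eq_one]
  have h2 : H.index ≠ 2 := fun h => hA (Equiv.Perm.eq_alternatingGroup_of_index_eq_two h)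
  by_cases h5 : 5 ≤ n
  · have hcore : H.normalCore = ⊥ := by
      by_contra hne
      have h3 := (Equiv.Perm.alternatingGroup_le_of_normal (α := Fin n) (by simpa using h5)
        ((Subgroup.nontrivial_iff_ne_bot _).2 hne)).trans H.normalCore_le
      haveI : Nontrivial (Fin n) := Fin.nontrivial_iff_two_le.2 (by omega)
      have h4 := Subgroup.index_dvd_of_le h3
      rw [alternatingGroup.index_eq_two] at h4
      have := Nat.le_of_dvd (by norm_num) h4
      omega
    rw [Subgroup.normalCore_eq_ker, MonoidHom.ker_eq_bot_iff] at hcore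
    have h3 := Nat.card_le_card_of_injective _ hcore
    rw [Nat.card_perm, Nat.card_perm, Nat.card_fin, ← Subgroup.index_eq_card] at h3
    by_contra hlt
    have := (Nat.factorial_lt (Nat.pos_of_ne_zero h0)).2 (not_le.1 hlt)
    omega
  · omega

end Cfsg.Agent.S5944
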