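import Cfsg.Statements.S5945
import Cfsg.Agent.Known.S6Aut

set_option autoImplicit false
open Cfsg

namespace Cfsg.Agent.S5945

open Equiv MulAction CL.Known.S6


/-- The symmetric group S_6 has exactly 12 subgroups of index 6; each of them is isomorphic to S_5, and at least one of them is not the stabilizer of any point. -/
theorem result : Nat.card {H : Subgroup (Equiv.Perm (Fin 6)) // H.index = 6} = 12 ∧ (∀ H : Subgroup (Equiv.Perm (Fin 6)), H.index = 6 → Nonempty (H ≃* Equiv.Perm (Fin 5))) ∧ ∃ H : Subgroup (Equiv.Perm (Fin 6)), H.index = 6 ∧ ∀ a : Fin 6, H ≠ MulAction.stabilizer (Equiv.Perm (Fin 6)) a := by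
  have h6 : Fintype.card (Fin 6) = 6 := by simp
  obtain ⟨ψ, h1, h2⟩ := exists_outer h6
  have hi : ∀ a : Fin 6, ((stabilizer (Perm (Fin 6)) a).comap ψ.toMonoidHom).index = 6 := fun a => by
    rw [Subgroup.index_comap_of_surjective _ ψ.surjective, index_stab, h6]
  have hinj : ∀ a b : Fin 6, stabilizer (Perm (Fin 6)) a = stabilizer (Perm (Fin 6)) b → a = b := fun a b h => by
    obtain ⟨c, hc1, hc2⟩ : ∃ c : Fin 6, c ≠ a ∧ c ≠ b := by clear h; revert a b; decide
    exact stab_injective c hc1 hc2 h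
  have hiso : ∀ a : Fin 6, Nonempty (stabilizer (Perm (Fin 6)) a ≃* Perm (Fin 5)) := fun a =>
    ⟨(stabEquiv a).symm.trans (Fintype.equivFinOfCardEq (by simp)).permCongrHom⟩
  refine ⟨?_, fun H hH => ?_, exists_transitive h6⟩
  · let F : Fin 6 ⊕ Fin 6 → {H : Subgroup (Perm (Fin 6)) // H.index = 6} :=
      Sum.elim (fun a => ⟨_, (index_stab a).trans h6⟩) fun a => ⟨_, hi a⟩
    have hF : Function.Bijective F := by
      constructor
      · rintro (a | a) (b | b) h
        · rw [hinj a b (congrArg Subtype.val h)]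
        · exact absurd (congrArg Subtype.val h).symm (h1 a b)
        · exact absurd (congrArg Subtype.val h) (h1 b a)
        · rw [hinj a b (Subgroup.comap_injective ψ.surjective (congrArg Subtype.val h))]
      · rintro ⟨H, hH⟩
        obtain ⟨a, h | h⟩ := h2 H hH
        · exact ⟨Sum.inl a, Subtype.ext h.symm⟩
        · exact ⟨Sum.inr a, Subtype.ext h.symm⟩
    rw [← Nat.card_eq_of_bijective F hF]
    simp
  · obtain ⟨a, rfl | rfl⟩ := h2 H hH
    · exact hiso a
    · obtain ⟨e⟩ := hiso a
      exact ⟨((ψ.subgroupMap _).trans (MulEquiv.subgroupCongr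
        (Subgroup.map_comap_eq_self_of_surjective ψ.surjective _))).trans e⟩

end Cfsg.Agent.S5945
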