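import Cfsg.Statements.S5950
import Cfsg.Agent.Cls.PrimeOrderGL3

set_option autoImplicit false
open scoped MatrixGroups
open Cfsg

namespace Cfsg.Agent.S5950

/-- Elements of prime order of PSL_n(q) fixing no decomposition `F^n = U ⊕ W` with `dim U = m`. Here `T = PSL_n(F)` for a field `F` with `q = p^f` elements (`n ≥ 2`, `(n, q) ≠ (2, 2), (2, 3)`); an element of `T` of prime order `r` is represented by a matrix `x` of determinant 1 with `x^r` scalar and `x` not scalar; `i` denotes the multiplicative order of `q` modulo `r` (when `r ≠ p`), and `(a)_r` the `r`-part of `a`. Let `n ≥ 3`, `1 ≤ m < n/2`, and let `r` be a prime dividing the number of such decompositions (unordered pairs `{U, W}` of complementary subspaces with `dim U = m`; since `m ≠ n − m` these are the ordered pairs with `dim U = m`). Then every element of `T` of order `r` fixes such a pair (fixes both `U` and `W` for some complementary `U, W` with `dim U = m`) if and only if one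 of: (i) `r = p > 2` and every partition of `n` into parts of size at most `p` contains, as a sub-multiset, a partition of `m`; (ii) `r = p = 2` and `n` is odd or `m` is even; (iii) `r ≠ p`, `i = 1`, and `r ∣ m` or `(q−1)_r ≥ (n)_r` (with `q ≡ 1 (mod 4)` required when `r = 2` and `n` is even); (iv) `r ≠ p`, `2 ≤ i ≤ m` and `n mod i ≥ m mod i`. -/
theorem result {F : Type*} [Field F] [Fintype F] {p : ℕ} [Fact p.Prime] [CharP F p] {q : ℕ} (hq : Fintype.card F = q)
    (n m : ℕ) (hn : 3 ≤ n) (hm : 1 ≤ m) (hmn : 2 * m < n)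
    (r : ℕ) [Fact r.Prime]
    (hrΩ : r ∣ Nat.card {P : Submodule F (Fin n → F) × Submodule F (Fin n → F) // IsCompl P.1 P.2 ∧ Module.finrank F ↥P.1 = m}) :
    (∀ x : Matrix.SpecialLinearGroup (Fin n) F,
      (∃ c : F, ((x ^ r : Matrix.SpecialLinearGroup (Fin n) F) : Matrix (Fin n) (Fin n) F) = c • (1 : Matrix (Fin n) (Fin n) F)) →
      (∀ c : F, (x : Matrix (Fin n) (Fin n) F) ≠ c • (1 : Matrix (Fin n) (Fin n) F)) →
      ∃ U W : Submodule F (Fin n → F), IsCompl U W ∧ Module.finrank F ↥U = m ∧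
        U.map (Matrix.toLin' (x : Matrix (Fin n) (Fin n) F)) ≤ U ∧ W.map (Matrix.toLin' (x : Matrix (Fin n) (Fin n) F)) ≤ W) ↔
    ((r = p ∧ 2 < p ∧ (∀ μ : Multiset ℕ, (∀ a ∈ μ, 0 < a ∧ a ≤ p) → μ.sum = n → ∃ ν : Multiset ℕ, ν ≤ μ ∧ ν.sum = m)) ∨
     (r = p ∧ p = 2 ∧ (Odd n ∨ Even m)) ∨
     (r ≠ p ∧
      ((orderOf (q : ZMod r) = 1 ∧ (r ∣ m ∨ (padicValNat r n ≤ padicValNat r (q - 1) ∧ (r = 2 → Even n → q % 4 = 1)))) ∨
       (2 ≤ orderOf (q : ZMod r) ∧ orderOf (q : ZMod r) ≤ m ∧ m % orderOf (q : ZMod r) ≤ n % orderOf (q : ZMod r))))) := by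
  have hV : Module.finrank F (Fin n → F) = n := Module.finrank_fin_fun F
  rw [CL.Elu.forall_SL_iff (fun f => ∃ U W : Submodule F (Fin n → F), IsCompl U W ∧ Module.finrank F U = m ∧
    U.map f ≤ U ∧ W.map f ≤ W)]
  have hΦ : ∀ (f : Module.End F (Fin n → F)) (d : F) (s : Multiset (Polynomial F)), d ≠ 0 → CL.GLn.HasED (d • f) s →
      ((∃ U W : Submodule F (Fin n → F), IsCompl U W ∧ Module.finrank F U = m ∧ U.map f ≤ U ∧ W.map f ≤ W) ↔
        ∃ t ≤ s, (t.map Polynomial.natDegree).sum = m) := fun f d s hd h => by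
    rw [← CL.Elu.compl_iff_ed h]
    simp only [CL.Elu.map_smul_le_iff hd]
  by_cases hrp : r = p
  · subst hrp
    rw [CL.Elu.unip_compl r hV (m := m) (by omega) _ fun f d μ hd h => (hΦ f d _ hd h).trans
      (CL.Elu.exists_le_jb_iff μ m)]
    rcases (Fact.out : r.Prime).two_le.eq_or_lt with rfl | h2
    · rw [CL.Elu.parts_two_iff (by omega)]
      simp
    · simp [h2, h2.ne']
  · have hrF := (CL.Elu.natCast_ne_zero_iff (F := F) p).2 hrp
    rw [or_iff_right fun h => hrp h.1, or_iff_right fun h => hrp h.1, and_iff_right hrp]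
    refine CL.Elu.core_one hrF hq hV hm (by omega) _ (fun f d s hd h _ => hΦ f d s hd h) ?_
    obtain ⟨R, -, hR, hno⟩ := CL.Elu.exists_pgroup_no_fix_pair ⊤
      (fun P : Submodule F (Fin n → F) × Submodule F (Fin n → F) => IsCompl P.1 P.2 ∧ Module.finrank F P.1 = m)
      (fun g _ U W h => ⟨(Submodule.orderIsoMapComap g).isCompl h.1, (LinearEquiv.finrank_map_eq g U).trans h.2⟩)
      (fun U W U' W' h h' => by
        obtain ⟨g, hg⟩ := CL.Elu.exists_equiv_map_compl h.1 h'.1 (h.2.trans h'.2.symm) rfl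
        exact ⟨g, trivial, hg⟩) hrΩ
    obtain ⟨D, hc, hD, h⟩ := CL.Elu.mod_le_finrank_fixSp hR hrF
    rw [hq, hV] at h
    by_contra h1
    obtain ⟨U, hU, h2⟩ := CL.Cls.exists_le_finrank_eq (CL.Elu.fixSp R) (n := m) (by omega)
    obtain ⟨U', h3, h4⟩ := CL.Elu.exists_split_le hU
    have hU' : U' ≤ CL.Elu.fixSp R := h4 ▸ le_sup_right
    refine hno U (U' ⊔ D) ⟨⟨?_, ?_⟩, h2⟩ (CL.Elu.inv_of_le_fixSp hU) (CL.Elu.inv_sup (CL.Elu.inv_of_le_fixSp hU') hD)
    · exact h3.disjoint_sup_right_of_disjoint_sup_left (h4 ▸ hc.disjoint)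
    · rw [codisjoint_iff, ← sup_assoc, h4, hc.sup_eq_top]

end Cfsg.Agent.S5950
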