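import Cfsg.Statements.S5951
import Cfsg.Agent.Cls.PrimeOrderGL3

set_option autoImplicit false
open scoped MatrixGroups
open Cfsg

namespace Cfsg.Agent.S5951

/-- Elements of prime order of PSL_n(q) fixing no pair of subspaces `U < W` with `dim U = m`, `dim W = n − m`. Here `T = PSL_n(F)` for a field `F` with `q = p^f` elements (`n ≥ 2`, `(n, q) ≠ (2, 2), (2, 3)`); an element of `T` of prime order `r` is represented by a matrix `x` of determinant 1 with `x^r` scalar and `x` not scalar; `i` denotes the multiplicative order of `q` modulo `r` (when `r ≠ p`), and `(a)_r` the `r`-part of `a`. Let `1 ≤ m < n/2` and let `r` be a prime dividing the number of such pairs. Then every element of `T` of order `r` fixes such a pair (both `U` and `W`) if and only if `r ≠ p` and either (i) `i = 1` and (`r ∣ m`, or `(q−1)_r ≥ (n)_r` with `q ≡ 1 (mod 4)` required when `r = 2` and `n` is even), or (ii) `2 ≤ i ≤ m` and `n mod i ≥ 2 (m mod i)`. -/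
theorem result {F : Type*} [Field F] [Fintype F] {p : ℕ} [Fact p.Prime] [CharP F p] {q : ℕ} (hq : Fintype.card F = q)
    (n m : ℕ) (hn : 2 ≤ n) (hT : (n, q) ≠ (2, 2) ∧ (n, q) ≠ (2, 3)) (hm : 1 ≤ m) (hmn : 2 * m < n)
    (r : ℕ) [Fact r.Prime]
    (hrΩ : r ∣ Nat.card {P : Submodule F (Fin n → F) × Submodule F (Fin n → F) //
        P.1 ≤ P.2 ∧ Module.finrank F ↥P.1 = m ∧ Module.finrank F ↥P.2 = n - m}) :
    (∀ x : Matrix.SpecialLinearGroup (Fin n) F,
      (∃ c : F, ((x ^ r : Matrix.SpecialLinearGroup (Fin n) F) : Matrix (Fin n) (Fin n) F) = c • (1 : Matrix (Fin n) (Fin n) F)) →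
      (∀ c : F, (x : Matrix (Fin n) (Fin n) F) ≠ c • (1 : Matrix (Fin n) (Fin n) F)) →
      ∃ U W : Submodule F (Fin n → F), U ≤ W ∧ Module.finrank F ↥U = m ∧ Module.finrank F ↥W = n - m ∧
        U.map (Matrix.toLin' (x : Matrix (Fin n) (Fin n) F)) ≤ U ∧ W.map (Matrix.toLin' (x : Matrix (Fin n) (Fin n) F)) ≤ W) ↔
    (r ≠ p ∧
      ((orderOf (q : ZMod r) = 1 ∧ (r ∣ m ∨ (padicValNat r n ≤ padicValNat r (q - 1) ∧ (r = 2 → Even n → q % 4 = 1)))) ∨
       (2 ≤ orderOf (q : ZMod r) ∧ orderOf (q : ZMod r) ≤ m ∧ 2 * (m % orderOf (q : ZMod r)) ≤ n % orderOf (q : ZMod r)))) := by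
  have hV : Module.finrank F (Fin n → F) = n := Module.finrank_fin_fun F
  obtain ⟨R, -, hR, hno⟩ := CL.Elu.exists_pgroup_no_fix_pair ⊤
    (fun P : Submodule F (Fin n → F) × Submodule F (Fin n → F) =>
      P.1 ≤ P.2 ∧ Module.finrank F P.1 = m ∧ Module.finrank F P.2 = n - m)
    (fun g _ U W h => ⟨Submodule.map_mono h.1, (LinearEquiv.finrank_map_eq g U).trans h.2.1,
      (LinearEquiv.finrank_map_eq g W).trans h.2.2⟩)
    (fun U W U' W' h h' => by
      obtain ⟨g, hg⟩ := CL.Elu.exists_equiv_map_flag h.1 h'.1 (h.2.1.trans h'.2.1.symm) (h.2.2.trans h'.2.2.symm) rfl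
      exact ⟨g, trivial, hg⟩) hrΩ
  have hrp : r ≠ p := by
    rintro rfl
    obtain ⟨U, -, h1, h2⟩ := CL.Elu.exists_inv_of_pgroup hR ⊥ (fun g _ v hv => by simp_all) m
      (by rw [finrank_bot, hV]; omega)
    rw [finrank_bot, zero_add] at h1
    obtain ⟨W, h3, h4, h5⟩ := CL.Elu.exists_inv_of_pgroup hR U h2 (n - m - m) (by rw [h1, hV]; omega)
    exact hno U W ⟨h3, h1, by rw [h4, h1]; omega⟩ h2 h5
  have hrF := (CL.Elu.natCast_ne_zero_iff (F := F) p).2 hrp
  rw [and_iff_right hrp, CL.Elu.forall_SL_iff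
    (fun f => ∃ U W : Submodule F (Fin n → F), U ≤ W ∧ Module.finrank F U = m ∧ Module.finrank F W = n - m ∧
      U.map f ≤ U ∧ W.map f ≤ W)]
  refine CL.Elu.core_two hrF hq hV hm (by omega) _ (fun f d s hd h hs => ?_) ?_
  · rw [← CL.Elu.flag_iff_ed h hs (by rw [hV]; omega)]
    simp only [CL.Elu.map_smul_le_iff hd, hV]
  · obtain ⟨D, hc, hD, h⟩ := CL.Elu.mod_le_finrank_fixSp hR hrF
    rw [hq, hV] at h
    by_contra h1
    have h0 := Submodule.finrank_add_eq_of_isCompl hc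
    obtain ⟨C, hC, h2⟩ := CL.Cls.exists_le_finrank_eq (CL.Elu.fixSp R)
      (n := Module.finrank F (CL.Elu.fixSp R) - m) (by omega)
    obtain ⟨U, hU, h3⟩ := CL.Cls.exists_le_finrank_eq C (n := m) (by omega)
    refine hno U (C ⊔ D) ⟨hU.trans le_sup_left, h3, ?_⟩ (CL.Elu.inv_of_le_fixSp (hU.trans hC))
      (CL.Elu.inv_sup (CL.Elu.inv_of_le_fixSp hC) hD)
    rw [CL.Elu.finrank_sup_of_disjoint (hc.disjoint.mono_left hC)]
    omega

end Cfsg.Agent.S5951
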