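import Cfsg.Statements.S5952
import Cfsg.Agent.Cls.WittDecomp

set_option autoImplicit false
open Cfsg

namespace Cfsg.Agent.S5952

open Module in
theorem step {F V : Type*} [Field F] [AddCommGroup V] [Module F V] [FiniteDimensional F V]
    (A U W : Submodule F V) (hd : Disjoint A U) :
    finrank F ↥(W ⊓ (A ⊔ U)) = finrank F ↥(W ⊓ A) + finrank F ↥((A ⊔ W) ⊓ U) := by
  have h1 : (A ⊔ W) ⊓ (A ⊔ U) = A ⊔ (W ⊓ (A ⊔ U)) := sup_inf_assoc_of_le W le_sup_left
  have h2 : (A ⊔ W) ⊓ (A ⊔ U) = A ⊔ ((A ⊔ W) ⊓ U) := by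
    rw [inf_comm, sup_inf_assoc_of_le U le_sup_left, inf_comm]
  have h3 := Submodule.finrank_sup_add_finrank_inf_eq A (W ⊓ (A ⊔ U))
  have h4 := Submodule.finrank_sup_add_finrank_inf_eq A ((A ⊔ W) ⊓ U)
  have h5 : A ⊓ (W ⊓ (A ⊔ U)) = W ⊓ A := by
    rw [← inf_assoc, inf_comm A W, inf_assoc, inf_sup_self]
  have h6 : A ⊓ ((A ⊔ W) ⊓ U) = ⊥ := by
    rw [eq_bot_iff, ← hd.eq_bot]; exact inf_le_inf_left _ inf_le_right
  rw [h5, ← h1] at h3
  rw [h6, ← h2, finrank_bot] at h4
  omega


/-- Which dimensions of invariant subspaces a semisimple linear map has. Let `V` be a finite-dimensional vector space over a field `F` and `f` an invertible semisimple linear map of `V`. Suppose `V` is the internal direct sum of the fixed space `C_V(f)` (the eigenspace for 1) and subspaces `U_1, …, U_s`, each `f`-invariant of dimension `a ≥ 1` on which `f` acts irreducibly (no `f`-invariant subspaces other than 0 and `U_j`). Let `0 < m < dim V` and `ℓ = m mod a`. Then `f` leaves some `m`-dimensional subspace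 invariant if and only if `dim C_V(f) ≥ m`, or `a ≤ m` and `dim C_V(f) ≥ ℓ`. -/
theorem result {F V : Type*} [Field F] [AddCommGroup V] [Module F V]
    [FiniteDimensional F V] (f : V →ₗ[F] V) (hf : Function.Bijective f) (hss : Module.End.IsSemisimple f)
    {s a : ℕ} (ha : 1 ≤ a) (U : Fin s → Submodule F V)
    (hUinv : ∀ j, (U j).map f ≤ U j) (hUdim : ∀ j, Module.finrank F ↥(U j) = a)
    (hUirr : ∀ j, ∀ W : Submodule F V, W ≤ U j → W.map f ≤ W → W = ⊥ ∨ W = U j)
    (hdec : DirectSum.IsInternal (fun o : Option (Fin s) => o.elim (Module.End.eigenspace f 1) U))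
    (m : ℕ) (hm : 0 < m) (hmV : m < Module.finrank F V) :
    (∃ W : Submodule F V, Module.finrank F ↥W = m ∧ W.map f ≤ W) ↔
    (m ≤ Module.finrank F ↥(Module.End.eigenspace f 1) ∨
      (a ≤ m ∧ m % a ≤ Module.finrank F ↥(Module.End.eigenspace f 1))) := by
  classical
  set E := Module.End.eigenspace f 1 with hE
  have hind := hdec.submodule_iSupIndep
  have hdis : ∀ (T : Finset (Fin s)) (j : Fin s), j ∉ T → ∀ A ≤ E, Disjoint (A ⊔ ⨆ i ∈ T, U i) (U j) := by
    intro T j hj A hA
    refine ((hind (some j)).mono_right ?_).symm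
    refine sup_le (hA.trans ?_) (iSup₂_le fun i hi => ?_)
    · exact le_iSup₂_of_le (f := fun o (_ : o ≠ some j) => o.elim E U) none (by simp) le_rfl
    · exact le_iSup₂_of_le (f := fun o (_ : o ≠ some j) => o.elim E U) (some i)
        (fun h => hj (Option.some.inj h ▸ hi)) le_rfl
  have hEinv : ∀ A ≤ E, A.map f ≤ A := by
    rintro A hA _ ⟨v, hv, rfl⟩
    have := Module.End.mem_eigenspace_iff.1 (hA hv)
    rw [this, one_smul]; exact hv
  have hinv : ∀ (T : Finset (Fin s)), ∀ A ≤ E, (A ⊔ ⨆ i ∈ T, U i).map f ≤ A ⊔ ⨆ i ∈ T, U i := by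
    intro T A hA
    rw [Submodule.map_sup, Submodule.map_iSup]
    refine sup_le_sup (hEinv A hA) (iSup_mono fun i => ?_)
    rw [Submodule.map_iSup]
    exact iSup_mono fun _ => hUinv i
  have hemp : ∀ A : Submodule F V, A ⊔ ⨆ i ∈ (∅ : Finset (Fin s)), U i = A := fun A => by simp
  have hdim : ∀ (T : Finset (Fin s)), ∀ A ≤ E,
      Module.finrank F ↥(A ⊔ ⨆ i ∈ T, U i) = Module.finrank F A + T.card * a := by
    intro T A hA
    induction T using Finset.induction_on with
    | empty => rw [hemp, Finset.card_empty, zero_mul, add_zero]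
    | insert j T hj ih =>
      have h1 := Submodule.finrank_sup_add_finrank_inf_eq (A ⊔ ⨆ i ∈ T, U i) (U j)
      rw [(hdis T j hj A hA).eq_bot, finrank_bot, ih, hUdim] at h1
      rw [Finset.iSup_insert, sup_comm (U j), ← sup_assoc, Finset.card_insert_of_notMem hj]
      linarith
  have htop : E ⊔ ⨆ i ∈ (Finset.univ : Finset (Fin s)), U i = ⊤ := by
    rw [eq_top_iff, ← hdec.submodule_iSup_eq_top]
    refine iSup_le fun o => ?_
    cases o with
    | none => exact le_sup_left
    | some i => exact le_sup_of_le_right (le_iSup₂_of_le (f := fun i (_ : i ∈ (Finset.univ : Finset (Fin s))) => U i)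
        i (Finset.mem_univ i) le_rfl)
  have hV : Module.finrank F V = Module.finrank F E + s * a := by
    have := hdim Finset.univ E le_rfl
    rw [htop, finrank_top, Finset.card_univ, Fintype.card_fin] at this
    exact this
  constructor
  · rintro ⟨W, hW, hWinv⟩
    have key : ∀ T : Finset (Fin s), ∃ k,
        Module.finrank F ↥(W ⊓ (E ⊔ ⨆ i ∈ T, U i)) = Module.finrank F ↥(W ⊓ E) + k * a := by
      intro T
      induction T using Finset.induction_on with
      | empty => exact ⟨0, by rw [hemp, zero_mul, add_zero]⟩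
      | insert j T hj ih =>
        obtain ⟨k, hk⟩ := ih
        rw [Finset.iSup_insert, sup_comm (U j), ← sup_assoc, step _ _ _ (hdis T j hj E le_rfl), hk]
        have hP : (((E ⊔ ⨆ i ∈ T, U i) ⊔ W) ⊓ U j).map f ≤ ((E ⊔ ⨆ i ∈ T, U i) ⊔ W) ⊓ U j := by
          refine (Submodule.map_inf_le f).trans (inf_le_inf ?_ (hUinv j))
          rw [Submodule.map_sup]
          exact sup_le_sup (hinv T E le_rfl) hWinv
        rcases hUirr j _ inf_le_right hP with h | h
        · exact ⟨k, by rw [h, finrank_bot, add_zero]⟩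
        · exact ⟨k + 1, by rw [h, hUdim]; ring⟩
    obtain ⟨k, hk⟩ := key Finset.univ
    rw [htop, inf_top_eq, hW] at hk
    have hle : Module.finrank F ↥(W ⊓ E) ≤ Module.finrank F E := Submodule.finrank_mono inf_le_right
    rcases Nat.eq_zero_or_pos k with rfl | hk0
    · left; omega
    · right
      refine ⟨by nlinarith, ?_⟩
      rw [hk, Nat.add_mul_mod_self_right]
      exact (Nat.mod_le _ _).trans hle
  · intro h
    have : ∃ j k, j ≤ Module.finrank F E ∧ k ≤ s ∧ m = j + k * a := by
      rcases h with h | ⟨-, h⟩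
      · exact ⟨m, 0, h, Nat.zero_le _, by simp⟩
      · by_cases hs : m / a ≤ s
        · exact ⟨m % a, m / a, h, hs, by rw [mul_comm]; exact (Nat.mod_add_div m a).symm⟩
        · have h1 : s * a ≤ m := (Nat.mul_le_mul_right a (by omega)).trans (Nat.div_mul_le_self m a)
          exact ⟨m - s * a, s, by omega, le_rfl, by omega⟩
    obtain ⟨j, k, hj, hk, rfl⟩ := this
    obtain ⟨A, hA, hAj⟩ := CL.Cls.exists_le_finrank_eq E hj
    obtain ⟨T, -, hT⟩ := Finset.exists_subset_card_eq (s := (Finset.univ : Finset (Fin s))) (n := k) (by simpa using hk)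
    exact ⟨A ⊔ ⨆ i ∈ T, U i, by rw [hdim T A hA, hAj, hT], hinv T A hA⟩

end Cfsg.Agent.S5952
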