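import Cfsg.Statements.S5953
import Cfsg.Agent.Cls.ElhCount

set_option autoImplicit false
open scoped MatrixGroups
open Cfsg

namespace Cfsg.Agent.S5953

/-- Elements of prime order of PSU_n(q) with no fixed totally isotropic `m`-space. Here `T = PSU_n(q)` (`n ≥ 3`, `(n, q) ≠ (3, 2)`), realised through the matrices of determinant 1 over the field `F` with `q²` elements preserving the Hermitian form `h(u, v) = Σ u_i v_i^q`; an element of `T` of prime order `r` is such a matrix `x` with `x^r` scalar and `x` not scalar. For `r ≠ p` let `i` be the multiplicative order of `q` modulo `r`, `b = i/2` for `i` even and `b = i` for `i` odd, `c = i, i/2, 2i` according as `i ≡ 0, 2 (mod 4)` or `i` odd, and write `k = n mod c`, `ℓ = m mod b`, `ℓ' = m mod c`, `n' = ⌊n/b⌋`, `m' = ⌊m/b⌋`, `s = (r−1)/b`; `(a)_r` is the `r`-part of `a`. Let `1 ≤ m ≤ n/2` and let `r` be a prime dividing the number of totally isotropic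 `m`-spaces. Then every element of `T` of order `r` fixes a totally isotropic `m`-space if and only if either (i) `r = 2`, `p ≠ 2`, and (`m < n/2` or `(q+1)_2 ≤ (n)_2`); or (ii) `r ≠ p`, `r > 2`, `b ≤ m`, `k ≥ 2ℓ`, and either `i ≢ 2 (mod 4)`, or `i ≡ 2 (mod 4)`, `n' − 2m' ≥ s` and (`i > 2`, or `i = 2` and (`r ∣ m` or `(q+1)_r ≥ (n)_r`)). -/
theorem result {F : Type*} [Field F] [Fintype F] {p : ℕ} [Fact p.Prime] [CharP F p] {q : ℕ} (hq : Fintype.card F = q ^ 2)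
    (n m : ℕ) (hn : 3 ≤ n) (hT : (n, q) ≠ (3, 2)) (hm : 1 ≤ m) (hmn : 2 * m ≤ n)
    (r : ℕ) [Fact r.Prime]
    (hrΩ : r ∣ Nat.card {W : Submodule F (Fin n → F) // Module.finrank F ↥W = m ∧ (∀ u ∈ W, ∀ v ∈ W, Cfsg.hermForm n F q u v = 0)})
    (i b c : ℕ) (hi : i = orderOf (q : ZMod r)) (hb : b = if Even i then i / 2 else i)
    (hc : c = if i % 4 = 0 then i else if i % 4 = 2 then i / 2 else 2 * i) :
    (∀ x : Matrix.SpecialLinearGroup (Fin n) F, x ∈ Cfsg.SU n F q →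
      (∃ z : F, ((x ^ r : Matrix.SpecialLinearGroup (Fin n) F) : Matrix (Fin n) (Fin n) F) = z • (1 : Matrix (Fin n) (Fin n) F)) →
      (∀ z : F, (x : Matrix (Fin n) (Fin n) F) ≠ z • (1 : Matrix (Fin n) (Fin n) F)) →
      ∃ W : Submodule F (Fin n → F), Module.finrank F ↥W = m ∧ (∀ u ∈ W, ∀ v ∈ W, Cfsg.hermForm n F q u v = 0) ∧
        W.map (Matrix.toLin' (x : Matrix (Fin n) (Fin n) F)) ≤ W) ↔
    ((r = 2 ∧ p ≠ 2 ∧ (2 * m < n ∨ padicValNat 2 (q + 1) ≤ padicValNat 2 n)) ∨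
     (r ≠ p ∧ 2 < r ∧ b ≤ m ∧ 2 * (m % b) ≤ n % c ∧
       (i % 4 ≠ 2 ∨ (i % 4 = 2 ∧ (r - 1) / b + 2 * (m / b) ≤ n / b ∧
         (2 < i ∨ (i = 2 ∧ (r ∣ m ∨ padicValNat r n ≤ padicValNat r (q + 1)))))))) := by
  have hσ := CL.Uni.isBar_bar hq
  have h := CL.Uni.isHerm_stdB hσ (Fin n)
  have hV := Module.finrank_fin_fun (n := n) F
  have e : ∀ W : Submodule F (Fin n → F), (∀ u ∈ W, ∀ v ∈ W, Cfsg.hermForm n F q u v = 0) ↔
      W ≤ CL.Uni.perp (CL.Uni.stdB (CL.Uni.bar hq) (Fin n)) W := fun W => by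
    simp only [CL.Uni.hermForm_eq hσ]; rfl
  simp only [e, CL.Elu.map_le_iff_forall] at hrΩ ⊢
  refine (CL.Elh.su_iff_uEl hσ (CL.Elh.FxT _ m)).trans ?_
  obtain ⟨j, j1, j2, j3⟩ := CL.Elh.ti_count h hV hmn Fact.out hrΩ
  have hrp : r ≠ p := (CL.Elh.not_dvd_iff hσ p).1 fun e => by
    rw [(ZMod.natCast_eq_zero_iff _ _).2 e, neg_zero, zero_pow (by omega)] at j3
    exact zero_ne_one j3
  have hrF := (CL.Elu.natCast_ne_zero_iff (F := F) p).2 hrp
  by_cases hr2 : r = 2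
  · subst hr2
    rw [CL.Elh.ti_two h hV hrF hm hmn]
    simp only [hrp.symm, lt_irrefl, false_and, and_false, or_false, ne_eq, not_false_eq_true, true_and]
  obtain ⟨b1, b2, b3⟩ := CL.Elh.bc_facts hi hb hc
  obtain ⟨d1, d2⟩ := CL.Elh.dvd_of_neg_pow hr2 (by omega) j3
  simp only [hr2, hrp, CL.Elf.two_lt_of_ne hr2, false_and, false_or, ne_eq, not_false_eq_true, true_and]
  by_cases h1 : r ∣ q + 1
  · have h2 := hi.trans ((CL.Elh.orderOf_eq_two_iff hr2).2 h1)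
    subst h2
    obtain rfl : b = 1 := hb
    obtain rfl : c = 1 := hc
    rw [CL.Elh.ti_lin h hV hr2 hrF h1 hm hmn]
    simp [hm, Nat.mod_one]
  have h2 : i ≠ 2 := hi ▸ mt (CL.Elh.orderOf_eq_two_iff hr2).1 h1
  by_cases h3 : i % 4 = 2
  · rw [CL.Elh.ti_self h hV hr2 hrF h1 b1 (hi ▸ h3) hmn (CL.Elh.mod_lt_of_dvd (b1 ▸ d1) j1 j2), b2 h3]
    simp only [h3, show 2 < i by omega, not_true_eq_false, true_or, and_true, true_and, false_or]
  · rw [CL.Elh.ti_paired h hV hr2 hrF h1 b1 (hi ▸ h3) hmn (CL.Elh.mod_lt_of_dvd (b1 ▸ d2 (hi ▸ h3)) j1 j2), b3 h3]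
    simp only [h3, not_false_eq_true, true_or, and_true]

end Cfsg.Agent.S5953
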