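import Cfsg.Statements.S5954
import Cfsg.Agent.Cls.ElhCount

set_option autoImplicit false
open scoped MatrixGroups
open Cfsg

namespace Cfsg.Agent.S5954

/-- Elements of prime order of PSU_n(q) with no fixed nondegenerate `m`-space. Here `T = PSU_n(q)` (`n ≥ 3`, `(n, q) ≠ (3, 2)`), realised through the matrices of determinant 1 over the field `F` with `q²` elements preserving the Hermitian form `h(u, v) = Σ u_i v_i^q`; an element of `T` of prime order `r` is such a matrix `x` with `x^r` scalar and `x` not scalar. For `r ≠ p` let `i` be the multiplicative order of `q` modulo `r`, `b = i/2` for `i` even and `b = i` for `i` odd, `c = i, i/2, 2i` according as `i ≡ 0, 2 (mod 4)` or `i` odd, and write `k = n mod c`, `ℓ = m mod b`, `ℓ' = m mod c`, `n' = ⌊n/b⌋`, `m' = ⌊m/b⌋`, `s = (r−1)/b`; `(a)_r` is the `r`-part of `a`. Let `1 ≤ m < n/2` and let `r` be a prime dividing the number of nondegenerate `m`-spaces.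 Then every element of `T` of order `r` fixes a nondegenerate `m`-space if and only if one of: (i) `r = p > 2` and every partition of `n` into parts of size at most `p` contains (as a sub-multiset) a partition of `m`; (ii) `r = p = 2` and (`n` is odd or `m` is even); (iii) `r = 2 ≠ p` and (`n` is odd, or `m` is even, or `(q+1)_2 ≥ (n)_2` and `q ≡ 3 (mod 4)`); (iv) `r ≠ p`, `r > 2`, and either `i ≠ 2`, `c ≤ m` and `k ≥ ℓ'`, or `i = 2` and (`r ∣ m` or `(q+1)_r ≥ (n)_r`). -/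
theorem result {F : Type*} [Field F] [Fintype F] {p : ℕ} [Fact p.Prime] [CharP F p] {q : ℕ} (hq : Fintype.card F = q ^ 2)
    (n m : ℕ) (hn : 3 ≤ n) (hT : (n, q) ≠ (3, 2)) (hm : 1 ≤ m) (hmn : 2 * m < n)
    (r : ℕ) [Fact r.Prime]
    (hrΩ : r ∣ Nat.card {W : Submodule F (Fin n → F) // Module.finrank F ↥W = m ∧ (∀ u ∈ W, u ≠ 0 → ∃ v ∈ W, Cfsg.hermForm n F q u v ≠ 0)})
    (i b c : ℕ) (hi : i = orderOf (q : ZMod r)) (hb : b = if Even i then i / 2 else i)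
    (hc : c = if i % 4 = 0 then i else if i % 4 = 2 then i / 2 else 2 * i) :
    (∀ x : Matrix.SpecialLinearGroup (Fin n) F, x ∈ Cfsg.SU n F q →
      (∃ z : F, ((x ^ r : Matrix.SpecialLinearGroup (Fin n) F) : Matrix (Fin n) (Fin n) F) = z • (1 : Matrix (Fin n) (Fin n) F)) →
      (∀ z : F, (x : Matrix (Fin n) (Fin n) F) ≠ z • (1 : Matrix (Fin n) (Fin n) F)) →
      ∃ W : Submodule F (Fin n → F), Module.finrank F ↥W = m ∧ (∀ u ∈ W, u ≠ 0 → ∃ v ∈ W, Cfsg.hermForm n F q u v ≠ 0) ∧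
        W.map (Matrix.toLin' (x : Matrix (Fin n) (Fin n) F)) ≤ W) ↔
    ((r = p ∧ 2 < p ∧ (∀ μ : Multiset ℕ, (∀ a ∈ μ, 0 < a ∧ a ≤ p) → μ.sum = n → ∃ ν : Multiset ℕ, ν ≤ μ ∧ ν.sum = m)) ∨
     (r = p ∧ p = 2 ∧ (Odd n ∨ Even m)) ∨
     (r = 2 ∧ p ≠ 2 ∧ (Odd n ∨ Even m ∨ (padicValNat 2 n ≤ padicValNat 2 (q + 1) ∧ q % 4 = 3))) ∨
     (r ≠ p ∧ 2 < r ∧ ((i ≠ 2 ∧ c ≤ m ∧ m % c ≤ n % c) ∨ (i = 2 ∧ (r ∣ m ∨ padicValNat r n ≤ padicValNat r (q + 1)))))) := by
  have hσ := CL.Uni.isBar_bar hq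
  have h := CL.Uni.isHerm_stdB hσ (Fin n)
  have hV := Module.finrank_fin_fun (n := n) F
  have e : ∀ W : Submodule F (Fin n → F), (∀ u ∈ W, u ≠ 0 → ∃ v ∈ W, Cfsg.hermForm n F q u v ≠ 0) ↔
      Disjoint W (CL.Uni.perp (CL.Uni.stdB (CL.Uni.bar hq) (Fin n)) W) := fun W => by
    simp only [CL.Uni.hermForm_eq hσ, Submodule.disjoint_def, CL.Uni.mem_perp]
    refine forall₂_congr fun u _ => ?_
    rw [← not_imp_not]
    push Not
    rfl
  simp only [e, CL.Elu.map_le_iff_forall] at hrΩ ⊢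
  refine (CL.Elh.su_iff_uEl hσ (CL.Elh.FxN _ m)).trans ?_
  by_cases hrp : r = p
  · subst hrp
    rw [CL.Elh.nd_char h hV r (by omega)]
    by_cases hr2 : r = 2
    · subst hr2
      rw [CL.Elu.parts_two_iff (by omega)]
      simp
    · simp only [hr2, CL.Elf.two_lt_of_ne hr2, false_and, or_false, ne_eq, not_true_eq_false, true_and]
  have hrF := (CL.Elu.natCast_ne_zero_iff (F := F) p).2 hrp
  by_cases hr2 : r = 2
  · subst hr2
    rw [CL.Elh.nd_two h hV hrF (by omega) (by omega)]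
    simp only [hrp, Ne.symm hrp, lt_irrefl, false_and, and_false, or_false, false_or, ne_eq, not_false_eq_true, true_and]
  obtain ⟨j, j1, j2, j3⟩ := CL.Elh.nd_count h hV (by omega) Fact.out ((CL.Elh.not_dvd_iff hσ p).2 hrp) hrΩ
  obtain ⟨b1, b2, b3⟩ := CL.Elh.bc_facts hi hb hc
  obtain ⟨d1, d2⟩ := CL.Elh.dvd_of_neg_pow hr2 (by omega) j3
  simp only [hr2, hrp, CL.Elf.two_lt_of_ne hr2, false_and, false_or, ne_eq, not_false_eq_true, true_and]
  by_cases h1 : r ∣ q + 1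
  · rw [CL.Elh.nd_lin h hV hr2 hrF h1 (by omega) (by omega)]
    simp [hi.trans ((CL.Elh.orderOf_eq_two_iff hr2).2 h1)]
  have h2 : i ≠ 2 := hi ▸ mt (CL.Elh.orderOf_eq_two_iff hr2).1 h1
  simp only [h2, false_and, or_false, not_false_eq_true, true_and]
  by_cases h3 : i % 4 = 2
  · rw [CL.Elh.nd_self h hV hr2 hrF h1 b1 (hi ▸ h3) (by omega) (CL.Elh.mod_lt_of_dvd (b1 ▸ d1) j1 j2), b2 h3]
  · rw [CL.Elh.nd_paired h hV hr2 hrF h1 b1 (hi ▸ h3) (by omega) (CL.Elh.mod_lt_of_dvd (b1 ▸ d2 (hi ▸ h3)) j1 j2),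
      b3 h3]

end Cfsg.Agent.S5954
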