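import Cfsg.Statements.S5955
import Cfsg.Agent.Cls.ElfInv2

set_option autoImplicit false
open scoped MatrixGroups
open Cfsg

namespace Cfsg.Agent.S5955

/-- Elements of prime order of PSp_n(q) with no fixed totally isotropic `m`-space. Here `T = PSp_n(q)` with `n = 2d ≥ 4`, `(n, q) ≠ (4, 2)`, realised through the symplectic matrices over the field `F` with `q` elements (preserving the standard alternating form); an element of `T` of prime order `r` is such a matrix `x` with `x^r` scalar and `x` not scalar. For `r ≠ p` let `i` be the multiplicative order of `q` modulo `r`, `c = i` for `i` even and `c = 2i` for `i` odd, and write `k = n mod c`, `ℓ = m mod i`, `ℓ' = m mod c`, `n' = ⌊n/i⌋`, `m' = ⌊m/i⌋`, `t = (r−1)/i`. Let `1 ≤ m ≤ n/2` and let `r` be a prime dividing the number of totally isotropic `m`-spaces. Then every element of `T` of order `r` fixes a totally isotropic `m`-space if and only if either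 (i) `r = 2 ≠ p` and (`m` is even or `q ≡ 1 (mod 4)`); or (ii) `r ≠ p`, `r > 2`, `i ≤ m`, `k ≥ 2ℓ`, and (`i` is odd or `n' − 2m' ≥ t`). -/
theorem result {F : Type*} [Field F] [Fintype F] {p : ℕ} [Fact p.Prime] [CharP F p] {q : ℕ} (hq : Fintype.card F = q)
    (d m : ℕ) (hd : 2 ≤ d) (hT : (d, q) ≠ (2, 2)) (hm : 1 ≤ m) (hmd : m ≤ d)
    (r : ℕ) [Fact r.Prime]
    (hrΩ : r ∣ Nat.card {W : Submodule F (Fin d ⊕ Fin d → F) // Module.finrank F ↥W = m ∧ (∀ u ∈ W, ∀ v ∈ W, Cfsg.sympForm d F u v = 0)})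
    (i c : ℕ) (hi : i = orderOf (q : ZMod r)) (hc : c = if Even i then i else 2 * i) :
    (∀ x : ↥(Matrix.symplecticGroup (Fin d) F),
      (∃ z : F, ((x ^ r : ↥(Matrix.symplecticGroup (Fin d) F)) : Matrix (Fin d ⊕ Fin d) (Fin d ⊕ Fin d) F) = z • (1 : Matrix (Fin d ⊕ Fin d) (Fin d ⊕ Fin d) F)) →
      (∀ z : F, (x : Matrix (Fin d ⊕ Fin d) (Fin d ⊕ Fin d) F) ≠ z • (1 : Matrix (Fin d ⊕ Fin d) (Fin d ⊕ Fin d) F)) →
      ∃ W : Submodule F (Fin d ⊕ Fin d → F), Module.finrank F ↥W = m ∧ (∀ u ∈ W, ∀ v ∈ W, Cfsg.sympForm d F u v = 0) ∧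
        W.map (Matrix.toLin' (x : Matrix (Fin d ⊕ Fin d) (Fin d ⊕ Fin d) F)) ≤ W) ↔
    ((r = 2 ∧ p ≠ 2 ∧ (Even m ∨ q % 4 = 1)) ∨
     (r ≠ p ∧ 2 < r ∧ i ≤ m ∧ 2 * (m % i) ≤ (2 * d) % c ∧ (Odd i ∨ (r - 1) / i + 2 * (m / i) ≤ (2 * d) / i))) := by
  have hB := (CL.Sp.stdForm_nondegenerate (Fin d) F).1
  have hA := CL.Sp.stdForm_isAlt (Fin d) F
  have hn : Module.finrank F (Fin d ⊕ Fin d → F) = 2 * d := by simp [two_mul]
  have : Nontrivial (Fin d ⊕ Fin d → F) := Module.nontrivial_of_finrank_pos (R := F) (by omega)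
  simp only [← CL.Sp.stdForm_eq_sympForm, CL.Elu.map_le_iff_forall, ← and_assoc (a := Module.finrank F _ = m)] at hrΩ ⊢
  have hrp := CL.Elf.ne_char_of_ort p hB hA (by omega) hrΩ
  obtain ⟨hrF, hi', hi0, ht⟩ := CL.Elf.ord_facts p hq hrp hi
  refine (CL.Elf.sp_iff_allEl r (CL.Elf.Fx fun W : Submodule F (Fin d ⊕ Fin d → F) =>
    Module.finrank F W = m ∧ CL.Elf.Ort (CL.Sp.stdForm _ F) W W)).trans ?_
  by_cases hr2 : r = 2
  · subst hr2
    obtain ⟨-, h4, -⟩ := CL.Elf.sq_facts hq hrF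
    obtain ⟨g, g1, g2⟩ := CL.Elf.exists_sp_sq_neg hB hA
    rw [CL.Elf.allEl_two hB hrF le_rfl, and_iff_right (CL.Elf.sp_inv_fix_ort hB hA hrF (by omega))]
    simp only [hrp.symm, ← h4, lt_irrefl, false_and, and_false, or_false, ne_eq, not_false_eq_true, true_and]
    exact ⟨fun h => ((CL.Elf.sp_sq_neg_fix_ort hB hA hrF g1 g2 (by omega)).1 (h g g1 g2)).symm,
      fun h g g1 g2 => (CL.Elf.sp_sq_neg_fix_ort hB hA hrF g1 g2 (by omega)).2 h.symm⟩
  · rw [CL.Elf.allEl_sp_odd hB ((Fact.out : r.Prime).odd_of_ne_two hr2) fun _ => CL.Elf.fx_neg]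
    refine ((CL.Elf.sp_ts hB hA hrF hi' hn hr2 m).trans (CL.Elf.ar5955 hi0 hc ht hm hmd
      (CL.Elf.sp_ts_sylow hB hA hrF hi' hn hrΩ))).trans ?_
    simp only [hr2, hrp, CL.Elf.two_lt_of_ne hr2, false_and, false_or, ne_eq, not_false_eq_true, true_and]

end Cfsg.Agent.S5955
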