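import Cfsg.Statements.S5956
import Cfsg.Agent.Cls.ElfUni2

set_option autoImplicit false
open scoped MatrixGroups
open Cfsg

namespace Cfsg.Agent.S5956

/-- Elements of prime order of PSp_n(q) with no fixed nondegenerate `m`-space. Here `T = PSp_n(q)` with `n = 2d ≥ 4`, `(n, q) ≠ (4, 2)`, realised through the symplectic matrices over the field `F` with `q` elements (preserving the standard alternating form); an element of `T` of prime order `r` is such a matrix `x` with `x^r` scalar and `x` not scalar. For `r ≠ p` let `i` be the multiplicative order of `q` modulo `r`, `c = i` for `i` even and `c = 2i` for `i` odd, and write `k = n mod c`, `ℓ = m mod i`, `ℓ' = m mod c`, `n' = ⌊n/i⌋`, `m' = ⌊m/i⌋`, `t = (r−1)/i`. Let `m` be even with `2 ≤ m < n/2` and let `r` be a prime dividing the number of nondegenerate `m`-spaces. Then every element of `T` of order `r` fixes a nondegenerate `m`-space if and only if one of: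 (i) `r = p > 2` and every partition of `n` into parts of size at most `p` in which every odd part has even multiplicity contains (as a sub-multiset) a partition of `m` in which every odd part has even multiplicity; (ii) `r = p = 2` and (`n ≡ 2 (mod 4)` or `m ≡ 0 (mod 4)`); (iii) `r = 2 ≠ p`; (iv) `r ≠ p`, `r > 2`, `c ≤ m` and `k ≥ ℓ'`. -/
theorem result {F : Type*} [Field F] [Fintype F] {p : ℕ} [Fact p.Prime] [CharP F p] {q : ℕ} (hq : Fintype.card F = q)
    (d m : ℕ) (hd : 2 ≤ d) (hT : (d, q) ≠ (2, 2)) (hm : 2 ≤ m) (hme : Even m) (hmd : m < d)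
    (r : ℕ) [Fact r.Prime]
    (hrΩ : r ∣ Nat.card {W : Submodule F (Fin d ⊕ Fin d → F) // Module.finrank F ↥W = m ∧ (∀ u ∈ W, u ≠ 0 → ∃ v ∈ W, Cfsg.sympForm d F u v ≠ 0)})
    (i c : ℕ) (hi : i = orderOf (q : ZMod r)) (hc : c = if Even i then i else 2 * i) :
    (∀ x : ↥(Matrix.symplecticGroup (Fin d) F),
      (∃ z : F, ((x ^ r : ↥(Matrix.symplecticGroup (Fin d) F)) : Matrix (Fin d ⊕ Fin d) (Fin d ⊕ Fin d) F) = z • (1 : Matrix (Fin d ⊕ Fin d) (Fin d ⊕ Fin d) F)) →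
      (∀ z : F, (x : Matrix (Fin d ⊕ Fin d) (Fin d ⊕ Fin d) F) ≠ z • (1 : Matrix (Fin d ⊕ Fin d) (Fin d ⊕ Fin d) F)) →
      ∃ W : Submodule F (Fin d ⊕ Fin d → F), Module.finrank F ↥W = m ∧ (∀ u ∈ W, u ≠ 0 → ∃ v ∈ W, Cfsg.sympForm d F u v ≠ 0) ∧
        W.map (Matrix.toLin' (x : Matrix (Fin d ⊕ Fin d) (Fin d ⊕ Fin d) F)) ≤ W) ↔
    ((r = p ∧ 2 < p ∧ (∀ μ : Multiset ℕ, (∀ a ∈ μ, 0 < a ∧ a ≤ p) → (∀ a : ℕ, Odd a → Even (μ.count a)) → μ.sum = 2 * d →
        ∃ ν : Multiset ℕ, ν ≤ μ ∧ ν.sum = m ∧ ∀ a : ℕ, Odd a → Even (ν.count a))) ∨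
     (r = p ∧ p = 2 ∧ ((2 * d) % 4 = 2 ∨ m % 4 = 0)) ∨
     (r = 2 ∧ p ≠ 2) ∨
     (r ≠ p ∧ 2 < r ∧ c ≤ m ∧ m % c ≤ (2 * d) % c)) := by
  have hB := (CL.Sp.stdForm_nondegenerate (Fin d) F).1
  have hA := CL.Sp.stdForm_isAlt (Fin d) F
  have hn : Module.finrank F (Fin d ⊕ Fin d → F) = 2 * d := by simp [two_mul]
  have : Nontrivial (Fin d ⊕ Fin d → F) := Module.nontrivial_of_finrank_pos (R := F) (by omega)
  simp only [← CL.Sp.stdForm_eq_sympForm, CL.Elu.map_le_iff_forall, ← CL.Elf.nd_iff_ne,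
    ← and_assoc (a := Module.finrank F _ = m)] at hrΩ ⊢
  refine (CL.Elf.sp_iff_allEl r (CL.Elf.Fx fun W : Submodule F (Fin d ⊕ Fin d → F) =>
    Module.finrank F W = m ∧ CL.Elf.ND (CL.Sp.stdForm _ F) W)).trans ?_
  by_cases hr2 : r = 2
  · subst hr2
    by_cases hp : p = 2
    · subst hp
      simp only [lt_irrefl, false_and, and_false, or_false, false_or, true_and, ne_eq, not_true]
      rw [CL.Elf.allEl_char_two hB CharTwo.two_eq_zero le_rfl]
      refine ⟨fun h => ?_, fun h g g1 g2 _ => CL.Elf.sp_two_fix_nd hB hA g1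
        (CL.Known.mul_self_eq_one_iff_app.1 ((pow_two g).symm.trans g2)) hn (by omega) hme (by rw [Nat.odd_iff]; omega)⟩
      by_contra h5
      obtain ⟨g, g1, g2, g3, -, -, g4⟩ := CL.Elf.sp_two_der hB hA hn (by omega) (Nat.even_iff.2 (by omega))
      obtain ⟨W, ⟨w1, w2⟩, w3⟩ := h g g1 g2 g3
      have := g4 W w2 w3
      omega
    · have h2 := (CL.Elf.two_ne_zero_iff_char (F := F) p).2 hp
      obtain ⟨k, rfl⟩ : ∃ k, m = 2 * k := ⟨m / 2, by obtain ⟨j, rfl⟩ := hme; omega⟩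
      refine iff_of_true ((CL.Elf.allEl_two hB h2 le_rfl).2 ⟨CL.Elf.sp_inv_fix_nd hB hA h2 (by omega),
        fun g g1 g2 => ?_⟩) (Or.inr (Or.inr (Or.inl ⟨rfl, hp⟩)))
      obtain ⟨W, -, w1, w2, w3⟩ := CL.Elf.sp_sq_neg_nd hB hA h2 g1 g2 (CL.Elf.nd_top (CL.Cls.isWittForm_alt _ hB hA))
        CL.Elf.inv_top (k := k) (by rw [finrank_top]; omega)
      exact ⟨W, ⟨w3, w1⟩, w2⟩
  rw [CL.Elf.allEl_sp_odd hB ((Fact.out : r.Prime).odd_of_ne_two hr2) fun _ => CL.Elf.fx_neg]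
  by_cases hrp : r = p
  · subst hrp
    rw [CL.Elf.allOrd_sp_char r ((CL.Elf.two_ne_zero_iff_char (F := F) r).2 hr2) hme (by omega)]
    simp only [hr2, CL.Elf.two_lt_of_ne hr2, false_and, and_false, or_false, ne_eq, not_true, true_and]
  · obtain ⟨hrF, hi', hi0, ht⟩ := CL.Elf.ord_facts p hq hrp hi
    refine ((CL.Elf.sp_nd hB hA hrF hi' hn hr2 hme).trans (CL.Elf.ar5956 hi0 hc ht hm hme hmd
      (CL.Elf.sp_nd_sylow hB hA hrF hi' hn hme hrΩ))).trans ?_
    simp only [hr2, hrp, CL.Elf.two_lt_of_ne hr2, false_and, false_or, ne_eq, not_false_eq_true, true_and]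

end Cfsg.Agent.S5956
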