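import Cfsg.Statements.S5971
import Cfsg.Agent.Cls.PrimeOrderExt2

set_option autoImplicit false
open scoped MatrixGroups
open Cfsg

namespace Cfsg.Agent.S5971

/-- Elements of order 3 of PSL_3(q) and the normalizer of a Singer cycle. Here `T = PSL_n(F)` for a field `F` with `q = p^f` elements (`n ≥ 2`, `(n, q) ≠ (2, 2), (2, 3)`), `k` is a prime dividing `n`, `K` is a subalgebra of the `n × n` matrices that is a field of degree `k` over `F` (an extension-field structure F_{q^k} on `F^n`), and `H` is the subgroup of matrices of determinant 1 normalizing `K` — a subgroup of type GL_{n/k}(q^k) (maximal except in some small cases; maximality is not assumed); Ω is the set of cosets of `H` in `T`, so an element of `T` of prime order `r` (a matrix `x` of determinant 1 with `x^r` scalar, `x` not scalar) fixes a point of Ω when some conjugate of `x` by a matrix of determinant 1 normalizes `K`. Take `n = k = 3` and suppose 3 divides the index of `H`. Then every element of `T`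 of order 3 is conjugate in `T` into `H` if and only if `q ≡ 4, 7` or `8 (mod 9)`. -/
theorem result {F : Type*} [Field F] [Fintype F] {p : ℕ} [Fact p.Prime] [CharP F p] {q : ℕ} (hq : Fintype.card F = q)
    (n : ℕ) (hn : n = 3) (k : ℕ) (hk : k.Prime) (hkn : k ∣ n) (K : Subalgebra F (Matrix (Fin n) (Fin n) F)) (hK : Cfsg.Geo.IsFieldSubalgebra k K) (hk3 : k = 3) (hΩ : 3 ∣ ((Cfsg.Geo.subalgebraNormalizer K).comap (Matrix.SpecialLinearGroup.toGL : Matrix.SpecialLinearGroup (Fin n) F →* GL (Fin n) F)).index) :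
    (∀ x : Matrix.SpecialLinearGroup (Fin n) F,
      (∃ z : F, ((x ^ 3 : Matrix.SpecialLinearGroup (Fin n) F) : Matrix (Fin n) (Fin n) F) = z • (1 : Matrix (Fin n) (Fin n) F)) →
      (∀ z : F, (x : Matrix (Fin n) (Fin n) F) ≠ z • (1 : Matrix (Fin n) (Fin n) F)) →
      ∃ P : Matrix.SpecialLinearGroup (Fin n) F, P⁻¹ * x * P ∈ ((Cfsg.Geo.subalgebraNormalizer K).comap (Matrix.SpecialLinearGroup.toGL : Matrix.SpecialLinearGroup (Fin n) F →* GL (Fin n) F))) ↔
    (q % 9 = 4 ∨ q % 9 = 7 ∨ q % 9 = 8) := by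
  subst hn hk3 hq
  letI : Field K := (CL.Asch.isFld_of hK).isField.toField
  have hV := Module.finrank_fin_fun (n := 3) F
  have h0 := Fintype.card_pos (α := F)
  by_cases h3 : ((3 : ℕ) : F) = 0
  · haveI : CharP F 3 := (CharP.charP_iff_prime_eq_zero Nat.prime_three).2 h3
    obtain ⟨m, -, hm⟩ := FiniteField.card F 3
    have h1 : 3 ∣ Fintype.card F := hm ▸ dvd_pow_self 3 m.ne_zero
    simp only [CL.Elu.conj_normalizer_iff hK]
    exact (CL.Elu.forall_SL_iff (r := 3) (CL.Elu.ESemi (CL.Elu.subAct K))).trans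
      (iff_of_false (CL.Elu.forall_eSemi_three_char _ hK.finrank_eq hV) (by omega))
  by_cases h1 : 3 ∣ Fintype.card F - 1
  · simp only [CL.Elu.conj_normalizer_iff hK]
    refine (CL.Elu.forall_SL_iff (r := 3) (CL.Elu.ESemi (CL.Elu.subAct K))).trans
      ((CL.Elu.forall_eSemi_three _ hK.finrank_eq hV h1).trans (by omega))
  have hi : orderOf ((Nat.card F : ℕ) : ZMod 3) = 3 - 1 := by
    have h2 := CL.GLn.card_ordFactors_mul h3
    rw [Nat.totient_prime Nat.prime_three] at h2
    refine ((Nat.dvd_prime Nat.prime_two).1 (Dvd.intro_left _ h2)).resolve_left fun h => h1 ?_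
    rwa [Nat.card_eq_fintype_card, CL.Elu.orderOf_eq_one_iff_dvd h0] at h
  have key := (CL.Elu.forall_SL_iff (r := 3) (CL.Elu.ESemi (CL.Elu.subAct K))).2 fun f hf =>
    CL.Elu.eSemi_of_order_eq _ Nat.prime_three (by omega) h3 hK.finrank_eq hV hi hf
  simp only [← CL.Elu.conj_normalizer_iff hK] at key
  refine iff_of_true key ?_
  obtain ⟨g, u, hg, hu, -, hs⟩ := CL.Elu.exists_pEl_ord (V := Fin 3 → F) Nat.prime_three h3 h1 (a := 1) one_ne_zero
    (by rw [hV, hi]; rfl)
  have h4 := CL.Elu.pow_eq_one_of_ord h3 hu hs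
  obtain ⟨A, rfl⟩ := Matrix.toLin'.surjective g
  obtain ⟨h5, h6, h7⟩ := (CL.Elu.pEl_iff A).1 hg
  obtain ⟨x, rfl⟩ : ∃ x : Matrix.SpecialLinearGroup (Fin 3) F, x.1 = A := ⟨⟨A, h5⟩, rfl⟩
  obtain ⟨P, hP⟩ := key x h6 h7
  have h8 : orderOf x = 3 := orderOf_eq_prime
    (Subtype.ext (Matrix.toLin'.injective (by
      rw [Matrix.SpecialLinearGroup.coe_pow, Matrix.toLin'_pow, h4]; exact Matrix.toLin'_one.symm)))
    fun e => h7 1 (by rw [one_smul]; exact congrArg Subtype.val e)
  have h9 := Subgroup.orderOf_dvd_natCard _ hP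
  rw [show P⁻¹ * x * P = (MulAut.conj P).symm x from rfl, MulEquiv.orderOf_eq, h8] at h9
  have h10 := mul_dvd_mul hΩ h9
  rw [Subgroup.index_mul_card, CL.SLn.card_SL_three] at h10
  have h11 : ¬ 3 ∣ Fintype.card F := fun h => h3 (by
    obtain ⟨m, -, hm⟩ := FiniteField.card F p
    rw [hm] at h
    rw [(Nat.prime_dvd_prime_iff_eq Nat.prime_three Fact.out).1 (Nat.prime_three.dvd_of_dvd_pow h)]
    exact CharP.cast_eq_zero F p)
  generalize Fintype.card F = q at *
  zify [Nat.one_le_pow 2 q h0, Nat.one_le_pow 3 q h0] at h10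
  have h12 := (ZMod.intCast_zmod_eq_zero_iff_dvd _ 9).2 h10
  push_cast at h12
  rw [← ZMod.natCast_mod q 9] at h12
  obtain h | h | h : q % 9 = 2 ∨ q % 9 = 5 ∨ q % 9 = 8 := by omega
  · rw [h] at h12; exact absurd h12 (by decide)
  · rw [h] at h12; exact absurd h12 (by decide)
  · exact Or.inr (Or.inr h)

end Cfsg.Agent.S5971
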