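import Cfsg.Statements.S5972
import Cfsg.Agent.Cls.ElfInv2

set_option autoImplicit false
open scoped MatrixGroups
open Cfsg

namespace Cfsg.Agent.S5972

/-- Elements of prime order of Ω_n(q), n = 2d+1 ≥ 7, q odd, with no fixed totally singular `m`-space. Here `T = Ω_n(q)` is realised as the commutator subgroup of the isometry group of the quadratic form `x₀² + Σ xᵢyᵢ` over the field `F` with `q` elements (it has trivial centre, so its elements of prime order `r` are used directly); let `1 ≤ m ≤ d` and let `r` be a prime dividing the number of totally singular `m`-spaces. For `r ≠ p` let `i` be the multiplicative order of `q` modulo `r`, `c = i` for `i` even and `c = 2i` for `i` odd, and write `k = n mod c`, `ℓ = m mod i`, `n' = ⌊n/i⌋`, `m' = ⌊m/i⌋`, `t = (r−1)/i`. Then every element of `T` of order `r` fixes some totally singular `m`-space if and only if either (i) `r = 2` and (`m < (n−1)/2` or `q ≡ 1 (mod 4)`);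 or (ii) `r ≠ p` is odd, `i ≤ m`, `k > 2ℓ`, and (`i` is odd or `n' − 2m' ≥ t`). -/
theorem result {F : Type*} [Field F] [Fintype F] {p : ℕ} [Fact p.Prime] [CharP F p] {q : ℕ} (hq : Fintype.card F = q) (hqodd : Odd q)
    (d m : ℕ) (hd : 3 ≤ d) (hm : 1 ≤ m) (hmd : m ≤ d)
    (r : ℕ) [Fact r.Prime]
    (hrΩ : r ∣ Nat.card {W : Submodule F (Unit ⊕ (Fin d ⊕ Fin d) → F) // Module.finrank F ↥W = m ∧ (∀ w ∈ W, Cfsg.quadFormOdd d F w = 0)})
    (i c : ℕ) (hi : i = orderOf (q : ZMod r)) (hc : c = if Even i then i else 2 * i) :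
    (∀ x : GL (Unit ⊕ (Fin d ⊕ Fin d)) F, x ∈ Cfsg.Geo.omegaGL (Cfsg.quadFormOdd d F) → orderOf x = r →
      ∃ W : Submodule F (Unit ⊕ (Fin d ⊕ Fin d) → F), Module.finrank F ↥W = m ∧ (∀ w ∈ W, Cfsg.quadFormOdd d F w = 0) ∧
        W.map (Matrix.toLin' (x : Matrix (Unit ⊕ (Fin d ⊕ Fin d)) (Unit ⊕ (Fin d ⊕ Fin d)) F)) ≤ W) ↔
    ((r = 2 ∧ (m < d ∨ q % 4 = 1)) ∨
     (r ≠ p ∧ 2 < r ∧ i ≤ m ∧ 2 * (m % i) < (2 * d + 1) % c ∧ (Odd i ∨ (r - 1) / i + 2 * (m / i) ≤ (2 * d + 1) / i))) := by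
  have h2 : (2 : F) ≠ 0 := CL.Cls.two_ne_zero_of_odd_card (hq ▸ hqodd)
  have hQ := CL.Cls.nondeg_qfOdd (m := d) h2
  have hn : Module.finrank F (Unit ⊕ (Fin d ⊕ Fin d) → F) = 2 * d + 1 := by simp; omega
  have hε : CL.Elf.Pl (CL.Cls.qfOdd d F) ⊤ ↔ False := iff_false_intro fun h => by
    simpa [hn] using h.even
  simp only [← CL.Cls.coe_qfOdd, CL.Elu.map_le_iff_forall, ← and_assoc (a := Module.finrank F _ = m)] at hrΩ ⊢
  have hrp := CL.Elf.ne_char_of_ts p hQ (by omega) hrΩ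
  obtain ⟨hrF, hi', hi0, ht⟩ := CL.Elf.ord_facts p hq hrp hi
  refine (CL.Elf.omega_iff_allOrd _ r (CL.Elf.Fx fun W : Submodule F (Unit ⊕ (Fin d ⊕ Fin d) → F) =>
    Module.finrank F W = m ∧ CL.Elf.TS (CL.Cls.qfOdd d F) W)).trans ?_
  by_cases hr2 : r = 2
  · subst hr2
    obtain ⟨-, h4, -⟩ := CL.Elf.sq_facts hq hrF
    have := CL.Elf.inv_ts_iff hQ h2 hn hε m
    simp only [h4, Nat.even_iff] at this
    simp only [lt_irrefl, false_and, and_false, or_false, true_and]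
    refine ⟨fun h => ?_, fun h g g1 g2 g3 => this.2 (fun k k0 k1 => ?_) g g1 g2 g3 fun e =>
      CL.Cls.negOG_not_mem_commutator_of_odd hQ h2 (hn ▸ odd_two_mul_add_one d) (CL.Elf.mem_Om.1
        (show LinearEquiv.neg F ∈ _ from e ▸ g1))⟩
    · obtain ⟨m₁, m₂, h⟩ := this.1 (fun g g1 g2 g3 _ => h g g1 g2 g3) 1 one_ne_zero (by omega)
      omega
    · exact ⟨min m (d - k), m - min m (d - k), by omega, ⟨by omega, fun _ => by omega⟩, by omega⟩
  · rw [CL.Elf.allOrd_Om_odd hQ (by omega) ((Fact.out : r.Prime).odd_of_ne_two hr2)]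
    refine ((CL.Elf.og_ts hQ hr2 hrF hi' hn hε m).trans (CL.Elf.ar5972 hi0 hc ht hm hmd
      (CL.Elf.og_ts_sylow hQ hr2 hrF hi' hn hε hrΩ))).trans ?_
    simp only [hr2, hrp, CL.Elf.two_lt_of_ne hr2, false_and, false_or, ne_eq, not_false_eq_true, true_and]

end Cfsg.Agent.S5972
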