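import Cfsg.Statements.S5973
import Cfsg.Agent.Cls.ElfInv2

set_option autoImplicit false
open scoped MatrixGroups
open Cfsg

namespace Cfsg.Agent.S5973

/-- Elements of prime order of PΩ⁺_n(q), n = 2d ≥ 8, with no fixed totally singular `m`-space, `m < n/2`. Here `T = PΩ⁺_n(q)` is realised through `Ω⁺_n(q)`, the commutator subgroup of the isometry group of the quadratic form `Σ xᵢyᵢ` over the field `F` with `q` elements; an element of `T` of prime order `r` is an element `x` of `Ω⁺_n(q)` with `x^r` scalar and `x` not scalar. Let `1 ≤ m < d` and let `r` be a prime dividing the number of totally singular `m`-spaces. For `r ≠ p` let `i` be the multiplicative order of `q` modulo `r`, `c = i` for `i` even and `c = 2i` for `i` odd, and write `k = n mod c`, `ℓ = m mod i`, `n' = ⌊n/i⌋`, `m' = ⌊m/i⌋`, `t = (r−1)/i`. Then every element of `T` of order `r` fixes some totally singular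 `m`-space if and only if one of: (i) `r = 2 ≠ p` and either `q ≡ 1 (mod 4)`, or `q ≡ 3 (mod 4)`, `m ≤ n/2 − 2` and (`m` even or `n ≡ 2 (mod 4)`); (ii) `r ≠ p` odd, `i` odd, `i ≤ m` and `k ≥ 2ℓ`; (iii) `r ≠ p` odd, `i` even, `i ≤ m`, `n' − 2m' ≥ t`, and one of: `i ≥ 2ℓ`, `k = 0`, `n/i` odd and `n' − 2m' > t`; or `k ≥ 2ℓ` and `n'` even; or `k > 2ℓ` and `n'` odd. -/
theorem result {F : Type*} [Field F] [Fintype F] {p : ℕ} [Fact p.Prime] [CharP F p] {q : ℕ} (hq : Fintype.card F = q)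
    (d m : ℕ) (hd : 4 ≤ d) (hm : 1 ≤ m) (hmd : m < d)
    (r : ℕ) [Fact r.Prime]
    (hrΩ : r ∣ Nat.card {W : Submodule F (Fin d ⊕ Fin d → F) // Module.finrank F ↥W = m ∧ (∀ w ∈ W, Cfsg.quadFormPlus d F w = 0)})
    (i c : ℕ) (hi : i = orderOf (q : ZMod r)) (hc : c = if Even i then i else 2 * i) :
    (∀ x : GL (Fin d ⊕ Fin d) F, x ∈ Cfsg.Geo.omegaGL (Cfsg.quadFormPlus d F) →
      (∃ z : F, ((x ^ r : GL (Fin d ⊕ Fin d) F) : Matrix (Fin d ⊕ Fin d) (Fin d ⊕ Fin d) F) = z • (1 : Matrix (Fin d ⊕ Fin d) (Fin d ⊕ Fin d) F)) →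
      (∀ z : F, (x : Matrix (Fin d ⊕ Fin d) (Fin d ⊕ Fin d) F) ≠ z • (1 : Matrix (Fin d ⊕ Fin d) (Fin d ⊕ Fin d) F)) →
      ∃ W : Submodule F (Fin d ⊕ Fin d → F), Module.finrank F ↥W = m ∧ (∀ w ∈ W, Cfsg.quadFormPlus d F w = 0) ∧
        W.map (Matrix.toLin' (x : Matrix (Fin d ⊕ Fin d) (Fin d ⊕ Fin d) F)) ≤ W) ↔
    ((r = 2 ∧ p ≠ 2 ∧ (q % 4 = 1 ∨ (q % 4 = 3 ∧ m + 2 ≤ d ∧ (Even m ∨ (2 * d) % 4 = 2)))) ∨
     (r ≠ p ∧ 2 < r ∧ Odd i ∧ i ≤ m ∧ 2 * (m % i) ≤ (2 * d) % c) ∨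
     (r ≠ p ∧ 2 < r ∧ Even i ∧ i ≤ m ∧ (r - 1) / i + 2 * (m / i) ≤ (2 * d) / i ∧
       ((2 * (m % i) ≤ i ∧ (2 * d) % c = 0 ∧ Odd ((2 * d) / i) ∧ (r - 1) / i + 2 * (m / i) < (2 * d) / i) ∨
        (2 * (m % i) ≤ (2 * d) % c ∧ Even ((2 * d) / i)) ∨
        (2 * (m % i) < (2 * d) % c ∧ Odd ((2 * d) / i))))) := by
  have hQ := CL.Cls.nondeg_qfPlus (m := d) (F := F)
  have hn : Module.finrank F (Fin d ⊕ Fin d → F) = 2 * d := by simp; omega
  have : Nontrivial (Fin d ⊕ Fin d → F) := Module.nontrivial_of_finrank_pos (R := F) (by omega)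
  have hε : CL.Elf.Pl (CL.Cls.qfPlus d F) ⊤ ↔ True :=
    iff_true_intro ((CL.Elf.pl_top_iff hn).2 (CL.Known.isPlus_qfPlus d))
  simp only [← CL.Cls.coe_qfPlus, CL.Elu.map_le_iff_forall, ← and_assoc (a := Module.finrank F _ = m)] at hrΩ ⊢
  have hrp := CL.Elf.ne_char_of_ts p hQ (by omega) hrΩ
  obtain ⟨hrF, hi', hi0, ht⟩ := CL.Elf.ord_facts p hq hrp hi
  refine (CL.Elf.omega_iff_allEl _ r (CL.Elf.Fx fun W : Submodule F (Fin d ⊕ Fin d → F) =>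
    Module.finrank F W = m ∧ CL.Elf.TS (CL.Cls.qfPlus d F) W)).trans ?_
  by_cases hr2 : r = 2
  · subst hr2
    obtain ⟨h3, h4, h5⟩ := CL.Elf.sq_facts hq hrF
    rw [CL.Elf.allEl_two hQ.1 hrF (CL.Elf.og_isom CL.Elf.Om_le), CL.Elf.inv_ts_iff hQ hrF hn hε,
      CL.Elf.sq_neg_iff hQ hrF hn hε
      fun g g1 g2 => CL.Elf.sq_neg_fix_ts hQ hrF g1 g2 (by omega), CL.Elf.isSquare_neg_one_pow,
      CL.Elf.isSquare_pow_iff (a := 2) hrF]
    simp only [hrp.symm, h4, h5, lt_irrefl, false_and, and_false, or_false, ne_eq, not_false_eq_true, true_and,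
      Nat.even_iff, true_iff]
    refine ⟨fun h => ?_, fun h => ⟨fun k k0 k1 => ?_, by omega⟩⟩
    · obtain ⟨m₁, m₂, h'⟩ := h.1 1 one_ne_zero (by omega)
      omega
    · by_cases e : q % 4 = 1 ∨ k % 2 = 0
      · exact ⟨min m (d - k), m - min m (d - k), by omega⟩
      · exact ⟨min m (d - k - 1), m - min m (d - k - 1), by omega⟩
  · rw [CL.Elf.allEl_Om_odd hQ (by omega) ((Fact.out : r.Prime).odd_of_ne_two hr2) fun _ => CL.Elf.fx_neg]
    refine ((CL.Elf.og_ts hQ hr2 hrF hi' hn hε m).trans (CL.Elf.ar5973 hi0 hc ht hm hmd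
      (CL.Elf.og_ts_sylow hQ hr2 hrF hi' hn hε hrΩ))).trans ?_
    simp only [hr2, hrp, CL.Elf.two_lt_of_ne hr2, false_and, false_or, ne_eq, not_false_eq_true, true_and]

end Cfsg.Agent.S5973
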