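import Cfsg.Statements.S5974
import Cfsg.Agent.Cls.ElfTwo

set_option autoImplicit false
open scoped MatrixGroups
open Cfsg

namespace Cfsg.Agent.S5974

/-- Elements of prime order of PΩ⁺_n(q), n = 2d ≥ 8, with no fixed nondegenerate hyperbolic `m`-space. Here `T = PΩ⁺_n(q)` is realised through `Ω⁺_n(q)`, the commutator subgroup of the isometry group of `Q = Σ xᵢyᵢ` over the field `F` with `q` elements; an element of `T` of prime order `r` is an element `x` of `Ω⁺_n(q)` with `x^r` scalar and `x` not scalar. A hyperbolic `m`-space is a subspace `W` of even dimension `m` on which the polar form of `Q` is nondegenerate and which contains a totally singular subspace of dimension `m/2`. Let `m` be even with `2 ≤ m < n/2`, and let `r` be a prime dividing the number of hyperbolic `m`-spaces, with `r = 2` or `r ≠ p`. For `r ≠ p` let `i` be the multiplicative order of `q` modulo `r`, `c = i` for `i` even and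 `c = 2i` for `i` odd, and write `k = n mod c`, `ℓ' = m mod c`. Then every element of `T` of order `r` fixes some hyperbolic `m`-space if and only if one of: (i) `r = 2` and (`n ≡ 2 (mod 4)`, or `m ≡ 0 (mod 4)`, or `q ≡ 1 (mod 4)`); (ii) `r ≠ p` odd, `i` odd, `c ≤ m` and `k ≥ ℓ'`; (iii) `r ≠ p` odd, `i` even, and either `k = 0` and (`n/i` odd, or `ℓ' = 0` and `m/i` even), or `i ≤ m` and (`k > ℓ' > 0`, or `k = ℓ' > 0` and `(n + m − 2k)/i` even, or `k > ℓ' = 0` and `m/i` even). -/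
theorem result {F : Type*} [Field F] [Fintype F] {p : ℕ} [Fact p.Prime] [CharP F p] {q : ℕ} (hq : Fintype.card F = q)
    (d m : ℕ) (hd : 4 ≤ d) (hm : 2 ≤ m) (hme : Even m) (hmd : m < d)
    (r : ℕ) [Fact r.Prime] (hr : r = 2 ∨ r ≠ p)
    (hrΩ : r ∣ Nat.card {W : Submodule F (Fin d ⊕ Fin d → F) // (Module.finrank F ↥W = m ∧ (∀ u ∈ W, u ≠ 0 → ∃ v ∈ W, QuadraticMap.polar (Cfsg.quadFormPlus d F) u v ≠ 0) ∧
          ∃ U : Submodule F (Fin d ⊕ Fin d → F), U ≤ W ∧ 2 * Module.finrank F ↥U = m ∧ ∀ u ∈ U, Cfsg.quadFormPlus d F u = 0)})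
    (i c : ℕ) (hi : i = orderOf (q : ZMod r)) (hc : c = if Even i then i else 2 * i) :
    (∀ x : GL (Fin d ⊕ Fin d) F, x ∈ Cfsg.Geo.omegaGL (Cfsg.quadFormPlus d F) →
      (∃ z : F, ((x ^ r : GL (Fin d ⊕ Fin d) F) : Matrix (Fin d ⊕ Fin d) (Fin d ⊕ Fin d) F) = z • (1 : Matrix (Fin d ⊕ Fin d) (Fin d ⊕ Fin d) F)) →
      (∀ z : F, (x : Matrix (Fin d ⊕ Fin d) (Fin d ⊕ Fin d) F) ≠ z • (1 : Matrix (Fin d ⊕ Fin d) (Fin d ⊕ Fin d) F)) →
      ∃ W : Submodule F (Fin d ⊕ Fin d → F), (Module.finrank F ↥W = m ∧ (∀ u ∈ W, u ≠ 0 → ∃ v ∈ W, QuadraticMap.polar (Cfsg.quadFormPlus d F) u v ≠ 0) ∧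
          ∃ U : Submodule F (Fin d ⊕ Fin d → F), U ≤ W ∧ 2 * Module.finrank F ↥U = m ∧ ∀ u ∈ U, Cfsg.quadFormPlus d F u = 0) ∧
        W.map (Matrix.toLin' (x : Matrix (Fin d ⊕ Fin d) (Fin d ⊕ Fin d) F)) ≤ W) ↔
    ((r = 2 ∧ ((2 * d) % 4 = 2 ∨ m % 4 = 0 ∨ q % 4 = 1)) ∨
     (r ≠ p ∧ 2 < r ∧ Odd i ∧ c ≤ m ∧ m % c ≤ (2 * d) % c) ∨
     (r ≠ p ∧ 2 < r ∧ Even i ∧
       (((2 * d) % c = 0 ∧ (Odd ((2 * d) / i) ∨ (m % c = 0 ∧ Even (m / i)))) ∨
        (i ≤ m ∧ ((m % c < (2 * d) % c ∧ 0 < m % c) ∨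
                  ((2 * d) % c = m % c ∧ 0 < m % c ∧ Even ((2 * d + m - 2 * ((2 * d) % c)) / i)) ∨
                  (0 < (2 * d) % c ∧ m % c = 0 ∧ Even (m / i))))))) := by
  have hQ := CL.Cls.nondeg_qfPlus (m := d) (F := F)
  have hn : Module.finrank F (Fin d ⊕ Fin d → F) = 2 * d := by simp; omega
  have : Nontrivial (Fin d ⊕ Fin d → F) := Module.nontrivial_of_finrank_pos (R := F) (by omega)
  have hε : CL.Elf.Pl (CL.Cls.qfPlus d F) ⊤ ↔ True := iff_true_intro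
    ((CL.Elf.pl_top_iff hn).2 (CL.Known.isPlus_qfPlus d))
  have e : ∀ W : Submodule F (Fin d ⊕ Fin d → F), (Module.finrank F ↥W = m ∧
      (∀ u ∈ W, u ≠ 0 → ∃ v ∈ W, QuadraticMap.polar (Cfsg.quadFormPlus d F) u v ≠ 0) ∧
      ∃ U : Submodule F (Fin d ⊕ Fin d → F), U ≤ W ∧ 2 * Module.finrank F ↥U = m ∧ ∀ u ∈ U, Cfsg.quadFormPlus d F u = 0) ↔
      (Module.finrank F W = m ∧ CL.Elf.ND (QuadraticMap.polarBilin (CL.Cls.qfPlus d F)) W ∧
        (CL.Elf.Pl (CL.Cls.qfPlus d F) W ↔ True)) := fun W => and_congr_right fun h => and_congr (CL.Elf.nd_iff_ne (B := QuadraticMap.polarBilin (CL.Cls.qfPlus d F))).symm (by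
    rw [iff_true, ← h]; exact exists_congr fun U => and_congr_right fun _ => and_comm)
  simp only [e] at hrΩ ⊢
  simp only [← CL.Cls.coe_qfPlus, CL.Elu.map_le_iff_forall]
  refine (CL.Elf.omega_iff_allEl _ r (CL.Elf.Fx fun W : Submodule F (Fin d ⊕ Fin d → F) =>
    Module.finrank F W = m ∧ CL.Elf.ND _ W ∧ (CL.Elf.Pl (CL.Cls.qfPlus d F) W ↔ True))).trans ?_
  by_cases hr2 : r = 2
  · subst hr2
    simp only [lt_irrefl, false_and, and_false, or_false, true_and]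
    by_cases hp : p = 2
    · subst hp
      have h4 : q % 2 = 0 := hq ▸ FiniteField.even_card_of_char_two (ringChar.eq F 2)
      rw [CL.Elf.allEl_char_two hQ.1 CharTwo.two_eq_zero (CL.Elf.og_isom CL.Elf.Om_le)]
      refine ⟨fun h => ?_, fun h g g1 g2 _ => CL.Elf.two_fix_pl hQ (CL.Elf.Om_le g1)
        (CL.Known.mul_self_eq_one_iff_app.1 ((pow_two g).symm.trans g2)) hε (by omega) hme (by omega) True
        fun k τ e _ => ⟨min k (m / 4), by omega, m / 2 - 2 * min k (m / 4), by omega, by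
          obtain ⟨j, rfl⟩ := hme; omega, fun _ => trivial, fun _ => Iff.rfl⟩⟩
      by_contra h5
      obtain ⟨g, g1, g2, g3, -, g4⟩ := CL.Elf.exists_alt_der hQ (by omega) (k := d / 2) (by omega) (by omega)
        fun _ => hε.2 trivial
      obtain ⟨W, ⟨w1, w2, -⟩, w3⟩ := h g g1 g2 g3
      obtain ⟨j, τ, j', τ', e⟩ := g4 W w2 w3
      omega
    · have h2 := (CL.Elf.two_ne_zero_iff_char (F := F) p).2 hp
      obtain ⟨h3, h4, h5⟩ := CL.Elf.sq_facts hq h2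
      obtain ⟨k, rfl⟩ : ∃ k, m = 2 * k := ⟨m / 2, by obtain ⟨j, rfl⟩ := hme; omega⟩
      rw [CL.Elf.allEl_two hQ.1 h2 (CL.Elf.og_isom CL.Elf.Om_le),
        and_iff_right (CL.Elf.inv_fix_pl hQ h2 (by omega) hme (by omega) True), CL.Elf.sq_neg_iff hQ h2 hn hε
        fun g g1 g2 => CL.Elf.sq_neg_fix_pl hQ h2 g1 g2 (by omega) True, CL.Elf.isSquare_neg_one_pow,
        CL.Elf.isSquare_neg_one_pow, CL.Elf.isSquare_pow_iff (a := 2) h2]
      simp only [h4, h5, Nat.even_iff, true_iff]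
      omega
  · have hrp := hr.resolve_left hr2
    obtain ⟨hrF, hi', hi0, ht⟩ := CL.Elf.ord_facts p hq hrp hi
    rw [CL.Elf.allEl_Om_odd hQ (by omega) ((Fact.out : r.Prime).odd_of_ne_two hr2) fun _ => CL.Elf.fx_neg]
    refine ((CL.Elf.og_pl hQ hr2 hrF hi' hn hε hme True).trans (CL.Elf.ar5974 hi0 hc ht hm hme hmd
      (CL.Elf.og_pl_sylow hQ hr2 hrF hi' hn hε hme True hrΩ))).trans ?_
    simp only [hr2, hrp, CL.Elf.two_lt_of_ne hr2, false_and, false_or, ne_eq, not_false_eq_true, true_and]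

end Cfsg.Agent.S5974
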