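import Cfsg.Statements.S5976
import Cfsg.Agent.Cls.ElfExt2

set_option autoImplicit false
open scoped MatrixGroups
open Cfsg

namespace Cfsg.Agent.S5976

/-- Elements of prime order of PSp_n(q), q odd, and the subgroups of type GU_{n/2}(q). Here `T = PSp_{2d}(F)` for a field `F` with `q` elements, `q` odd, `d ≥ 2`, realised through the matrices preserving the standard alternating form `f`; `K` is a subalgebra of the `2d × 2d` matrices that is a field of degree 2 over `F`, closed under taking adjoints for `f` but not consisting of self-adjoint elements (so `F^{2d}` becomes a `d`-dimensional space over `K ≅ F_{q²}` on which `f` is the trace of a multiple of a non-degenerate hermitian form); `H` is the subgroup of `T` normalizing `K` — the symplectic maps that are `K`-linear or `K`-semilinear, a subgroup of type GU_d(q) (maximality is not assumed). Ω is the set of cosets of `H` in `T`, so an element of `T` of prime order `r` (`x ∈ T` with `x^r` scalar,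 `x` not scalar) fixes a point of Ω exactly when some `T`-conjugate of `x` normalizes `K`. Let `r` be a prime dividing the index of `H`. Then every element of `T` of order `r` fixes a point of Ω if and only if `r = 2`. -/
theorem result {F : Type*} [Field F] [Fintype F] {p : ℕ} [Fact p.Prime] [CharP F p] {q : ℕ} (hq : Fintype.card F = q)
    (hodd : Odd q) (d : ℕ) (hd : 2 ≤ d)
    (K : Subalgebra F (Matrix (Fin d ⊕ Fin d) (Fin d ⊕ Fin d) F)) (hK : Cfsg.Geo.IsFieldSubalgebra 2 K)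
    (hKf : Cfsg.Geo.IsAdjointClosedFor (Cfsg.sympForm d F) K) (hKns : ¬ Cfsg.Geo.IsSelfAdjointFor (Cfsg.sympForm d F) K)
    (r : ℕ) [Fact r.Prime]
    (hΩ : r ∣ (Cfsg.Geo.subalgebraNormalizer K).relIndex (Cfsg.spGL d F)) :
    (∀ x ∈ Cfsg.spGL d F, (∃ z : F, ((x ^ r : GL (Fin d ⊕ Fin d) F) : Matrix (Fin d ⊕ Fin d) (Fin d ⊕ Fin d) F) = z • (1 : Matrix (Fin d ⊕ Fin d) (Fin d ⊕ Fin d) F)) →
      (∀ z : F, (x : Matrix (Fin d ⊕ Fin d) (Fin d ⊕ Fin d) F) ≠ z • (1 : Matrix (Fin d ⊕ Fin d) (Fin d ⊕ Fin d) F)) →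
      ∃ g ∈ Cfsg.spGL d F, g⁻¹ * x * g ∈ Cfsg.Geo.subalgebraNormalizer K) ↔ r = 2 := by
  have : Nonempty (Fin d ⊕ Fin d) := ⟨Sum.inl ⟨0, by omega⟩⟩
  obtain ⟨L, _, _, _, _, _, h1, h2, h3, h4⟩ := CL.Elf.exists_field_model hK
  obtain ⟨j, hj, δ, D, span⟩ := CL.Sp.exists_uData (CL.Sp.two_ne_zero_of_odd_card (hq ▸ hodd)) K hK hKf hKns
  obtain ⟨θ, hθ⟩ := h3 j hj
  obtain ⟨e1, e2⟩ := CL.Elf.cj_bridge CL.Sp.mem_spGL_iff h4 r
  rw [e2, CL.Elf.allEl_uni_sp D (θ := θ) (fun v => (hθ v).symm) (fun k => ?_) h1 (d := d) (by simp; omega) hd (e1 ▸ hΩ)]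
  obtain ⟨x, hx, e⟩ := h2 k
  obtain ⟨a, b, rfl⟩ := span x hx
  obtain ⟨v, hv⟩ := exists_ne (0 : Fin d ⊕ Fin d → F)
  exact ⟨a, b, smul_left_injective L hv (by
    simp only [e, add_smul, mul_smul, algebraMap_smul, hθ, Matrix.add_mulVec, Matrix.smul_mulVec, Matrix.one_mulVec])⟩

end Cfsg.Agent.S5976
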