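import Cfsg.Statements.S5980
import Cfsg.Agent.Cls.ElfTen

set_option autoImplicit false
open scoped MatrixGroups
open Cfsg

namespace Cfsg.Agent.S5980

/-- Elements of prime order of PSp_n(q), q odd, and the stabilizers of tensor decompositions Sp_a(q) ⊗ O_b(q). Here `T = PSp_{2d}(F)` for a field `F` with `q` elements, `q` odd, `d ≥ 2`, realised through the matrices preserving the standard alternating form `f`; `2d = a·b` with `a` even, `b ≥ 3`, and the bijection `e` and change of basis `P` exhibit `f` as a non-zero scalar multiple of the tensor product of a non-degenerate alternating form `f₁` on `F^a` and a non-degenerate symmetric bilinear form `f₂` on `F^b`; `H` is the subgroup of `T` stabilizing this tensor decomposition (the elements of `T` in the conjugate by `P` of the group of Kronecker products) — a subgroup of type Sp_a(q) ⊗ O^ε_b(q) (maximality is not assumed). Ω is the set of cosets of `H` in `T`, so an element of `T` of prime order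 `r` (`x ∈ T` with `x^r` scalar, `x` not scalar) fixes a point of Ω exactly when some `T`-conjugate of `x` lies in `H`. Let `r` be a prime dividing the index of `H`. Then every element of `T` of order `r` fixes a point of Ω if and only if `r = 2` and `a = 2`. -/
theorem result {F : Type*} [Field F] [Fintype F] {p : ℕ} [Fact p.Prime] [CharP F p] {q : ℕ} (hq : Fintype.card F = q)
    (hodd : Odd q) (d : ℕ) (hd : 2 ≤ d) (a b : ℕ) (hab : 2 * d = a * b) (ha : Even a) (ha2 : 2 ≤ a) (hb : 3 ≤ b)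
    (e : (Fin d ⊕ Fin d) ≃ Fin a × Fin b) (P : GL (Fin d ⊕ Fin d) F)
    (f₁ : (Fin a → F) → (Fin a → F) → F) (f₂ : (Fin b → F) → (Fin b → F) → F)
    (hf₁ : Cfsg.Geo.IsSymplecticForm f₁) (hf₂ : Cfsg.Geo.IsSymmetricForm f₂)
    (hS : Cfsg.Geo.IsTensorFormStructure id (Cfsg.sympForm d F) f₁ f₂ e P)
    (r : ℕ) [Fact r.Prime]
    (hΩ : r ∣ (Cfsg.Geo.tensorProductSubgroup a b e P).relIndex (Cfsg.spGL d F)) :
    (∀ x ∈ Cfsg.spGL d F, (∃ z : F, ((x ^ r : GL (Fin d ⊕ Fin d) F) : Matrix (Fin d ⊕ Fin d) (Fin d ⊕ Fin d) F) = z • (1 : Matrix (Fin d ⊕ Fin d) (Fin d ⊕ Fin d) F)) →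
      (∀ z : F, (x : Matrix (Fin d ⊕ Fin d) (Fin d ⊕ Fin d) F) ≠ z • (1 : Matrix (Fin d ⊕ Fin d) (Fin d ⊕ Fin d) F)) →
      ∃ g ∈ Cfsg.spGL d F, g⁻¹ * x * g ∈ Cfsg.Geo.tensorProductSubgroup a b e P) ↔ (r = 2 ∧ a = 2) := by
  obtain ⟨c, hc, h⟩ := CL.Sp.exists_form_tenE hf₁.bilinear hf₂.bilinear hS
  have h2 := CL.Sp.two_ne_zero_of_odd_card (hq ▸ hodd)
  have hs : (CL.SLn.bilinOf hf₂.bilinear).IsSymm := ⟨fun x y => by simp [hf₂.symm x y]⟩
  let T : CL.Sp.TL F (Fin a → F) (Fin b → F) (Fin d ⊕ Fin d → F) := ⟨CL.Sp.tenE e P⟩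
  have key : ∀ x, x ∈ Cfsg.Geo.tensorProductSubgroup a b e P ↔ CL.Sp.glEquiv _ F x ∈ T.KS := fun x => by
    rw [← (CL.Sp.glEquiv _ F).symm_apply_apply x, CL.Sp.mem_tensorProductSubgroup_symm_iff,
      MulEquiv.apply_symm_apply]
    exact exists₂_congr fun a t => ⟨fun h => T.equiv_ext fun x y => by rw [T.kron_tm]; exact h x y,
      fun h x y => h ▸ T.kron_tm a t x y⟩
  obtain ⟨e1, e2⟩ := CL.Elf.cj_bridge CL.Sp.mem_spGL_iff key r
  rw [e2, CL.Elf.allEl_ten_sp (β := (c / 2) • CL.SLn.bilinOf hf₁.bilinear) (CL.Sp.stdForm_nondegenerate (Fin d) F).1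
    (CL.Sp.stdForm_isAlt _ _) h2 (fun x hx => (CL.SLn.bilinOf_nondegenerate hf₁.bilinear hf₁.nondegenerate).1 x
      fun y => by simpa [hc, h2] using hx y) (fun x => by simp [hf₁.alternating x])
    (CL.Cls.nondeg_toQuadraticMap_of_symm h2 hs (CL.SLn.bilinOf_nondegenerate hf₂.bilinear hf₂.nondegenerate)) T
    (fun x y x' y' => ?_) (by simpa) (by simpa) (e1 ▸ hΩ), Module.finrank_fin_fun]
  rw [CL.Sp.stdForm_eq_sympForm, ← QuadraticMap.polarBilin_apply_apply, CL.Cls.polarBilin_toQuadraticMap_of_symm hs]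
  refine (h x y x' y').trans ?_
  simp
  field_simp

end Cfsg.Agent.S5980
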