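import Cfsg.Statements.S5983
import Cfsg.Agent.Cls.ElfTwo2
import Cfsg.Agent.Cls.SpMaxOrth
import Cfsg.Agent.Cls.OrthMaxBridge

set_option autoImplicit false
open scoped MatrixGroups
open Cfsg

namespace Cfsg.Agent.S5983

/-- Elements of prime order of PSp_n(q), q even, and the subgroups of orthogonal type. Here `T = Sp_{2d}(F)` for a field `F` of characteristic 2 with `q` elements (`d ≥ 2`, `(d, q) ≠ (2, 2)`), realised as the invertible matrices preserving the standard alternating form; `Q` is a non-degenerate quadratic form on `F^{2d}` whose polar form is that alternating form, and `H` is the subgroup of `T` preserving `Q` up to a scalar (equivalently preserving `Q`) — a subgroup of type O^±_{2d}(q) (maximality is not assumed); `Q` is of plus type when `F^{2d}` contains a `d`-dimensional subspace on which `Q` vanishes, of minus type otherwise. Ω is the set of cosets of `H` in `T`, so an element of `T` of prime order `r`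 (`x ∈ T` with `x^r` scalar, `x` not scalar) fixes a point of Ω exactly when some `T`-conjugate of `x` preserves `Q`. Let `r` be a prime dividing the index of `H`. Then every element of `T` of order `r` fixes a point of Ω if and only if `r = 2` and either `Q` is of plus type or `d` is odd. -/
theorem result {F : Type*} [Field F] [Fintype F] {p : ℕ} [Fact p.Prime] [CharP F p] {q : ℕ} (hq : Fintype.card F = q)
    (hp : p = 2) (d : ℕ) (hd : 2 ≤ d) (hT : (d, q) ≠ (2, 2)) (Q : (Fin d ⊕ Fin d → F) → F) (hQ : Cfsg.Geo.IsNondegenerateQuadraticForm Q)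
    (hQf : ∀ u v, QuadraticMap.polar Q u v = Cfsg.sympForm d F u v)
    (r : ℕ) [Fact r.Prime]
    (hΩ : r ∣ (Cfsg.Geo.quadSimilarityGroup Q).relIndex (Cfsg.spGL d F)) :
    (∀ x ∈ Cfsg.spGL d F, (∃ z : F, ((x ^ r : GL (Fin d ⊕ Fin d) F) : Matrix (Fin d ⊕ Fin d) (Fin d ⊕ Fin d) F) = z • (1 : Matrix (Fin d ⊕ Fin d) (Fin d ⊕ Fin d) F)) →
      (∀ z : F, (x : Matrix (Fin d ⊕ Fin d) (Fin d ⊕ Fin d) F) ≠ z • (1 : Matrix (Fin d ⊕ Fin d) (Fin d ⊕ Fin d) F)) →
      ∃ g ∈ Cfsg.spGL d F, g⁻¹ * x * g ∈ Cfsg.Geo.quadSimilarityGroup Q) ↔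
    (r = 2 ∧ (Cfsg.Geo.IsPlusTypeOn Q ⊤ ∨ Odd d)) := by
  subst hp
  obtain ⟨Q, rfl, hQ'⟩ := CL.Cls.exists_qf_of_isNondeg hQ
  have hn : Module.finrank F (Fin d ⊕ Fin d → F) = 2 * d := by simp; omega
  have : Nontrivial (Fin d ⊕ Fin d → F) := Module.nontrivial_of_finrank_pos (R := F) (by omega)
  have hB : CL.Sp.stdForm (Fin d) F = QuadraticMap.polarBilin Q :=
    LinearMap.ext₂ fun u v => (CL.Sp.stdForm_eq_sympForm u v).trans (hQf u v).symm
  have h1 : ∀ g, g ∈ Cfsg.spGL d F ↔ CL.Sp.glEquiv _ F g ∈ CL.Sp.Isom (QuadraticMap.polarBilin Q) := fun g => by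
    rw [CL.Sp.mem_spGL_iff, hB]
  have h2 : ∀ g ∈ Cfsg.spGL d F, g ∈ Cfsg.Geo.quadSimilarityGroup Q ↔ CL.Sp.glEquiv _ F g ∈ CL.Cls.OG Q := fun g hg =>
    ⟨fun ⟨c, hc⟩ => CL.Sp.quad_isom_of_similarity hQ' (fun _ _ => rfl) ((h1 g).1 hg) hc,
      fun h => ⟨1, fun v => (h v).trans (one_mul _).symm⟩⟩
  have h3 : (Cfsg.Geo.quadSimilarityGroup Q).relIndex (Cfsg.spGL d F) =
      (CL.Cls.OG Q).relIndex (CL.Sp.Isom (QuadraticMap.polarBilin Q)) := by
    rw [← Subgroup.inf_relIndex_right, show Cfsg.Geo.quadSimilarityGroup Q ⊓ Cfsg.spGL d F =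
      (CL.Cls.OG Q).comap (CL.Sp.glEquiv _ F).toMonoidHom from Subgroup.ext fun g => ⟨fun h => (h2 g h.2).1 h.1, fun h =>
        have := (h1 g).2 (CL.Cls.OG.polar_app ⟨_, h⟩); ⟨(h2 g this).2 h, this⟩⟩, Subgroup.relIndex_comap,
      CL.Sp.spGL_eq_comap, Subgroup.map_comap_eq_self_of_surjective (CL.Sp.glEquiv _ F).surjective, hB]
  refine Iff.trans ?_ (CL.Elf.allEl_conjO hQ' hn (by omega) (h3 ▸ hΩ))
  simp only [Ne, CL.Elf.eq_smul_one_iff]
  constructor
  · intro h g hg g1 g2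
    obtain ⟨x, rfl⟩ := (CL.Sp.glEquiv _ F).surjective g
    obtain ⟨y, y1, y2⟩ := h x ((h1 x).2 hg) (by rwa [← map_pow] at g1) g2
    have := (h2 _ (mul_mem (mul_mem (inv_mem y1) ((h1 x).2 hg)) y1)).1 y2
    rw [map_mul, map_mul, map_inv] at this
    exact ⟨_, (h1 y).1 y1, this⟩
  · intro h x hx g1 g2
    obtain ⟨y, y1, y2⟩ := h _ ((h1 x).1 hx) (by rwa [← map_pow]) g2
    obtain ⟨y, rfl⟩ := (CL.Sp.glEquiv _ F).surjective y
    refine ⟨y, (h1 y).2 y1, (h2 _ (mul_mem (mul_mem (inv_mem ((h1 y).2 y1)) hx) ((h1 y).2 y1))).2 ?_⟩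
    rw [map_mul, map_mul, map_inv]
    exact y2

end Cfsg.Agent.S5983
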