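import Cfsg.Statements.S5984
import Cfsg.Agent.Cls.ElhCount
import Cfsg.Agent.Cls.UniProper

set_option autoImplicit false
open scoped MatrixGroups
open Cfsg

namespace Cfsg.Agent.S5984

/-- Elements of prime order of PSU_n(q) and the stabilizers of pairs of complementary totally singular subspaces. Here `T = PSU_n(q)` is realised through `SU_n(q)`, the matrices of determinant 1 over the field `F` with `q²` elements preserving the hermitian form `Σ uᵢ vᵢ^q`, with `n ≥ 4` even; `D` is a pair of complementary subspaces of dimension `n/2` on each of which the form vanishes identically, and `H` is the subgroup of `SU_n(q)` fixing or interchanging the two members — a subgroup of type GL_{n/2}(q²).2 (maximality is not assumed). Ω is the set of cosets of `H`, so an element of `T` of prime order `r` (`x ∈ SU_n(q)` with `x^r` scalar, `x` not scalar) fixes a point of Ω exactly when some `SU_n(q)`-conjugate of `x` lies in `H`. Let `r` be a prime dividing the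 index of `H`. Then every element of `T` of order `r` fixes a point of Ω if and only if `r = 2`, `q` is odd and `(q + 1)_2 ≤ (n)_2` (2-parts). -/
theorem result {F : Type*} [Field F] [Fintype F] {p : ℕ} [Fact p.Prime] [CharP F p] {q : ℕ} (hq : Fintype.card F = q ^ 2)
    (n : ℕ) (hn : 4 ≤ n) (he : Even n) (D : Fin 2 → Submodule F (Fin n → F)) (hD : Cfsg.Geo.IsMDecomposition (n / 2) D)
    (hDs : ∀ i, Cfsg.Geo.IsTotallySingularFor (Cfsg.hermForm n F q) (D i))
    (r : ℕ) [Fact r.Prime]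
    (hΩ : r ∣ (Cfsg.Geo.decompositionStabilizer D).relIndex (Cfsg.GU n F q ⊓ Cfsg.Geo.specialLinear (Fin n) F)) :
    (∀ x ∈ Cfsg.GU n F q ⊓ Cfsg.Geo.specialLinear (Fin n) F, (∃ z : F, ((x ^ r : GL (Fin n) F) : Matrix (Fin n) (Fin n) F) = z • (1 : Matrix (Fin n) (Fin n) F)) →
      (∀ z : F, (x : Matrix (Fin n) (Fin n) F) ≠ z • (1 : Matrix (Fin n) (Fin n) F)) →
      ∃ g ∈ Cfsg.GU n F q ⊓ Cfsg.Geo.specialLinear (Fin n) F, g⁻¹ * x * g ∈ Cfsg.Geo.decompositionStabilizer D) ↔
    (r = 2 ∧ Odd q ∧ padicValNat 2 (q + 1) ≤ padicValNat 2 n) := by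
  have hb := CL.Uni.isBar_bar hq
  have h := CL.Uni.isHerm_stdB hb (Fin n)
  have hP := CL.Uni.isUPair_of hb hD hDs
  obtain ⟨m, rfl⟩ : ∃ m, n = 2 * m + 4 := ⟨n / 2 - 2, by obtain ⟨k, hk⟩ := he; omega⟩
  have hn := Module.finrank_fin_fun (n := 2 * m + 4) F
  obtain ⟨e1, e2⟩ := CL.Elf.cj_bridge (CL.Uni.glEquiv_mem_SUG hb · |>.symm)
    (CL.Uni.glEquiv_mem_decStab D · |>.symm) r
  rw [e1] at hΩ
  have e3 : CL.Elf.AllEl (CL.Uni.SUG (CL.Uni.stdB (CL.Uni.bar hq) _)) r (CL.Elf.Cj _ (CL.Uni.decStab D)) ↔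
      CL.Elf.AllEl _ r (CL.Elh.FxP _) :=
    forall₂_congr fun g _ => forall₂_congr fun _ _ => CL.Elh.cj_iff_fxP h hP
  rw [e2, e3, CL.Elh.allEl_SUG_iff h]
  by_cases hrp : r = p
  · subst hrp
    refine iff_of_false (CL.Elh.not_pair_char h (m := 2 * m + 1) hn r) ?_
    rintro ⟨rfl, h1, -⟩
    exact (CL.Elh.not_dvd_iff hb 2).1 h1.not_two_dvd_nat rfl
  have hrF := (CL.Elu.natCast_ne_zero_iff (F := F) p).2 hrp
  by_cases hr2 : r = 2
  · subst hr2
    rw [CL.Elh.pair_two h hn hrF]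
    simp only [CL.Elh.odd_q hb hrF, true_and]
  · obtain ⟨j, j1, j2, j3⟩ := CL.Elh.pair_count h hP Fact.out ((CL.Elh.not_dvd_iff hb p).2 hrp) hΩ
    exact iff_of_false (CL.Elh.not_pair_odd h (by omega) hr2 hrF j1 j2 j3) fun e => hr2 e.1

end Cfsg.Agent.S5984
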