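import Cfsg.Statements.S5987
import Cfsg.Agent.Cls.ElfInv2

set_option autoImplicit false
open scoped MatrixGroups
open Cfsg

namespace Cfsg.Agent.S5987

/-- Elements of prime order of PΩ⁻_n(q) with no fixed totally singular `m`-space. Here `T = PΩ⁻_n(F)`, `n = 2d ≥ 8`, realised through `Ω⁻_n(q)`, the commutator subgroup of the isometry group of `Q = Σ_{i<d−1} xᵢyᵢ + z₁² + a z₁z₂ + b z₂²` with `z₁² + a z₁z₂ + b z₂²` anisotropic, over the field `F` with `q` elements; an element of `T` of prime order `r` is an element `x` of `Ω⁻_n(q)` with `x^r` scalar and `x` not scalar. Let `1 ≤ m ≤ d − 1` and let `r` be a prime dividing the number of totally singular `m`-spaces (subspaces of dimension `m` on which `Q` vanishes); for `r ≠ p` let `i` be the multiplicative order of `q` modulo `r`, `c = i` for `i` even and `c = 2i` for `i` odd, and write `k = n mod c`,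 `ℓ = m mod i`, `n' = ⌊n/i⌋`, `m' = ⌊m/i⌋`, `t = (r−1)/i`. Then every element of `T` of order `r` fixes some totally singular `m`-space if and only if one of: (i) `r = 2 ≠ p` and (`n ≡ 0 (mod 4)`, or `m` is even, or `q ≢ 7 (mod 8)`); (ii) `r ≠ p` odd, `i` odd, `i ≤ m` and (`k = 0` or `k > 2ℓ`); (iii) `r ≠ p` odd, `i` even, `i ≤ m`, `n' − 2m' ≥ t`, and one of: (a) `i ≥ 2ℓ`, `k = 0`, `n/i` even and `n' − 2m' > t` (all four); (b) `k ≥ 2ℓ` and `n'` odd; (c) `k > 2ℓ` and `n'` even. -/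
theorem result {F : Type*} [Field F] [Fintype F] {p : ℕ} [Fact p.Prime] [CharP F p] {q : ℕ} (hq : Fintype.card F = q)
    (d m : ℕ) (hd : 4 ≤ d) (hm : 1 ≤ m) (hmd : m + 1 ≤ d) (a b : F) (hab : ∀ x y : F, x ^ 2 + a * x * y + b * y ^ 2 = 0 → x = 0 ∧ y = 0)
    (r : ℕ) [Fact r.Prime]
    (hrΩ : r ∣ Nat.card {W : Submodule F ((Fin (d - 1) ⊕ Fin (d - 1)) ⊕ Fin 2 → F) // Module.finrank F ↥W = m ∧ Cfsg.Geo.IsTotallySingularQuad (Cfsg.quadFormMinus (d - 1) F a b) W})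
    (i c : ℕ) (hi : i = orderOf (q : ZMod r)) (hc : c = if Even i then i else 2 * i) :
    (∀ x : GL ((Fin (d - 1) ⊕ Fin (d - 1)) ⊕ Fin 2) F, x ∈ Cfsg.Geo.omegaGL (Cfsg.quadFormMinus (d - 1) F a b) →
      (∃ z : F, ((x ^ r : GL ((Fin (d - 1) ⊕ Fin (d - 1)) ⊕ Fin 2) F) : Matrix ((Fin (d - 1) ⊕ Fin (d - 1)) ⊕ Fin 2) ((Fin (d - 1) ⊕ Fin (d - 1)) ⊕ Fin 2) F) = z • (1 : Matrix ((Fin (d - 1) ⊕ Fin (d - 1)) ⊕ Fin 2) ((Fin (d - 1) ⊕ Fin (d - 1)) ⊕ Fin 2) F)) →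
      (∀ z : F, (x : Matrix ((Fin (d - 1) ⊕ Fin (d - 1)) ⊕ Fin 2) ((Fin (d - 1) ⊕ Fin (d - 1)) ⊕ Fin 2) F) ≠ z • (1 : Matrix ((Fin (d - 1) ⊕ Fin (d - 1)) ⊕ Fin 2) ((Fin (d - 1) ⊕ Fin (d - 1)) ⊕ Fin 2) F)) →
      ∃ W : Submodule F ((Fin (d - 1) ⊕ Fin (d - 1)) ⊕ Fin 2 → F), (Module.finrank F ↥W = m ∧ Cfsg.Geo.IsTotallySingularQuad (Cfsg.quadFormMinus (d - 1) F a b) W) ∧ W.map (Matrix.toLin' (x : Matrix ((Fin (d - 1) ⊕ Fin (d - 1)) ⊕ Fin 2) ((Fin (d - 1) ⊕ Fin (d - 1)) ⊕ Fin 2) F)) ≤ W) ↔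
    ((r = 2 ∧ p ≠ 2 ∧ (Even d ∨ Even m ∨ q % 8 ≠ 7)) ∨
     (r ≠ p ∧ 2 < r ∧ Odd i ∧ i ≤ m ∧ ((2 * d) % c = 0 ∨ 2 * (m % i) < (2 * d) % c)) ∨
     (r ≠ p ∧ 2 < r ∧ Even i ∧ i ≤ m ∧ (r - 1) / i + 2 * (m / i) ≤ (2 * d) / i ∧
       ((2 * (m % i) ≤ i ∧ (2 * d) % c = 0 ∧ Even ((2 * d) / i) ∧ (r - 1) / i + 2 * (m / i) < (2 * d) / i) ∨
        (2 * (m % i) ≤ (2 * d) % c ∧ Odd ((2 * d) / i)) ∨
        (2 * (m % i) < (2 * d) % c ∧ Even ((2 * d) / i))))) := by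
  have hQ := CL.Cls.nondeg_qfMinus (m := d - 1) a b hab
  have hn : Module.finrank F ((Fin (d - 1) ⊕ Fin (d - 1)) ⊕ Fin 2 → F) = 2 * d := by simp; omega
  have : Nontrivial ((Fin (d - 1) ⊕ Fin (d - 1)) ⊕ Fin 2 → F) := Module.nontrivial_of_finrank_pos (R := F) (by omega)
  have hε : CL.Elf.Pl (CL.Cls.qfMinus (d - 1) F a b) ⊤ ↔ False := iff_false_intro fun h =>
    CL.Known.not_isPlus_qfMinus (d - 1) hab ((CL.Elf.pl_top_iff (hn.trans (by omega))).1 h)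
  simp only [← CL.Cls.coe_qfMinus, CL.Elu.map_le_iff_forall] at hrΩ ⊢
  have hrp := CL.Elf.ne_char_of_ts p hQ (by omega) hrΩ
  obtain ⟨hrF, hi', hi0, ht⟩ := CL.Elf.ord_facts p hq hrp hi
  refine (CL.Elf.omega_iff_allEl _ r (CL.Elf.Fx fun W : Submodule F ((Fin (d - 1) ⊕ Fin (d - 1)) ⊕ Fin 2 → F) =>
    Module.finrank F W = m ∧ CL.Elf.TS (CL.Cls.qfMinus (d - 1) F a b) W)).trans ?_
  by_cases hr2 : r = 2
  · subst hr2
    obtain ⟨h3, h4, h5⟩ := CL.Elf.sq_facts hq hrF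
    rw [CL.Elf.allEl_two hQ.1 hrF (CL.Elf.og_isom CL.Elf.Om_le), CL.Elf.inv_ts_iff hQ hrF hn hε,
      CL.Elf.sq_neg_iff hQ hrF hn hε
      fun g g1 g2 => CL.Elf.sq_neg_fix_ts hQ hrF g1 g2 (by omega), CL.Elf.isSquare_neg_one_pow,
      CL.Elf.isSquare_pow_iff (a := 2) hrF]
    simp only [hrp.symm, h4, h5, lt_irrefl, false_and, and_false, or_false, ne_eq, not_false_eq_true, true_and,
      Nat.even_iff, false_iff]
    refine ⟨fun h => by have := h.2; omega, fun h => ⟨fun k k0 k1 => ?_, by omega⟩⟩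
    by_cases e : q % 4 = 1 ∨ k % 2 = 0
    · exact ⟨min m (d - k - 1), m - min m (d - k - 1), by omega⟩
    · exact ⟨min m (d - k), m - min m (d - k), by omega⟩
  · rw [CL.Elf.allEl_Om_odd hQ (by omega) ((Fact.out : r.Prime).odd_of_ne_two hr2) fun _ => CL.Elf.fx_neg]
    refine ((CL.Elf.og_ts hQ hr2 hrF hi' hn hε m).trans (CL.Elf.ar5987 hi0 hc ht hm hmd
      (CL.Elf.og_ts_sylow hQ hr2 hrF hi' hn hε hrΩ))).trans ?_
    simp only [hr2, hrp, CL.Elf.two_lt_of_ne hr2, false_and, false_or, ne_eq, not_false_eq_true, true_and]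

end Cfsg.Agent.S5987
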