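import Cfsg.Statements.S5988
import Cfsg.Agent.Cls.ElfUni

set_option autoImplicit false
open scoped MatrixGroups
open Cfsg

namespace Cfsg.Agent.S5988

/-- Elements of prime order of PΩ⁺_n(q) with no fixed elliptic `m`-space. Here `T = PΩ⁺_n(F)`, `n = 2d ≥ 8`, realised through `Ω⁺_n(q)`, the commutator subgroup of the isometry group of `Q = Σ xᵢyᵢ` over the field `F` with `q` elements; an element of `T` of prime order `r` is an element `x` of `Ω⁺_n(q)` with `x^r` scalar and `x` not scalar; a nondegenerate `m`-space (even `m`) is a subspace on which the polar form of `Q` is nondegenerate; it is hyperbolic if it contains an `m/2`-dimensional subspace on which `Q` vanishes, elliptic otherwise. Let `m` be even with `2 ≤ m < n/2` and let `r` be a prime dividing the number of elliptic `m`-spaces; for `r ≠ p` let `i` be the multiplicative order of `q` modulo `r`, `c = i` for `i` even and `c = 2i`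 for `i` odd, and write `k = n mod c`, `ℓ = m mod i`, `ℓ' = m mod c`, `n' = ⌊n/i⌋`, `m' = ⌊m/i⌋`, `t = (r−1)/i`. Then every element of `T` of order `r` fixes some elliptic `m`-space if and only if one of: (i) `r = 2 ≠ p` and either `n ≡ 0 (mod 4)`, `q ≡ 3 (mod 4)` and `m ≡ 2 (mod 4)`, or `n ≡ 2 (mod 4)` and `q ≢ 1 (mod 8)`; (ii) `r ≠ p` odd, `i` odd, `c ≤ m` and `k > ℓ' > 0`; (iii) `r ≠ p` odd, `i` even, and either `k = 0` and (`n/i` odd, or `ℓ' = 0` and `m/i` odd), or `i ≤ m` and (`k > ℓ' > 0`, or `k = ℓ' > 0` and `(n + m − 2k)/i` odd, or `k > ℓ' = 0` and `m/i` odd). (For `r = p` there is always an element of order `p` fixing no elliptic `m`-space.) -/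
theorem result {F : Type*} [Field F] [Fintype F] {p : ℕ} [Fact p.Prime] [CharP F p] {q : ℕ} (hq : Fintype.card F = q)
    (d m : ℕ) (hd : 4 ≤ d) (hm : 2 ≤ m) (hme : Even m) (hmd : m < d)
    (r : ℕ) [Fact r.Prime]
    (hrΩ : r ∣ Nat.card {W : Submodule F (Fin d ⊕ Fin d → F) // Module.finrank F ↥W = m ∧ Cfsg.Geo.IsNondegenerateOn (QuadraticMap.polar (Cfsg.quadFormPlus d F)) W ∧ ¬ Cfsg.Geo.IsPlusTypeOn (Cfsg.quadFormPlus d F) W})
    (i c : ℕ) (hi : i = orderOf (q : ZMod r)) (hc : c = if Even i then i else 2 * i) :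
    (∀ x : GL (Fin d ⊕ Fin d) F, x ∈ Cfsg.Geo.omegaGL (Cfsg.quadFormPlus d F) →
      (∃ z : F, ((x ^ r : GL (Fin d ⊕ Fin d) F) : Matrix (Fin d ⊕ Fin d) (Fin d ⊕ Fin d) F) = z • (1 : Matrix (Fin d ⊕ Fin d) (Fin d ⊕ Fin d) F)) →
      (∀ z : F, (x : Matrix (Fin d ⊕ Fin d) (Fin d ⊕ Fin d) F) ≠ z • (1 : Matrix (Fin d ⊕ Fin d) (Fin d ⊕ Fin d) F)) →
      ∃ W : Submodule F (Fin d ⊕ Fin d → F), (Module.finrank F ↥W = m ∧ Cfsg.Geo.IsNondegenerateOn (QuadraticMap.polar (Cfsg.quadFormPlus d F)) W ∧ ¬ Cfsg.Geo.IsPlusTypeOn (Cfsg.quadFormPlus d F) W) ∧ W.map (Matrix.toLin' (x : Matrix (Fin d ⊕ Fin d) (Fin d ⊕ Fin d) F)) ≤ W) ↔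
    ((r = 2 ∧ p ≠ 2 ∧ ((Even d ∧ q % 4 = 3 ∧ m % 4 = 2) ∨ (Odd d ∧ q % 8 ≠ 1))) ∨
     (r ≠ p ∧ 2 < r ∧ Odd i ∧ c ≤ m ∧ 0 < m % c ∧ m % c < (2 * d) % c) ∨
     (r ≠ p ∧ 2 < r ∧ Even i ∧
       (((2 * d) % c = 0 ∧ (Odd ((2 * d) / i) ∨ (m % c = 0 ∧ Odd (m / i)))) ∨
        (i ≤ m ∧ ((0 < m % c ∧ m % c < (2 * d) % c) ∨
                  (0 < m % c ∧ m % c = (2 * d) % c ∧ Odd ((2 * d + m - 2 * ((2 * d) % c)) / i)) ∨
                  (m % c = 0 ∧ 0 < (2 * d) % c ∧ Odd (m / i))))))) := by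
  have hQ := CL.Cls.nondeg_qfPlus (m := d) (F := F)
  have hn : Module.finrank F (Fin d ⊕ Fin d → F) = 2 * d := by simp; omega
  have : Nontrivial (Fin d ⊕ Fin d → F) := Module.nontrivial_of_finrank_pos (R := F) (by omega)
  have hε : CL.Elf.Pl (CL.Cls.qfPlus d F) ⊤ ↔ True := iff_true_intro
    ((CL.Elf.pl_top_iff hn).2 (CL.Known.isPlus_qfPlus d))
  simp only [← CL.Cls.coe_qfPlus, CL.Elu.map_le_iff_forall, CL.Elf.nd_iff_geo,
    ← iff_false (Cfsg.Geo.IsPlusTypeOn _ _)] at hrΩ ⊢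
  refine (CL.Elf.omega_iff_allEl _ r (CL.Elf.Fx fun W : Submodule F (Fin d ⊕ Fin d → F) =>
    Module.finrank F W = m ∧ CL.Elf.ND _ W ∧ (CL.Elf.Pl (CL.Cls.qfPlus d F) W ↔ False))).trans ?_
  have key : ∀ W : Submodule F (Fin d ⊕ Fin d → F), Module.finrank F W = m → CL.Elf.ND _ W →
      CL.Elf.Pl (CL.Cls.qfPlus d F) (CL.Elf.prp (QuadraticMap.polarBilin (CL.Cls.qfPlus d F)) W) →
      CL.Elf.Pl (CL.Cls.qfPlus d F) W := fun W w1 w2 h =>
    (CL.Elf.pl_compl hQ hε w2 (w1 ▸ hme) h.even).2 (iff_of_true trivial h)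
  by_cases hr2 : r = 2
  · subst hr2
    by_cases hp : p = 2
    · subst hp
      rw [CL.Elf.allEl_char_two hQ.1 CharTwo.two_eq_zero (CL.Elf.og_isom CL.Elf.Om_le)]
      refine iff_of_false (fun h => ?_) (by simp)
      obtain ⟨g, g1, g2, g3, -, g4⟩ := CL.Elf.exists_alt_der hQ (by omega) (k := d / 2) (by omega) (by omega)
        fun _ => hε.2 trivial
      obtain ⟨W, ⟨w1, w2, w4⟩, w3⟩ := h g g1 g2 g3
      obtain ⟨j, τ, j', τ', -, -, e3, e4, e5⟩ := g4 W w2 w3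
      by_cases e : τ = 0
      exacts [w4.1 (e4 e), w4.1 (key W w1 w2 (e5 (by omega)))]
    · have h2 := (CL.Elf.two_ne_zero_iff_char (F := F) p).2 hp
      obtain ⟨h3, h4, h5⟩ := CL.Elf.sq_facts hq h2
      obtain ⟨k, rfl⟩ : ∃ k, m = 2 * k := ⟨m / 2, by obtain ⟨j, rfl⟩ := hme; omega⟩
      rw [CL.Elf.allEl_two hQ.1 h2 (CL.Elf.og_isom CL.Elf.Om_le),
        and_iff_right (CL.Elf.inv_fix_pl hQ h2 (by omega) hme (by omega) False), CL.Elf.sq_neg_iff hQ h2 hn hε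
        fun g g1 g2 => CL.Elf.sq_neg_fix_pl hQ h2 g1 g2 (by omega) False, CL.Elf.isSquare_neg_one_pow,
        CL.Elf.isSquare_neg_one_pow, CL.Elf.isSquare_pow_iff (a := 2) h2]
      simp only [h4, h5, Nat.even_iff, Nat.odd_iff, false_iff, true_iff, hp, lt_irrefl, false_and, and_false, or_false,
        true_and, ne_eq, not_false_eq_true]
      omega
  rw [CL.Elf.allEl_Om_odd hQ (by omega) ((Fact.out : r.Prime).odd_of_ne_two hr2) fun _ => CL.Elf.fx_neg]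
  by_cases hrp : r = p
  · subst hrp
    refine iff_of_false (fun H => ?_) (by simp [hr2])
    obtain ⟨g, g1, g2, g3, g4⟩ := CL.Elf.exists_small r hQ ((CL.Elf.two_ne_zero_iff_char (F := F) r).2 hr2)
      (a := 1 + d % 2) (b := 2 * ((d - 1) / 2)) (c := 1 - d % 2) (even_two_mul _) (by omega) (by omega) (by omega)
    obtain ⟨W, ⟨w1, w2, w4⟩, w3⟩ := H g g1 g2 g3
    obtain ⟨a', a1, b', c', c1, e, e1, e2⟩ := g4 W w2 w3
    obtain ⟨j, hj⟩ := hme
    have : (a' = 0 ∧ c' = 0) ∨ (a' = 1 + d % 2 ∧ c' = 1 - d % 2) := by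
      rcases Nat.mod_two_eq_zero_or_one d with h | h <;> rw [h] at a1 c1 ⊢ <;> omega
    exact w4.1 (this.elim (fun h => e1 h.1 h.2) fun h => key W w1 w2 (e2 h.1 h.2))
  · obtain ⟨hrF, hi', hi0, ht⟩ := CL.Elf.ord_facts p hq hrp hi
    refine ((CL.Elf.og_pl hQ hr2 hrF hi' hn hε hme False).trans (CL.Elf.ar5988 hi0 hc ht hm hme hmd
      (CL.Elf.og_pl_sylow hQ hr2 hrF hi' hn hε hme False hrΩ))).trans ?_
    simp only [hr2, hrp, CL.Elf.two_lt_of_ne hr2, false_and, false_or, ne_eq, not_false_eq_true, true_and]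

end Cfsg.Agent.S5988
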