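import Cfsg.Statements.S5990
import Cfsg.Agent.Cls.ElfTwo

set_option autoImplicit false
open scoped MatrixGroups
open Cfsg

namespace Cfsg.Agent.S5990

/-- Elements of prime order of PΩ⁻_n(q) with no fixed elliptic `m`-space. Here `T = PΩ⁻_n(F)`, `n = 2d ≥ 8`, realised through `Ω⁻_n(q)`, the commutator subgroup of the isometry group of `Q = Σ_{i<d−1} xᵢyᵢ + z₁² + a z₁z₂ + b z₂²` with `z₁² + a z₁z₂ + b z₂²` anisotropic, over the field `F` with `q` elements; an element of `T` of prime order `r` is an element `x` of `Ω⁻_n(q)` with `x^r` scalar and `x` not scalar; a nondegenerate `m`-space (even `m`) is a subspace on which the polar form of `Q` is nondegenerate; it is hyperbolic if it contains an `m/2`-dimensional subspace on which `Q` vanishes, elliptic otherwise. Let `m` be even with `2 ≤ m ≤ n − 2` (no restriction `m < n/2`: fixing an elliptic `m`-space is the same as fixing its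 hyperbolic orthogonal complement) and let `r` be a prime dividing the number of elliptic `m`-spaces, with `r = 2` or `r ≠ p`; for `r ≠ p` let `i` be the multiplicative order of `q` modulo `r`, `c = i` for `i` even and `c = 2i` for `i` odd, and write `k = n mod c`, `ℓ = m mod i`, `ℓ' = m mod c`, `n' = ⌊n/i⌋`, `m' = ⌊m/i⌋`, `t = (r−1)/i`. Then every element of `T` of order `r` fixes some elliptic `m`-space if and only if one of: (i) `r = p = 2` and (`n ≡ 0 (mod 4)` or `m ≡ 2 (mod 4)`); (ii) `r = 2 ≠ p` and (`n ≡ 0 (mod 4)`, or `q ≢ 7 (mod 8)`, or `m ≡ 2 (mod 4)`); (iii) `r ≠ p` odd, `i` odd, and `k = 0` or (`c ≤ m` and `k ≥ ℓ' > 0`); (iv) `r ≠ p` odd, `i` even, and either `k = 0` and (`n/i` even, or `ℓ' = 0` and `m/i` odd), or `k > 0`, `i ≤ m` and (`k > ℓ' > 0`, or `ℓ' = 0` and `m/i` odd, or `k = ℓ'` and `(n + m − 2k)/i` even). (Odd `r = p` is not covered by this statement.) -/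
theorem result {F : Type*} [Field F] [Fintype F] {p : ℕ} [Fact p.Prime] [CharP F p] {q : ℕ} (hq : Fintype.card F = q)
    (d m : ℕ) (hd : 4 ≤ d) (hm : 2 ≤ m) (hme : Even m) (hmn : m + 2 ≤ 2 * d) (a b : F) (hab : ∀ x y : F, x ^ 2 + a * x * y + b * y ^ 2 = 0 → x = 0 ∧ y = 0)
    (r : ℕ) [Fact r.Prime] (hr : r = 2 ∨ r ≠ p)
    (hrΩ : r ∣ Nat.card {W : Submodule F ((Fin (d - 1) ⊕ Fin (d - 1)) ⊕ Fin 2 → F) // Module.finrank F ↥W = m ∧ Cfsg.Geo.IsNondegenerateOn (QuadraticMap.polar (Cfsg.quadFormMinus (d - 1) F a b)) W ∧ ¬ Cfsg.Geo.IsPlusTypeOn (Cfsg.quadFormMinus (d - 1) F a b) W})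
    (i c : ℕ) (hi : i = orderOf (q : ZMod r)) (hc : c = if Even i then i else 2 * i) :
    (∀ x : GL ((Fin (d - 1) ⊕ Fin (d - 1)) ⊕ Fin 2) F, x ∈ Cfsg.Geo.omegaGL (Cfsg.quadFormMinus (d - 1) F a b) →
      (∃ z : F, ((x ^ r : GL ((Fin (d - 1) ⊕ Fin (d - 1)) ⊕ Fin 2) F) : Matrix ((Fin (d - 1) ⊕ Fin (d - 1)) ⊕ Fin 2) ((Fin (d - 1) ⊕ Fin (d - 1)) ⊕ Fin 2) F) = z • (1 : Matrix ((Fin (d - 1) ⊕ Fin (d - 1)) ⊕ Fin 2) ((Fin (d - 1) ⊕ Fin (d - 1)) ⊕ Fin 2) F)) →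
      (∀ z : F, (x : Matrix ((Fin (d - 1) ⊕ Fin (d - 1)) ⊕ Fin 2) ((Fin (d - 1) ⊕ Fin (d - 1)) ⊕ Fin 2) F) ≠ z • (1 : Matrix ((Fin (d - 1) ⊕ Fin (d - 1)) ⊕ Fin 2) ((Fin (d - 1) ⊕ Fin (d - 1)) ⊕ Fin 2) F)) →
      ∃ W : Submodule F ((Fin (d - 1) ⊕ Fin (d - 1)) ⊕ Fin 2 → F), (Module.finrank F ↥W = m ∧ Cfsg.Geo.IsNondegenerateOn (QuadraticMap.polar (Cfsg.quadFormMinus (d - 1) F a b)) W ∧ ¬ Cfsg.Geo.IsPlusTypeOn (Cfsg.quadFormMinus (d - 1) F a b) W) ∧ W.map (Matrix.toLin' (x : Matrix ((Fin (d - 1) ⊕ Fin (d - 1)) ⊕ Fin 2) ((Fin (d - 1) ⊕ Fin (d - 1)) ⊕ Fin 2) F)) ≤ W) ↔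
    ((r = 2 ∧ p = 2 ∧ (Even d ∨ m % 4 = 2)) ∨
     (r = 2 ∧ p ≠ 2 ∧ (Even d ∨ q % 8 ≠ 7 ∨ m % 4 = 2)) ∨
     (r ≠ p ∧ 2 < r ∧ Odd i ∧ ((2 * d) % c = 0 ∨ (c ≤ m ∧ 0 < m % c ∧ m % c ≤ (2 * d) % c))) ∨
     (r ≠ p ∧ 2 < r ∧ Even i ∧
       (((2 * d) % c = 0 ∧ (Even ((2 * d) / i) ∨ (m % c = 0 ∧ Odd (m / i)))) ∨
        (0 < (2 * d) % c ∧ i ≤ m ∧ ((0 < m % c ∧ m % c < (2 * d) % c) ∨ (m % c = 0 ∧ Odd (m / i)) ∨
                                    (m % c = (2 * d) % c ∧ Even ((2 * d + m - 2 * ((2 * d) % c)) / i))))))) := by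
  have hQ := CL.Cls.nondeg_qfMinus (m := d - 1) a b hab
  have hn : Module.finrank F ((Fin (d - 1) ⊕ Fin (d - 1)) ⊕ Fin 2 → F) = 2 * d := by simp; omega
  have : Nontrivial ((Fin (d - 1) ⊕ Fin (d - 1)) ⊕ Fin 2 → F) := Module.nontrivial_of_finrank_pos (R := F) (by omega)
  have hε : CL.Elf.Pl (CL.Cls.qfMinus (d - 1) F a b) ⊤ ↔ False := iff_false_intro fun h =>
    CL.Known.not_isPlus_qfMinus (d - 1) hab ((CL.Elf.pl_top_iff (hn.trans (by omega))).1 h)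
  simp only [← CL.Cls.coe_qfMinus, CL.Elu.map_le_iff_forall, CL.Elf.nd_iff_geo,
    ← iff_false (Cfsg.Geo.IsPlusTypeOn _ _)] at hrΩ ⊢
  refine (CL.Elf.omega_iff_allEl _ r (CL.Elf.Fx fun W : Submodule F ((Fin (d - 1) ⊕ Fin (d - 1)) ⊕ Fin 2 → F) =>
    Module.finrank F W = m ∧ CL.Elf.ND _ W ∧ (CL.Elf.Pl (CL.Cls.qfMinus (d - 1) F a b) W ↔ False))).trans ?_
  by_cases hr2 : r = 2
  · subst hr2
    by_cases hp : p = 2
    · subst hp
      simp only [lt_irrefl, false_and, and_false, or_false, true_and, ne_eq, not_true, Nat.even_iff]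
      rw [CL.Elf.allEl_char_two hQ.1 CharTwo.two_eq_zero (CL.Elf.og_isom CL.Elf.Om_le)]
      refine ⟨fun h => ?_, fun h g g1 g2 _ => CL.Elf.two_fix_pl hQ (CL.Elf.Om_le g1)
        (CL.Known.mul_self_eq_one_iff_app.1 ((pow_two g).symm.trans g2)) hε (by omega) hme (by omega) False
        fun k τ e e' => ⟨min k ((m - 2) / 4), by omega, m / 2 - 2 * min k ((m - 2) / 4), ?_, ?_, fun _ => ?_,
          fun _ => Iff.rfl⟩⟩
      · by_contra h5
        obtain ⟨g, g1, g2, g3, -, g4⟩ := CL.Elf.exists_alt_der hQ (by omega) (k := d / 2) (by omega) (by omega)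
          fun _ => by omega
        obtain ⟨W, ⟨w1, w2, w4⟩, w3⟩ := h g g1 g2 g3
        obtain ⟨j, τ, j', τ', e1, e2, e3, e4, -⟩ := g4 W w2 w3
        obtain ⟨j, rfl⟩ := hme
        exact w4.1 (e4 (by omega))
      all_goals
        obtain ⟨j, rfl⟩ := hme
        have : τ ≠ 0 := e'
        omega
    · have h2 := (CL.Elf.two_ne_zero_iff_char (F := F) p).2 hp
      obtain ⟨h3, h4, h5⟩ := CL.Elf.sq_facts hq h2
      obtain ⟨k, rfl⟩ : ∃ k, m = 2 * k := ⟨m / 2, by obtain ⟨j, rfl⟩ := hme; omega⟩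
      rw [CL.Elf.allEl_two hQ.1 h2 (CL.Elf.og_isom CL.Elf.Om_le),
        and_iff_right (CL.Elf.inv_fix_pl hQ h2 (by omega) hme (by omega) False), CL.Elf.sq_neg_iff hQ h2 hn hε
        fun g g1 g2 => CL.Elf.sq_neg_fix_pl hQ h2 g1 g2 (by omega) False, CL.Elf.isSquare_neg_one_pow,
        CL.Elf.isSquare_neg_one_pow, CL.Elf.isSquare_pow_iff (a := 2) h2]
      simp only [h4, h5, Nat.even_iff, false_iff, hp, lt_irrefl, false_and, and_false, or_false, false_or, true_and,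
        ne_eq, not_false_eq_true]
      omega
  · have hrp := hr.resolve_left hr2
    obtain ⟨hrF, hi', hi0, ht⟩ := CL.Elf.ord_facts p hq hrp hi
    rw [CL.Elf.allEl_Om_odd hQ (by omega) ((Fact.out : r.Prime).odd_of_ne_two hr2) fun _ => CL.Elf.fx_neg]
    refine ((CL.Elf.og_pl hQ hr2 hrF hi' hn hε hme False).trans (CL.Elf.ar5990 hi0 hc ht hm hme hmn
      (CL.Elf.og_pl_sylow hQ hr2 hrF hi' hn hε hme False hrΩ))).trans ?_
    simp only [hr2, hrp, CL.Elf.two_lt_of_ne hr2, false_and, false_or, ne_eq, not_false_eq_true, true_and]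

end Cfsg.Agent.S5990
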