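import Cfsg.Statements.S5991
import Cfsg.Agent.Cls.ElfUni

set_option autoImplicit false
open scoped MatrixGroups
open Cfsg

namespace Cfsg.Agent.S5991

/-- Elements of prime order of PΩ⁻_n(q), q odd, with no fixed nondegenerate `m`-space of odd dimension. Here `T = PΩ⁻_n(F)`, `n = 2d ≥ 8`, realised through `Ω⁻_n(q)`, the commutator subgroup of the isometry group of `Q = Σ_{i<d−1} xᵢyᵢ + z₁² + a z₁z₂ + b z₂²` with `z₁² + a z₁z₂ + b z₂²` anisotropic, over the field `F` with `q` elements; an element of `T` of prime order `r` is an element `x` of `Ω⁻_n(q)` with `x^r` scalar and `x` not scalar; `q` and `m` are odd, `1 ≤ m < n/2`. The nondegenerate `m`-spaces fall into two isometry classes, each an orbit of `T`, with equivalent actions; fix one such space `W₀` and let Ω be the set of nondegenerate `m`-spaces isometric to `W₀`. Let `r` be a prime dividing the size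 of Ω; for `r ≠ p` let `i` be the multiplicative order of `q` modulo `r`, `c = i` for `i` even and `c = 2i` for `i` odd, and write `k = n mod c`, `ℓ = m mod i`, `ℓ' = m mod c`, `n' = ⌊n/i⌋`, `m' = ⌊m/i⌋`, `t = (r−1)/i`. Then every element of `T` of order `r` fixes a member of Ω if and only if one of: (i) `r = 2` and (`n ≡ 0 (mod 4)` or `q ≢ 7 (mod 8)`); (ii) `r ≠ p` odd, `i` odd, and `k = 0` or (`c ≤ m` and `k > ℓ' > 0`); (iii) `r ≠ p` odd, `i` even, and either `k = 0` and `n/i` even, or `k > 0`, `i ≤ m` and `k > ℓ' > 0`. (For `r = p` there is always an element of order `p` fixing no member of Ω.) -/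
theorem result {F : Type*} [Field F] [Fintype F] {p : ℕ} [Fact p.Prime] [CharP F p] {q : ℕ} (hq : Fintype.card F = q)
    (hodd : Odd q) (d m : ℕ) (hd : 4 ≤ d) (hm : Odd m) (hmd : m < d) (a b : F) (hab : ∀ x y : F, x ^ 2 + a * x * y + b * y ^ 2 = 0 → x = 0 ∧ y = 0)
    (W₀ : Submodule F ((Fin (d - 1) ⊕ Fin (d - 1)) ⊕ Fin 2 → F)) (hW₀ : Module.finrank F ↥W₀ = m ∧ Cfsg.Geo.IsNondegenerateOn (QuadraticMap.polar (Cfsg.quadFormMinus (d - 1) F a b)) W₀)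
    (r : ℕ) [Fact r.Prime]
    (hrΩ : r ∣ Nat.card {W : Submodule F ((Fin (d - 1) ⊕ Fin (d - 1)) ⊕ Fin 2 → F) // Module.finrank F ↥W = m ∧ Cfsg.Geo.IsNondegenerateOn (QuadraticMap.polar (Cfsg.quadFormMinus (d - 1) F a b)) W ∧ Cfsg.Geo.AreIsometricFor (Cfsg.quadFormMinus (d - 1) F a b) W W₀})
    (i c : ℕ) (hi : i = orderOf (q : ZMod r)) (hc : c = if Even i then i else 2 * i) :
    (∀ x : GL ((Fin (d - 1) ⊕ Fin (d - 1)) ⊕ Fin 2) F, x ∈ Cfsg.Geo.omegaGL (Cfsg.quadFormMinus (d - 1) F a b) →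
      (∃ z : F, ((x ^ r : GL ((Fin (d - 1) ⊕ Fin (d - 1)) ⊕ Fin 2) F) : Matrix ((Fin (d - 1) ⊕ Fin (d - 1)) ⊕ Fin 2) ((Fin (d - 1) ⊕ Fin (d - 1)) ⊕ Fin 2) F) = z • (1 : Matrix ((Fin (d - 1) ⊕ Fin (d - 1)) ⊕ Fin 2) ((Fin (d - 1) ⊕ Fin (d - 1)) ⊕ Fin 2) F)) →
      (∀ z : F, (x : Matrix ((Fin (d - 1) ⊕ Fin (d - 1)) ⊕ Fin 2) ((Fin (d - 1) ⊕ Fin (d - 1)) ⊕ Fin 2) F) ≠ z • (1 : Matrix ((Fin (d - 1) ⊕ Fin (d - 1)) ⊕ Fin 2) ((Fin (d - 1) ⊕ Fin (d - 1)) ⊕ Fin 2) F)) →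
      ∃ W : Submodule F ((Fin (d - 1) ⊕ Fin (d - 1)) ⊕ Fin 2 → F), (Module.finrank F ↥W = m ∧ Cfsg.Geo.IsNondegenerateOn (QuadraticMap.polar (Cfsg.quadFormMinus (d - 1) F a b)) W ∧ Cfsg.Geo.AreIsometricFor (Cfsg.quadFormMinus (d - 1) F a b) W W₀) ∧ W.map (Matrix.toLin' (x : Matrix ((Fin (d - 1) ⊕ Fin (d - 1)) ⊕ Fin 2) ((Fin (d - 1) ⊕ Fin (d - 1)) ⊕ Fin 2) F)) ≤ W) ↔
    ((r = 2 ∧ (Even d ∨ q % 8 ≠ 7)) ∨
     (r ≠ p ∧ 2 < r ∧ Odd i ∧ ((2 * d) % c = 0 ∨ (c ≤ m ∧ 0 < m % c ∧ m % c < (2 * d) % c))) ∨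
     (r ≠ p ∧ 2 < r ∧ Even i ∧ (((2 * d) % c = 0 ∧ Even ((2 * d) / i)) ∨ (0 < (2 * d) % c ∧ i ≤ m ∧ 0 < m % c ∧ m % c < (2 * d) % c)))) := by
  have h2 : (2 : F) ≠ 0 := CL.Cls.two_ne_zero_of_odd_card (hq ▸ hodd)
  have hQ := CL.Cls.nondeg_qfMinus (m := d - 1) a b hab
  have hn : Module.finrank F ((Fin (d - 1) ⊕ Fin (d - 1)) ⊕ Fin 2 → F) = 2 * d := by simp; omega
  have : Nontrivial ((Fin (d - 1) ⊕ Fin (d - 1)) ⊕ Fin 2 → F) := Module.nontrivial_of_finrank_pos (R := F) (by omega)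
  have hε : CL.Elf.Pl (CL.Cls.qfMinus (d - 1) F a b) ⊤ ↔ False := iff_false_intro fun h =>
    CL.Known.not_isPlus_qfMinus (d - 1) hab ((CL.Elf.pl_top_iff (hn.trans (by omega))).1 h)
  simp only [← CL.Cls.coe_qfMinus, CL.Elu.map_le_iff_forall, CL.Elf.nd_iff_geo] at hrΩ hW₀ ⊢
  have e : ∀ W : Submodule F ((Fin (d - 1) ⊕ Fin (d - 1)) ⊕ Fin 2 → F), (Module.finrank F ↥W = m ∧
      CL.Elf.ND (QuadraticMap.polarBilin (CL.Cls.qfMinus (d - 1) F a b)) W ∧ Cfsg.Geo.AreIsometricFor (CL.Cls.qfMinus (d - 1) F a b) W W₀) ↔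
      (Module.finrank F W = m ∧ CL.Elf.ND (QuadraticMap.polarBilin (CL.Cls.qfMinus (d - 1) F a b)) W ∧
        (CL.Elf.Dq (QuadraticMap.polarBilin (CL.Cls.qfMinus (d - 1) F a b)) W ↔
          CL.Elf.Dq (QuadraticMap.polarBilin (CL.Cls.qfMinus (d - 1) F a b)) W₀)) := fun W =>
    and_congr_right fun h => and_congr_right fun h' =>
      ⟨CL.Elf.Iso.dq, CL.Elf.iso_of_dq h2 h' hW₀.2 (h.trans hW₀.1.symm)⟩
  simp only [e] at hrΩ ⊢
  generalize CL.Elf.Dq (QuadraticMap.polarBilin (CL.Cls.qfMinus (d - 1) F a b)) W₀ = η at hrΩ ⊢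
  refine (CL.Elf.omega_iff_allEl _ r (CL.Elf.Fx fun W : Submodule F ((Fin (d - 1) ⊕ Fin (d - 1)) ⊕ Fin 2 → F) =>
    Module.finrank F W = m ∧ CL.Elf.ND _ W ∧ (CL.Elf.Dq _ W ↔ η))).trans ?_
  have hm' := Nat.odd_iff.1 hm
  by_cases hr2 : r = 2
  · subst hr2
    obtain ⟨h3, h4, h5⟩ := CL.Elf.sq_facts hq h2
    rw [CL.Elf.allEl_two hQ.1 h2 (CL.Elf.og_isom CL.Elf.Om_le),
      and_iff_right (CL.Elf.inv_fix_dq hQ h2 (by omega) (by omega) η), CL.Elf.sq_neg_iff hQ h2 hn hε (R := False)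
      fun g g1 g2 => iff_false_intro fun ⟨W, ⟨w1, w2, _⟩, w3⟩ =>
        Nat.not_even_iff_odd.2 hm (CL.Elf.sq_neg_nd hQ h2 g1 g2 m W w2 w3 w1).1,
      CL.Elf.isSquare_neg_one_pow, CL.Elf.isSquare_pow_iff (a := 2) h2]
    simp only [h4, h5, Nat.even_iff, Nat.odd_iff, false_iff, lt_irrefl, false_and, and_false, or_false, true_and,
      imp_false]
    omega
  rw [CL.Elf.allEl_Om_odd hQ (by omega) ((Fact.out : r.Prime).odd_of_ne_two hr2) fun _ => CL.Elf.fx_neg]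
  by_cases hrp : r = p
  · subst hrp
    exact iff_of_false (CL.Elf.not_allOrd_dq r hQ h2 hn (by omega) hm η) (by simp [hr2])
  · obtain ⟨hrF, hi', hi0, ht⟩ := CL.Elf.ord_facts p hq hrp hi
    refine ((CL.Elf.og_dq hQ hr2 hrF hi' hn hε h2 (even_two_mul d) hm η).trans (CL.Elf.ar5991 hi0 hc ht hm hmd
      (CL.Elf.og_dq_sylow hQ hr2 hrF hi' hn hε h2 (even_two_mul d) hm η hrΩ))).trans ?_
    simp only [hr2, hrp, CL.Elf.two_lt_of_ne hr2, false_and, false_or, ne_eq, not_false_eq_true, true_and]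

end Cfsg.Agent.S5991
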