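import Cfsg.Statements.S5992
import Cfsg.Agent.Cls.ElfInv2

set_option autoImplicit false
open scoped MatrixGroups
open Cfsg

namespace Cfsg.Agent.S5992

/-- Elements of prime order r ≠ p of Ω_n(q), nq odd, with no fixed hyperbolic `m`-space. Here `T = Ω_n(F)`, `n = 2d+1 ≥ 7`, `q` odd, realised as the commutator subgroup of the isometry group of `Q = x₀² + Σ xᵢyᵢ` over the field `F` with `q` elements (trivial centre, so its elements of prime order `r` are used directly); a nondegenerate `m`-space (even `m`) is a subspace on which the polar form of `Q` is nondegenerate; it is hyperbolic if it contains an `m/2`-dimensional subspace on which `Q` vanishes, elliptic otherwise. Let `m` be even with `2 ≤ m ≤ n − 1` (no restriction `m < n/2`) and let `r ≠ p` be a prime dividing the number of hyperbolic `m`-spaces; for `r ≠ p` let `i` be the multiplicative order of `q` modulo `r`, `c = i` for `i` even and `c = 2i` for `i` odd,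 and write `k = n mod c`, `ℓ' = m mod c`. Then every element of `T` of order `r` fixes some hyperbolic `m`-space if and only if `r = 2`, or `r` is odd and one of: (i) `i` odd, `c ≤ m` and either `k > ℓ' > 0` or `ℓ' = 0`; (ii) `i` even, `i ≤ m`, `k > ℓ'`, and `m/i` even whenever `ℓ' = 0`. (`r = p` is not covered by this statement.) -/
theorem result {F : Type*} [Field F] [Fintype F] {p : ℕ} [Fact p.Prime] [CharP F p] {q : ℕ} (hq : Fintype.card F = q) (hqodd : Odd q)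
    (d m : ℕ) (hd : 3 ≤ d) (hm : 2 ≤ m) (hme : Even m) (hmn : m ≤ 2 * d)
    (r : ℕ) [Fact r.Prime] (hrp : r ≠ p)
    (hrΩ : r ∣ Nat.card {W : Submodule F (Unit ⊕ (Fin d ⊕ Fin d) → F) // Module.finrank F ↥W = m ∧ Cfsg.Geo.IsNondegenerateOn (QuadraticMap.polar (Cfsg.quadFormOdd d F)) W ∧ Cfsg.Geo.IsPlusTypeOn (Cfsg.quadFormOdd d F) W})
    (i c : ℕ) (hi : i = orderOf (q : ZMod r)) (hc : c = if Even i then i else 2 * i) :
    (∀ x : GL (Unit ⊕ (Fin d ⊕ Fin d)) F, x ∈ Cfsg.Geo.omegaGL (Cfsg.quadFormOdd d F) → orderOf x = r →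
      ∃ W : Submodule F (Unit ⊕ (Fin d ⊕ Fin d) → F), (Module.finrank F ↥W = m ∧ Cfsg.Geo.IsNondegenerateOn (QuadraticMap.polar (Cfsg.quadFormOdd d F)) W ∧ Cfsg.Geo.IsPlusTypeOn (Cfsg.quadFormOdd d F) W) ∧ W.map (Matrix.toLin' (x : Matrix (Unit ⊕ (Fin d ⊕ Fin d)) (Unit ⊕ (Fin d ⊕ Fin d)) F)) ≤ W) ↔
    (r = 2 ∨
     (2 < r ∧ Odd i ∧ c ≤ m ∧ (m % c = 0 ∨ (0 < m % c ∧ m % c < (2 * d + 1) % c))) ∨
     (2 < r ∧ Even i ∧ i ≤ m ∧ m % c < (2 * d + 1) % c ∧ (0 < m % c ∨ Even (m / i)))) := by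
  have h2 : (2 : F) ≠ 0 := CL.Cls.two_ne_zero_of_odd_card (hq ▸ hqodd)
  have hQ := CL.Cls.nondeg_qfOdd (m := d) h2
  have hn : Module.finrank F (Unit ⊕ (Fin d ⊕ Fin d) → F) = 2 * d + 1 := by simp; omega
  have hε : CL.Elf.Pl (CL.Cls.qfOdd d F) ⊤ ↔ False := iff_false_intro fun h => by
    simpa [hn] using h.even
  simp only [← CL.Cls.coe_qfOdd, CL.Elu.map_le_iff_forall, CL.Elf.nd_iff_geo] at hrΩ ⊢
  obtain ⟨hrF, hi', hi0, ht⟩ := CL.Elf.ord_facts p hq hrp hi
  refine (CL.Elf.omega_iff_allOrd _ r (CL.Elf.Fx fun W : Submodule F (Unit ⊕ (Fin d ⊕ Fin d) → F) =>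
    Module.finrank F W = m ∧ CL.Elf.ND _ W ∧ CL.Elf.Pl (CL.Cls.qfOdd d F) W)).trans ?_
  rw [CL.Elf.fx_congr (P' := fun W => Module.finrank F W = m ∧ CL.Elf.ND (QuadraticMap.polarBilin (CL.Cls.qfOdd d F)) W ∧
    (CL.Elf.Pl (CL.Cls.qfOdd d F) W ↔ True)) fun W => by rw [iff_true]]
  by_cases hr2 : r = 2
  · subst hr2
    exact iff_of_true (fun g g1 g2 g3 => CL.Elf.inv_fix_pl hQ h2 (by omega) hme (by omega) True g g1 g2 g3 fun e =>
      CL.Cls.negOG_not_mem_commutator_of_odd hQ h2 (hn ▸ odd_two_mul_add_one d) (CL.Elf.mem_Om.1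
        (show LinearEquiv.neg F ∈ _ from e ▸ g1)))
      (Or.inl rfl)
  · rw [CL.Elf.allOrd_Om_odd hQ (by omega) ((Fact.out : r.Prime).odd_of_ne_two hr2)]
    refine ((CL.Elf.og_pl hQ hr2 hrF hi' hn hε hme True).trans (CL.Elf.ar5992 hi0 hc ht hm hme hmn
      (CL.Elf.og_pl_sylow hQ hr2 hrF hi' hn hε hme True (by simp only [iff_true]; exact hrΩ)))).trans ?_
    simp only [hr2, CL.Elf.two_lt_of_ne hr2, false_or, true_and]

end Cfsg.Agent.S5992
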