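import Cfsg.Statements.S5993
import Cfsg.Agent.Cls.ElfUni

set_option autoImplicit false
open scoped MatrixGroups
open Cfsg

namespace Cfsg.Agent.S5993

/-- Elements of prime order of Ω_n(q), nq odd, with no fixed elliptic `m`-space. Here `T = Ω_n(F)`, `n = 2d+1 ≥ 7`, `q` odd, realised as the commutator subgroup of the isometry group of `Q = x₀² + Σ xᵢyᵢ` over the field `F` with `q` elements (trivial centre, so its elements of prime order `r` are used directly); a nondegenerate `m`-space (even `m`) is a subspace on which the polar form of `Q` is nondegenerate; it is hyperbolic if it contains an `m/2`-dimensional subspace on which `Q` vanishes, elliptic otherwise. Let `m` be even with `2 ≤ m ≤ n − 1` (no restriction `m < n/2`) and let `r` be a prime dividing the number of elliptic `m`-spaces; for `r ≠ p` let `i` be the multiplicative order of `q` modulo `r`, `c = i` for `i` even and `c = 2i` for `i` odd, and write `k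 = n mod c`, `ℓ' = m mod c`. Then every element of `T` of order `r` fixes some elliptic `m`-space if and only if `r = 2`, or `r ≠ p` is odd and one of: (i) `i` odd, `c ≤ m` and `k > ℓ' > 0`; (ii) `i` even, `i ≤ m`, `k > ℓ'`, and `m/i` odd whenever `ℓ' = 0`. (For `r = p` there is always an element of order `p` fixing no elliptic `m`-space.) -/
theorem result {F : Type*} [Field F] [Fintype F] {p : ℕ} [Fact p.Prime] [CharP F p] {q : ℕ} (hq : Fintype.card F = q) (hqodd : Odd q)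
    (d m : ℕ) (hd : 3 ≤ d) (hm : 2 ≤ m) (hme : Even m) (hmn : m ≤ 2 * d)
    (r : ℕ) [Fact r.Prime]
    (hrΩ : r ∣ Nat.card {W : Submodule F (Unit ⊕ (Fin d ⊕ Fin d) → F) // Module.finrank F ↥W = m ∧ Cfsg.Geo.IsNondegenerateOn (QuadraticMap.polar (Cfsg.quadFormOdd d F)) W ∧ ¬ Cfsg.Geo.IsPlusTypeOn (Cfsg.quadFormOdd d F) W})
    (i c : ℕ) (hi : i = orderOf (q : ZMod r)) (hc : c = if Even i then i else 2 * i) :
    (∀ x : GL (Unit ⊕ (Fin d ⊕ Fin d)) F, x ∈ Cfsg.Geo.omegaGL (Cfsg.quadFormOdd d F) → orderOf x = r →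
      ∃ W : Submodule F (Unit ⊕ (Fin d ⊕ Fin d) → F), (Module.finrank F ↥W = m ∧ Cfsg.Geo.IsNondegenerateOn (QuadraticMap.polar (Cfsg.quadFormOdd d F)) W ∧ ¬ Cfsg.Geo.IsPlusTypeOn (Cfsg.quadFormOdd d F) W) ∧ W.map (Matrix.toLin' (x : Matrix (Unit ⊕ (Fin d ⊕ Fin d)) (Unit ⊕ (Fin d ⊕ Fin d)) F)) ≤ W) ↔
    (r = 2 ∨
     (r ≠ p ∧ 2 < r ∧ Odd i ∧ c ≤ m ∧ 0 < m % c ∧ m % c < (2 * d + 1) % c) ∨
     (r ≠ p ∧ 2 < r ∧ Even i ∧ i ≤ m ∧ m % c < (2 * d + 1) % c ∧ (0 < m % c ∨ Odd (m / i)))) := by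
  have h2 : (2 : F) ≠ 0 := CL.Cls.two_ne_zero_of_odd_card (hq ▸ hqodd)
  have hQ := CL.Cls.nondeg_qfOdd (m := d) h2
  have hn : Module.finrank F (Unit ⊕ (Fin d ⊕ Fin d) → F) = 2 * d + 1 := by simp; omega
  have hε : CL.Elf.Pl (CL.Cls.qfOdd d F) ⊤ ↔ False := iff_false_intro fun h => by
    simpa [hn] using h.even
  simp only [← CL.Cls.coe_qfOdd, CL.Elu.map_le_iff_forall, CL.Elf.nd_iff_geo,
    ← iff_false (Cfsg.Geo.IsPlusTypeOn _ _)] at hrΩ ⊢
  refine (CL.Elf.omega_iff_allOrd _ r (CL.Elf.Fx fun W : Submodule F (Unit ⊕ (Fin d ⊕ Fin d) → F) =>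
    Module.finrank F W = m ∧ CL.Elf.ND _ W ∧ (CL.Elf.Pl (CL.Cls.qfOdd d F) W ↔ False))).trans ?_
  by_cases hr2 : r = 2
  · subst hr2
    exact iff_of_true (fun g g1 g2 g3 => CL.Elf.inv_fix_pl hQ h2 (by omega) hme (by omega) False g g1 g2 g3 fun e =>
      CL.Cls.negOG_not_mem_commutator_of_odd hQ h2 (hn ▸ odd_two_mul_add_one d) (CL.Elf.mem_Om.1
        (show LinearEquiv.neg F ∈ _ from e ▸ g1)))
      (Or.inl rfl)
  rw [CL.Elf.allOrd_Om_odd hQ (by omega) ((Fact.out : r.Prime).odd_of_ne_two hr2)]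
  by_cases hrp : r = p
  · subst hrp
    refine iff_of_false (fun H => ?_) (by simp [hr2])
    obtain ⟨g, g1, g2, g3, g4⟩ := CL.Elf.exists_small r hQ h2 (a := 1 - d % 2) (b := 2 * (d / 2)) (c := d % 2)
      (even_two_mul _) (by omega) (by omega) (by omega)
    obtain ⟨W, ⟨w1, w2, w4⟩, w3⟩ := H g g1 g2 g3
    obtain ⟨a', a1, b', c', c1, e, e1, -⟩ := g4 W w2 w3
    obtain ⟨j, rfl⟩ := hme
    have : a' + c' ≤ 1 := by omega
    exact w4.1 (e1 (by omega) (by omega))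
  · obtain ⟨hrF, hi', hi0, ht⟩ := CL.Elf.ord_facts p hq hrp hi
    refine ((CL.Elf.og_pl hQ hr2 hrF hi' hn hε hme False).trans (CL.Elf.ar5993 hi0 hc ht hm hme hmn
      (CL.Elf.og_pl_sylow hQ hr2 hrF hi' hn hε hme False hrΩ))).trans ?_
    simp only [hr2, hrp, CL.Elf.two_lt_of_ne hr2, false_or, true_and, ne_eq, not_false_eq_true]

end Cfsg.Agent.S5993
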