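import Cfsg.Statements.S5995
import Cfsg.Agent.Cls.ElfUni

set_option autoImplicit false
open scoped MatrixGroups
open Cfsg

namespace Cfsg.Agent.S5995

/-- A necessary condition for every element of order p of Ω_n(q), nq odd, to fix a hyperbolic `m`-space. Here `T = Ω_n(F)`, `n = 2d+1 ≥ 7`, `q` odd, realised as the commutator subgroup of the isometry group of `Q = x₀² + Σ xᵢyᵢ` over the field `F` with `q` elements (trivial centre, so its elements of prime order `r` are used directly); a nondegenerate `m`-space (even `m`) is a subspace on which the polar form of `Q` is nondegenerate; it is hyperbolic if it contains an `m/2`-dimensional subspace on which `Q` vanishes, elliptic otherwise. Let `m` be even with `2 ≤ m ≤ n − 1` and suppose `p` divides the number of hyperbolic `m`-spaces. If every element of `T` of order `p` fixes some hyperbolic `m`-space, then `m ≡ 0 (mod 4)` and every partition of `n` into parts of size at most `p`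 in which every even part has even multiplicity contains (as a sub-multiset) a partition of `m` in which every even part has even multiplicity. -/
theorem result {F : Type*} [Field F] [Fintype F] {p : ℕ} [Fact p.Prime] [CharP F p] {q : ℕ} (hq : Fintype.card F = q) (hqodd : Odd q)
    (d m : ℕ) (hd : 3 ≤ d) (hm : 2 ≤ m) (hme : Even m) (hmn : m ≤ 2 * d)
    (hpΩ : p ∣ Nat.card {W : Submodule F (Unit ⊕ (Fin d ⊕ Fin d) → F) // Module.finrank F ↥W = m ∧ Cfsg.Geo.IsNondegenerateOn (QuadraticMap.polar (Cfsg.quadFormOdd d F)) W ∧ Cfsg.Geo.IsPlusTypeOn (Cfsg.quadFormOdd d F) W}) :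
    (∀ x : GL (Unit ⊕ (Fin d ⊕ Fin d)) F, x ∈ Cfsg.Geo.omegaGL (Cfsg.quadFormOdd d F) → orderOf x = p →
      ∃ W : Submodule F (Unit ⊕ (Fin d ⊕ Fin d) → F), (Module.finrank F ↥W = m ∧ Cfsg.Geo.IsNondegenerateOn (QuadraticMap.polar (Cfsg.quadFormOdd d F)) W ∧ Cfsg.Geo.IsPlusTypeOn (Cfsg.quadFormOdd d F) W) ∧ W.map (Matrix.toLin' (x : Matrix (Unit ⊕ (Fin d ⊕ Fin d)) (Unit ⊕ (Fin d ⊕ Fin d)) F)) ≤ W) →
    (m % 4 = 0 ∧ (∀ μ : Multiset ℕ, (∀ e ∈ μ, 0 < e ∧ e ≤ p) → (∀ e : ℕ, Even e → Even (μ.count e)) → μ.sum = 2 * d + 1 →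
        ∃ ν : Multiset ℕ, ν ≤ μ ∧ ν.sum = m ∧ ∀ e : ℕ, Even e → Even (ν.count e))) := by
  have h2 : (2 : F) ≠ 0 := CL.Cls.two_ne_zero_of_odd_card (hq ▸ hqodd)
  have hQ := CL.Cls.nondeg_qfOdd (m := d) h2
  have hn : Module.finrank F (Unit ⊕ (Fin d ⊕ Fin d) → F) = 2 * d + 1 := by simp; omega
  simp only [← CL.Cls.coe_qfOdd, CL.Elu.map_le_iff_forall, CL.Elf.nd_iff_geo]
  intro H
  have H' := (CL.Elf.allOrd_Om_odd hQ (by omega) ((Fact.out : p.Prime).odd_of_ne_two
    ((CL.Elf.two_ne_zero_iff_char (F := F) p).1 h2))).1 ((CL.Elf.omega_iff_allOrd _ p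
      (CL.Elf.Fx fun W : Submodule F (Unit ⊕ (Fin d ⊕ Fin d) → F) =>
        Module.finrank F W = m ∧ CL.Elf.ND _ W ∧ CL.Elf.Pl (CL.Cls.qfOdd d F) W)).1 H)
  refine ⟨?_, hn ▸ CL.Elf.exists_le_of_allOrd_og p hQ h2 hme (by omega) H'⟩
  obtain ⟨g, g1, g2, g3, g4⟩ := CL.Elf.exists_small p hQ h2 (a := 1 - d % 2) (b := 2 * (d / 2)) (c := d % 2)
    (even_two_mul _) (by omega) (by omega) (by omega)
  obtain ⟨W, ⟨w1, w2, -⟩, w3⟩ := H' g g1 g2 g3
  obtain ⟨a', a1, b', c', c1, e, -⟩ := g4 W w2 w3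
  obtain ⟨j, rfl⟩ := hme
  have : a' + c' ≤ 1 := by omega
  have : a' = 0 ∧ c' = 0 := by omega
  omega

end Cfsg.Agent.S5995
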