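import Cfsg.Statements.S5997
import Cfsg.Agent.Cls.SL2Class2
import Cfsg.Agent.Known.SL2Norm2


set_option autoImplicit false
open scoped MatrixGroups
open Cfsg Matrix Subgroup CL.GL2 CL.SL2

namespace Cfsg.Agent.S5997

/-- Elements of prime order of PSL_2(p) and the normalizer of a quaternion subgroup. Here `T = PSL_2(F)` for the field `F` with `p` elements, `p ≥ 5` prime; `R` is a subgroup of GL_2(F) isomorphic to the quaternion group of order 8 (an absolutely irreducible 2-group of symplectic type), and `H` is the subgroup of matrices of determinant 1 normalizing `R` — a subgroup of type 2^{1+2}.O₂⁻(2), isomorphic modulo scalars to A₄ or S₄ (maximality is not assumed). Ω is the set of cosets of `H` in `T`, so an element of `T` of prime order `r` (a matrix `x` of determinant 1 with `x^r` scalar, `x` not scalar) fixes a point of Ω exactly when some conjugate of `x` by a matrix of determinant 1 normalizes `R`. Let `r` be a prime dividing the index of `H`. Then every element of `T` of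 order `r` fixes a point of Ω if and only if `r = 2` or `r = 3`. -/
theorem result {F : Type*} [Field F] [Fintype F] {p : ℕ} [Fact p.Prime] [CharP F p] (hF : Fintype.card F = p) (hp : 5 ≤ p)
    (R : Subgroup (GL (Fin 2) F)) (hR : Nonempty (↥R ≃* QuaternionGroup 2))
    (r : ℕ) [Fact r.Prime]
    (hΩ : r ∣ (Cfsg.Geo.subgroupNormalizer R).relIndex (Cfsg.Geo.specialLinear (Fin 2) F)) :
    (∀ x ∈ Cfsg.Geo.specialLinear (Fin 2) F, (∃ z : F, ((x ^ r : GL (Fin 2) F) : Matrix (Fin 2) (Fin 2) F) = z • (1 : Matrix (Fin 2) (Fin 2) F)) →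
      (∀ z : F, (x : Matrix (Fin 2) (Fin 2) F) ≠ z • (1 : Matrix (Fin 2) (Fin 2) F)) →
      ∃ g ∈ Cfsg.Geo.specialLinear (Fin 2) F, g⁻¹ * x * g ∈ Cfsg.Geo.subgroupNormalizer R) ↔ (r = 2 ∨ r = 3) := by
  have hpp : p.Prime := Fact.out
  have hr : r.Prime := Fact.out
  have h2 : (2 : F) ≠ 0 := two_ne_zero_of_odd (odd_of_charP (p := p) (by omega))
  have h3 : (3 : F) ≠ 0 := fun h => by
    have := Nat.le_of_dvd (by decide) ((CharP.cast_eq_zero_iff F p 3).1 h)
    omega
  obtain ⟨e⟩ := hR
  have hSL : ∀ x : GL (Fin 2) F, x ∈ Geo.specialLinear (Fin 2) F ↔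
      ∃ y : Matrix.SpecialLinearGroup (Fin 2) F, SpecialLinearGroup.toGL y = x := fun x =>
    ⟨fun h => ⟨mkSL x.val (congrArg Units.val h), ext_GL rfl⟩,
      fun ⟨y, h⟩ => h ▸ Units.ext (det_SL y)⟩
  let φ := R.subtype.comp e.symm.toMonoidHom
  have hφ : Function.Injective φ := R.subtype_injective.comp e.symm.injective
  have hz : (φ (.a 2)).val = -1 := by
    obtain ⟨z, hz⟩ := (hSL (φ (.a 2))).1 (by
      rw [show (.a 2 : QuaternionGroup 2) = .a 1 * .xa 0 * (.a 1)⁻¹ * (.xa 0)⁻¹ by decide]
      simp only [Geo.specialLinear, MonoidHom.mem_ker, map_mul, map_inv]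
      rw [mul_inv_cancel_comm, mul_inv_cancel])
    rcases sl_eq_of_mul_self h2 (g := z) (SpecialLinearGroup.toGL_injective (by
      rw [map_mul, hz, ← map_mul, map_one, ← map_one φ]; congr 1)) with rfl | rfl
    · exact absurd (hφ (hz.symm.trans ((map_one _).trans (map_one φ).symm))) (by decide)
    · exact congrArg Units.val hz.symm
  have hd : ∀ u v : QuaternionGroup 2, u * u = .a 2 → u * v ≠ v * u →
      ∃ y : Matrix.SpecialLinearGroup (Fin 2) F, SpecialLinearGroup.toGL y = φ u := fun u v h h' =>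
    (hSL _).1 (Units.ext (det_of_mul_self (c := 1)
      (by rw [← coe_mul_GL, ← map_mul, h, hz]; simp) fun hs => h' (hφ (ext_GL (by
        rw [map_mul, map_mul]; exact hs.mul_comm _)))))
  obtain ⟨a, ha⟩ := hd (.a 1) (.xa 0) (by decide) (by decide)
  obtain ⟨b, hb⟩ := hd (.xa 0) (.a 1) (by decide) (by decide)
  have hab : QPair a b := by
    refine ⟨ext_SL ?_, ext_SL ?_, ext_SL ?_⟩
    · rw [← coe_toGL, map_mul, ha, ← map_mul]; exact hz
    · rw [← coe_toGL, map_mul, hb, ← map_mul]; exact hz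
    · rw [SpecialLinearGroup.coe_neg, ← coe_toGL, ← coe_toGL, map_mul, map_mul, ha, hb, ← map_mul,
        ← map_mul, show (.xa 0 * .a 1 : QuaternionGroup 2) = .a 2 * (.a 1 * .xa 0) by decide,
        map_mul, coe_mul_GL, hz, neg_one_mul]
  have hR : R = closure {SpecialLinearGroup.toGL a, SpecialLinearGroup.toGL b} := by
    rw [ha, hb, ← Set.image_pair, ← MonoidHom.map_closure, ← range_subtype_comp e,
      MonoidHom.range_eq_map]
    congr 1
    refine (eq_top_iff.2 fun x _ => ?_).symm
    have h4 : .a 1 ∈ closure ({.a 1, .xa 0} : Set (QuaternionGroup 2)) := subset_closure (by simp)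
    have h5 : .xa 0 ∈ closure ({.a 1, .xa 0} : Set (QuaternionGroup 2)) := subset_closure (by simp)
    obtain ⟨k, l, rfl⟩ : ∃ (k : Fin 2) (l : Fin 4), x = .xa 0 ^ k.val * .a 1 ^ l.val := by
      clear * -; revert x; decide
    exact mul_mem (pow_mem h5 _) (pow_mem h4 _)
  have key : ∀ x t : Matrix.SpecialLinearGroup (Fin 2) F, IsConj x t →
      SpecialLinearGroup.toGL t ∈ Geo.subgroupNormalizer R → ∃ g ∈ Geo.specialLinear (Fin 2) F,
        g⁻¹ * SpecialLinearGroup.toGL x * g ∈ Geo.subgroupNormalizer R := fun x t h ht => by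
    obtain ⟨c, rfl⟩ := isConj_iff.1 h
    exact ⟨SpecialLinearGroup.toGL c⁻¹, (hSL _).2 ⟨_, rfl⟩, by simpa using ht⟩
  constructor
  · intro h
    by_contra hr'
    have h4 : r ∣ Nat.card (Geo.specialLinear (Fin 2) F) := hΩ.trans (index_dvd_card _)
    obtain ⟨⟨x, hx⟩, h5⟩ := exists_prime_orderOf_dvd_card' r h4
    rw [orderOf_mk] at h5
    have h6 : ∀ y : GL (Fin 2) F, y ∈ Geo.specialLinear (Fin 2) F → orderOf y = r →
        ¬ IsScal y.val := fun y hy h6 hs => by
      obtain ⟨y, rfl⟩ := (hSL y).1 hy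
      rw [orderOf_injective _ SpecialLinearGroup.toGL_injective] at h6
      have h7 : y ^ 2 = 1 := by rcases isScal_SL_iff.1 hs with rfl | rfl <;> simp
      exact hr' (Or.inl ((Nat.prime_dvd_prime_iff_eq hr Nat.prime_two).1
        (h6 ▸ orderOf_dvd_of_pow_eq_one h7)))
    obtain ⟨g, hg, h7⟩ := h x hx ⟨1, by rw [← h5, pow_orderOf_eq_one]; simp⟩
      fun z hz => h6 x hx h5 (isScal_iff.2 ⟨z, hz⟩)
    have h8 : orderOf (g⁻¹ * x * g) = r := by
      rw [← h5]; simpa using (MulAut.conj g⁻¹).orderOf_eq x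
    refine h6 _ (mul_mem (mul_mem (inv_mem hg) hx) hg) h8 ?_
    have h9 : R.normalizerMonoidHom ⟨_, h7⟩ = 1 := by
      have h9 : orderOf (R.normalizerMonoidHom ⟨_, h7⟩) ∣ r :=
        (orderOf_map_dvd _ _).trans (dvd_of_eq ((orderOf_mk _ _).trans h8))
      have h10 : orderOf (R.normalizerMonoidHom ⟨_, h7⟩) ∣ 12 := by
        rw [← (MulAut.congr e).orderOf_eq]
        exact orderOf_dvd_of_pow_eq_one (CL.Transfer.card_mulAut_q8_dvd _)
      refine orderOf_eq_one_iff.1 (Nat.eq_one_of_dvd_coprimes ?_ h9 h10)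
      exact Nat.Coprime.mul_right (m := 2 ^ 2) (Nat.Coprime.pow_right 2
        ((Nat.coprime_primes hr Nat.prime_two).2 fun h => hr' (Or.inl h)))
        ((Nat.coprime_primes hr Nat.prime_three).2 fun h => hr' (Or.inr h))
    have h10 : ∀ u : QuaternionGroup 2, g⁻¹ * x * g * φ u = φ u * (g⁻¹ * x * g) := fun u =>
      mul_inv_eq_iff_eq_mul.1 (congrArg Subtype.val (DFunLike.congr_fun h9 (e.symm u)))
    exact hab.isScal_of_commute h2 (congrArg Units.val (ha ▸ h10 (.a 1)))
      (congrArg Units.val (hb ▸ h10 (.xa 0)))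
  · rintro hr' x hx ⟨z, hz'⟩ hs
    obtain ⟨x, rfl⟩ := (hSL x).1 hx
    replace hs : ¬ IsScal x.val := fun h => (isScal_iff.1 h).elim hs
    have h4 : SpecialLinearGroup.toPGL x ^ r = 1 := by
      rw [← map_pow]
      exact pgl_mk_eq_one_iff_isScal.2 (isScal_iff.2 ⟨z, by rw [← hz', map_pow]⟩)
    rcases hr' with rfl | rfl
    · refine key x a (isConj_of_mul_self_eq_neg_one h2 ?_ hab.sq_left)
        (le_normalizer (ha ▸ (e.symm _).2))
      rw [← map_pow, toPGL_eq_one_iff, sq] at h4
      exact h4.resolve_left fun h => hs (isScal_SL_iff.2 (sl_eq_of_mul_self h2 h))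
    · obtain ⟨t, ht3, ht1, hta, htb⟩ :=
        exists_order_three_of_pair h2 hab.sq_left hab.sq_right hab.anti
      have htr : ∀ y : Matrix.SpecialLinearGroup (Fin 2) F, ¬ IsScal y.val →
          SpecialLinearGroup.toPGL y ^ 3 = 1 → y.val.trace ^ 2 = 1 := fun y hy h => by
        rw [← map_pow, toPGL_eq_one_iff, ← isScal_SL_iff] at h
        have h5 : (y ^ 3).val = (-y.val.trace) • 1 + (y.val.trace ^ 2 - 1) • y.val := by
          rw [pow_three', coe_mul_SL, coe_mul_SL, mul_self_eq, det_SL, sub_mul, smul_mul_assoc,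
            mul_self_eq, det_SL]
          simp only [smul_mul_assoc, one_mul]
          module
        exact sub_eq_zero.1 ((isScal_smul_one_add_smul_iff hy _ _).1 (h5 ▸ h))
      have hts : ¬ IsScal t.val := fun h => by
        rcases isScal_SL_iff.1 h with rfl | rfl
        · exact ht1 rfl
        · exact neg_one_ne_one_sl h2 (by simpa [pow_succ] using ht3)
      have htN : SpecialLinearGroup.toGL t ∈ Geo.subgroupNormalizer R := by
        refine mem_normalizer_fintype fun y hy => ?_
        have h5 : R.map (MulAut.conj (SpecialLinearGroup.toGL t)).toMonoidHom ≤ R := by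
          conv_lhs => rw [hR, MonoidHom.map_closure, Set.image_pair]
          rw [closure_le]
          rintro _ (rfl | rfl)
          · change _ * _ * _ ∈ R
            rw [← map_inv, ← map_mul, ← map_mul, hta, hb]; exact (e.symm _).2
          · change _ * _ * _ ∈ R
            rw [← map_inv, ← map_mul, ← map_mul, htb, map_mul, ha, hb]
            exact mul_mem (e.symm _).2 (e.symm _).2
        exact h5 ⟨y, hy, rfl⟩
      have h5 := htr x hs h4
      have h6 := htr t hts (by rw [← map_pow, ht3, map_one])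
      have h7 : x.val.trace ^ 2 ≠ 4 := fun h => h3 (by linear_combination h5 - h)
      rcases sq_eq_sq_iff_eq_or_eq_neg.1 (h6.trans h5.symm) with h8 | h8
      · exact key x t (isConj_SL_of_trace hs hts h8 (Or.inl h7)) htN
      · refine key x (-t) (isConj_SL_of_trace hs (fun h => hts (isScal_neg_iff.1 h))
          (by rw [SpecialLinearGroup.coe_neg, trace_neg, h8, neg_neg]) (Or.inl h7)) ?_
        rw [← neg_one_mul, ← hab.sq_left, map_mul, map_mul, ha]
        exact mul_mem (le_normalizer (mul_mem (e.symm _).2 (e.symm _).2)) htN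

end Cfsg.Agent.S5997
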